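import Cfsg.Agent.H25.UGDefs

/-! The piece **GL2**: the local structure of a unitary group of dimension seven at a prime
dividing `q ^ 2 + q + 1`. -/

set_option autoImplicit false

namespace Cfsg.Agent.H32.UgGl2

open Cfsg Module Polynomial Cfsg.Agent.H31 Cfsg.Agent.H25.UG
open Cfsg.Agent.H53.Uw (St fx mem_fx)

universe u

section Irr

variable {E U : Type u} [Field E] [AddCommGroup U] [Module E U] {t : End E U}

/-- an irreducible endomorphism -/
def Irr (t : End E U) : Prop := ∀ W : Submodule E U, (∀ u ∈ W, t u ∈ W) → W ≠ ⊥ → W = ⊤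

theorem comm_aeval {y : End E U} (h : y * t = t * y) (p : E[X]) :
    y * aeval t p = aeval t p * y := by
  induction p using Polynomial.induction_on' with
  | add p q hp hq => rw [map_add, mul_add, add_mul, hp, hq]
  | monomial n c =>
    rw [aeval_monomial, ← mul_assoc, ← Algebra.commutes, mul_assoc, mul_assoc,
      (Commute.pow_right h n).eq]

theorem Irr.mem (h : Irr t) {y : End E U} (c : y * t = t * y) : y ∈ Algebra.adjoin E {t} := by
  rcases subsingleton_or_nontrivial U with hU | hU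
  · rw [show y = 0 from LinearMap.ext fun _ => Subsingleton.elim _ _]
    exact zero_mem _
  obtain ⟨u, hu⟩ := exists_ne (0 : U)
  let W : Submodule E U :=
    { carrier := {v | ∃ p : E[X], aeval t p u = v}
      add_mem' := by
        rintro _ _ ⟨p, rfl⟩ ⟨q, rfl⟩
        exact ⟨p + q, by rw [map_add, LinearMap.add_apply]⟩
      zero_mem' := ⟨0, by simp⟩
      smul_mem' := by
        rintro c _ ⟨p, rfl⟩
        exact ⟨c • p, by rw [map_smul, LinearMap.smul_apply]⟩ }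
  have hW : W = ⊤ := h W (by
    rintro _ ⟨p, rfl⟩
    exact ⟨X * p, by rw [map_mul, aeval_X, End.mul_apply]⟩) fun e => hu (by
      have : u ∈ W := ⟨1, by simp⟩
      rwa [e, Submodule.mem_bot] at this)
  obtain ⟨p, hp⟩ : y u ∈ W := hW ▸ Submodule.mem_top
  have : y = aeval t p := LinearMap.ext fun v => by
    obtain ⟨r, rfl⟩ : v ∈ W := hW ▸ Submodule.mem_top
    rw [← End.mul_apply, comm_aeval c, End.mul_apply, ← hp, ← End.mul_apply, ← End.mul_apply,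
      ← map_mul, ← map_mul, mul_comm]
  rw [this]
  exact aeval_mem_adjoin_singleton E t

theorem Irr.comm (h : Irr t) {a b : End E U} (ha : a * t = t * a) (hb : b * t = t * b) :
    a * b = b * a :=
  congrArg Subtype.val (mul_comm (⟨a, h.mem ha⟩ : Algebra.adjoin E {t}) ⟨b, h.mem hb⟩)

theorem Irr.dom [Nontrivial U] (h : Irr t) : IsDomain (Algebra.adjoin E {t}) := by
  have : NoZeroDivisors (Algebra.adjoin E {t}) := ⟨fun {a b} e => by
    refine or_iff_not_imp_right.2 fun hb => ?_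
    have c : t * b.1 = b.1 * t :=
      congrArg Subtype.val (mul_comm (⟨t, Algebra.self_mem_adjoin_singleton E t⟩ :
        Algebra.adjoin E {t}) b)
    have r := h (LinearMap.range b.1) (by
      rintro _ ⟨v, rfl⟩
      exact ⟨t v, by rw [← End.mul_apply, ← c, End.mul_apply]⟩) fun e' =>
        hb (Subtype.ext (LinearMap.range_eq_bot.1 e'))
    refine Subtype.ext (LinearMap.ext fun v => ?_)
    obtain ⟨w, rfl⟩ : v ∈ LinearMap.range b.1 := r ▸ Submodule.mem_top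
    exact congrArg (fun f : Algebra.adjoin E {t} => f.1 w) e⟩
  exact NoZeroDivisors.to_isDomain _

theorem prim {l : ℕ} (hl : l.Prime) (h1 : t ^ l = 1) (h2 : t ≠ 1) :
    IsPrimitiveRoot (⟨t, Algebra.self_mem_adjoin_singleton E t⟩ : Algebra.adjoin E {t}) l := by
  have := Fact.mk hl
  have e : orderOf (⟨t, Algebra.self_mem_adjoin_singleton E t⟩ : Algebra.adjoin E {t}) = l :=
    orderOf_eq_prime (Subtype.ext h1) fun e => h2 (congrArg Subtype.val e)
  rw [← e]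
  exact IsPrimitiveRoot.orderOf _

theorem Irr.pw [Nontrivial U] (h : Irr t) {l : ℕ} (hl : l.Prime) (h1 : t ^ l = 1) (h2 : t ≠ 1)
    {y : End E U} (c : y * t = t * y) (hy : y ^ l = 1) : ∃ k, t ^ k = y := by
  have := h.dom
  have : NeZero l := ⟨hl.ne_zero⟩
  obtain ⟨k, -, e⟩ := (prim hl h1 h2).eq_pow_of_pow_eq_one (ξ := ⟨y, h.mem c⟩) (Subtype.ext hy)
  exact ⟨k, congrArg Subtype.val e⟩

theorem Irr.roots [Nontrivial U] (h : Irr t) {l : ℕ} (hl : l.Prime) (h1 : t ^ l = 1) (h2 : t ≠ 1)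
    {m : E[X]} (hm : m ≠ 0) : {k | k < l ∧ aeval (t ^ k) m = 0}.ncard ≤ m.natDegree := by
  have := h.dom
  refine le_trans (Set.ncard_le_ncard_of_injOn
    (fun k => (⟨t, Algebra.self_mem_adjoin_singleton E t⟩ : Algebra.adjoin E {t}) ^ k)
    (fun k hk => ?_) (fun i hi j hj e => (prim hl h1 h2).pow_inj hi.1 hj.1 e)
    (rootSet_finite m _)) (ncard_rootSet_le m (Algebra.adjoin E {t}))
  refine mem_rootSet.2 ⟨hm, Subtype.ext ?_⟩
  rw [← Subalgebra.val_apply, ← aeval_algHom_apply, map_pow]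
  exact hk.2

end Irr

variable {E V : Type u} [Field E] [AddCommGroup V] [Module E V] {σ : E →+* E}
  {B : V →ₛₗ[σ] V →ₗ[E] E} {x : V ≃ₗ[E] V} {U U₁ U₂ : Submodule E V}

theorem pow_mem (h : ∀ u ∈ U, x u ∈ U) (k : ℕ) : ∀ u ∈ U, (x ^ k) u ∈ U := by
  induction k with
  | zero => exact fun u hu => hu
  | succ k ih => exact fun u hu => by rw [pow_succ, LinearEquiv.mul_apply]; exact ih _ (h u hu)

theorem pow_fix {u : V} (h : x u = u) (k : ℕ) : (x ^ k) u = u := by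
  induction k with
  | zero => rfl
  | succ k ih => rw [pow_succ, LinearEquiv.mul_apply, h, ih]

/-- the restriction to an invariant subspace -/
def res (g : V ≃ₗ[E] V) (h : ∀ u ∈ U, g u ∈ U) : End E U := (g : V →ₗ[E] V).restrict h

theorem res_apply (g : V ≃ₗ[E] V) (h : ∀ u ∈ U, g u ∈ U) (v : U) : (res g h v : V) = g v := rfl

theorem res_pow (g : V ≃ₗ[E] V) (h : ∀ u ∈ U, g u ∈ U) (k : ℕ) (v : U) :
    ((res g h ^ k) v : V) = (g ^ k) v := by
  induction k with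
  | zero => rfl
  | succ k ih => rw [pow_succ', pow_succ', End.mul_apply, LinearEquiv.mul_apply, res_apply, ih]

theorem res_comm {a b : V ≃ₗ[E] V} (ha : ∀ u ∈ U, a u ∈ U) (hb : ∀ u ∈ U, b u ∈ U)
    (c : a * b = b * a) : res a ha * res b hb = res b hb * res a ha :=
  LinearMap.ext fun v => Subtype.ext (congrArg (fun g : V ≃ₗ[E] V => g v) c)

/-- the decomposition -/
structure Dc (B : V →ₛₗ[σ] V →ₗ[E] E) (x : V ≃ₗ[E] V) (U₁ U₂ : Submodule E V) : Prop where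
  herm : IsHerm B
  d0 : finrank E (fx x) = 1
  d1 : finrank E U₁ = 3
  d2 : finrank E U₂ = 3
  t1 : TotIso B U₁
  t2 : TotIso B U₂
  top : fx x ⊔ U₁ ⊔ U₂ = ⊤
  orth : ∀ w ∈ fx x, ∀ u ∈ U₁ ⊔ U₂, B w u = 0
  i1 : ∀ u ∈ U₁, x u ∈ U₁
  i2 : ∀ u ∈ U₂, x u ∈ U₂
  uq : ∀ W : Submodule E V, (∀ u ∈ W, x u ∈ W) → W ⊓ fx x = ⊥ → W ≠ ⊥ → finrank E W ≤ 3 →
      W = U₁ ∨ W = U₂

theorem Dc.symm (D : Dc B x U₁ U₂) : Dc B x U₂ U₁ :=
  ⟨D.herm, D.d0, D.d2, D.d1, D.t2, D.t1, by rw [sup_right_comm, D.top],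
    by rw [sup_comm]; exact D.orth, D.i2, D.i1, fun W a b c d => (D.uq W a b c d).symm⟩

theorem Dc.dec (D : Dc B x U₁ U₂) (v : V) : ∃ w ∈ fx x, ∃ a ∈ U₁, ∃ b ∈ U₂, v = w + a + b := by
  have : v ∈ fx x ⊔ U₁ ⊔ U₂ := D.top ▸ Submodule.mem_top
  obtain ⟨y, hy, b, hb, rfl⟩ := Submodule.mem_sup.1 this
  obtain ⟨w, hw, a, ha, rfl⟩ := Submodule.mem_sup.1 hy
  exact ⟨w, hw, a, ha, b, hb, rfl⟩

theorem Dc.zero (D : Dc B x U₁ U₂) {v : V} (h0 : ∀ w ∈ fx x, B w v = 0)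
    (h1 : ∀ w ∈ U₁, B w v = 0) (h2 : ∀ w ∈ U₂, B w v = 0) : v = 0 :=
  D.herm.nondeg v fun y => by
    obtain ⟨w, hw, a, ha, b, hb, rfl⟩ := D.dec y
    rw [← D.herm.symm, map_add, map_add, LinearMap.add_apply, LinearMap.add_apply, h0 w hw,
      h1 a ha, h2 b hb, add_zero, add_zero, map_zero]

theorem Dc.z12 (D : Dc B x U₁ U₂) {v : V} (h1 : v ∈ U₁) (h2 : v ∈ U₂) : v = 0 :=
  D.zero (fun w hw => D.orth w hw v (Submodule.mem_sup_left h1)) (fun w hw => D.t1 w hw v h1)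
    fun w hw => D.t2 w hw v h2

theorem Dc.z0 (D : Dc B x U₁ U₂) {v : V} (h1 : v ∈ U₁ ⊔ U₂) (h2 : x v = v) : v = 0 :=
  D.zero (fun w hw => D.orth w hw v h1)
    (fun w hw => by
      rw [← D.herm.symm, D.orth v (mem_fx.2 h2) w (Submodule.mem_sup_left hw), map_zero])
    fun w hw => by
      rw [← D.herm.symm, D.orth v (mem_fx.2 h2) w (Submodule.mem_sup_right hw), map_zero]

theorem Dc.nt (D : Dc B x U₁ U₂) : Nontrivial U₁ :=
  nontrivial_of_finrank_pos (R := E) (by rw [D.d1]; decide)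

theorem Dc.ex (D : Dc B x U₁ U₂) : ∃ u ∈ U₁, u ≠ 0 :=
  have := D.nt
  let ⟨u, hu⟩ := exists_ne (0 : U₁)
  ⟨u, u.2, fun e => hu (Subtype.ext e)⟩

theorem Dc.irr [FiniteDimensional E V] (D : Dc B x U₁ U₂) : Irr (res x D.i1) := fun W hW h0 => by
  have le : W.map U₁.subtype ≤ U₁ := Submodule.map_subtype_le _ _
  rcases D.uq (W.map U₁.subtype) (by
      rintro _ ⟨v, hv, rfl⟩
      exact ⟨_, hW v hv, rfl⟩)
    (eq_bot_iff.2 fun v hv => D.z0 (Submodule.mem_sup_left (le hv.1)) (mem_fx.1 hv.2))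
    (fun e => h0 (eq_bot_iff.2 fun v hv => by
      have : (v : V) ∈ W.map U₁.subtype := ⟨v, hv, rfl⟩
      rw [e, Submodule.mem_bot] at this
      exact Subtype.ext this))
    (D.d1 ▸ Submodule.finrank_mono le) with e | e
  · refine eq_top_iff.2 fun v _ => ?_
    obtain ⟨w, hw, e'⟩ : (v : V) ∈ W.map U₁.subtype := e.symm ▸ v.2
    rwa [← show w = v from Subtype.ext e']
  · obtain ⟨u, hu, h⟩ := D.symm.ex
    exact absurd (D.z12 (le (e.symm ▸ hu)) hu) h

theorem Dc.map (D : Dc B x U₁ U₂) {g y : V ≃ₗ[E] V} (e : x * g = g * y)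
    (h1 : ∀ u ∈ U₁, y u ∈ U₁) (h2 : ∀ u, y u = u → x u = u) :
    U₁.map (g : V →ₗ[E] V) = U₁ ∨ U₁.map (g : V →ₗ[E] V) = U₂ := by
  have k : ∀ u, x (g u) = g (y u) := fun u => congrArg (fun g : V ≃ₗ[E] V => g u) e
  refine D.uq _ ?_ (eq_bot_iff.2 ?_) (fun e => ?_) (by rw [LinearEquiv.finrank_map_eq, D.d1])
  · rintro _ ⟨u, hu, rfl⟩
    exact ⟨_, h1 u hu, (k u).symm⟩
  · rintro _ ⟨⟨u, hu, rfl⟩, h⟩
    have := mem_fx.1 h
    rw [LinearEquiv.coe_coe, k, g.injective.eq_iff] at this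
    rw [D.z0 (Submodule.mem_sup_left hu) (h2 u this), map_zero]
    exact zero_mem _
  · obtain ⟨u, hu, h⟩ := D.ex
    have : g u ∈ U₁.map (g : V →ₗ[E] V) := ⟨u, hu, rfl⟩
    rw [e, Submodule.mem_bot, g.map_eq_zero_iff] at this
    exact h this

theorem Dc.stab [FiniteDimensional E V] (D : Dc B x U₁ U₂) {a : V ≃ₗ[E] V} (c : a * x = x * a) :
    ∀ u ∈ U₁, a u ∈ U₁ := by
  have k : ∀ u, x (a u) = a (x u) := fun u => congrArg (fun g : V ≃ₗ[E] V => g u) c.symm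
  rcases D.map c.symm D.i1 fun _ h => h with e | e
  · exact fun u hu => e ▸ ⟨u, hu, rfl⟩
  have m : ∀ u ∈ U₁, a u ∈ U₂ := fun u hu => e ▸ ⟨u, hu, rfl⟩
  obtain ⟨u, hu, h⟩ := D.ex
  have hw : u + a u ∈ U₁.map (LinearMap.id + (a : V →ₗ[E] V)) := ⟨u, hu, rfl⟩
  have n2 : u + a u ∉ U₂ := fun h' => h (D.z12 hu ((add_mem_cancel_right (m u hu)).1 h'))
  rcases D.uq (U₁.map (LinearMap.id + (a : V →ₗ[E] V))) (by
      rintro _ ⟨v, hv, rfl⟩
      exact ⟨_, D.i1 v hv, by simp [k]⟩)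
    (eq_bot_iff.2 (by
      rintro _ ⟨⟨v, hv, rfl⟩, h⟩
      exact D.z0 (add_mem (Submodule.mem_sup_left hv) (Submodule.mem_sup_right (m v hv)))
        (mem_fx.1 h)))
    (fun e => n2 (by rw [e, Submodule.mem_bot] at hw; rw [hw]; exact zero_mem _))
    (D.d1 ▸ Submodule.finrank_map_le _ _) with e' | e'
  · rw [e'] at hw
    exact absurd (a.map_eq_zero_iff.1 (D.z12 ((add_mem_cancel_left hu).1 hw) (m u hu))) h
  · exact absurd (e' ▸ hw) n2

theorem Dc.scal (D : Dc B x U₁ U₂) {a : V ≃ₗ[E] V} (c : a * x = x * a) :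
    ∃ s : E, s ≠ 0 ∧ ∀ w ∈ fx x, a w = s • w := by
  have k : ∀ u, x (a u) = a (x u) := fun u => congrArg (fun g : V ≃ₗ[E] V => g u) c.symm
  have : Nontrivial (fx x) := nontrivial_of_finrank_pos (R := E) (by rw [D.d0]; decide)
  obtain ⟨v, hv⟩ := exists_ne (0 : fx x)
  have h := (finrank_eq_one_iff_of_nonzero' v hv).1 D.d0
  obtain ⟨s, hs⟩ := h ⟨a v, mem_fx.2 (by rw [k, mem_fx.1 v.2])⟩
  have hs' : s • (v : V) = a v := congrArg Subtype.val hs
  refine ⟨s, fun e => hv (Subtype.ext ?_), fun w hw => ?_⟩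
  · rw [e, zero_smul, eq_comm, a.map_eq_zero_iff] at hs'
    exact hs'
  · obtain ⟨r, hr⟩ := h ⟨w, hw⟩
    have hr' : r • (v : V) = w := congrArg Subtype.val hr
    rw [← hr', map_smul, ← hs', smul_comm]

theorem Dc.triv [FiniteDimensional E V] (D : Dc B x U₁ U₂) {z : V ≃ₗ[E] V} (hz : z ∈ isom B)
    (c : z * x = x * z) (h0 : ∀ w ∈ fx x, z w = w) (h1 : ∀ u ∈ U₁, z u = u) : z = 1 := by
  have h2 : ∀ v ∈ U₂, z v = v := fun v hv => by
    have m : z v - v ∈ U₂ := sub_mem (D.symm.stab c v hv) hv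
    refine sub_eq_zero.1 (D.zero (fun w hw => D.orth w hw _ (Submodule.mem_sup_right m))
      (fun w hw => ?_) fun w hw => D.t2 w hw _ m)
    rw [map_sub, sub_eq_zero]
    conv_lhs => rw [← h1 w hw]
    exact hz w v
  refine LinearEquiv.ext fun v => ?_
  obtain ⟨w, hw, a, ha, b, hb, rfl⟩ := D.dec v
  rw [map_add, map_add, h0 w hw, h1 a ha, h2 b hb]
  rfl

theorem Dc.ab [FiniteDimensional E V] (D : Dc B x U₁ U₂) {a b : V ≃ₗ[E] V} (ha : a * x = x * a)
    (hb : b * x = x * b) : a * b = b * a := by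
  have k : ∀ {U₁ U₂ : Submodule E V}, Dc B x U₁ U₂ → ∀ u ∈ U₁, a (b u) = b (a u) :=
    fun D u hu => congrArg (fun f => (f ⟨u, hu⟩ : V))
      (D.irr.comm (res_comm (D.stab ha) D.i1 ha) (res_comm (D.stab hb) D.i1 hb))
  obtain ⟨s, -, hs⟩ := D.scal ha
  obtain ⟨r, -, hr⟩ := D.scal hb
  refine LinearEquiv.ext fun v => ?_
  obtain ⟨w, hw, u, hu, u', hu', rfl⟩ := D.dec v
  simp only [LinearEquiv.mul_apply, map_add]
  rw [k D u hu, k D.symm u' hu', hr w hw, hs w hw, map_smul, map_smul, hr w hw, hs w hw, smul_comm]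

theorem Dc.r1 (D : Dc B x U₁ U₂) {l : ℕ} (h : x ^ l = 1) : res x D.i1 ^ l = 1 :=
  LinearMap.ext fun v => Subtype.ext (by rw [res_pow, h]; rfl)

theorem Dc.r2 (D : Dc B x U₁ U₂) : res x D.i1 ≠ 1 := fun e => by
  obtain ⟨u, hu, h⟩ := D.ex
  exact h (D.z0 (Submodule.mem_sup_left hu) (congrArg (fun f => (f ⟨u, hu⟩ : V)) e))

theorem Dc.cy [FiniteDimensional E V] (D : Dc B x U₁ U₂) {l : ℕ} (hl : l.Prime) (hx : x ∈ isom B)
    (h : x ^ l = 1) (hE : ∀ s : E, s ^ l = 1 → s = 1) {y : V ≃ₗ[E] V} (hy : y ∈ isom B)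
    (c : y * x = x * y) (h' : y ^ l = 1) : ∃ k : ℕ, y = x ^ k := by
  have := D.nt
  obtain ⟨k, hk⟩ := D.irr.pw hl (D.r1 h) D.r2 (res_comm (D.stab c) D.i1 c)
    (LinearMap.ext fun v => Subtype.ext (by rw [res_pow, h']; rfl))
  have c' : Commute y x := c
  refine ⟨k, (inv_mul_eq_one.1 (D.triv (mul_mem (inv_mem hy) (_root_.pow_mem hx k))
    (c'.inv_left.mul_left ((Commute.refl x).pow_left k)).eq (fun w hw => ?_) fun u hu => ?_))⟩
  · obtain ⟨s, -, hs⟩ := D.scal c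
    have p : ∀ n : ℕ, ∀ w ∈ fx x, (y ^ n) w = s ^ n • w := fun n w hw => by
      induction n with
      | zero => rw [pow_zero, pow_zero, one_smul]; rfl
      | succ n ih => rw [pow_succ', LinearEquiv.mul_apply, ih, map_smul, hs w hw, smul_smul, pow_succ]
    rw [LinearEquiv.mul_apply, pow_fix (mem_fx.1 hw)]
    refine y.injective ?_
    rw [← LinearEquiv.mul_apply, mul_inv_cancel, hs w hw]
    by_cases e : w = 0
    · rw [e, smul_zero, map_zero]
    · have := p l w hw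
      rw [h'] at this
      have e2 : (s ^ l - 1) • w = 0 := by rw [sub_smul, ← this, one_smul]; exact sub_self _
      rw [hE s (sub_eq_zero.1 ((smul_eq_zero.1 e2).resolve_right e)), one_smul]
      rfl
  · rw [LinearEquiv.mul_apply, ← res_pow x D.i1 k ⟨u, hu⟩, hk, res_apply, ← LinearEquiv.mul_apply,
      inv_mul_cancel]
    rfl

theorem root [FiniteDimensional E V] {U' : Submodule E V} (h : ∀ u ∈ U, x u ∈ U)
    (h' : ∀ u ∈ U', x u ∈ U') {g : V ≃ₗ[E] V} {k : ℕ} (e : x * g = g * x ^ k)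
    (m : U.map (g : V →ₗ[E] V) = U') : aeval (res x h ^ k) (res x h').charpoly = 0 := by
  have : res x h' = (g.ofSubmodules U U' m).conj (res x h ^ k) := LinearMap.ext fun v => by
    obtain ⟨u, rfl⟩ := (g.ofSubmodules U U' m).surjective v
    rw [LinearEquiv.conj_apply_apply, LinearEquiv.symm_apply_apply]
    refine Subtype.ext ?_
    rw [res_apply, LinearEquiv.ofSubmodules_apply, LinearEquiv.ofSubmodules_apply, res_pow]
    exact congrArg (fun g : V ≃ₗ[E] V => g u) e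
  rw [this, LinearEquiv.charpoly_conj]
  exact LinearMap.aeval_self_charpoly _

theorem Dc.six [FiniteDimensional E V] (D : Dc B x U₁ U₂) {l : ℕ} (hl : l.Prime)
    (h : orderOf x = l) : {k | k < l ∧ IsConj x (x ^ k)}.ncard ≤ 6 := by
  have := D.nt
  have h1 : x ^ l = 1 := h ▸ pow_orderOf_eq_one x
  have a := D.irr.roots hl (D.r1 h1) D.r2 (res x D.i1).charpoly_monic.ne_zero
  have b := D.irr.roots hl (D.r1 h1) D.r2 (res x D.i2).charpoly_monic.ne_zero
  rw [LinearMap.charpoly_natDegree, D.d1] at a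
  rw [LinearMap.charpoly_natDegree, D.d2] at b
  refine le_trans (Set.ncard_le_ncard ?_ (((Set.finite_lt_nat l).subset fun _ h => h.1).union
    ((Set.finite_lt_nat l).subset fun _ h => h.1)))
    ((Set.ncard_union_le _ _).trans (Nat.add_le_add a b))
  rintro k ⟨hk, c⟩
  have k0 : k ≠ 0 := fun e => by
    rw [e, pow_zero, isConj_one_left] at c
    rw [c, orderOf_one] at h
    exact hl.one_lt.ne h
  obtain ⟨j, hj⟩ := exists_pow_eq_self_of_coprime (x := x) (n := k)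
    (h.symm ▸ (Nat.coprime_of_lt_prime k0 hk hl).symm)
  obtain ⟨g, hg⟩ := isConj_iff.1 c
  have e : x * g⁻¹ = g⁻¹ * x ^ k := by rw [← hg]; group
  rcases D.map e (pow_mem D.i1 k) (fun u hu => by rw [← hj]; exact pow_fix hu j) with m | m
  · exact .inl ⟨hk, root D.i1 D.i1 e m⟩
  · exact .inr ⟨hk, root D.i1 D.i2 e m⟩

theorem rootE [Fintype E] {q l : ℕ} (hq : Fintype.card E = q ^ 2) (hl : l.Prime) (h3 : l ≠ 3)
    (hd : l ∣ q ^ 2 + q + 1) (s : E) (h : s ^ l = 1) : s = 1 := by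
  have s0 : s ≠ 0 := fun e => by rw [e, zero_pow hl.ne_zero] at h; exact zero_ne_one h
  have h2 := FiniteField.pow_card_sub_one_eq_one s s0
  rw [hq] at h2
  have c : l.Coprime (q ^ 2 - 1) := (Nat.Prime.coprime_iff_not_dvd hl).2 fun d => h3 (by
    have p : 1 ≤ q ^ 2 := hq ▸ Fintype.card_pos
    have d1 : (l : ℤ) ∣ (q : ℤ) ^ 2 + q + 1 := by exact_mod_cast hd
    have d2 : (l : ℤ) ∣ (q : ℤ) ^ 2 - 1 := by
      have := Int.natCast_dvd_natCast.2 d
      rwa [Nat.cast_sub p, Nat.cast_pow, Nat.cast_one] at this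
    have d3 : (l : ℤ) ∣ (3 : ℕ) := by
      have := dvd_sub d2 (dvd_mul_of_dvd_left (dvd_sub d1 d2) ((q : ℤ) - 2))
      rwa [show (q : ℤ) ^ 2 - 1 - ((q : ℤ) ^ 2 + q + 1 - ((q : ℤ) ^ 2 - 1)) * ((q : ℤ) - 2) =
        (3 : ℕ) by push_cast; ring] at this
    exact (Nat.prime_dvd_prime_iff_eq hl Nat.prime_three).1 (Int.natCast_dvd_natCast.1 d3))
  have := pow_gcd_eq_one.2 ⟨h, h2⟩
  rwa [c.gcd_eq_one, pow_one] at this

theorem gl2 (h1 : Gl1Stmt.{u}) : Gl2Stmt.{u} := by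
  intro E V _ _ _ _ _ σ B q l S h7 hl h3 hd G hG
  have : FiniteDimensional E V := Module.Finite.of_finite
  have dc : ∀ x : G, orderOf x = l → ∃ U₁ U₂, Dc B x.1 U₁ U₂ := fun x hx => by
    obtain ⟨U₁, U₂, a, b, c, d, e, f, g, h, i, j⟩ :=
      h1 E V σ B q l S h7 hl h3 hd x.1 (hG x.2) (by rw [Subgroup.orderOf_coe, hx])
    exact ⟨U₁, U₂, S.herm, a, b, c, d, e, f, g, h, i, j⟩
  have pw : ∀ x : G, orderOf x = l → x.1 ^ l = 1 := fun x hx =>
    congrArg Subtype.val (show x ^ l = 1 from hx ▸ pow_orderOf_eq_one x)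
  refine ⟨fun x a b hx ha hb => ?_, fun x y hx hy c => ?_, fun x hx => ?_⟩
  · obtain ⟨U₁, U₂, D⟩ := dc x hx
    exact Subtype.ext (D.ab (congrArg Subtype.val ha.eq) (congrArg Subtype.val hb.eq))
  · obtain ⟨U₁, U₂, D⟩ := dc x hx
    obtain ⟨k, hk⟩ := D.cy hl (hG x.2) (pw x hx) (rootE S.card hl h3 hd) (hG y.2)
      (congrArg Subtype.val c.symm.eq) (pw y hy)
    rw [show y = x ^ k from Subtype.ext hk]
    exact Subgroup.npow_mem_zpowers x k
  · classical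
    obtain ⟨U₁, U₂, D⟩ := dc x hx
    have fin : {k | k < l ∧ IsConj x.1 (x.1 ^ k)}.Finite :=
      (Set.finite_lt_nat l).subset fun _ h => h.1
    refine le_trans (Set.ncard_le_ncard ?_ (fin.image fun k => x ^ k))
      ((Set.ncard_image_le fin).trans (D.six hl (by rw [Subgroup.orderOf_coe, hx])))
    rintro y ⟨hy, c⟩
    have fo : IsOfFinOrder x := orderOf_pos_iff.1 (hx ▸ hl.pos)
    obtain ⟨k, hk, rfl⟩ := Finset.mem_image.1 (fo.mem_zpowers_iff_mem_range_orderOf.1 hy)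
    exact ⟨k, ⟨hx ▸ Finset.mem_range.1 hk, G.subtype.map_isConj c⟩, rfl⟩

end Cfsg.Agent.H32.UgGl2
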