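import Cfsg.Agent.H63.AnDefs2

/-!
# Project AN, piece I2: no conjugate of `t` conjugates `t` to `j (a b)`
-/

set_option autoImplicit false

namespace Cfsg.Agent.H32.AnI2

open Cfsg Cfsg.Agent.H63 Cfsg.Agent.H63.SL Cfsg.Agent.H63.AN Subgroup
open Cfsg.Agent.H7.AA (ev d2 Acts KA NA)
open Equiv (swap Perm)

universe u

section Perm

variable {α : Type} [DecidableEq α]

theorem nc {p q x : α} (hq : p ≠ q) (hx : p ≠ x)
    (h : swap p q * swap p x = swap p x * swap p q) : x = q := by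
  by_contra hn
  have := congrArg (fun σ : Perm α => σ p) h
  simp only [Equiv.Perm.mul_apply, Equiv.swap_apply_left] at this
  rw [Equiv.swap_apply_of_ne_of_ne hx.symm hn,
    Equiv.swap_apply_of_ne_of_ne hq.symm (Ne.symm hn)] at this
  exact hn this

theorem dis {a b c d : α} (hab : a ≠ b) (hcd : c ≠ d)
    (h : swap c d * swap a b = swap a b * swap c d) (hn : swap c d ≠ swap a b) : c ≠ a := by
  rintro rfl
  exact hn (by rw [nc hcd hab h])

theorem cm {a b c d : α} (h1 : c ≠ a) (h2 : c ≠ b) (h3 : d ≠ a) (h4 : d ≠ b) :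
    swap c d * swap a b = swap a b * swap c d := by
  have := Equiv.swap_apply_apply (swap a b) c d
  rw [Equiv.swap_apply_of_ne_of_ne h1 h2, Equiv.swap_apply_of_ne_of_ne h3 h4] at this
  rw [← mul_inv_eq_iff_eq_mul, eq_comm, ← mul_inv_eq_iff_eq_mul]
  rw [Equiv.swap_inv] at this
  rw [Equiv.swap_inv, Equiv.swap_inv]
  conv_rhs => rw [this]
  simp [mul_assoc]

theorem cj3 (c d x y : α) : swap c d * swap x y * swap c d = swap (swap c d x) (swap c d y) := by
  rw [Equiv.swap_apply_apply, Equiv.swap_inv]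

/-- a swap commuting with its conjugate by a swap equals it -/
theorem conj_eq {A B : Perm α} (hA : A.IsSwap) (hB : B.IsSwap)
    (h : A * (B * A * B⁻¹) = B * A * B⁻¹ * A) : B * A * B⁻¹ = A := by
  obtain ⟨p, q, hpq, rfl⟩ := hA
  obtain ⟨r, s, hrs, rfl⟩ := hB
  rw [← Equiv.swap_apply_apply] at h ⊢
  by_cases hp : swap r s p = p
  · rw [hp] at h ⊢
    rw [nc hpq (fun e => hpq ((swap r s).injective (hp.trans e))) h]
  by_cases hq : swap r s q = q
  · rw [hq] at h ⊢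
    rw [Equiv.swap_comm p q, Equiv.swap_comm _ q] at h
    rw [nc hpq.symm (fun e => hpq.symm ((swap r s).injective (hq.trans e))) h]
  rcases (Equiv.swap_apply_ne_self_iff.1 hp).2 with rfl | rfl <;>
    rcases (Equiv.swap_apply_ne_self_iff.1 hq).2 with rfl | rfl
  · exact absurd rfl hpq
  · rw [Equiv.swap_apply_left, Equiv.swap_apply_right, Equiv.swap_comm]
  · rw [Equiv.swap_apply_left, Equiv.swap_apply_right, Equiv.swap_comm]
  · exact absurd rfl hpq

/-- an involutory correspondence on the swaps of `P` has a fixed swap -/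
theorem fixed (P : α → Prop) (F : Perm α → Perm α → Prop) (sy : ∀ x y, F x y → F y x)
    (mu : ∀ x x' y y', F x x' → F y y' → F (x * y) (x' * y'))
    (fn : ∀ x y y', F x y → F x y' → y = y')
    (tot : ∀ c d, P c → P d → c ≠ d → ∃ c' d', P c' ∧ P d' ∧ c' ≠ d' ∧ F (swap c d) (swap c' d'))
    {c d : α} (hc : P c) (hd : P d) (hcd : c ≠ d) :
    ∃ c d, P c ∧ P d ∧ c ≠ d ∧ F (swap c d) (swap c d) := by
  by_contra hno
  push Not at hno
  have k : ∀ c d c' d', P c → P d → P d' → c ≠ d → c' ≠ d' → F (swap c d) (swap c' d') →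
      c' ≠ c := by
    rintro c d c' d' hc hd hd' hcd hcd' h rfl
    by_cases e : d' = d
    · subst e
      exact hno _ _ hc hd hcd h
    have h3 := mu _ _ _ _ (mu _ _ _ _ h (sy _ _ h)) h
    rw [cj3, cj3, Equiv.swap_apply_left, Equiv.swap_apply_left,
      Equiv.swap_apply_of_ne_of_ne hcd'.symm e, Equiv.swap_apply_of_ne_of_ne hcd.symm (Ne.symm e),
      Equiv.swap_comm d' d] at h3
    exact hno _ _ hd hd' (Ne.symm e) h3
  have k4 : ∀ c d c' d', P c → P d → P c' → P d' → c ≠ d → c' ≠ d' → F (swap c d) (swap c' d') →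
      c' ≠ c ∧ c' ≠ d ∧ d' ≠ c ∧ d' ≠ d := fun c d c' d' hc hd hc' hd' hcd hcd' h =>
    ⟨k _ _ _ _ hc hd hd' hcd hcd' h,
      k _ _ _ _ hd hc hd' hcd.symm hcd' (Equiv.swap_comm c d ▸ h),
      k _ _ _ _ hc hd hc' hcd hcd'.symm (Equiv.swap_comm c' d' ▸ h),
      k _ _ _ _ hd hc hc' hcd.symm hcd'.symm
        (Equiv.swap_comm c' d' ▸ Equiv.swap_comm c d ▸ h)⟩
  have tr : ∀ x x' y y', F x x' → F y y' → x' * y' = y' * x' → x * y = y * x :=
    fun x x' y y' h h' e => fn _ _ _ (sy _ _ (mu _ _ _ _ h h')) (e ▸ sy _ _ (mu _ _ _ _ h' h))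
  obtain ⟨c', d', hc', hd', hcd', h⟩ := tot c d hc hd hcd
  obtain ⟨a1, a2, a3, a4⟩ := k4 _ _ _ _ hc hd hc' hd' hcd hcd' h
  obtain ⟨x, y, hx, hy, hxy, h'⟩ := tot c c' hc hc' a1.symm
  obtain ⟨b1, b2, b3, b4⟩ := k4 _ _ _ _ hc hc' hx hy a1.symm hxy h'
  have m1 : x = d ∨ y = d := by
    by_contra hn
    push Not at hn
    have := tr _ _ _ _ h' (sy _ _ h) (cm b1 hn.1 b3 hn.2)
    rw [Equiv.swap_comm c c'] at this
    exact a3 (nc a1 hcd' this)
  have m2 : x = d' ∨ y = d' := by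
    by_contra hn
    push Not at hn
    exact a2 (nc a1.symm hcd (tr _ _ _ _ h' h (cm b2 hn.1 b4 hn.2))).symm
  have e : swap x y = swap d d' := by
    rcases m1 with rfl | rfl <;> rcases m2 with rfl | rfl
    · exact absurd rfl a4
    · rfl
    · exact Equiv.swap_comm _ _
    · exact absurd rfl a4
  rw [e] at h'
  have h3 := mu _ _ _ _ (mu _ _ _ _ h h') h
  rw [cj3, cj3, Equiv.swap_apply_left, Equiv.swap_apply_right,
    Equiv.swap_apply_of_ne_of_ne a1 a2, Equiv.swap_apply_of_ne_of_ne a2.symm a4.symm] at h3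
  exact hno _ _ hd hc' a2.symm h3

end Perm

theorem i2 : I2Stmt.{u} := by
  intro G _ _ α _ _ ψ t B K fr j C Cf a b hab e he hd
  have h5 : 5 ≤ Fintype.card α := le_trans (by norm_num) B.nine
  have uq : ∀ {x : G} {ρ τ : Perm α}, Acts ψ x ρ → Acts ψ x τ → ρ = τ :=
    fun h1 h2 => H7.AA.Acts.uniq h5 B.inj h1 h2
  have ji : ∀ σ τ, j σ = j τ → σ = τ := fun σ τ h => uq (C.sec.ac σ) (h ▸ C.sec.ac τ)
  have jt : ∀ c d, c ≠ d → j (swap c d) ≠ t := fun c d hcd h =>
    hcd (Equiv.swap_eq_one_iff.1 (uq (C.sec.ac _) (h ▸ H7.AA.acts_of_KA B.tK)))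
  have e2 : e * e = 1 := by
    obtain ⟨g, rfl⟩ := isConj_iff.1 he
    rw [show g * t * g⁻¹ * (g * t * g⁻¹) = g * (t * t) * g⁻¹ by group, B.t2]; simp
  have ei : e⁻¹ = e := inv_eq_of_mul_eq_one_right e2
  have back : ∀ x y : G, e * x * e⁻¹ = y → e * y * e⁻¹ = x := by
    rintro x y rfl
    rw [ei, show e * (e * x * e) * e = e * e * x * (e * e) by group, e2]; simp
  have hd' := back _ _ hd
  obtain ⟨c0, d0, e0, hn0, hc0, hd0, -⟩ := H7.AA.exists_nodup_ext h5 a b
  obtain ⟨c, d, ⟨ca, cb⟩, ⟨da, db⟩, hcd, hf⟩ := fixed (fun x => x ≠ a ∧ x ≠ b)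
    (fun σ τ => e * j σ * e⁻¹ = j τ) (fun _ _ h => back _ _ h)
    (fun _ _ _ _ h h' => by rw [map_mul, map_mul, ← h, ← h']; group)
    (fun _ _ _ h h' => ji _ _ (h.symm.trans h'))
    (fun c d hc hd1 hcd => by
      have c1 : Commute (j (swap c d)) (j (swap a b)) := by
        rw [commute_iff_eq, ← map_mul, ← map_mul, cm hc.1 hc.2 hd1.1 hd1.2]
      have c2 : Commute (e * j (swap c d) * e⁻¹) t := hd' ▸ c1.conj e
      have c3 : Commute (e * j (swap c d) * e⁻¹) (j (swap a b)) := hd ▸ (C.sec.cm _).conj e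
      rcases C.dm a b hab _ ((C.cj c d hcd).trans (isConj_iff.2 ⟨e, rfl⟩)) c2 c3 with
        h | ⟨c', d', hcd', h⟩
      · have := ji _ _ ((back _ _ h).symm.trans hd)
        have h2 := congrArg (fun σ : Perm α => σ c) this
        simp only [Equiv.swap_apply_left, Equiv.swap_apply_of_ne_of_ne hc.1 hc.2] at h2
        exact absurd h2.symm hcd
      · have k1 : swap c' d' * swap a b = swap a b * swap c' d' :=
          ji _ _ (by rw [map_mul, map_mul, ← h]; exact c3)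
        have k2 : swap c' d' ≠ swap a b := fun k =>
          jt c d hcd ((back _ _ (k ▸ h)).symm.trans hd')
        exact ⟨c', d', ⟨dis hab hcd' k1 k2, dis hab.symm hcd' (Equiv.swap_comm a b ▸ k1)
          (Equiv.swap_comm a b ▸ k2)⟩, ⟨dis hab hcd'.symm (Equiv.swap_comm c' d' ▸ k1)
          (Equiv.swap_comm c' d' ▸ k2), dis hab.symm hcd'.symm
          (Equiv.swap_comm a b ▸ Equiv.swap_comm c' d' ▸ k1)
          (Equiv.swap_comm a b ▸ Equiv.swap_comm c' d' ▸ k2)⟩, hcd', h⟩)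
    (c := c0) (d := d0) ⟨by rintro rfl; simp at hn0, hc0⟩ ⟨by rintro rfl; simp at hn0, hd0⟩
    (by rintro rfl; simp at hn0)
  obtain ⟨g, hg⟩ := isConj_iff.1 (C.cj c d hcd)
  obtain ⟨B1, K1⟩ := fr g
  have P := (Cf g).p1
  have cg : IsConj (g * t * g⁻¹) t := (isConj_iff.2 ⟨g, rfl⟩ : IsConj t _).symm
  rw [hg] at B1 K1 P cg
  have t1 : Commute t (j (swap c d)) := (C.sec.cm _).symm
  have e1 : Commute e (j (swap c d)) := mul_inv_eq_iff_eq_mul.1 hf
  have d1 : Commute (j (swap a b)) (j (swap c d)) := by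
    rw [commute_iff_eq, ← map_mul, ← map_mul, cm ca cb da db]
  have td : Commute (j (swap a b)) t := C.sec.cm _
  obtain ⟨A, hA⟩ := K1.act t t1
  obtain ⟨E, hE⟩ := K1.act e e1
  have sA := P t A ⟨cg, t1, (jt c d hcd).symm, hA⟩
  have sE := P e E ⟨cg.trans he, e1, fun h => jt a b hab (by
    rw [← hd, h, (C.sec.cm _).eq, mul_inv_cancel_right]), hE⟩
  have hD := hE.conj hA
  rw [hd] at hD
  have k := conj_eq sA sE (H7.AA.Acts.uniq h5 B1.inj (hA.mul hD) (td.eq ▸ hD.mul hA))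
  rw [k] at hD
  have k1 := hA.mul hD
  have A2 : A * A = 1 := by
    obtain ⟨p, q, -, rfl⟩ := sA
    exact Equiv.swap_mul_self _ _
  rw [A2] at k1
  have ac : Acts ψ (t * j (swap a b)) (swap a b) := by
    simpa using (H7.AA.acts_of_KA B.tK).mul (C.sec.ac (swap a b))
  rcases B1.r2 _ k1.KA (t1.mul_left d1) ⟨1, by
    rw [pow_one, td.symm.mul_pow, pow_two, pow_two, B.t2, ← map_mul, Equiv.swap_mul_self,
      map_one, mul_one]⟩ with h | h
  · exact hab (Equiv.swap_eq_one_iff.1 (uq ac (h ▸ H7.AA.acts_one)))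
  · have h2 := congrArg (fun σ : Perm α => σ c) (uq ac (h ▸ C.sec.ac _))
    simp only [Equiv.swap_apply_left, Equiv.swap_apply_of_ne_of_ne ca cb] at h2
    exact hcd h2

end Cfsg.Agent.H32.AnI2
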