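import Cfsg.Agent.H32.CertG

/-! Dual bases of complementary totally singular subspaces; the stabiliser of such a pair in
`SU₄(q)`, `q ≤ 3`, lies in a subfield subgroup. -/

set_option autoImplicit false
set_option linter.unusedSectionVars false
set_option linter.style.haveILetI false

namespace Cfsg.Agent.H32

open Matrix Cfsg.Geo Cfsg.Agent.H25
open scoped MatrixGroups

variable {F : Type*} [Field F] {ι : Type} [Fintype ι] [DecidableEq ι] {σ : F ≃+* F} {ε : F}
  {f : (ι → F) → (ι → F) → F}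

lemma exists_nonisotropic_perp (h : Sq σ 1 f) (hσ : σ ≠ RingEquiv.refl F ∨ (2 : F) ≠ 0) {k : ℕ}
    (v : Fin k → ι → F) (h1 : ∀ i, f (v i) (v i) ≠ 0) (h2 : ∀ i j, i ≠ j → f (v i) (v j) = 0)
    (hk : k < Fintype.card ι) : ∃ a, f a a ≠ 0 ∧ ∀ i, f a (v i) = 0 := by
  have hs := h.sesq
  have hW : IsNondegenerateOn f (Submodule.span F (Set.range v)) := by
    rw [h.nondegOn_iff, eq_bot_iff]
    rintro w ⟨hw1, hw2⟩
    obtain ⟨c, rfl⟩ := (Submodule.mem_span_range_iff_exists_fun F).1 hw1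
    refine (Submodule.mem_bot F).2 (Finset.sum_eq_zero fun i _ => ?_)
    have := hw2 (v i) (Submodule.subset_span ⟨i, rfl⟩)
    rw [hs.sum_left, Finset.sum_eq_single i (fun j _ hj => by rw [hs.smul_left, h2 j i hj, mul_zero])
      (by simp), hs.smul_left] at this
    rw [(mul_eq_zero.1 this).resolve_right (h1 i), zero_smul]
  obtain ⟨a, ha, haa⟩ := h.exists_nonisotropic hσ (h.nondegOn_perp hW) (h.perp_ne_bot fun e => by
    have := finrank_range_le_card (R := F) v
    rw [Set.finrank, e, finrank_top, Module.finrank_fintype_fun_eq_card, Fintype.card_fin] at this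
    omega)
  exact ⟨a, haa, fun i => ha _ (Submodule.subset_span ⟨i, rfl⟩)⟩

/-- Dual bases of two complementary totally singular subspaces. -/
structure DualPair (f : (ι → F) → (ι → F) → F) {k : ℕ} (U W : Submodule F (ι → F))
    (u w : Fin k → ι → F) : Prop where
  mem_u : ∀ i, u i ∈ U
  mem_w : ∀ i, w i ∈ W
  tsU : IsTotallySingularFor f U
  tsW : IsTotallySingularFor f W
  dual : ∀ i j, f (u i) (w j) = if i = j then 1 else 0
  span_w : ∀ y ∈ W, ∃ c : Fin k → F, y = ∑ i, c i • w i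
  sup : ∀ x, ∃ a ∈ U, ∃ b ∈ W, x = a + b

theorem exists_dualPair (h : Sq σ ε f) {k : ℕ} {D : Fin 2 → Submodule F (ι → F)}
    (hD : IsMDecomposition k D) (ht : ∀ i, IsTotallySingularFor f (D i)) :
    ∃ u w : Fin k → ι → F, DualPair f (D 0) (D 1) u w := by
  have hs := h.sesq
  have hsup : ∀ x, ∃ a ∈ D 0, ∃ b ∈ D 1, x = a + b := fun x => by
    have h1 : D 0 ⊔ D 1 = ⊤ := by
      rw [← hD.iSup_eq_top]
      refine le_antisymm (sup_le (le_iSup D 0) (le_iSup D 1)) (iSup_le fun i => ?_)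
      fin_cases i
      exacts [le_sup_left, le_sup_right]
    obtain ⟨a, ha, b, hb, e⟩ := Submodule.mem_sup.1 (h1 ▸ Submodule.mem_top : x ∈ D 0 ⊔ D 1)
    exact ⟨a, ha, b, hb, e.symm⟩
  let b0 := Module.finBasisOfFinrankEq F (D 0) (hD.finrank_eq 0)
  let b1 := Module.finBasisOfFinrankEq F (D 1) (hD.finrank_eq 1)
  have hw : ∀ y ∈ D 1, ∃ c : Fin k → F, y = ∑ i, c i • (b1 i : ι → F) := fun y hy =>
    ⟨b1.repr ⟨y, hy⟩, by
      have := congrArg Subtype.val (b1.sum_repr ⟨y, hy⟩)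
      simp only [Submodule.coe_sum, Submodule.coe_smul] at this
      exact this.symm⟩
  let M : Matrix (Fin k) (Fin k) F := Matrix.of fun i j => f (b0 i) (b1 j)
  have hM : IsUnit M := by
    rw [← Matrix.vecMul_injective_iff_isUnit]
    intro c d hcd
    have h1 : (∑ i, (c i - d i) • b0 i : D 0) = 0 := Subtype.ext (h.nondeg _ fun x => by
      obtain ⟨a, ha, b, hb, rfl⟩ := hsup x
      obtain ⟨e, rfl⟩ := hw b hb
      rw [hs.add_right, ht 0 _ (Subtype.prop _) a ha, zero_add, hs.sum_right]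
      refine Finset.sum_eq_zero fun j _ => ?_
      have h2 : ∑ i, c i * f (b0 i) (b1 j) = ∑ i, d i * f (b0 i) (b1 j) := congrFun hcd j
      simp only [hs.smul_right, Submodule.coe_sum, Submodule.coe_smul, hs.sum_left, hs.smul_left,
        sub_mul, Finset.sum_sub_distrib, h2, sub_self, mul_zero])
    funext i
    exact sub_eq_zero.1 (Fintype.linearIndependent_iff.1 b0.linearIndependent _ h1 i)
  refine ⟨fun i => ∑ a, M⁻¹ i a • (b0 a : ι → F), fun j => b1 j,
    fun i => Submodule.sum_mem _ fun a _ => Submodule.smul_mem _ _ (b0 a).2, fun j => (b1 j).2,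
    ht 0, ht 1, fun i j => ?_, hw, hsup⟩
  have := congrFun (congrFun (Matrix.nonsing_inv_mul M ((isUnit_iff_isUnit_det M).1 hM)) i) j
  rw [Matrix.mul_apply, Matrix.one_apply] at this
  rw [← this, hs.sum_left]
  exact Finset.sum_congr rfl fun a _ => hs.smul_left _ _ _

namespace DualPair

variable {k : ℕ} {U W : Submodule F (ι → F)} {u w : Fin k → ι → F}

lemma eq_sum (h : Sq σ ε f) (d : DualPair f U W u w) {x : ι → F} (hx : x ∈ U) :
    x = ∑ i, f x (w i) • u i := by
  have hs := h.sesq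
  refine sub_eq_zero.1 (h.nondeg _ fun y => ?_)
  obtain ⟨a, ha, b, hb, rfl⟩ := d.sup y
  obtain ⟨c, rfl⟩ := d.span_w b hb
  rw [hs.add_right, d.tsU _ (U.sub_mem hx (U.sum_mem fun i _ => U.smul_mem _ (d.mem_u i))) a ha,
    zero_add, hs.sum_right]
  refine Finset.sum_eq_zero fun j _ => ?_
  simp [hs.smul_right, hs.sub_left, hs.sum_left, hs.smul_left, d.dual]

lemma symm (h : Sq σ 1 f) (d : DualPair f U W u w) : DualPair f W U w u where
  mem_u := d.mem_w
  mem_w := d.mem_u
  tsU := d.tsW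
  tsW := d.tsU
  dual i j := by
    rw [h.herm, d.dual, one_mul]
    by_cases hij : i = j
    · simp [hij]
    · simp [hij, Ne.symm hij]
  span_w y hy := ⟨_, d.eq_sum h hy⟩
  sup x := by
    obtain ⟨a, ha, b, hb, e⟩ := d.sup x
    exact ⟨b, hb, a, ha, by rw [e, add_comm]⟩

lemma expand (h : Sq σ 1 f) (d : DualPair f U W u w) (x : ι → F) :
    x = ∑ i, f x (w i) • u i + ∑ i, f x (u i) • w i := by
  obtain ⟨a, ha, b, hb, rfl⟩ := d.sup x
  simp only [h.sesq.add_left, d.tsU a ha _ (d.mem_u _), d.tsW b hb _ (d.mem_w _), add_zero,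
    zero_add]
  rw [← d.eq_sum h ha, ← (d.symm h).eq_sum h hb]

end DualPair

lemma det_mul_eq_of_basis {κ : Type} [Fintype κ] [DecidableEq κ] (e : ι ≃ κ) (g : Matrix ι ι F)
    (v v' : κ → ι → F) (M : Matrix κ κ F) (h : ∀ j, g *ᵥ v j = ∑ i, M i j • v' i) :
    g.det * (Matrix.of fun i j => v (e j) i).det =
      (Matrix.of fun i j => v' (e j) i).det * M.det := by
  rw [← det_mul, ← det_submatrix_equiv_self e M, ← det_mul]
  congr 1
  ext i j
  have := congrFun (h (e j)) i
  simp only [mulVec, dotProduct, Finset.sum_apply, Pi.smul_apply, smul_eq_mul] at this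
  simp only [mul_apply, of_apply, submatrix_apply, this]
  exact (Equiv.sum_comp e fun a => M a (e j) * v' a i).symm.trans
    (Finset.sum_congr rfl fun a _ => mul_comm _ _)

lemma det_ne_zero_of_span {κ : Type} [Fintype κ] (e : ι ≃ κ) (v : κ → ι → F)
    (h : ∀ x, ∃ c : κ → F, x = ∑ i, c i • v i) : (Matrix.of fun i j => v (e j) i).det ≠ 0 := by
  refine IsUnit.ne_zero ((isUnit_iff_isUnit_det _).1 (Matrix.mulVec_surjective_iff_isUnit.1 ?_))
  intro x
  obtain ⟨c, rfl⟩ := h x
  refine ⟨c ∘ e, funext fun i => ?_⟩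
  simp only [mulVec, dotProduct, of_apply, Function.comp, Finset.sum_apply, Pi.smul_apply,
    smul_eq_mul]
  exact (Finset.sum_congr rfl fun a _ => mul_comm _ _).trans (Equiv.sum_comp e fun a => c a * v a i)

lemma adj_comm_of_psi (h : Sq σ ε f) {ε' c : F} {b : (ι → F) → (ι → F) → F}
    (hb : Sq (idF F) ε' b) (ψ : (ι → F) → ι → F) (h1 : ∀ u v, b u v = f u (ψ v))
    (h2 : ∀ u v, f (ψ u) (ψ v) = c * f v u) (hc : c ≠ 0) (a : Matrix ι ι F) :
    adj σ f (adj (idF F) b a) = adj (idF F) b (adj σ f a) := by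
  have h3 : ∀ (a : Matrix ι ι F) v, ψ (adj (idF F) b a *ᵥ v) = adj σ f a *ᵥ ψ v := fun a v =>
    h.sesq.ext_right h.nondeg fun u => by rw [← h1, ← hb.adj_spec, h1, h.adj_spec]
  refine h.eq_adj fun u v => mul_left_cancel₀ hc ?_
  rw [← h2, ← h2, h3, h3, h.adj_adj, h.adj_spec]

/-- The alternating form attached to a dual pair of planes. -/
def pairForm (f : (ι → F) → (ι → F) → F) (u w : Fin 2 → ι → F) (x y : ι → F) : F :=
  f x (w 0) * f y (w 1) - f x (w 1) * f y (w 0) + (f x (u 0) * f y (u 1) - f x (u 1) * f y (u 0))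

lemma pairForm_symm (u w : Fin 2 → ι → F) : pairForm f w u = pairForm f u w := by
  funext x y; simp only [pairForm]; ring

lemma sim_pairForm [Fintype F] {q : ℕ} (hF : Fintype.card F = q ^ 2) (hq : q ≤ 3) (h : Sq σ 1 f)
    (hσ : ∀ x, σ x = x ^ q) (hn : Fintype.card ι = 4) {U W U' W' : Submodule F (ι → F)}
    {u w u' w' : Fin 2 → ι → F} (d : DualPair f U W u w) (d' : DualPair f U' W' u' w')
    (hd : (u' = u ∧ w' = w) ∨ (u' = w ∧ w' = u)) {g : GL ι F} (hg : g ∈ sisom f)
    (hU : ∀ x ∈ U, g.1 *ᵥ x ∈ U') (hW : ∀ x ∈ W, g.1 *ᵥ x ∈ W') :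
    g ∈ similarityGroup (pairForm f u w) := by
  have hs := h.sesq
  have hiso := mem_isom.1 hg.1
  let A : Matrix (Fin 2) (Fin 2) F := Matrix.of fun i j => f (g.1 *ᵥ u j) (w' i)
  let C : Matrix (Fin 2) (Fin 2) F := Matrix.of fun i j => f (g.1 *ᵥ w j) (u' i)
  have hA : ∀ j, g.1 *ᵥ u j = ∑ i, A i j • u' i := fun j => d'.eq_sum h (hU _ (d.mem_u j))
  have hC : ∀ j, g.1 *ᵥ w j = ∑ i, C i j • w' i := fun j =>
    (d'.symm h).eq_sum h (hW _ (d.mem_w j))
  have h1 : Aᵀ * C.map σ = 1 := by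
    ext i j
    have := hiso (u i) (w j)
    rw [hA, hC, d.dual] at this
    rw [one_apply, ← this]
    simp [mul_apply, hs.add_left, hs.add_right, hs.smul_left, hs.smul_right, d'.dual]
  have h2 : A.det * σ C.det = 1 := by
    have := congrArg det h1
    rwa [det_mul, det_transpose, det_one, show C.map σ = σ.toRingHom.mapMatrix C from rfl,
      ← RingHom.map_det] at this
  let e : ι ≃ Fin 2 ⊕ Fin 2 := Fintype.equivOfCardEq (by simp [hn])
  have h3 := det_mul_eq_of_basis e g.1 (Sum.elim u w) (Sum.elim u' w') (fromBlocks A 0 0 C)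
    (by rintro (j | j) <;> simp [hA, hC])
  have h4 := det_ne_zero_of_span e (Sum.elim u w) fun x =>
    ⟨Sum.elim (fun i => f x (w i)) (fun i => f x (u i)), by simpa using d.expand h x⟩
  have h5 : g.1.det = 1 := congrArg Units.val hg.2
  have h6 : (Matrix.of fun i j => Sum.elim u' w' (e j) i).det ^ 2 =
      (Matrix.of fun i j => Sum.elim u w (e j) i).det ^ 2 := by
    rcases hd with ⟨rfl, rfl⟩ | ⟨rfl, rfl⟩
    · rfl
    · have : (Matrix.of fun i j => Sum.elim u' w' (e j) i) =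
          (Matrix.of fun i j => Sum.elim w' u' (e j) i).submatrix id
            (e.trans ((Equiv.sumComm _ _).trans e.symm)) := by
        ext i j
        simp only [of_apply, submatrix_apply, id, Equiv.trans_apply, Equiv.apply_symm_apply]
        cases e j <;> rfl
      rw [this, det_permute', mul_pow, ← Int.cast_pow, ← Units.val_pow_eq_pow_val, sq,
        Int.units_mul_self]
      simp
  rw [h5, det_fromBlocks_zero₂₁, one_mul] at h3
  have h7 : (A.det * C.det) ^ 2 = 1 := mul_left_cancel₀ (pow_ne_zero 2 h4) (by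
    rw [mul_one, ← h6, ← mul_pow, ← h3, h6])
  have hc0 : C.det ≠ 0 := by rintro e0; simp [e0] at h7
  have h8 : σ C.det ^ 2 = C.det ^ 2 := by
    linear_combination (-σ C.det ^ 2) * h7 + (C.det ^ 2 * (A.det * σ C.det + 1)) * h2
  have h9 : C.det * σ C.det = 1 := by
    have h10 := two_le_of_card_eq_sq hF
    rw [hσ] at h8 ⊢
    have h11 := FiniteField.pow_card_sub_one_eq_one _ hc0
    rw [hF] at h11
    interval_cases q
    · linear_combination h11
    · exact mul_left_cancel₀ (pow_ne_zero 2 hc0) (by linear_combination h8)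
  have h10 : A.det = C.det := by linear_combination C.det * h2 - A.det * h9
  have h11 : ∀ x y, pairForm f u' w' (g.1 *ᵥ x) (g.1 *ᵥ y) = C.det * pairForm f u w x y := by
    have e1 : ∀ x i, f (g.1 *ᵥ x) (w' i) = ∑ j, A i j * f x (w j) := fun x i => by
      conv_lhs => rw [d.expand h x]
      simp [mulVec_add, mulVec_smul, hs.add_left, hs.smul_left, A, mul_comm,
        d'.tsW _ (hW _ (d.mem_w _)) _ (d'.mem_w i)]
    have e2 : ∀ x i, f (g.1 *ᵥ x) (u' i) = ∑ j, C i j * f x (u j) := fun x i => by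
      conv_lhs => rw [d.expand h x]
      simp [mulVec_add, mulVec_smul, hs.add_left, hs.smul_left, C, mul_comm,
        d'.tsU _ (hU _ (d.mem_u _)) _ (d'.mem_u i)]
    intro x y
    have e3 := h10
    rw [det_fin_two, det_fin_two] at e3
    simp only [pairForm, e1, e2, Fin.sum_univ_two, det_fin_two]
    linear_combination (f x (w 0) * f y (w 1) - f x (w 1) * f y (w 0)) * e3
  refine ⟨Units.mk0 _ hc0, fun x y => ?_⟩
  rw [Units.val_mk0, ← h11]
  rcases hd with ⟨rfl, rfl⟩ | ⟨rfl, rfl⟩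
  · rfl
  · rw [pairForm_symm]

/-- The stabiliser of a pair of totally isotropic planes in `SU₄(q)`, `q ≤ 3`, lies in a
subfield subgroup. -/
theorem su4_pair [Fintype F] {q : ℕ} (hF : Fintype.card F = q ^ 2) (hq : q ≤ 3) (h : Sq σ 1 f)
    (hσ0 : σ ≠ RingEquiv.refl F) (hσ : ∀ x, σ x = x ^ q) (hn : Fintype.card ι = 4)
    {D : Fin 2 → Submodule F (ι → F)} (hD : IsMDecomposition 2 D)
    (ht : ∀ i, IsTotallySingularFor f (D i)) {H : Subgroup (GL ι F)} (hH : H ≤ sisom f)
    (hle : H ≤ decompositionStabilizer D) :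
    ∃ (P : GL ι F) (ζ : F), ζ ≠ 0 ∧ IsFormRationalStructure f (fixedSub σ) ζ P ∧
      H ≤ subfieldSubgroup (fixedSub σ) P := by
  haveI : Nonempty ι := Fintype.card_pos_iff.1 (by omega)
  have hs := h.sesq
  obtain ⟨u, w, d⟩ := exists_dualPair h hD ht
  let ψ : (ι → F) → ι → F := fun y => σ (f y (w 1)) • w 0 - σ (f y (w 0)) • w 1 +
    (σ (f y (u 1)) • u 0 - σ (f y (u 0)) • u 1)
  have h1 : ∀ x y, pairForm f u w x y = f x (ψ y) := fun x y => by
    simp only [pairForm, ψ, hs.add_right, hs.sub_right, hs.smul_right, h.invol]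
    ring
  have d' := d.symm h
  have h2 : ∀ x y, f (ψ x) (ψ y) = 1 * f y x := fun x y => by
    have e := congrArg (f y) (d.expand h x)
    rw [← h1, e]
    simp [pairForm, ψ, hs.add_left, hs.sub_left, hs.smul_left, hs.add_right, hs.smul_right, d.dual,
      d'.dual, d.tsU _ (d.mem_u _) _ (d.mem_u _), d.tsW _ (d.mem_w _) _ (d.mem_w _)]
    ring
  have hb : Sq (idF F) (-1) (pairForm f u w) := Sq.mk' (fun _ => rfl)
    (fun x y v => by simp only [pairForm, hs.add_left]; ring)
    (fun c x v => by simp only [pairForm, hs.smul_left]; ring)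
    (fun x y => by simp only [pairForm, RingEquiv.refl_apply]; ring)
    (fun x hx => h.nondeg x fun y => by
      have e := hx (ψ y)
      have e1 : ψ (ψ y) = -y := by
        conv_rhs => rw [d.expand h y]
        simp [ψ, hs.add_left, hs.sub_left, hs.smul_left, d.dual, d'.dual, h.invol,
          d.tsU _ (d.mem_u _) _ (d.mem_u _), d.tsW _ (d.mem_w _) _ (d.mem_w _)]
        abel
      rwa [h1, e1, hs.neg_right, neg_eq_zero] at e)
  refine h.sub_of_two_forms hσ0 hb (adj_comm_of_psi h hb ψ h1 h2 one_ne_zero)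
    (hH.trans sisom_le_sim) fun g hg => ?_
  obtain ⟨π, hπ⟩ := hle hg
  have hm : ∀ i, ∀ x ∈ D i, g.1 *ᵥ x ∈ D (π i) := fun i x hx => (hπ i).le ⟨x, hx, rfl⟩
  have h01 : π 0 ≠ π 1 := π.injective.ne (by decide)
  by_cases h0 : π 0 = 0
  · have h1' : π 1 = 1 := by omega
    exact sim_pairForm hF hq h hσ hn d d (Or.inl ⟨rfl, rfl⟩) (hH hg)
      (by simpa only [h0] using hm 0) (by simpa only [h1'] using hm 1)
  · have h0' : π 0 = 1 := by omega
    have h1' : π 1 = 0 := by omega
    exact sim_pairForm hF hq h hσ hn d d' (Or.inr ⟨rfl, rfl⟩) (hH hg) (h0' ▸ hm 0) (h1' ▸ hm 1)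

end Cfsg.Agent.H32
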