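import Cfsg.Agent.H32.CertBase
import Cfsg.Agent.H32.PairStd

/-! Two geometric subgroups of `Sp₄(3)` that are not maximal. -/

set_option autoImplicit false
set_option linter.style.haveILetI false

namespace Cfsg.Agent.H32.Cert.Sp43

open Matrix Cfsg.Geo Cfsg.Agent.H25
open scoped MatrixGroups

abbrev I4 := Fin 2 ⊕ Fin 2

def ix : I4 → ℕ := Sum.elim (fun i => i.val) fun i => 2 + i.val

noncomputable def mv3 (cs : List ℕ) (v : ℕ) : ℕ :=
  rb 3 192 3 4 (comb 3 (mapL (rb 3 3 192 4) cs) v)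

noncomputable def sf (u v : ℕ) : ℕ :=
  (2 * (dg 3 u 0 * dg 3 v 2 + dg 3 u 1 * dg 3 v 3) + (dg 3 u 2 * dg 3 v 0 + dg 3 u 3 * dg 3 v 1)) % 3

noncomputable def isSp (a b c d : ℕ) : Bool :=
  and (and (Nat.beq (sf a b) 0) (and (Nat.beq (sf a c) 2) (Nat.beq (sf a d) 0)))
    (and (Nat.beq (sf b c) 0) (and (Nat.beq (sf b d) 2) (Nat.beq (sf c d) 0)))

noncomputable def inS (T : List (List ℕ)) (W : List ℕ) : Bool :=
  allL T fun t => anyL T fun s => leq (mapL (mv3 W) t) (mapL (mv3 s) W)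

noncomputable def good (T : List (List ℕ)) (a b c d : ℕ) : Bool :=
  cond (isSp a b c d) (inS T [a, b, c, d]) true

def T1 : List (List ℕ) := [[27, 18, 6, 1], [54, 9, 3, 2], [3, 1, 27, 9], [6, 2, 54, 18],
  [1, 6, 9, 54], [2, 3, 18, 27], [30, 20, 57, 11], [57, 11, 60, 10], [33, 19, 30, 20],
  [60, 10, 33, 19]]
def T2 : List (List ℕ) := [[27, 18, 3, 2], [54, 9, 6, 1]]

lemma loop1 : allLt 81 (fun a => allLt 81 fun b =>
    good T1 a b (mv3 [9, 27, 2, 6] a) (mv3 [9, 27, 2, 6] b)) = true := by decide +kernel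
lemma loop2 : allLt 81 (fun a => allLt 81 fun b =>
    good T1 a b (mv3 [18, 54, 1, 3] a) (mv3 [18, 54, 1, 3] b)) = true := by decide +kernel
lemma loop3 : allLt 9 (fun a => allLt 9 fun b => allLt 9 fun c => allLt 9 fun d =>
    good T2 a b (9 * c) (9 * d)) = true := by decide +kernel
lemma loop4 : allLt 9 (fun a => allLt 9 fun b => allLt 9 fun c => allLt 9 fun d =>
    good T2 (9 * a) (9 * b) c d) = true := by decide +kernel

variable {F : Type*} [Field F]

def vq (F : Type*) [Field F] (v : ℕ) : I4 → F := fun i => (dg 3 v (ix i) : F)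

def mq (F : Type*) [Field F] (cs : List ℕ) : Matrix I4 I4 F :=
  Matrix.of fun i j => (dg 3 (cs.getD (ix j) 0) (ix i) : F)

lemma ix_lt (i : I4) : ix i < 4 := by rcases i with i | i <;> simp [ix] <;> omega

lemma sum_ix (g : ℕ → F) : ∑ i : I4, g (ix i) = ∑ k ∈ Finset.range 4, g k := by
  simp [ix, Finset.sum_range_succ, add_assoc]

lemma mq_single (cs : List ℕ) (j : I4) :
    mq F cs *ᵥ Pi.single j 1 = vq F (cs.getD (ix j) 0) := by
  funext i; simp [mq, vq]

lemma mat_ext' {A B : Matrix I4 I4 F} (e : ∀ j, A *ᵥ Pi.single j 1 = B *ᵥ Pi.single j 1) :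
    A = B := by
  ext i j
  simpa using congrFun (e j) i

lemma mq_four {M : Matrix I4 I4 F} {a b c d : ℕ} (h0 : vq F a = M *ᵥ Pi.single (.inl 0) 1)
    (h1 : vq F b = M *ᵥ Pi.single (.inl 1) 1) (h2 : vq F c = M *ᵥ Pi.single (.inr 0) 1)
    (h3 : vq F d = M *ᵥ Pi.single (.inr 1) 1) : mq F [a, b, c, d] = M := mat_ext' fun j => by
  rw [mq_single]
  rcases j with j | j <;> fin_cases j
  exacts [h0, h1, h2, h3]

lemma mv3_lt (cs : List ℕ) (v : ℕ) : mv3 cs v < 81 := rb_lt (by decide) 4 _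

lemma symp_apply (u v : I4 → F) : sympForm 2 F u v =
    -(u (.inl 0) * v (.inr 0) + u (.inl 1) * v (.inr 1)) +
      (u (.inr 0) * v (.inl 0) + u (.inr 1) * v (.inl 1)) := by
  simp [sympForm, Matrix.J, dotProduct, mulVec, one_apply, Fin.sum_univ_two]
  ring

/-- Matrices permuting a finite set of matrices by conjugation. -/
def cn (F : Type*) [Field F] (T : List (List ℕ)) : Submonoid (Matrix I4 I4 F) where
  carrier := {M | ∀ t ∈ T, ∃ s ∈ T, M * mq F t = mq F s * M}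
  mul_mem' {M N} hM hN t ht := by
    obtain ⟨s, hs, e1⟩ := hN t ht
    obtain ⟨r, hr, e2⟩ := hM s hs
    exact ⟨r, hr, by rw [mul_assoc, e1, ← mul_assoc, e2, mul_assoc]⟩
  one_mem' t ht := ⟨t, ht, by simp⟩

variable [CharP F 3]

lemma vq_mv3 {cs : List ℕ} (hl : cs.length = 4) (v : ℕ) :
    vq F (mv3 cs v) = mq F cs *ᵥ vq F v := by
  funext i
  have h1 : ∀ C ∈ mapL (rb 3 3 192 4) cs, Bd 192 C 3 := by
    intro C hC
    rw [mapL_eq] at hC
    obtain ⟨c, -, rfl⟩ := List.mem_map.1 hC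
    intro k
    rw [dg_rb (by decide) (by decide) dvd_rfl]
    split_ifs <;> omega
  have h2 : (mapL (rb 3 3 192 4) cs).length = 4 := by rw [mapL_eq, List.length_map, hl]
  have h3 := (dg_comb (p := 3) (by decide) _ h1 (by rw [h2]; decide) v).2 (ix i)
  rw [vq, mv3, dg_rb (by decide) le_rfl (by decide), if_pos (ix_lt i), ← CharP.cast_eq_mod, h3, h2,
    Nat.cast_sum, ← sum_ix, mulVec, dotProduct]
  refine Finset.sum_congr rfl fun j _ => ?_
  have hj : ix j < cs.length := hl ▸ ix_lt j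
  rw [mapL_eq, List.getD_eq_getElem _ _ (by simpa using hj), List.getElem_map,
    dg_rb (by decide) (by decide) dvd_rfl, if_pos (ix_lt i), Nat.cast_mul, ← CharP.cast_eq_mod,
    mq, of_apply, List.getD_eq_getElem _ _ hj, mul_comm, vq]

lemma mq_mapL {cs x : List ℕ} (hl : cs.length = 4) (hx : x.length = 4) :
    mq F (mapL (mv3 cs) x) = mq F cs * mq F x := by
  refine mat_ext' fun j => ?_
  have hj : ix j < x.length := hx ▸ ix_lt j
  rw [← mulVec_mulVec, mq_single, mq_single, ← vq_mv3 hl, mapL_eq,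
    List.getD_eq_getElem _ _ (by simpa using hj), List.getD_eq_getElem _ _ hj, List.getElem_map]

lemma cast_sf (u v : ℕ) : (sf u v : F) = sympForm 2 F (vq F u) (vq F v) := by
  have h3 : (3 : F) = 0 := by simpa using CharP.cast_eq_zero F 3
  rw [sf, ← CharP.cast_eq_mod, symp_apply]
  simp only [vq, ix, Sum.elim_inl, Sum.elim_inr, Fin.val_zero, Fin.val_one, add_zero]
  push_cast
  linear_combination ((dg 3 u 0 : F) * dg 3 v 2 + dg 3 u 1 * dg 3 v 3) * h3

lemma vq_inj {u v : ℕ} (hu : u < 81) (hv : v < 81) (e : vq F u = vq F v) : u = v := by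
  refine eq_of_dg (B := 3) 4 hu hv fun k hk => ?_
  obtain ⟨i, rfl⟩ : ∃ i, ix i = k := by
    interval_cases k
    exacts [⟨.inl 0, rfl⟩, ⟨.inl 1, rfl⟩, ⟨.inr 0, rfl⟩, ⟨.inr 1, rfl⟩]
  exact CharP.natCast_injOn_Iio F 3 (dg_lt (by decide) _ _) (dg_lt (by decide) _ _) (congrFun e i)

lemma mem_cn {T : List (List ℕ)} (hT : ∀ t ∈ T, t.length = 4) {W : List ℕ} (hW : W.length = 4)
    (h : inS T W = true) : mq F W ∈ cn F T := fun t ht => by
  obtain ⟨s, hs, e⟩ := anyL_spec (allL_spec h t ht)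
  exact ⟨s, hs, by rw [← mq_mapL hW (hT t ht), leq_spec e, mq_mapL (hT s hs) hW]⟩

lemma not_mem_cn {T : List (List ℕ)} (hT : ∀ t ∈ T, t.length = 4) {W t : List ℕ}
    (hW : W.length = 4) (ht : t ∈ T) (v : ℕ)
    (h : allL T (fun s => not (Nat.beq (mv3 W (mv3 t v)) (mv3 s (mv3 W v)))) = true) :
    mq F W ∉ cn F T := fun hm => by
  obtain ⟨s, hs, e⟩ := hm t ht
  have h1 := allL_spec h s hs
  rw [vq_inj (F := F) (mv3_lt _ _) (mv3_lt s (mv3 W v)) (by
    rw [vq_mv3 hW, vq_mv3 (hT t ht), vq_mv3 (hT s hs), vq_mv3 hW, mulVec_mulVec, mulVec_mulVec,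
      e])] at h1
  simp at h1

lemma exists_sp {a b c d : ℕ} (h : isSp a b c d = true) :
    ∃ g ∈ isom (sympForm 2 F), g.1 = mq F [a, b, c, d] := by
  have h3 : (3 : F) = 0 := by simpa using CharP.cast_eq_zero F 3
  have hf := H27.isSymplecticForm_sympForm (F := F) 2
  simp only [isSp, Bool.and_eq_true, Nat.beq_eq] at h
  obtain ⟨⟨h1, h2, h4⟩, h5, h6, h7⟩ := h
  have e : ∀ {u v x : ℕ}, sf u v = x → sympForm 2 F (vq F u) (vq F v) = x ∧
      sympForm 2 F (vq F v) (vq F u) = -x := fun h => by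
    subst h
    exact ⟨(cast_sf _ _).symm, by rw [hf.skew, cast_sf]⟩
  have e2 : ((2 : ℕ) : F) = -1 := by push_cast; linear_combination h3
  refine exists_isom_of_basis (sq_of_symplectic hf) fun i j => ?_
  rw [mq_single, mq_single, symp_apply (Pi.single i 1)]
  rcases i with i | i <;> rcases j with j | j <;> fin_cases i <;> fin_cases j <;>
    simp [ix, hf.alternating, e h1, e h2, e h4, e h5, e h6, e h7, -Nat.cast_ofNat, e2]

lemma good_spec {T : List (List ℕ)} (hT : ∀ t ∈ T, t.length = 4) {a b c d : ℕ}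
    (h : good T a b c d = true) {m : GL I4 F} (hm : m ∈ isom (sympForm 2 F))
    (h0 : vq F a = m.1 *ᵥ Pi.single (.inl 0) 1) (h1 : vq F b = m.1 *ᵥ Pi.single (.inl 1) 1)
    (h2 : vq F c = m.1 *ᵥ Pi.single (.inr 0) 1) (h3 : vq F d = m.1 *ᵥ Pi.single (.inr 1) 1) :
    m.1 ∈ cn F T := by
  have h4 : (3 : F) = 0 := by simpa using CharP.cast_eq_zero F 3
  have e : ∀ {u v x : ℕ}, x < 3 → sympForm 2 F (vq F u) (vq F v) = x →
      Nat.beq (sf u v) x = true := fun hx h => Nat.beq_eq ▸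
    CharP.natCast_injOn_Iio F 3 (Nat.mod_lt _ (by decide)) hx (by rw [← h, ← cast_sf]; rfl)
  have hiso := mem_isom.1 hm
  have e2 : (-1 : F) = 2 := by linear_combination -h4
  rw [good, isSp, e (by decide) (by rw [h0, h1, hiso, symp_apply]; simp),
    e (by decide) (by rw [h0, h2, hiso, symp_apply]; simp [e2]),
    e (by decide) (by rw [h0, h3, hiso, symp_apply]; simp),
    e (by decide) (by rw [h1, h2, hiso, symp_apply]; simp),
    e (by decide) (by rw [h1, h3, hiso, symp_apply]; simp [e2]),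
    e (by decide) (by rw [h2, h3, hiso, symp_apply]; simp), Bool.and_self, Bool.and_self,
    Bool.and_self, cond_true] at h
  rw [← mq_four h0 h1 h2 h3]
  exact mem_cn hT rfl h

omit [CharP F 3] in
lemma conj_mem_isom {P : GL I4 F} (hP : P ∈ isom (sympForm 2 F)) (g : GL I4 F) :
    g ∈ isom (sympForm 2 F) ↔ P⁻¹ * g * P ∈ isom (sympForm 2 F) :=
  ⟨fun hg => mul_mem (mul_mem (inv_mem hP) hg) hP, fun hg => by
    have := mul_mem (mul_mem hP hg) (inv_mem hP)
    rwa [show P * (P⁻¹ * g * P) * P⁻¹ = g by group] at this⟩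

variable [Fintype F]

lemma exists_cast (hF : Fintype.card F = 3) (x : F) : ∃ a : ℕ, a < 3 ∧ (a : F) = x := by
  have h1 : Function.Injective fun a : Fin 3 => ((a : ℕ) : F) := fun a b e =>
    Fin.ext (CharP.natCast_injOn_Iio F 3 a.2 b.2 e)
  obtain ⟨a, ha⟩ := (h1.bijective_of_nat_card_le (by simp [hF])).2 x
  exact ⟨a, a.2, ha⟩

lemma vq_surj (hF : Fintype.card F = 3) (x : I4 → F) : ∃ v < 81, vq F v = x := by
  have h1 : Function.Injective fun v : Fin 81 => vq F v := fun u v e => Fin.ext (vq_inj u.2 v.2 e)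
  obtain ⟨v, hv⟩ := (h1.bijective_of_nat_card_le (by simp [hF])).2 x
  exact ⟨v, v.2, hv⟩

lemma exists_inl (hF : Fintype.card F = 3) {x : I4 → F} (hx : ∀ i, x (.inr i) = 0) :
    ∃ a < 9, vq F a = x := by
  obtain ⟨a, ha, e1⟩ := exists_cast hF (x (.inl 0))
  obtain ⟨b, hb, e2⟩ := exists_cast hF (x (.inl 1))
  refine ⟨a + 3 * b, by omega, funext fun i => ?_⟩
  have d2 : (a + 3 * b) / 9 = 0 := by omega
  have d3 : (a + 3 * b) / 27 = 0 := by omega
  rcases i with i | i <;> fin_cases i <;> simp [vq, ix, dg, hx, ← e1, ← e2, d2, d3] <;>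
    congr 1 <;> omega

lemma exists_inr (hF : Fintype.card F = 3) {x : I4 → F} (hx : ∀ i, x (.inl i) = 0) :
    ∃ a < 9, vq F (9 * a) = x := by
  obtain ⟨a, ha, e1⟩ := exists_cast hF (x (.inr 0))
  obtain ⟨b, hb, e2⟩ := exists_cast hF (x (.inr 1))
  refine ⟨a + 3 * b, by omega, funext fun i => ?_⟩
  have d2 : 9 * (a + 3 * b) % 3 = 0 := by omega
  have d3 : 9 * (a + 3 * b) / 3 % 3 = 0 := by omega
  rcases i with i | i <;> fin_cases i <;> simp [vq, ix, dg, hx, ← e1, ← e2, d2, d3] <;>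
    congr 1 <;> omega

omit [CharP F 3] in
/-- The stabiliser of a pair of totally isotropic planes is not maximal in `Sp₄(3)`. -/
theorem not_max_pair (hF : Fintype.card F = 3) {D : Fin 2 → Submodule F (I4 → F)}
    (hD : IsMDecomposition 2 D) (ht : ∀ i, IsTotallySingularFor (sympForm 2 F) (D i))
    {H : Subgroup (GL I4 F)} (hH : IsMaximalIn (isom (sympForm 2 F)) H)
    (hle : H ≤ decompositionStabilizer D) : False := by
  haveI : Fact (Nat.Prime 3) := ⟨Nat.prime_three⟩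
  haveI : CharP F 3 := charP_of_card_eq_prime hF
  have hf := H27.isSymplecticForm_sympForm (F := F) 2
  have hs := sq_of_symplectic hf
  obtain ⟨u, w, d⟩ := exists_dualPair hs hD ht
  have h1 : ∀ j, (Matrix.of fun a b => Sum.elim u (fun i => -w i) b a) *ᵥ Pi.single j 1 =
      Sum.elim u (fun i => -w i) j := fun j => by funext a; simp
  obtain ⟨P, hP, hP'⟩ := exists_isom_of_basis hs
    (M := Matrix.of fun a b => Sum.elim u (fun i => -w i) b a) fun i j => by
      rw [h1, h1, symp_apply (Pi.single i 1)]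
      rcases i with i | i <;> rcases j with j | j
      · simp [d.tsU _ (d.mem_u _) _ (d.mem_u _)]
      · fin_cases i <;> fin_cases j <;> simp [hs.sesq.neg_right, d.dual]
      · rw [hf.skew]
        fin_cases i <;> fin_cases j <;> simp [hs.sesq.neg_right, d.dual]
      · simp [hs.sesq.neg_right, hs.sesq.neg_left, d.tsW _ (d.mem_w _) _ (d.mem_w _)]
  rw [← hP'] at h1
  have h2 : ∀ x ∈ D 0, ∀ i, ((P⁻¹).1 *ᵥ x) (.inr i) = 0 := fun x hx i => by
    have : ∀ j, u j = P.1 *ᵥ Pi.single (.inl j) 1 := fun j => (h1 (.inl j)).symm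
    rw [d.eq_sum hs hx]
    simp [mulVec_add, mulVec_smul, this, -mulVec_single]
  have h3 : ∀ x ∈ D 1, ∀ i, ((P⁻¹).1 *ᵥ x) (.inl i) = 0 := fun x hx i => by
    have : ∀ j, w j = -(P.1 *ᵥ Pi.single (.inr j) 1) := fun j => by rw [h1]; simp
    obtain ⟨c, rfl⟩ := d.span_w x hx
    simp [mulVec_add, mulVec_smul, mulVec_neg, this, -mulVec_single]
  have hT : ∀ t ∈ T2, t.length = 4 := by decide
  obtain ⟨k, hk1, hk2⟩ := exists_sp (F := F) (a := 73) (b := 21) (c := 24) (d := 59)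
    (by decide +kernel)
  obtain ⟨g, hg1, hg2⟩ := exists_sp (F := F) (a := 1) (b := 3) (c := 10) (d := 27)
    (by decide +kernel)
  refine not_max_of_cert hH P (conj_mem_isom hP) (cn F T2)
    (fun m => ((∀ j i, (m *ᵥ Pi.single (.inl j) 1) (.inr i) = 0) ∧
        ∀ j i, (m *ᵥ Pi.single (.inr j) 1) (.inl i) = 0) ∨
      ((∀ j i, (m *ᵥ Pi.single (.inl j) 1) (.inl i) = 0) ∧
        ∀ j i, (m *ᵥ Pi.single (.inr j) 1) (.inr i) = 0)) (fun a ha => ?_) (fun m hm h => ?_)
    ⟨k, hk1, hk2 ▸ mem_cn hT rfl (by decide +kernel), ?_⟩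
    ⟨g, hg1, hg2 ▸ not_mem_cn hT rfl List.mem_cons_self 9 (by decide +kernel)⟩
  · obtain ⟨π, hπ⟩ := hle ha
    have hm : ∀ i, ∀ x ∈ D i, a.1 *ᵥ x ∈ D (π i) := fun i x hx => (hπ i).le ⟨x, hx, rfl⟩
    have h01 : π 0 ≠ π 1 := π.injective.ne (by decide)
    have m0 := fun j => hm 0 _ (d.mem_u j)
    have m1 := fun j => hm 1 _ ((D 1).neg_mem (d.mem_w j))
    simp only [Units.val_mul, ← mulVec_mulVec, h1, Sum.elim_inl, Sum.elim_inr]
    by_cases h0 : π 0 = 0
    · have h1' : π 1 = 1 := by omega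
      rw [h0] at m0
      rw [h1'] at m1
      exact Or.inl ⟨fun j => h2 _ (m0 j), fun j => h3 _ (m1 j)⟩
    · have h0' : π 0 = 1 := by omega
      have h1' : π 1 = 0 := by omega
      rw [h0'] at m0
      rw [h1'] at m1
      exact Or.inr ⟨fun j => h3 _ (m0 j), fun j => h2 _ (m1 j)⟩
  · rcases h with ⟨h, h'⟩ | ⟨h, h'⟩
    · obtain ⟨a, ha, e0⟩ := exists_inl hF (h 0)
      obtain ⟨b, hb, e1⟩ := exists_inl hF (h 1)
      obtain ⟨c, hc, e2⟩ := exists_inr hF (h' 0)
      obtain ⟨d, hd, e3⟩ := exists_inr hF (h' 1)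
      exact good_spec hT (allLt_spec (allLt_spec (allLt_spec (allLt_spec loop3 a ha) b hb) c hc)
        d hd) hm e0 e1 e2 e3
    · obtain ⟨a, ha, e0⟩ := exists_inr hF (h 0)
      obtain ⟨b, hb, e1⟩ := exists_inr hF (h 1)
      obtain ⟨c, hc, e2⟩ := exists_inl hF (h' 0)
      obtain ⟨d, hd, e3⟩ := exists_inl hF (h' 1)
      exact good_spec hT (allLt_spec (allLt_spec (allLt_spec (allLt_spec loop4 a ha) b hb) c hc)
        d hd) hm e0 e1 e2 e3
  · rw [hk2]
    rintro (⟨h, -⟩ | ⟨h, -⟩)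
    · have h4 := h 1 0
      rw [mq_single] at h4
      exact two_ne_zero_of_odd (F := F) (by rw [hF]; decide) (by simpa [vq, ix, dg] using h4)
    · have h4 := h 0 0
      rw [mq_single] at h4
      simp [vq, ix, dg] at h4

omit [CharP F 3] in
/-- The normaliser of a field of unitary type is not maximal in `Sp₄(3)`. -/
theorem not_max_extU (hF : Fintype.card F = 3) {K : Subalgebra F (Matrix I4 I4 F)}
    (hK : IsFieldSubalgebra 2 K) (hA : IsAdjointClosedFor (sympForm 2 F) K)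
    (hN : ¬ IsSelfAdjointFor (sympForm 2 F) K)
    {H : Subgroup (GL I4 F)} (hH : IsMaximalIn (isom (sympForm 2 F)) H)
    (hle : H ≤ subalgebraNormalizer K) : False := by
  classical
  haveI : Fact (Nat.Prime 3) := ⟨Nat.prime_three⟩
  haveI : CharP F 3 := charP_of_card_eq_prime hF
  have h3 : (3 : F) = 0 := by simpa using CharP.cast_eq_zero F 3
  have hf := H27.isSymplecticForm_sympForm (F := F) 2
  have hs := sq_of_symplectic hf
  set f := sympForm 2 F with hfd
  have hse := hs.sesq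
  obtain ⟨y, hy1, hy2, hn⟩ : ∃ y : Matrix I4 I4 F, y * y = -1 ∧ adj (idF F) f y = -y ∧
      ∀ a ∈ subalgebraNormalizer K, a.1 * y = y * a.1 ∨ a.1 * y = -y * a.1 := by
    let _ : Field K := (isField_of_isFieldSubalgebra two_pos hK).toField
    haveI : Finite K := Module.finite_of_finite F
    haveI := Fintype.ofFinite K
    have hc : Fintype.card K = 3 ^ 2 := by
      rw [Module.card_eq_pow_finrank (K := F), hK.finrank_eq, hF]
    set τ := adjEquiv hs hK.comm hA with hτ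
    have hτ1 : τ ≠ RingEquiv.refl K := fun e => hN fun k hk u v => by
      rw [hs.adj_spec, show adj (idF F) f k = k from
        congrArg Subtype.val (RingEquiv.congr_fun e ⟨k, hk⟩)]
    have hτ0 : ∀ a, τ (τ a) = a := fun a => Subtype.ext (hs.adj_adj a)
    have hτ2 := invol_eq_pow' hτ1 hτ0 hc
    obtain ⟨x, hx⟩ := exists_ne_of_ne_refl hτ1
    have h1 : τ (x - τ x) = -(x - τ x) := by rw [map_sub, hτ0, neg_sub]
    have h2 : x - τ x ≠ 0 := sub_ne_zero.2 hx.symm
    generalize x - τ x = y at h1 h2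
    have h4 : y * y = -1 := mul_left_cancel₀ h2 (by rw [hτ2] at h1; linear_combination h1)
    refine ⟨y, congrArg Subtype.val h4, congrArg Subtype.val h1, fun a ha => ?_⟩
    let z : K := ⟨cj a (y : Matrix I4 I4 F), (ha _).1 y.2⟩
    have hz : z * z = -1 := Subtype.ext (by
      change cj a (y : Matrix I4 I4 F) * cj a (y : Matrix I4 I4 F) = -1
      rw [← map_mul, show (y : Matrix I4 I4 F) * y = -1 from congrArg Subtype.val h4, map_neg,
        map_one])
    have e : a.1 * (y : Matrix I4 I4 F) = (z : Matrix I4 I4 F) * a.1 := by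
      change _ = cj a _ * _
      rw [cj_apply, mul_assoc, gl_inv_mul, mul_one]
    rcases mul_self_eq_mul_self_iff.1 (hz.trans h4.symm) with h5 | h5
    · exact Or.inl (by rw [e, h5])
    · exact Or.inr (by rw [e, h5]; rfl)
  have hyy : ∀ v, y *ᵥ (y *ᵥ v) = -v := fun v => by rw [mulVec_mulVec, hy1, neg_mulVec, one_mulVec]
  have hya : ∀ u v, f (y *ᵥ u) v = -f u (y *ᵥ v) := fun u v => by
    rw [hs.adj_spec, hy2, neg_mulVec, hse.neg_right]
  have hb : Sq (idF F) 1 fun u v => f u (y *ᵥ v) := Sq.mk' (fun _ => rfl)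
    (fun _ _ _ => hse.add_left _ _ _) (fun _ _ _ => hse.smul_left _ _ _)
    (fun u v => by rw [hf.skew, hya, neg_neg, one_mul]; rfl)
    (fun u hu => hs.nondeg u fun v => by
      have := hu (-(y *ᵥ v))
      rwa [mulVec_neg, hyy, neg_neg] at this)
  have h2 : (2 : F) ≠ 0 := two_ne_zero_of_odd (by rw [hF]; decide)
  have fix : ∀ v, f v (y *ᵥ v) ≠ 0 → ∃ c : F,
      f (v + c • y *ᵥ v) (y *ᵥ (v + c • y *ᵥ v)) = -1 := fun v hv => by
    have h4 := mul_self_of_card_le_three hF.le hv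
    rcases mul_self_eq_one_iff.1 h4 with h5 | h5
    · refine ⟨1, ?_⟩
      simp only [one_smul, mulVec_add, hyy, hse.add_left, hse.add_right, hse.neg_right, hya,
        hf.alternating, h5]
      linear_combination h3
    · exact ⟨0, by simpa using h5⟩
  obtain ⟨v, hv, -⟩ := exists_nonisotropic_perp hb (Or.inr h2) (k := 0) ![] (by simp) (by simp)
    (by simp)
  obtain ⟨c, a0⟩ := fix v hv
  generalize v + c • y *ᵥ v = u at a0
  obtain ⟨v', hv', hp⟩ := exists_nonisotropic_perp hb (Or.inr h2) ![u, y *ᵥ u]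
    (fun i => by fin_cases i <;> simp [hyy, hya, hse.neg_right, mulVec_neg, a0, -mulVec_mulVec])
    (fun i j hij => by
      fin_cases i <;> fin_cases j <;>
        simp [hyy, hya, hse.neg_right, hf.alternating, -mulVec_mulVec] at hij ⊢) (by simp)
  have p0 : f v' (y *ᵥ u) = 0 := hp 0
  have p1 : f v' u = 0 := by
    have : f v' (y *ᵥ (y *ᵥ u)) = 0 := hp 1
    rwa [hyy, hse.neg_right, neg_eq_zero] at this
  obtain ⟨c', b0⟩ := fix v' hv'
  have c0 : f (v' + c' • y *ᵥ v') u = 0 := by simp [hse.add_left, hse.smul_left, hya, p0, p1]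
  have c1 : f (v' + c' • y *ᵥ v') (y *ᵥ u) = 0 := by
    simp [hse.add_left, hse.smul_left, hya, hyy, hse.neg_right, p0, p1, -mulVec_mulVec]
  generalize v' + c' • y *ᵥ v' = w at b0 c0 c1
  have c2 : f u w = 0 := hs.eq_zero_comm c0
  have c3 : f u (y *ᵥ w) = 0 := by rw [← neg_eq_zero, ← hya]; exact hs.eq_zero_comm c1
  have h1 : ∀ j, (Matrix.of fun a b => Sum.elim ![u, w] ![y *ᵥ u, y *ᵥ w] b a) *ᵥ Pi.single j 1 =
      Sum.elim ![u, w] ![y *ᵥ u, y *ᵥ w] j := fun j => by funext a; simp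
  obtain ⟨P, hP, hP'⟩ := exists_isom_of_basis hs
    (M := Matrix.of fun a b => Sum.elim ![u, w] ![y *ᵥ u, y *ᵥ w] b a) fun i j => by
      rw [h1, h1, hfd, symp_apply (Pi.single i 1), ← hfd]
      rcases i with i | i <;> rcases j with j | j <;> fin_cases i <;> fin_cases j <;>
        simp [hyy, hya, hse.neg_right, hf.alternating, a0, b0, c0, c1, c2, c3, -mulVec_mulVec]
  rw [← hP'] at h1
  have e2 : (2 : F) = -1 := by linear_combination h3
  have hJ : ∀ j, mq F [9, 27, 2, 6] *ᵥ Pi.single (.inl j) 1 = Pi.single (.inr j) 1 ∧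
      mq F [9, 27, 2, 6] *ᵥ Pi.single (.inr j) 1 = -Pi.single (.inl j) 1 := fun j => by
    rw [mq_single, mq_single]
    constructor <;> funext i <;> rcases i with i | i <;> fin_cases i <;> fin_cases j <;>
      simp [vq, ix, dg, e2]
  have hJ' : mq F [18, 54, 1, 3] = -mq F [9, 27, 2, 6] := by
    ext i j
    rcases i with i | i <;> rcases j with j | j <;> fin_cases i <;> fin_cases j <;>
      simp [mq, ix, dg, e2]
  have hPy : y * P.1 = P.1 * mq F [9, 27, 2, 6] := mat_ext' fun j => by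
    rw [← mulVec_mulVec, ← mulVec_mulVec, h1]
    rcases j with j | j
    · rw [(hJ j).1, h1]; fin_cases j <;> rfl
    · rw [(hJ j).2, mulVec_neg, h1]; fin_cases j <;> exact hyy _
  have hT : ∀ t ∈ T1, t.length = 4 := by decide
  obtain ⟨k, hk1, hk2⟩ := exists_sp (F := F) (a := 32) (b := 73) (c := 42) (d := 16)
    (by decide +kernel)
  obtain ⟨g, hg1, hg2⟩ := exists_sp (F := F) (a := 1) (b := 3) (c := 10) (d := 27)
    (by decide +kernel)
  refine not_max_of_cert hH P (conj_mem_isom hP) (cn F T1)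
    (fun m => m * mq F [9, 27, 2, 6] = mq F [9, 27, 2, 6] * m ∨
      m * mq F [9, 27, 2, 6] = mq F [18, 54, 1, 3] * m) (fun a ha => ?_) (fun m hm h => ?_)
    ⟨k, hk1, hk2 ▸ mem_cn hT rfl (by decide +kernel), ?_⟩
    ⟨g, hg1, hg2 ▸ not_mem_cn hT rfl List.mem_cons_self 36 (by decide +kernel)⟩
  · have e : mq F [9, 27, 2, 6] * (P⁻¹).1 = (P⁻¹).1 * y := by
      rw [← one_mul (mq F _), ← gl_inv_mul P, mul_assoc _ P.1, ← hPy, mul_assoc, mul_assoc,
        gl_mul_inv, mul_one]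
    rw [hJ', Units.val_mul, Units.val_mul, mul_assoc, ← hPy, mul_assoc, ← mul_assoc a.1, neg_mul,
      ← mul_assoc (mq F _), ← mul_assoc (mq F _), e]
    rcases hn a (hle ha) with h | h <;> rw [h]
    · exact Or.inl (by simp only [mul_assoc])
    · exact Or.inr (by simp only [mul_assoc, neg_mul, mul_neg])
  · obtain ⟨a, ha, e0⟩ := vq_surj hF (m.1 *ᵥ Pi.single (.inl 0) 1)
    obtain ⟨b, hb, e1⟩ := vq_surj hF (m.1 *ᵥ Pi.single (.inl 1) 1)
    rcases h with h | h
    · exact good_spec hT (allLt_spec (allLt_spec loop1 a ha) b hb) hm e0 e1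
        (by rw [vq_mv3 rfl, e0, mulVec_mulVec, ← h, ← mulVec_mulVec, (hJ 0).1])
        (by rw [vq_mv3 rfl, e1, mulVec_mulVec, ← h, ← mulVec_mulVec, (hJ 1).1])
    · exact good_spec hT (allLt_spec (allLt_spec loop2 a ha) b hb) hm e0 e1
        (by rw [vq_mv3 rfl, e0, mulVec_mulVec, ← h, ← mulVec_mulVec, (hJ 0).1])
        (by rw [vq_mv3 rfl, e1, mulVec_mulVec, ← h, ← mulVec_mulVec, (hJ 1).1])
  · rw [hk2]
    rintro (h | h) <;>
    · have h4 := congrArg (· *ᵥ vq F 1) h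
      simp only [← mulVec_mulVec] at h4
      rw [← vq_mv3 rfl, ← vq_mv3 rfl, ← vq_mv3 rfl, ← vq_mv3 rfl] at h4
      exact absurd (vq_inj (mv3_lt _ _) (mv3_lt _ _) h4) (by decide +kernel)

end Cfsg.Agent.H32.Cert.Sp43
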