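import Cfsg.Agent.H32.CertThree
import Cfsg.Agent.H32.PairStd

/-! The normaliser of a field of degree three is not maximal in `SU₆(2)`. -/

set_option autoImplicit false
set_option linter.style.haveILetI false

namespace Cfsg.Agent.H32.Cert.U62E

open Matrix Cfsg.Geo Cfsg.Agent.H25
open scoped MatrixGroups

def Y : List ℕ := [4, 16, 2, 256, 1024, 128]
def Z : List ℕ := [1, 4, 16, 256, 1024, 128]
def mask : ℕ := 5179235671223323003000452695874437790597966513786555619893891896210188400003876695869710787882197591357076562663891949999333394717222008307208015363144155594910165054059197342931707930634401573998776399859430389949509929109722358697658133754240496672213849182437270965501709209259345457114152358419846505506388975690294833048804238049752757641414489034554105980610394233074642864630188490416900370925639072604290859383403531613068048466237456697720037112126180623412304415749796625080473648986251007231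60596751227820780353966956696114376980645796605517300975595965496319378569141229359771325721817894389734096860127387651360928360606293168283456824738565785498734429629757924291069715250791174959517504133255663501537322523543305240145286337483099272512882709444268489479699206238756014005625032181787653036730295824197295584211141574305222115705898645842781175928778398913561365462006209616661260614317324525803603842526812772901097481271494620164514697548351892084732658631781894636046088219208791029268459431713315862469558835895158672676851587671204054277670501886912123396660860659256039349687808303575178777504463875283056671542150400881680546953732864895346051681968666128353412337498078287435767253759208078502849551532032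
def g0 : List ℕ × List (List ℕ) := ([2150, 475, 1838, 3785, 2916, 3539], [[1, 7, 16, 64, 256, 1024], [5, 4, 16, 64, 256, 1024], [33, 4, 16, 64, 256, 1024], [65, 4, 16, 64, 256, 1024], [2049, 4, 16, 64, 256, 1024], [1, 4, 28, 64, 256, 1024], [1, 6, 16, 64, 256, 1024], [1, 36, 16, 64, 256, 1024], [1, 68, 16, 64, 256, 1024], [1, 260, 16, 64, 256, 1024], [1, 3076, 16, 64, 256, 1024], [1, 4, 19, 64, 256, 1024], [1, 4, 24, 64, 256, 1024], [1, 4, 144, 64, 256, 1024], [1, 4, 272, 64, 256, 1024], [1, 4, 16, 64, 384, 1024], [1, 4, 16, 65, 256, 1024], [1, 4, 16, 76, 256, 1024], [1, 4, 16, 112, 256, 1024], [1, 4, 16, 832, 256, 1024], [1, 4, 16, 2112, 256, 1024], [1, 4, 16, 64, 256, 1536], [1, 4, 16, 64, 258, 1024], [1, 4, 16, 64, 268, 1024], [1, 4, 16, 64, 272, 1024], [1, 4, 16, 64, 448, 1024], [1, 4, 16, 64, 2304, 1024], [1, 4, 16, 64, 256, 1036], [1, 4, 16, 64, 256, 1056], [1, 4, 16, 64, 256, 1152], [1, 4, 16, 64,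 256, 1792]])
def g1 : List ℕ × List (List ℕ) := ([2359, 1245, 950, 3512, 1633, 2439], [[1, 6, 16, 64, 256, 1024], [5, 4, 16, 64, 256, 1024], [49, 4, 16, 64, 256, 1024], [257, 4, 16, 64, 256, 1024], [2049, 4, 16, 64, 256, 1024], [1, 4, 24, 64, 256, 1024], [1, 20, 16, 64, 256, 1024], [1, 196, 16, 64, 256, 1024], [1, 1028, 16, 64, 256, 1024], [1, 4, 16, 80, 256, 1024], [1, 4, 144, 64, 256, 1024], [1, 4, 784, 64, 256, 1024], [1, 4, 16, 64, 448, 1024], [1, 4, 16, 67, 256, 1024], [1, 4, 16, 76, 256, 1024], [1, 4, 16, 96, 256, 1024], [1, 4, 16, 832, 256, 1024], [1, 4, 16, 1088, 256, 1024], [1, 4, 16, 64, 256, 1536], [1, 4, 16, 64, 258, 1024], [1, 4, 16, 64, 304, 1024], [1, 4, 16, 64, 320, 1024], [1, 4, 16, 64, 1280, 1024], [1, 4, 16, 64, 256, 1032], [1, 4, 16, 64, 256, 1056], [1, 4, 16, 64, 256, 1280]])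
def g2 : List ℕ × List (List ℕ) := ([1, 8, 48, 64, 512, 3072], [[1, 20, 16, 64, 256, 1024], [1, 4, 24, 64, 256, 1024], [1, 36, 16, 64, 256, 1024], [1, 4, 20, 64, 256, 1024], [1, 4, 16, 64, 1280, 1024], [1, 4, 16, 64, 256, 1536], [1, 4, 16, 64, 2304, 1024], [1, 4, 16, 64, 256, 1280]])
def g3 : List ℕ × List (List ℕ) := ([1, 4, 16, 128, 512, 2048], [[1, 4, 16, 320, 256, 1024], [1, 4, 16, 64, 384, 1024], [1, 4, 16, 576, 256, 1024], [1, 4, 16, 64, 1280, 1024], [1, 4, 16, 64, 256, 1792], [1, 4, 16, 64, 448, 1024], [1, 4, 16, 64, 3328, 1024], [1, 4, 16, 64, 256, 1216], [1, 4, 16, 64, 256, 1280]])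
def L : List (ℕ × ℕ × List ℕ) := [(2, 0, [1, 8, 48, 64, 512, 3072]),
  (3, 1, [1, 4, 16, 128, 512, 2048]),
  (2, 1, [1, 12, 32, 64, 768, 2048]),
  (3, 2, [1, 8, 48, 128, 768, 1024]),
  (3, 2, [1, 4, 16, 192, 768, 3072]),
  (2, 2, [1, 4, 16, 64, 256, 1024]),
  (3, 3, [1, 12, 32, 128, 256, 3072]),
  (3, 3, [1, 8, 48, 192, 256, 2048]),
  (3, 1, [1, 12, 32, 192, 512, 1024]),
  (0, 9, [2150, 475, 1838, 3785, 2916, 3539]),
  (1, 10, [2359, 1245, 950, 3512, 1633, 2439]),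
  (0, 1, [3327, 893, 3381, 1414, 1688, 2722]),
  (1, 2, [2158, 507, 1837, 1737, 2980, 3795]),
  (0, 2, [1562, 2218, 747, 3052, 4083, 3917]),
  (1, 3, [2358, 1241, 934, 3576, 1889, 3463]),
  (0, 3, [2887, 3548, 1906, 3225, 614, 2331]),
  (1, 4, [1490, 1930, 3752, 1022, 3897, 3173]),
  (0, 4, [3730, 2634, 2536, 999, 3871, 3198]),
  (1, 5, [8, 32, 3, 2048, 192, 768]),
  (0, 5, [2451, 1742, 3000, 955, 3629, 2167]),
  (1, 6, [2044, 4017, 3653, 1310, 1210, 681]),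
  (0, 6, [3708, 2417, 1477, 1317, 1175, 670]),
  (0, 6, [2930, 3529, 1892, 473, 1830, 3227]),
  (1, 7, [3409, 1350, 1432, 885, 3349, 1110]),
  (0, 7, [1189, 663, 2590, 3663, 2428, 1521]),
  (1, 8, [2349, 1271, 925, 1656, 2465, 1735]),
  (0, 8, [2769, 3014, 4056, 874, 3371, 1135]),
  (1, 9, [1935, 3772, 2673, 1183, 702, 2617]),
  (0, 9, [621, 2359, 1245, 1633, 2439, 1756]),
  (0, 9, [2488, 1761, 2951, 2363, 1261, 951]),
  (1, 10, [2796, 3059, 4045, 1578, 2219, 751]),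
  (0, 10, [3879, 3167, 382, 3732, 2642, 2506]),
  (1, 11, [486, 1819, 3246, 3826, 2889, 3556]),
  (0, 11, [1388, 1459, 1677, 1597, 2229, 725]),
  (1, 12, [3986, 3658, 2408, 983, 3870, 3194]),
  (0, 12, [3286, 858, 3370, 4038, 3928, 3426]),
  (1, 13, [726, 2842, 3306, 4066, 3915, 3436]),
  (0, 13, [343, 1310, 1210, 4017, 3653, 2388]),
  (1, 14, [1558, 2202, 746, 4076, 3955, 3405]),
  (0, 14, [2583, 2270, 1018, 4008, 3683, 2383]),
  (1, 15, [874, 3371, 1135, 2769, 3014, 4056]),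
  (0, 15, [4066, 3915, 3436, 726, 2842, 3306]),
  (0, 15, [3350, 1114, 426, 4084, 3921, 3398]),
  (1, 16, [1182, 698, 2601, 1999, 4028, 3697]),
  (0, 16, [2858, 3307, 879, 2776, 3042, 4043]),
  (1, 17, [2333, 1270, 921, 1912, 3489, 1607]),
  (0, 17, [406, 1562, 2218, 4083, 3917, 3444]),
  (1, 18, [605, 2358, 1241, 1889, 3463, 1628]),
  (0, 18, [1599, 2237, 757, 1452, 1715, 2701]),
  (1, 19, [1151, 445, 1589, 1421, 1716, 2705]),
  (0, 19, [2271, 1022, 3897, 1930, 3752, 2659]),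
  (1, 20, [895, 3389, 1141, 1425, 1670, 2712]),
  (0, 20, [351, 1342, 1209, 1969, 3717, 2644]),
  (1, 21, [2229, 725, 2838, 3403, 1388, 1459]),
  (0, 21, [1716, 2705, 2758, 3375, 1151, 445]),
  (0, 21, [767, 2877, 3317, 1442, 1675, 2732]),
  (1, 22, [3902, 3193, 357, 1492, 1938, 3722]),
  (0, 22, [437, 1557, 2198, 3443, 1357, 1460]),
  (1, 23, [494, 1851, 3245, 1778, 2953, 3812]),
  (0, 23, [2171, 493, 1847, 2441, 1764, 2963]),
  (1, 24, [1368, 1442, 1675, 2877, 3317, 853]),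
  (0, 24, [3697, 2373, 1492, 357, 1303, 1182]),
  (1, 25, [2468, 1747, 2958, 3643, 2157, 503]),
  (0, 25, [1925, 3732, 2642, 3167, 382, 1337]),
  (1, 26, [2972, 3826, 2889, 1819, 3246, 635]),
  (0, 26, [2597, 2263, 990, 3688, 2403, 1487]),
  (0, 26, [2545, 1989, 3988, 378, 1321, 1191]),
  (1, 27, [1342, 1209, 677, 1532, 1969, 3717]),
  (0, 27, [4084, 3921, 3398, 3350, 1114, 426]),
  (1, 28, [1999, 4028, 3697, 1182, 698, 2601]),
  (0, 28, [357, 1303, 1182, 3697, 2373, 1492]),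
  (1, 29, [3643, 2157, 503, 2468, 1747, 2958]),
  (0, 29, [2712, 2786, 3019, 2859, 3311, 895]),
  (1, 30, [2141, 502, 1817, 1865, 3492, 1619]),
  (0, 30, [702, 2617, 2277, 1507, 1935, 3772]),
  (1, 31, [3663, 2428, 1521, 1189, 663, 2590]),
  (0, 31, [1884, 3506, 1609, 1821, 3254, 601]),
  (1, 32, [1214, 697, 2597, 1487, 1980, 3761]),
  (0, 32, [507, 1837, 3255, 2482, 1737, 2980]),
  (0, 32, [1636, 2451, 1742, 3629, 2167, 477]),
  (1, 33, [2511, 2044, 4017, 1210, 681, 2599]),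
  (0, 33, [3983, 3708, 2417, 1175, 670, 2618]),
  (1, 34, [48, 1, 4, 256, 1024, 128]),
  (0, 34, [2329, 1254, 923, 2936, 3553, 1863]),
  (1, 35, [3021, 4084, 3921, 1114, 426, 1579]),
  (0, 35, [2664, 2531, 1999, 2601, 2279, 991]),
  (1, 36, [3527, 1884, 3506, 3254, 601, 2342]),
  (0, 36, [4003, 3663, 2428, 663, 2590, 2298]),
  (1, 37, [3470, 1656, 2465, 1271, 925, 3638]),
  (0, 37, [359, 1311, 1214, 3761, 2629, 2516]),
  (0, 37, [1512, 1955, 3727, 2622, 2297, 997]),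
  (1, 38, [1018, 3881, 3175, 2514, 1994, 4008]),
  (0, 38, [1675, 2732, 2803, 2223, 767, 2877]),
  (1, 39, [1938, 3722, 2664, 991, 3902, 3193]),
  (0, 39, [2279, 991, 3902, 3722, 2664, 2531]),
  (1, 40, [601, 2342, 1243, 2913, 3527, 1884]),
  (0, 40, [3405, 1396, 1425, 1141, 405, 1558]),
  (1, 41, [2350, 1275, 941, 1784, 2977, 3783]),
  (0, 41, [3194, 361, 1319, 2501, 2004, 3986]),
  (1, 42, [2642, 2506, 2024, 1001, 3879, 3167]),
  (0, 42, [2958, 3832, 2913, 1243, 942, 3643]),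
  (1, 43, [3898, 3177, 359, 2516, 2002, 3978]),
  (0, 43, [1241, 934, 3611, 2894, 3576, 1889]),
  (1, 43, [3668, 2386, 1482, 3877, 3159, 350]),
  (0, 43, [3389, 1141, 405, 1396, 1425, 1670]),
  (1, 44, [2446, 1784, 2977, 1275, 941, 3639]),
  (0, 44, [3772, 2673, 2501, 1319, 1183, 702]),
  (1, 45, [2590, 2298, 1001, 2024, 4003, 3663]),
  (0, 45, [679, 2591, 2302, 3747, 2639, 2556]),
  (0, 45, [1532, 1969, 3717, 1342, 1209, 677]),
  (1, 46, [3938, 3403, 1388, 725, 2838, 3290]),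
  (0, 46, [875, 3375, 1151, 2705, 2758, 3032]),
  (1, 47, [2763, 3052, 4083, 2218, 747, 2863]),
  (0, 47, [2899, 3534, 1912, 921, 3622, 2139]),
  (1, 48, [2378, 1512, 1955, 2297, 997, 3863]),
  (0, 48, [765, 2869, 3285, 1378, 1419, 1708]),
  (1, 49, [2198, 730, 2858, 4043, 3948, 3443]),
  (0, 49, [1955, 3727, 2684, 671, 2622, 2297]),
  (1, 50, [3881, 3175, 351, 2644, 2514, 1994]),
  (0, 50, [2859, 3311, 895, 2712, 2786, 3019]),
  (1, 51, [1865, 3492, 1619, 2141, 502, 1817]),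
  (0, 51, [1507, 1935, 3772, 702, 2617, 2277]),
  (0, 51, [1319, 1183, 702, 3772, 2673, 2501]),
  (1, 52, [2024, 4003, 3663, 2590, 2298, 1001]),
  (0, 52, [3747, 2639, 2556, 679, 2591, 2302]),
  (1, 53, [473, 1830, 3227, 2930, 3529, 1892]),
  (0, 53, [2516, 2002, 3978, 3898, 3177, 359]),
  (1, 54, [2167, 477, 1846, 3465, 1636, 2451]),
  (0, 54, [1110, 410, 1578, 4045, 3956, 3409]),
  (1, 55, [1355, 1452, 1715, 2237, 757, 2837]),
  (0, 55, [3042, 4043, 3948, 730, 2858, 3307]),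
  (1, 56, [3489, 1607, 2460, 631, 2333, 1270]),
  (0, 56, [4008, 3683, 2383, 2583, 2270, 1018]),
  (0, 56, [350, 1338, 1193, 2033, 3973, 3668]),
  (1, 57, [1761, 2951, 3804, 622, 2363, 1261]),
  (0, 57, [2953, 3812, 2899, 2139, 494, 1851]),
  (1, 58, [3988, 3666, 2378, 3863, 3166, 378]),
  (0, 58, [2634, 2536, 2019, 2281, 999, 3871]),
  (1, 59, [32, 3, 12, 512, 2048, 192]),
  (0, 59, [1614, 2488, 1761, 1261, 951, 3613]),
  (1, 60, [2699, 2796, 3059, 2219, 751, 2879]),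
  (0, 60, [1001, 3879, 3167, 2642, 2506, 2024]),
  (1, 61, [2137, 486, 1819, 2889, 3556, 1875]),
  (0, 61, [3403, 1388, 1459, 2229, 725, 2838]),
  (1, 62, [2004, 3986, 3658, 3870, 3194, 361]),
  (0, 62, [3609, 2150, 475, 2916, 3539, 1870]),
  (1, 62, [2639, 2556, 2033, 1193, 679, 2591]),
  (0, 62, [746, 2859, 3311, 2786, 3019, 4076]),
  (1, 63, [3570, 1865, 3492, 502, 1817, 3238]),
  (0, 63, [3658, 2408, 1507, 2277, 983, 3870]),
  (1, 64, [382, 1337, 1189, 1521, 1925, 3732]),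
  (0, 64, [3159, 350, 1338, 3973, 3668, 2386]),
  (0, 64, [1994, 4008, 3683, 2270, 1018, 3881]),
  (1, 65, [2740, 2769, 3014, 3371, 1135, 447]),
  (0, 65, [2197, 726, 2842, 3915, 3436, 1395]),
  (1, 66, [1361, 1414, 1688, 893, 3381, 1109]),
  (0, 66, [2460, 1778, 2953, 1851, 3245, 631]),
  (0, 66, [1130, 427, 1583, 2765, 3060, 4049]),
  (1, 67, [3391, 1149, 437, 1460, 1681, 2694]),
  (1, 67, [677, 2583, 2270, 3683, 2383, 1532]),
  (0, 67, [405, 1558, 2202, 3955, 3405, 1396]),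
  (1, 68, [2977, 3783, 2908, 603, 2350, 1275]),
  (0, 67, [983, 3870, 3194, 3986, 3658, 2408]),
  (1, 67, [1261, 951, 3613, 1614, 2488, 1761]),
  (0, 67, [1487, 1980, 3761, 1214, 697, 2597]),
  (1, 68, [2331, 1262, 955, 3000, 3809, 2887]),
  (0, 68, [2879, 3325, 885, 1432, 1698, 2699]),
  (1, 69, [3025, 4038, 3928, 858, 3370, 1131]),
  (0, 69, [1460, 1681, 2694, 3391, 1149, 437]),
  (1, 70, [3812, 2899, 3534, 3622, 2139, 494]),
  (0, 70, [3717, 2644, 2514, 3175, 351, 1342]),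
  (0, 70, [2302, 1017, 3877, 1482, 1960, 3747]),
  (1, 71, [1892, 3475, 1614, 3613, 2166, 473]),
  (1, 71, [3727, 2684, 2545, 1191, 671, 2622]),
  (0, 71, [2417, 1477, 1940, 377, 1317, 1175]),
  (1, 72, [4, 16, 2, 3072, 64, 256]),
  (0, 72, [3638, 2137, 486, 3556, 1875, 3470]),
  (1, 73, [1583, 2239, 765, 1708, 2739, 2765]),
  (0, 73, [1311, 1214, 697, 1980, 3761, 2629]),
  (1, 74, [1742, 3000, 3809, 1262, 955, 3629]),
  (0, 74, [1350, 1432, 1698, 3325, 885, 3349]),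
  (0, 74, [3307, 879, 3391, 2694, 2776, 3042]),
  (1, 75, [1270, 921, 3622, 3534, 1912, 3489]),
  (1, 75, [1135, 447, 1597, 1677, 2740, 2769]),
  (0, 75, [1735, 2972, 3826, 3246, 635, 2349]),
  (1, 76, [3910, 3416, 1378, 3285, 854, 3354]),
  (0, 76, [671, 2622, 2297, 1955, 3727, 2684]),
  (1, 77, [2644, 2514, 1994, 3881, 3175, 351]),
  (0, 77, [1579, 2223, 767, 2732, 2803, 3021]),
  (1, 77, [3832, 2913, 3527, 2342, 1243, 942]),
  (0, 77, [1262, 955, 3629, 1742, 3000, 3809]),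
  (0, 77, [3463, 1628, 2482, 3255, 605, 2358]),
  (1, 78, [2618, 2281, 999, 2536, 2019, 3983]),
  (0, 78, [3354, 1130, 427, 3060, 4049, 3910]),
  (1, 79, [879, 3391, 1149, 1681, 2694, 2776]),
  (0, 79, [502, 1817, 3238, 3570, 1865, 3492]),
  (1, 80, [1847, 3229, 630, 3484, 1650, 2441]),
  (0, 80, [2913, 3527, 1884, 601, 2342, 1243]),
  (0, 80, [427, 1583, 2239, 2739, 2765, 3060]),
  (1, 81, [1149, 437, 1557, 1357, 1460, 1681]),
  (0, 81, [3666, 2378, 1512, 997, 3863, 3166]),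
  (1, 81, [3465, 1636, 2451, 2167, 477, 1846]),
  (0, 81, [4045, 3956, 3409, 1110, 410, 1578]),
  (1, 82, [2237, 757, 2837, 1355, 1452, 1715]),
  (0, 82, [730, 2858, 3307, 3042, 4043, 3948]),
  (1, 83, [631, 2333, 1270, 3489, 1607, 2460]),
  (0, 83, [2694, 2776, 3042, 3307, 879, 3391]),
  (1, 84, [3534, 1912, 3489, 1270, 921, 3622]),
  (0, 84, [2514, 1994, 4008, 1018, 3881, 3175]),
  (1, 85, [1677, 2740, 2769, 1135, 447, 1597]),
  (0, 85, [3246, 635, 2349, 1735, 2972, 3826]),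
  (1, 86, [3285, 854, 3354, 3910, 3416, 1378]),
  (0, 86, [4038, 3928, 3426, 3286, 858, 3370]),
  (1, 86, [1191, 671, 2622, 3727, 2684, 2545]),
  (0, 86, [951, 3613, 2166, 3475, 1614, 2488]),
  (1, 87, [751, 2879, 3325, 1698, 2699, 2796]),
  (0, 87, [2388, 1490, 1930, 3897, 3173, 343]),
  (0, 87, [3790, 2936, 3553, 1254, 923, 3630]),
  (0, 87, [3254, 601, 2342, 3527, 1884, 3506]),
  (1, 88, [1980, 3761, 2629, 1311, 1214, 697]),
  (0, 88, [1737, 2980, 3795, 2158, 507, 1837]),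
  (1, 89, [3871, 3198, 377, 1940, 3730, 2634]),
  (0, 89, [378, 1321, 1191, 2545, 1989, 3988]),
  (1, 89, [2765, 3060, 4049, 1130, 427, 1583]),
  (1, 89, [445, 1589, 2197, 1395, 1421, 1716]),
  (0, 89, [3576, 1889, 3463, 2358, 1241, 934]),
  (1, 90, [1175, 670, 2618, 3983, 3708, 2417]),
  (0, 89, [3014, 4056, 3938, 3290, 874, 3371]),
  (1, 89, [475, 1838, 3259, 2994, 3785, 2916]),
  (0, 89, [431, 1599, 2237, 1715, 2701, 2804]),
  (1, 90, [3375, 1151, 445, 1716, 2705, 2758]),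
  (0, 90, [2599, 2271, 1022, 3752, 2659, 2511]),
  (1, 91, [3311, 895, 3389, 1670, 2712, 2786]),
  (0, 91, [3175, 351, 1342, 3717, 2644, 2514]),
  (1, 92, [1597, 2229, 725, 1388, 1459, 1677]),
  (0, 92, [1421, 1716, 2705, 1151, 445, 1589]),
  (0, 92, [2223, 767, 2877, 1675, 2732, 2803]),
  (1, 93, [991, 3902, 3193, 1938, 3722, 2664]),
  (1, 93, [2139, 494, 1851, 2953, 3812, 2899]),
  (0, 93, [2863, 3327, 893, 1688, 2722, 2763]),
  (1, 94, [3611, 2158, 507, 2980, 3795, 2894]),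
  (0, 94, [635, 2349, 1271, 2465, 1735, 2972]),
  (1, 95, [854, 3354, 1130, 4049, 3910, 3416]),
  (0, 95, [990, 3898, 3177, 2002, 3978, 3688]),
  (1, 96, [1906, 3465, 1636, 477, 1846, 3225]),
  (0, 96, [3059, 4045, 3956, 410, 1578, 2219]),
  (0, 96, [1557, 2198, 730, 3948, 3443, 1357]),
  (1, 97, [1851, 3245, 631, 2460, 1778, 2953]),
  (0, 97, [1209, 677, 2583, 2383, 1532, 1969]),
  (1, 98, [2838, 3290, 874, 4056, 3938, 3403]),
  (0, 98, [1875, 3470, 1656, 925, 3638, 2137]),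
  (1, 99, [2739, 2765, 3060, 427, 1583, 2239]),
  (0, 99, [3166, 378, 1321, 1989, 3988, 3666]),
  (1, 100, [2383, 1532, 1969, 1209, 677, 2583]),
  (0, 100, [853, 3350, 1114, 3921, 3398, 1368]),
  (1, 101, [1303, 1182, 698, 4028, 3697, 2373]),
  (0, 101, [4028, 3697, 2373, 1303, 1182, 698]),
  (1, 102, [1609, 2468, 1747, 2157, 503, 1821]),
  (0, 102, [1846, 3225, 614, 3548, 1906, 3465]),
  (0, 102, [3795, 2894, 3576, 934, 3611, 2158]),
  (1, 103, [377, 1317, 1175, 2417, 1477, 1940]),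
  (0, 103, [1275, 941, 3639, 2446, 1784, 2977]),
  (1, 104, [923, 3630, 2171, 2963, 3790, 2936]),
  (1, 104, [2263, 990, 3898, 3978, 3688, 2403]),
  (0, 104, [2684, 2545, 1989, 1321, 1191, 671]),
  (0, 104, [697, 2597, 2263, 2403, 1487, 1980]),
  (1, 105, [3809, 2887, 3548, 614, 2331, 1262]),
  (0, 105, [1698, 2699, 2796, 751, 2879, 3325]),
  (1, 106, [3370, 1131, 431, 2804, 3025, 4038]),
  (0, 106, [3443, 1357, 1460, 437, 1557, 2198]),
  (1, 107, [1778, 2953, 3812, 494, 1851, 3245]),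
  (0, 107, [1715, 2701, 2804, 431, 1599, 2237]),
  (1, 107, [3863, 3166, 378, 3988, 3666, 2378]),
  (0, 107, [3227, 622, 2363, 2951, 3804, 2930]),
  (1, 107, [2786, 3019, 4076, 746, 2859, 3311]),
  (0, 107, [1650, 2441, 1764, 493, 1847, 3229]),
  (1, 107, [3978, 3688, 2403, 2263, 990, 3898]),
  (0, 107, [1889, 3463, 1628, 605, 2358, 1241]),
  (1, 108, [670, 2618, 2281, 2019, 3983, 3708]),
  (0, 108, [2297, 997, 3863, 2378, 1512, 1955]),
  (0, 108, [3826, 2889, 3556, 486, 1819, 3246]),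
  (1, 109, [1378, 1419, 1708, 765, 2869, 3285]),
  (1, 109, [3306, 875, 3375, 2758, 3032, 4066]),
  (0, 108, [1459, 1677, 2740, 447, 1597, 2229]),
  (1, 108, [1245, 950, 3609, 1870, 3512, 1633]),
  (0, 108, [1395, 1421, 1716, 445, 1589, 2197]),
  (1, 109, [1109, 406, 1562, 3917, 3444, 1361]),
  (0, 109, [3639, 2141, 502, 3492, 1619, 2446]),
  (1, 109, [1989, 3988, 3666, 3166, 378, 1321]),
  (0, 108, [1310, 1210, 681, 2044, 4017, 3653]),
  (1, 109, [2202, 746, 2859, 3019, 4076, 3955]),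
  (0, 109, [3506, 1609, 2468, 503, 1821, 3254]),
  (0, 109, [1837, 3255, 605, 1628, 2482, 1737]),
  (0, 109, [3398, 1368, 1442, 3317, 853, 3350]),
  (1, 109, [2722, 2763, 3052, 747, 2863, 3327]),
  (0, 109, [3783, 2908, 3570, 3238, 603, 2350]),
  (1, 110, [3553, 1863, 3484, 630, 2329, 1254]),
  (1, 110, [1357, 1460, 1681, 1149, 437, 1557]),
  (0, 110, [997, 3863, 3166, 3666, 2378, 1512]),
  (0, 110, [4076, 3955, 3405, 1558, 2202, 746]),
  (1, 111, [3238, 603, 2350, 3783, 2908, 3570]),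
  (0, 111, [1017, 3877, 3159, 2386, 1482, 1960]),
  (1, 112, [3475, 1614, 2488, 951, 3613, 2166]),
  (0, 112, [622, 2363, 1261, 1761, 2951, 3804]),
  (1, 113, [410, 1578, 2219, 3059, 4045, 3956]),
  (1, 113, [1024, 128, 512, 12, 48, 1]),
  (1, 113, [361, 1319, 1183, 2673, 2501, 2004]),
  (1, 113, [1254, 923, 3630, 3790, 2936, 3553]),
  (1, 112, [1452, 1715, 2701, 1599, 2237, 757]),
  (0, 112, [16, 2, 8, 768, 3072, 64]),
  (1, 113, [1482, 1960, 3747, 2302, 1017, 3877]),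
  (0, 113, [3877, 3159, 350, 3668, 2386, 1482]),
  (0, 113, [941, 3639, 2141, 1619, 2446, 1784]),
  (1, 114, [3630, 2171, 493, 1764, 2963, 3790]),
  (0, 114, [1747, 2958, 3832, 942, 3643, 2157]),
  (0, 112, [3897, 3173, 343, 2388, 1490, 1930]),
  (1, 113, [1141, 405, 1558, 3405, 1396, 1425]),
  (1, 111, [1940, 3730, 2634, 3871, 3198, 377]),
  (0, 111, [503, 1821, 3254, 3506, 1609, 2468]),
  (1, 112, [2403, 1487, 1980, 697, 2597, 2263]),
  (0, 112, [1628, 2482, 1737, 1837, 3255, 605]),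
  (1, 113, [2281, 999, 3871, 2634, 2536, 2019]),
  (1, 113, [3683, 2383, 1532, 677, 2583, 2270]),
  (0, 113, [3317, 853, 3350, 3398, 1368, 1442]),
  (0, 113, [2758, 3032, 4066, 3306, 875, 3375]),
  (1, 114, [747, 2863, 3327, 2722, 2763, 3052]),
  (1, 114, [630, 2329, 1254, 3553, 1863, 3484]),
  (0, 114, [2441, 1764, 2963, 2171, 493, 1847]),
  (1, 115, [2877, 3317, 853, 1368, 1442, 1675]),
  (0, 115, [1708, 2739, 2765, 1583, 2239, 765]),
  (0, 115, [2701, 2804, 3025, 1131, 431, 1599]),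
  (1, 116, [2705, 2758, 3032, 875, 3375, 1151]),
  (0, 116, [2659, 2511, 2044, 681, 2599, 2271]),
  (0, 116, [1337, 1189, 663, 2428, 1521, 1925]),
  (0, 116, [128, 512, 2048, 3, 12, 48]),
  (1, 117, [1338, 1193, 679, 2556, 2033, 3973]),
  (0, 117, [3973, 3668, 2386, 3159, 350, 1338]),
  (1, 118, [2363, 1261, 951, 2488, 1761, 2951]),
  (0, 117, [999, 3871, 3198, 3730, 2634, 2536]),
  (1, 118, [2048, 192, 768, 8, 32, 3]),
  (0, 118, [3371, 1135, 447, 2740, 2769, 3014]),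
  (1, 118, [4043, 3948, 3443, 2198, 730, 2858]),
  (1, 118, [2963, 3790, 2936, 923, 3630, 2171]),
  (0, 118, [2531, 1999, 4028, 698, 2601, 2279]),
  (0, 118, [1317, 1175, 670, 3708, 2417, 1477]),
  (1, 119, [64, 256, 1024, 1, 4, 16]),
  (1, 119, [3870, 3194, 361, 2004, 3986, 3658]),
  (0, 119, [1114, 426, 1579, 3021, 4084, 3921]),
  (1, 120, [698, 2601, 2279, 2531, 1999, 4028]),
  (0, 120, [893, 3381, 1109, 1361, 1414, 1688]),
  (1, 120, [2803, 3021, 4084, 426, 1579, 2223]),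
  (0, 120, [3722, 2664, 2531, 2279, 991, 3902]),
  (0, 119, [3177, 359, 1311, 2629, 2516, 2002]),
  (1, 119, [2270, 1018, 3881, 1994, 4008, 3683]),
  (0, 119, [1442, 1675, 2732, 767, 2877, 3317]),
  (1, 120, [1492, 1938, 3722, 3902, 3193, 357]),
  (0, 120, [2601, 2279, 991, 2664, 2531, 1999]),
  (0, 120, [3955, 3405, 1396, 405, 1558, 2202]),
  (1, 121, [603, 2350, 1275, 2977, 3783, 2908]),
  (1, 121, [3732, 2642, 2506, 3879, 3167, 382]),
  (1, 119, [2, 8, 32, 192, 768, 3072]),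
  (0, 119, [3032, 4066, 3915, 2842, 3306, 875]),
  (0, 118, [1912, 3489, 1607, 2333, 1270, 921]),
  (1, 118, [1432, 1698, 2699, 2879, 3325, 885]),
  (0, 118, [1022, 3897, 3173, 1490, 1930, 3752]),
  (0, 117, [934, 3611, 2158, 3795, 2894, 3576]),
  (0, 115, [1589, 2197, 726, 3436, 1395, 1421]),
  (1, 116, [3444, 1361, 1414, 3381, 1109, 406]),
  (0, 116, [1619, 2446, 1784, 941, 3639, 2141]),
  (1, 117, [1764, 2963, 3790, 3630, 2171, 493]),
  (0, 117, [3416, 1378, 1419, 2869, 3285, 854]),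
  (0, 116, [1670, 2712, 2786, 3311, 895, 3389]),
  (0, 116, [1183, 702, 2617, 1935, 3772, 2673]),
  (1, 116, [663, 2590, 2298, 4003, 3663, 2428]),
  (0, 116, [1193, 679, 2591, 2639, 2556, 2033]),
  (1, 117, [3804, 2930, 3529, 1830, 3227, 622]),
  (0, 117, [2166, 473, 1830, 3529, 1892, 3475]),
  (1, 118, [3325, 885, 3349, 1350, 1432, 1698]),
  (0, 118, [3198, 377, 1317, 1477, 1940, 3730]),
  (1, 119, [768, 3072, 64, 16, 2, 8]),
  (0, 119, [447, 1597, 2229, 1459, 1677, 2740]),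
  (1, 120, [2277, 983, 3870, 3658, 2408, 1507]),
  (0, 119, [12, 48, 1, 1024, 128, 512]),
  (1, 120, [2033, 3973, 3668, 350, 1338, 1193]),
  (0, 119, [2239, 765, 2869, 1419, 1708, 2739]),
  (1, 118, [3956, 3409, 1350, 3349, 1110, 410]),
  (0, 118, [681, 2599, 2271, 2659, 2511, 2044]),
  (0, 117, [1243, 942, 3643, 2958, 3832, 2913]),
  (0, 117, [2894, 3576, 1889, 1241, 934, 3611]),
  (1, 117, [426, 1579, 2223, 2803, 3021, 4084]),
  (1, 117, [2776, 3042, 4043, 2858, 3307, 879]),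
  (0, 117, [3426, 1355, 1452, 757, 2837, 3286]),
  (1, 118, [3436, 1395, 1421, 1589, 2197, 726]),
  (0, 118, [2002, 3978, 3688, 990, 3898, 3177]),
  (1, 119, [477, 1846, 3225, 1906, 3465, 1636]),
  (0, 119, [3072, 64, 256, 4, 16, 2]),
  (1, 119, [2622, 2297, 997, 1512, 1955, 3727]),
  (1, 119, [256, 1024, 128, 48, 1, 4]),
  (0, 119, [725, 2838, 3290, 3938, 3403, 1388]),
  (0, 119, [3060, 4049, 3910, 3354, 1130, 427]),
  (1, 120, [1681, 2694, 2776, 879, 3391, 1149]),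
  (1, 120, [3052, 4083, 3917, 1562, 2218, 747]),
  (1, 120, [3484, 1650, 2441, 1847, 3229, 630]),
  (1, 119, [3193, 357, 1303, 2373, 1492, 1938]),
  (0, 119, [2218, 747, 2863, 2763, 3052, 4083]),
  (1, 119, [1821, 3254, 601, 1884, 3506, 1609]),
  (0, 118, [3349, 1110, 410, 3956, 3409, 1350]),
  (0, 118, [2869, 3285, 854, 3416, 1378, 1419]),
  (1, 117, [3548, 1906, 3465, 1846, 3225, 614]),
  (1, 117, [2951, 3804, 2930, 3227, 622, 2363]),
  (0, 117, [2536, 2019, 3983, 2618, 2281, 999]),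
  (1, 118, [3, 12, 48, 128, 512, 2048]),
  (1, 117, [3173, 343, 1310, 3653, 2388, 1490]),
  (1, 117, [1131, 431, 1599, 2701, 2804, 3025]),
  (0, 116, [942, 3643, 2157, 1747, 2958, 3832]),
  (0, 116, [4049, 3910, 3416, 854, 3354, 1130]),
  (0, 116, [3688, 2403, 1487, 2597, 2263, 990]),
  (1, 117, [3225, 614, 2331, 2887, 3548, 1906]),
  (0, 117, [2219, 751, 2879, 2699, 2796, 3059]),
  (0, 117, [2889, 3556, 1875, 2137, 486, 1819]),
  (1, 118, [1419, 1708, 2739, 2239, 765, 2869]),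
  (1, 116, [1396, 1425, 1670, 3389, 1141, 405]),
  (0, 116, [3539, 1870, 3512, 950, 3609, 2150]),
  (1, 117, [2439, 1756, 2994, 3259, 621, 2359]),
  (1, 116, [2556, 2033, 3973, 1338, 1193, 679]),
  (0, 116, [2936, 3553, 1863, 2329, 1254, 923]),
  (0, 116, [1838, 3259, 621, 1756, 2994, 3785]),
  (1, 117, [950, 3609, 2150, 3539, 1870, 3512]),
  (0, 116, [3556, 1875, 3470, 3638, 2137, 486]),
  (0, 116, [885, 3349, 1110, 3409, 1350, 1432]),
  (1, 117, [3928, 3426, 1355, 2837, 3286, 858]),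
  (0, 116, [2591, 2302, 1017, 1960, 3747, 2639]),
  (1, 117, [3529, 1892, 3475, 2166, 473, 1830]),
  (0, 117, [2428, 1521, 1925, 1337, 1189, 663]),
  (1, 118, [2465, 1735, 2972, 635, 2349, 1271]),
  (1, 118, [3000, 3809, 2887, 2331, 1262, 955]),
  (0, 116, [3622, 2139, 494, 3812, 2899, 3534]),
  (0, 115, [3290, 874, 3371, 3014, 4056, 3938]),
  (0, 115, [1321, 1191, 671, 2684, 2545, 1989]),
  (1, 116, [1969, 3717, 2644, 351, 1342, 1209]),
  (0, 116, [1425, 1670, 2712, 895, 3389, 1141]),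
  (1, 115, [3653, 2388, 1490, 3173, 343, 1310]),
  (0, 112, [3492, 1619, 2446, 3639, 2141, 502]),
  (0, 112, [1863, 3484, 1650, 3229, 630, 2329]),
  (1, 112, [2342, 1243, 942, 3832, 2913, 3527]),
  (0, 112, [2298, 1001, 3879, 2506, 2024, 4003]),
  (0, 111, [1870, 3512, 1633, 1245, 950, 3609]),
  (1, 112, [1756, 2994, 3785, 1838, 3259, 621]),
  (0, 112, [1656, 2465, 1735, 2349, 1271, 925]),
  (0, 112, [925, 3638, 2137, 1875, 3470, 1656]),
  (0, 110, [1633, 2439, 1756, 621, 2359, 1245]),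
  (1, 111, [3785, 2916, 3539, 2150, 475, 1838]),
  (0, 111, [3921, 3398, 1368, 853, 3350, 1114]),
  (1, 111, [3761, 2629, 2516, 359, 1311, 1214]),
  (0, 110, [2408, 1507, 1935, 2617, 2277, 983]),
  (1, 109, [3512, 1633, 2439, 2359, 1245, 950]),
  (0, 107, [2617, 2277, 983, 2408, 1507, 1935]),
  (1, 107, [1930, 3752, 2659, 2271, 1022, 3897]),
  (1, 107, [2908, 3570, 1865, 1817, 3238, 603]),
  (1, 107, [3167, 382, 1337, 1925, 3732, 2642]),
  (0, 107, [1607, 2460, 1778, 3245, 631, 2333]),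
  (1, 106, [1784, 2977, 3783, 2350, 1275, 941]),
  (0, 106, [2501, 2004, 3986, 3194, 361, 1319]),
  (1, 106, [1521, 1925, 3732, 382, 1337, 1189]),
  (1, 106, [614, 2331, 1262, 3809, 2887, 3548]),
  (1, 106, [2804, 3025, 4038, 3370, 1131, 431]),
  (0, 105, [3259, 621, 2359, 2439, 1756, 2994]),
  (0, 104, [2482, 1737, 2980, 507, 1837, 3255]),
  (0, 104, [1210, 681, 2599, 2511, 2044, 4017]),
  (0, 103, [1477, 1940, 3730, 3198, 377, 1317]),
  (1, 101, [2837, 3286, 858, 3928, 3426, 1355]),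
  (0, 99, [2629, 2516, 2002, 3177, 359, 1311]),
  (1, 100, [3629, 2167, 477, 1636, 2451, 1742]),
  (1, 95, [3019, 4076, 3955, 2202, 746, 2859]),
  (1, 93, [2373, 1492, 1938, 3193, 357, 1303]),
  (0, 93, [3948, 3443, 1357, 1557, 2198, 730]),
  (0, 92, [1271, 925, 3638, 3470, 1656, 2465]),
  (1, 92, [493, 1847, 3229, 1650, 2441, 1764]),
  (0, 91, [2506, 2024, 4003, 2298, 1001, 3879]),
  (1, 91, [3613, 2166, 473, 1892, 3475, 1614]),
  (1, 90, [1817, 3238, 603, 2908, 3570, 1865]),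
  (0, 85, [2994, 3785, 2916, 475, 1838, 3259]),
  (0, 84, [2916, 3539, 1870, 3609, 2150, 475]),
  (0, 84, [2732, 2803, 3021, 1579, 2223, 767]),
  (0, 83, [2157, 503, 1821, 1609, 2468, 1747]),
  (0, 83, [955, 3629, 2167, 2451, 1742, 3000]),
  (1, 81, [4017, 3653, 2388, 343, 1310, 1210]),
  (1, 79, [3229, 630, 2329, 1863, 3484, 1650]),
  (0, 78, [757, 2837, 3286, 3426, 1355, 1452]),
  (0, 78, [4056, 3938, 3403, 2838, 3290, 874]),
  (1, 79, [2673, 2501, 2004, 361, 1319, 1183]),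
  (0, 76, [1960, 3747, 2639, 2591, 2302, 1017]),
  (0, 75, [921, 3622, 2139, 2899, 3534, 1912]),
  (0, 74, [3752, 2659, 2511, 2599, 2271, 1022]),
  (1, 74, [4083, 3917, 3444, 406, 1562, 2218]),
  (0, 71, [3917, 3444, 1361, 1109, 406, 1562]),
  (0, 70, [512, 2048, 192, 32, 3, 12]),
  (0, 70, [3381, 1109, 406, 3444, 1361, 1414]),
  (0, 65, [858, 3370, 1131, 3025, 4038, 3928]),
  (1, 66, [2842, 3306, 875, 3032, 4066, 3915]),
  (1, 65, [1688, 2722, 2763, 2863, 3327, 893]),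
  (1, 64, [2019, 3983, 3708, 670, 2618, 2281]),
  (0, 58, [192, 768, 3072, 2, 8, 32]),
  (0, 58, [2386, 1482, 1960, 1017, 3877, 3159]),
  (1, 55, [1414, 1688, 2722, 3327, 893, 3381]),
  (1, 50, [3245, 631, 2333, 1607, 2460, 1778]),
  (0, 45, [2980, 3795, 2894, 3611, 2158, 507]),
  (0, 42, [1830, 3227, 622, 3804, 2930, 3529]),
  (1, 41, [3255, 605, 2358, 3463, 1628, 2482]),
  (0, 32, [3915, 3436, 1395, 2197, 726, 2842]),
  (0, 29, [1578, 2219, 751, 2796, 3059, 4045]),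
  (1, 24, [1819, 3246, 635, 2972, 3826, 2889])]

/-- The map `v ↦ a • Y v`. -/
noncomputable def T (a v : ℕ) : ℕ := mv P2 6 (fp P2 6 [mv P2 6 (fp P2 6 Y) v]) a

noncomputable def gen (g : List ℕ × List (List ℕ)) : Bool :=
  and (isGen P2 6 0 mask g) (anyL [1, 2, 3] fun a =>
    leq (mapL (mv P2 6 (fp P2 6 g.1)) Y) (mapL (T a) g.1))

noncomputable def lvA (L : List (ℕ × ℕ × List ℕ)) (w : ℕ) : Bool :=
  cond (and (Nat.beq (hm P2 6 w w) 1) (Nat.beq (hm P2 6 (mv P2 6 (fp P2 6 Y) w) w) 0))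
    (anyL L fun e => Nat.beq (nth e.2.2 0 0) w) true

noncomputable def fin (L : List (ℕ × ℕ × List ℕ)) (W : List ℕ) : Bool :=
  or (inL L W) (or (inL L (mapL (mv P2 6 (fp P2 6 W)) Z))
    (inL L (mapL (mv P2 6 (fp P2 6 W)) (mapL (mv P2 6 (fp P2 6 Z)) Z))))

noncomputable def lvB (L : List (ℕ × ℕ × List ℕ)) (w : ℕ) : Bool :=
  cond (and (and (Nat.beq (hm P2 6 w 1) 0) (and (Nat.beq (hm P2 6 w 4) 0)
      (Nat.beq (hm P2 6 w 16) 0)))
    (and (Nat.beq (hm P2 6 w w) 1) (Nat.beq (hm P2 6 (mv P2 6 (fp P2 6 Y) w) w) 0)))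
    (allLt 3 fun a => fin L [1, T (a + 1) 1, T (a + 1) (T (a + 1) 1), w, T (a + 1) w,
      T (a + 1) (T (a + 1) w)]) true

lemma gen0 : gen g0 = true := by decide +kernel
lemma gen1 : gen g1 = true := by decide +kernel
lemma gen2 : gen g2 = true := by decide +kernel
lemma gen3 : gen g3 = true := by decide +kernel
lemma hL : chk P2 6 (fun a => (nth [g0, g1, g2] g3 a).1) (idm P2 6) L [] = true := by
  decide +kernel
lemma loopA : allLt 4096 (lvA L) = true := by decide +kernel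
lemma loopB : allLt 4096 (lvB L) = true := by decide +kernel

variable {F : Type*} [Field F] {θ : F}

/-- Matrices normalising the line spanned by a matrix. -/
def nrm (A : Matrix (Fin 6) (Fin 6) F) : Submonoid (Matrix (Fin 6) (Fin 6) F) where
  carrier := {M | ∃ c : F, M * A = c • (A * M)}
  mul_mem' := by
    rintro M N ⟨c, hc⟩ ⟨d, hd⟩
    exact ⟨d * c, by rw [mul_assoc, hd, mul_smul_comm, ← mul_assoc, hc, smul_mul_assoc, smul_smul,
      mul_assoc]⟩
  one_mem' := ⟨1, by simp⟩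

lemma det_of_mem {ι : Type} [Fintype ι] [DecidableEq ι] {g : GL ι F}
    (hg : g ∈ specialLinear ι F) : g.1.det = 1 := congrArg Units.val hg

lemma mat_six {P : Par} {M : Matrix (Fin 6) (Fin 6) F} {a b c d e g : ℕ}
    (h0 : vec P θ 6 a = M *ᵥ Pi.single 0 1) (h1 : vec P θ 6 b = M *ᵥ Pi.single 1 1)
    (h2 : vec P θ 6 c = M *ᵥ Pi.single 2 1) (h3 : vec P θ 6 d = M *ᵥ Pi.single 3 1)
    (h4 : vec P θ 6 e = M *ᵥ Pi.single 4 1) (h5 : vec P θ 6 g = M *ᵥ Pi.single 5 1) :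
    mat P θ 6 [a, b, c, d, e, g] = M := FC.mat_ext fun i => by
  rw [FC.mat_single]
  fin_cases i
  exacts [h0, h1, h2, h3, h4, h5]

lemma vec_T (h : FC P2 θ) (a v : ℕ) :
    vec P2 θ 6 (T a v) = sc P2 θ a • (mat P2 θ 6 Y *ᵥ vec P2 θ 6 v) := by
  rw [T, h.vec_smul, h.vec_mv le_rfl rfl]

lemma gen_spec (h : FC P2 θ) {g : List ℕ × List (List ℕ)} (hg : gen g = true) :
    g.1.length = 6 ∧ mat P2 θ 6 g.1 ∈
      ((sisom (hermForm 6 F 2)).toSubmonoid.map (Units.coeHom _) ⊓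
        (nrm (mat P2 θ 6 Y) ⊓ stab (om P2 θ 6 mask))) := by
  rw [gen, Bool.and_eq_true] at hg
  obtain ⟨h1, h2, -, h3⟩ := h.isGen_spec le_rfl hg.1
  obtain ⟨a, -, h4⟩ := anyL_spec hg.2
  refine ⟨h1, h2, ⟨sc P2 θ a, ?_⟩, h3⟩
  rw [← h.mat_mapL le_rfl h1 rfl, leq_spec h4]
  refine FC.mat_ext fun j => ?_
  have hj : (j : ℕ) < g.1.length := by rw [h1]; exact j.2
  rw [smul_mulVec, ← mulVec_mulVec, FC.mat_single, FC.mat_single, ← vec_T h, mapL_eq,
    List.getD_eq_getElem _ _ (by simpa using hj), List.getD_eq_getElem _ _ hj, List.getElem_map]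

lemma theta_facts (h : FC P2 θ) : θ * θ = 1 + θ ∧ (2 : F) = 0 ∧ θ ≠ 1 ∧ θ ≠ 0 := by
  haveI := h.char
  refine ⟨by simpa [P2] using h.sq, by simpa [P2] using CharP.cast_eq_zero F P2.p, ?_, ?_⟩
  · rintro rfl
    exact h.ne (one_pow _)
  · rintro rfl
    exact h.ne (zero_pow two_ne_zero)

lemma det_Z (h : FC P2 θ) : (mat P2 θ 6 Z).det = θ := by
  have h1 := h.det_prodL (n := 6) le_rfl [[1, 4, 16, 256, 64, 1024], [1, 4, 16, 64, 1024, 256]]
    (by
      intro x hx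
      simp only [List.mem_cons, List.not_mem_nil, or_false] at hx
      rcases hx with rfl | rfl <;> exact ⟨rfl, by decide +kernel⟩)
  have h2 : Z = mapL (mv P2 6 (fp P2 6 (prodL P2 6 [[1, 4, 16, 256, 64, 1024],
    [1, 4, 16, 64, 1024, 256]]))) [1, 4, 16, 64, 256, 2048] := by decide +kernel
  have h3 : mat P2 θ 6 [1, 4, 16, 64, 256, 2048] = diagonal ![1, 1, 1, 1, 1, θ] := by
    ext i j
    fin_cases i <;> fin_cases j <;> simp [mat, cd, dg, P2]
  rw [h2, h.mat_mapL le_rfl h1.1 rfl, det_mul, h1.2, h3, det_diagonal]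
  simp [Fin.prod_univ_succ]

lemma basis (h : FC P2 θ) (i : Fin 6) : vec P2 θ 6 (2 ^ (2 * (i : ℕ))) = Pi.single i 1 :=
  h.vec_basis i

lemma Y_single (h : FC P2 θ) : mat P2 θ 6 Y *ᵥ Pi.single 0 1 = Pi.single 1 1 ∧
    mat P2 θ 6 Y *ᵥ Pi.single 1 1 = Pi.single 2 1 ∧
    mat P2 θ 6 Y *ᵥ Pi.single 2 1 = θ • Pi.single 0 1 ∧
    mat P2 θ 6 Y *ᵥ Pi.single 3 1 = Pi.single 4 1 ∧
    mat P2 θ 6 Y *ᵥ Pi.single 4 1 = Pi.single 5 1 ∧
    mat P2 θ 6 Y *ᵥ Pi.single 5 1 = θ • Pi.single 3 1 := by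
  simp only [FC.mat_single]
  refine ⟨basis h 1, basis h 2, ?_, basis h 4, basis h 5, ?_⟩ <;>
  · funext i
    fin_cases i <;> simp [vec, cd, dg, P2, Y]

theorem mem_stab (h : FC P2 θ) {L : List (ℕ × ℕ × List ℕ)}
    (hL : chk P2 6 (fun a => (nth [g0, g1, g2] g3 a).1) (idm P2 6) L [] = true)
    (hA : allLt 4096 (lvA L) = true) (hB : allLt 4096 (lvB L) = true) {m : GL (Fin 6) F} (hm1 : m ∈ sisom (hermForm 6 F 2))
    (hm2 : m.1 ∈ nrm (mat P2 θ 6 Y)) : m.1 ∈ stab (om P2 θ 6 mask) := by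
  haveI := h.finite
  have hn : 6 ≤ 6 := le_rfl
  obtain ⟨σ, -, hs⟩ := h.exists_sq 6
  replace hs : Sq σ 1 (hermForm 6 F 2) := hs
  obtain ⟨y0, y1, -, y3, y4, -⟩ := Y_single h
  have hG' := fun a => gen_spec h (nth_mem (l := [g0, g1, g2]) (d := g3)
    (Q := fun g => gen g = true) gen3 (by
      intro x hx
      simp only [List.mem_cons, List.not_mem_nil, or_false] at hx
      rcases hx with rfl | rfl | rfl
      exacts [gen0, gen1, gen2]) a)
  have q0 : ∀ {u v : ℕ}, hermForm 6 F 2 (vec P2 θ 6 u) (vec P2 θ 6 v) = 0 →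
      Nat.beq (hm P2 6 u v) 0 = true := fun e =>
    Nat.beq_eq ▸ h.hm_eq hn (by decide) (e.trans FC.sc_zero.symm)
  have q1 : ∀ {u v : ℕ}, hermForm 6 F 2 (vec P2 θ 6 u) (vec P2 θ 6 v) = 1 →
      Nat.beq (hm P2 6 u v) 1 = true := fun e =>
    Nat.beq_eq ▸ h.hm_eq hn (by decide) (e.trans h.sc_one.symm)
  have hc0 : ∀ {m : GL (Fin 6) F} {c : F}, m.1 * mat P2 θ 6 Y = c • (mat P2 θ 6 Y * m.1) →
      c ≠ 0 := by
    rintro m c hc rfl
    have := congrArg (· *ᵥ Pi.single 0 1) hc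
    simp only [← mulVec_mulVec, y0, zero_smul, zero_mulVec, gl_mulVec_eq_zero] at this
    simpa using congrFun this 1
  have hz : ∀ {m : GL (Fin 6) F} {c : F} {i j : Fin 6}, m ∈ sisom (hermForm 6 F 2) →
      m.1 * mat P2 θ 6 Y = c • (mat P2 θ 6 Y * m.1) → j ≠ i →
      mat P2 θ 6 Y *ᵥ Pi.single i 1 = Pi.single j 1 →
      hermForm 6 F 2 (mat P2 θ 6 Y *ᵥ (m.1 *ᵥ Pi.single i 1)) (m.1 *ᵥ Pi.single i 1) = 0 := by
    intro m c i j hm hc hij e
    have h1 := mem_isom.1 hm.1 (Pi.single j 1) (Pi.single i 1)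
    rw [herm_single two_ne_zero, if_neg hij, ← e, mulVec_mulVec, hc, smul_mulVec,
      hs.sesq.smul_left, ← mulVec_mulVec] at h1
    exact (mul_eq_zero.1 h1).resolve_left (hc0 hc)
  have key : ∀ m ∈ sisom (hermForm 6 F 2), m.1 ∈ nrm (mat P2 θ 6 Y) →
      m.1 *ᵥ Pi.single 0 1 = Pi.single 0 1 → m ∈ unitsOf (stab (om P2 θ 6 mask)) := by
    rintro m hm1 ⟨c, hc⟩ hm3
    have hiso := mem_isom.1 hm1.1
    obtain ⟨a, ha, rfl⟩ := h.sc_surj c
    obtain ⟨a, rfl⟩ : ∃ b, a = b + 1 := Nat.exists_eq_succ_of_ne_zero (by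
      rintro rfl
      exact hc0 hc FC.sc_zero)
    obtain ⟨w, hw, e⟩ := h.vec_surj (m.1 *ᵥ Pi.single 3 1)
    have hT : ∀ {v : ℕ} {i j : Fin 6}, vec P2 θ 6 v = m.1 *ᵥ Pi.single i 1 →
        mat P2 θ 6 Y *ᵥ Pi.single i 1 = Pi.single j 1 →
        vec P2 θ 6 (T (a + 1) v) = m.1 *ᵥ Pi.single j 1 := fun hv hy => by
      rw [vec_T h, hv, ← hy, mulVec_mulVec, mulVec_mulVec, hc, smul_mulVec]
    have e0 : vec P2 θ 6 1 = m.1 *ᵥ Pi.single 0 1 := by rw [hm3]; exact basis h 0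
    have e1 := hT e0 y0
    have e2 := hT e1 y1
    have e4 := hT e y3
    have e5 := hT e4 y4
    have m1 : m.1 *ᵥ Pi.single 1 1 = sc P2 θ (a + 1) • Pi.single 1 1 := by
      rw [← e1, vec_T h, e0, hm3, y0]
    have m2 : m.1 *ᵥ Pi.single 2 1 = (sc P2 θ (a + 1) * sc P2 θ (a + 1)) • Pi.single 2 1 := by
      rw [← e2, vec_T h, e1, m1, mulVec_smul, y1, smul_smul]
    have hσ0 : σ (sc P2 θ (a + 1)) ≠ 0 := (map_ne_zero σ).2 (hc0 hc)
    have h1 := allLt_spec hB w hw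
    rw [lvB, q0 (by rw [e, e0, hiso, herm_single two_ne_zero, if_neg (by decide)]),
      q0 (v := 4) (by
        have := hiso (Pi.single 3 1) (Pi.single 1 1)
        rw [m1, hs.sesq.smul_right, herm_single two_ne_zero, if_neg (by decide)] at this
        rw [e, show vec P2 θ 6 4 = _ from basis h 1]
        exact (mul_eq_zero.1 this).resolve_left hσ0),
      q0 (v := 16) (by
        have := hiso (Pi.single 3 1) (Pi.single 2 1)
        rw [m2, hs.sesq.smul_right, herm_single two_ne_zero, if_neg (by decide), map_mul] at this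
        rw [e, show vec P2 θ 6 16 = _ from basis h 2]
        exact (mul_eq_zero.1 this).resolve_left (mul_ne_zero hσ0 hσ0)),
      q1 (by rw [e, hiso, herm_single two_ne_zero, if_pos rfl]),
      q0 (by rw [h.vec_mv hn rfl, e]; exact hz hm1 hc (by decide) y3), Bool.and_self,
      Bool.and_self, Bool.and_self, cond_true] at h1
    have h2 := allLt_spec h1 a (by have : a + 1 < 4 := ha; omega)
    generalize T (a + 1) 1 = x1 at e1 e2 h2
    generalize T (a + 1) x1 = x2 at e2 h2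
    generalize T (a + 1) w = x4 at e4 e5 h2
    generalize T (a + 1) x4 = x5 at e5 h2
    generalize hW : [1, x1, x2, w, x4, x5] = W at h2
    have hWl : W.length = 6 := by rw [← hW]; rfl
    have h3 : mat P2 θ 6 W = m.1 := by rw [← hW]; exact mat_six e0 e1 e2 e e4 e5
    have hd : m.1.det = 1 := det_of_mem hm1.2
    obtain ⟨t1, t2, t3, t4⟩ := theta_facts h
    rw [fin, Bool.or_eq_true, Bool.or_eq_true] at h2
    rcases h2 with h2 | h2 | h2 <;>
      obtain ⟨_, ⟨⟨u, hu1, rfl⟩, -, hu3⟩, hu4⟩ := h.inL_spec (B := idm P2 6) hn hG'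
        (tab_length _ _) hL h2
    · rw [h3, h.mat_idm, mul_one] at hu4
      change m.1 ∈ stab (om P2 θ 6 mask)
      rw [hu4]
      exact hu3
    · have hu : u.1.det = 1 := det_of_mem hu1.2
      have := congrArg det hu4
      rw [h.mat_mapL hn hWl rfl, h3, h.mat_idm, mul_one, det_mul, hd, det_Z h, one_mul] at this
      exact absurd (this.trans hu) t3
    · have hu : u.1.det = 1 := det_of_mem hu1.2
      have := congrArg det hu4
      rw [h.mat_mapL hn hWl (by rw [mapL_eq]; rfl), h.mat_mapL hn rfl rfl, h3, h.mat_idm, mul_one,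
        det_mul, det_mul, hd, det_Z h, one_mul] at this
      exact absurd (by linear_combination (this.trans hu) - t1) t4
  obtain ⟨w, hw, e⟩ := h.vec_surj (m.1 *ᵥ Pi.single 0 1)
  obtain ⟨c, hc⟩ := hm2
  have h1 := allLt_spec hA w hw
  rw [lvA, q1 (by rw [e, mem_isom.1 hm1.1, herm_single two_ne_zero, if_pos rfl]),
    q0 (by rw [h.vec_mv hn rfl, e]; exact hz hm1 hc (by decide) y0), Bool.and_self,
    cond_true] at h1
  obtain ⟨x, hx, h2⟩ := anyL_spec h1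
  obtain ⟨_, ⟨⟨u, hu1, rfl⟩, hu2, hu3⟩, hu4⟩ :=
    h.chk_spec (B := idm P2 6) hn hG' (tab_length _ _) L [] (by simp) hL x hx
  have hu5 : u.1 *ᵥ Pi.single 0 1 = m.1 *ᵥ Pi.single 0 1 := by
    rw [← e, ← Nat.eq_of_beq_eq_true h2, nth_eq]
    rw [h.mat_idm, mul_one] at hu4
    exact (hu4 ▸ FC.mat_single (P := P2) (θ := θ) x.2.2 (0 : Fin 6) :)
  have hu2' : u⁻¹ * m ∈ unitsOf (nrm (mat P2 θ 6 Y)) := mul_mem (inv_mem hu2) ⟨c, hc⟩
  have hu3' : u ∈ unitsOf (stab (om P2 θ 6 mask)) := hu3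
  have h3 := key (u⁻¹ * m) (mul_mem (inv_mem hu1) hm1) hu2' (by
    rw [Units.val_mul, ← mulVec_mulVec, ← hu5, gl_inv_mulVec])
  have h4 := mul_mem hu3' h3
  rwa [mul_inv_cancel_left] at h4

/-- Standard coordinates for an adjoint-closed field of degree three. -/
theorem standard [Fintype F] (h : FC P2 θ) {K : Subalgebra F (Matrix (Fin 6) (Fin 6) F)}
    (hK : IsFieldSubalgebra 3 K) (hA : IsAdjointClosedFor (hermForm 6 F 2) K) :
    ∃ Q ∈ isom (hermForm 6 F 2), ∀ a ∈ subalgebraNormalizer K,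
      (Q⁻¹ * a * Q).1 ∈ nrm (mat P2 θ 6 Y) := by
  classical
  obtain ⟨σ, hσ, hs⟩ := h.exists_sq 6
  replace hs : Sq σ 1 (hermForm 6 F 2) := hs
  replace hσ : ∀ x, σ x = x ^ 2 := hσ
  set f := hermForm 6 F 2 with hf
  have hse := hs.sesq
  have hσ0 : σ ≠ RingEquiv.refl F := fun e => h.ne (by rw [show P2.p = 2 from rfl, ← hσ, e]; rfl)
  obtain ⟨t1, t2, t3, t4⟩ := theta_facts h
  have t5 : θ ^ 3 = 1 := by linear_combination (θ + 1) * t1 + θ * t2
  have hF : Fintype.card F = 4 := by rw [← Nat.card_eq_fintype_card, h.card]; rfl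
  have h4 : ∀ x : F, x ^ 4 = x := fun x => by rw [← hF]; exact FiniteField.pow_card x
  obtain ⟨y, hy3, hy, hn⟩ : ∃ y : Matrix (Fin 6) (Fin 6) F, y * y * y = θ • 1 ∧
      adj σ f y * y = 1 ∧ ∀ a ∈ subalgebraNormalizer K, ∃ c : F, a.1 * y = c • (y * a.1) := by
    let _ : Field K := (isField_of_isFieldSubalgebra three_pos hK).toField
    haveI : Finite K := Module.finite_of_finite F
    haveI := Fintype.ofFinite K
    have hc : Fintype.card K = 8 ^ 2 := by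
      rw [Module.card_eq_pow_finrank (K := F), hK.finrank_eq, hF]; rfl
    set τ := adjEquiv hs hK.comm hA with hτ
    have hτ1 : τ ≠ RingEquiv.refl K := by
      intro e
      have h3 : adj σ f (θ • 1) = θ • 1 :=
        congrArg Subtype.val (RingEquiv.congr_fun e (θ • 1))
      rw [hs.adj_smul, hs.adj_one, hσ] at h3
      exact h.ne (smul_left_injective F one_ne_zero h3)
    have hτ2 := invol_eq_pow' hτ1 (fun a => Subtype.ext (hs.adj_adj a)) hc
    let t : K := θ • 1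
    have ht : t ^ 3 = 1 := by rw [smul_pow, t5, one_pow, one_smul]
    have ht2 : t * t + t + 1 = 0 := by
      rw [smul_mul_smul_comm, one_mul, ← add_smul, t1,
        show 1 + θ + θ = -1 by linear_combination (1 + θ) * t2, neg_smul, one_smul, neg_add_cancel]
    obtain ⟨g, hg⟩ := IsCyclic.exists_generator (α := Kˣ)
    have hgo : orderOf g = 63 := by
      rw [orderOf_eq_card_of_forall_mem_zpowers hg, Nat.card_units, Nat.card_eq_fintype_card, hc]
      rfl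
    have ht0 : t ≠ 0 := by rintro e; simp [e] at ht
    obtain ⟨k, hk⟩ := (mem_powers_iff_mem_zpowers.2 (hg (Units.mk0 t ht0)))
    have hk' : 63 ∣ k * 3 := by
      rw [← hgo, orderOf_dvd_iff_pow_eq_one, pow_mul]
      exact Units.ext (by rw [show g ^ k = _ from hk]; exact ht)
    obtain ⟨j, rfl⟩ : 3 ∣ k := by omega
    let y : K := (g : K) ^ j
    have hy : y ^ 3 = t := by
      rw [← pow_mul, mul_comm, ← Units.val_pow_eq_pow_val, show g ^ (3 * j) = _ from hk]; rfl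
    refine ⟨y, ?_, ?_, fun a ha => ?_⟩
    · rw [← pow_three']; exact congrArg Subtype.val hy
    · have : τ y * y = 1 := by rw [hτ2, ← pow_succ, ← ht, ← hy, ← pow_mul y]
      exact congrArg Subtype.val this
    · let z : K := ⟨cj a (y : Matrix (Fin 6) (Fin 6) F), (ha _).1 y.2⟩
      have hz : z ^ 3 = t := Subtype.ext (by
        change cj a (y : Matrix (Fin 6) (Fin 6) F) ^ 3 = θ • 1
        rw [← map_pow, show (y : Matrix (Fin 6) (Fin 6) F) ^ 3 = θ • 1 from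
          congrArg Subtype.val hy, map_smul, map_one])
      have h5 : (z - y) * ((z - t * y) * (z - t * t * y)) = 0 := by
        linear_combination hz - hy - (z ^ 2 * y - t * z * y ^ 2) * ht2 - y ^ 3 * ht
      obtain ⟨c, hc⟩ : ∃ c : F, z = c • y := by
        rcases mul_eq_zero.1 h5 with h6 | h6
        · exact ⟨1, by rw [one_smul]; exact sub_eq_zero.1 h6⟩
        rcases mul_eq_zero.1 h6 with h6 | h6
        · exact ⟨θ, by rw [sub_eq_zero.1 h6, smul_mul_assoc, one_mul]⟩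
        · exact ⟨θ * θ, by rw [sub_eq_zero.1 h6, smul_mul_smul_comm, one_mul, smul_mul_assoc,
            one_mul]⟩
      refine ⟨c, ?_⟩
      have h7 : cj a (y : Matrix (Fin 6) (Fin 6) F) = c • (y : Matrix (Fin 6) (Fin 6) F) :=
        congrArg Subtype.val hc
      rw [← smul_mul_assoc, ← h7, cj_apply, mul_assoc, gl_inv_mul, mul_one]
  have hyy : ∀ u w, f (y *ᵥ u) (y *ᵥ w) = f u w := fun u w => by
    rw [hs.adj_spec, mulVec_mulVec, hy, one_mulVec]
  have hy3' : ∀ u, y *ᵥ (y *ᵥ (y *ᵥ u)) = θ • u := fun u => by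
    rw [mulVec_mulVec, mulVec_mulVec, hy3, smul_mulVec, one_mulVec]
  have r1 : ∀ u w, f u (y *ᵥ w) * σ θ ^ 2 = f (y *ᵥ (y *ᵥ u)) w * σ θ ^ 3 := fun u w => by
    rw [← hyy u, ← hyy (y *ᵥ u), hy3', hse.smul_right]; ring
  have hσθ : σ θ ≠ 0 := (map_ne_zero σ).2 t4
  have fix : ∀ v, f v v ≠ 0 → ∃ c : F, f (v + c • y *ᵥ v) (v + c • y *ᵥ v) = 1 ∧
      f (y *ᵥ (v + c • y *ᵥ v)) (v + c • y *ᵥ v) = 0 := fun v hv => by
    have n1 : f v v = 1 := mul_left_cancel₀ hv (by rw [mul_one, ← sq, ← hσ, ← one_mul (σ _),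
      ← hs.herm])
    have n2 : f v (y *ᵥ v) = f (y *ᵥ v) v ^ 2 := by rw [hs.herm, one_mul, hσ]
    have n3 : f (y *ᵥ (y *ᵥ v)) v = θ * f (y *ᵥ v) v ^ 2 := by
      rw [← hyy, hy3', hse.smul_left, n2]
    refine ⟨θ * f (y *ᵥ v) v ^ 2, ?_, ?_⟩
    · simp only [hse.add_left, hse.add_right, hse.smul_left, hse.smul_right, hyy, n1, n2, hσ]
      generalize f (y *ᵥ v) v = b
      linear_combination (θ ^ 2 * b ^ 2 + θ ^ 3 * b ^ 2) * h4 b + b ^ 3 * (θ + 2) * t1 +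
        b ^ 3 * (1 + θ + θ) * t2
    · simp only [mulVec_add, mulVec_smul, hse.add_left, hse.add_right, hse.smul_left,
        hse.smul_right, hyy, n1, n3, hσ]
      generalize f (y *ᵥ v) v = b
      linear_combination (2 * θ ^ 2 + θ ^ 3 * (b ^ 3 + 1)) * h4 b + b * t5 + (b + θ ^ 2 * b) * t2
  have gram : ∀ u w, f (y *ᵥ u) w = 0 → f (y *ᵥ (y *ᵥ u)) w = 0 →
      f u (y *ᵥ w) = 0 ∧ f u (y *ᵥ (y *ᵥ w)) = 0 := fun u w a1 a2 => by
    refine ⟨mul_right_cancel₀ (pow_ne_zero 2 hσθ) (by rw [r1, a2, zero_mul, zero_mul]), ?_⟩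
    rw [← hyy, hy3', hse.smul_right, a1, mul_zero]
  have two : ∀ u, f (y *ᵥ u) u = 0 → f (y *ᵥ (y *ᵥ u)) u = 0 := fun u a1 => by
    rw [← hyy, hy3', hse.smul_left, hs.eq_zero_comm a1, mul_zero]
  obtain ⟨v, hv, -⟩ := exists_nonisotropic_perp hs (Or.inl hσ0) (k := 0) ![] (by simp) (by simp)
    (by simp)
  obtain ⟨c, a0, a1⟩ := fix v hv
  generalize v + c • y *ᵥ v = u at a0 a1
  have a2 := two u a1
  obtain ⟨a3, a4⟩ := gram u u a1 a2
  obtain ⟨v', hv', hp⟩ := exists_nonisotropic_perp hs (Or.inl hσ0) ![u, y *ᵥ u, y *ᵥ (y *ᵥ u)]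
    (fun i => by fin_cases i <;> simp [hyy, a0, -mulVec_mulVec])
    (fun i j hij => by fin_cases i <;> fin_cases j <;> simp [hyy, a1, a2, a3, a4, -mulVec_mulVec] at hij ⊢)
    (by simp)
  have p0 : f v' u = 0 := hp 0
  have p1 : f v' (y *ᵥ u) = 0 := hp 1
  have p2 : f v' (y *ᵥ (y *ᵥ u)) = 0 := hp 2
  have p3 : f (y *ᵥ v') u = 0 := mul_left_cancel₀ hσθ (by
    rw [← hse.smul_right, ← hy3', hyy, p2, mul_zero])
  have p4 : f (y *ᵥ (y *ᵥ v')) u = 0 :=
    mul_right_cancel₀ (pow_ne_zero 3 hσθ) (by rw [← r1, p1, zero_mul, zero_mul])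
  obtain ⟨c', b0, b1⟩ := fix v' hv'
  have c0 : f (v' + c' • y *ᵥ v') u = 0 := by simp [hse.add_left, hse.smul_left, p0, p3]
  have c1 : f (y *ᵥ (v' + c' • y *ᵥ v')) u = 0 := by
    simp [mulVec_add, mulVec_smul, hse.add_left, hse.smul_left, p3, p4, -mulVec_mulVec]
  have c2 : f (y *ᵥ (y *ᵥ (v' + c' • y *ᵥ v'))) u = 0 := by
    simp only [mulVec_add, mulVec_smul, hy3', hse.add_left, hse.smul_left, p0, p4]; simp
  generalize v' + c' • y *ᵥ v' = w at b0 b1 c0 c1 c2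
  have b2 := two w b1
  obtain ⟨b3, b4⟩ := gram w w b1 b2
  obtain ⟨c3, c4⟩ := gram w u c1 c2
  obtain ⟨Q, hQ, hQ'⟩ := exists_gu_of_orthonormal hs two_ne_zero
    ![u, y *ᵥ u, y *ᵥ (y *ᵥ u), w, y *ᵥ w, y *ᵥ (y *ᵥ w)] fun i j => by
      fin_cases i <;> fin_cases j <;>
        simp [← hf, hyy, a0, a1, a2, a3, a4, b0, b1, b2, b3, b4, c0, c1, c2, c3, c4,
          hs.eq_zero_comm c0, hs.eq_zero_comm c1, hs.eq_zero_comm c2, hs.eq_zero_comm c3,
          hs.eq_zero_comm c4, -mulVec_mulVec]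
  have hQy : y * Q.1 = Q.1 * mat P2 θ 6 Y := FC.mat_ext fun i => by
    obtain ⟨y0, y1, y2, y3, y4, y5⟩ := Y_single h
    rw [← mulVec_mulVec, ← mulVec_mulVec, hQ']
    fin_cases i
    · exact ((congrArg _ y0).trans (hQ' 1)).symm
    · exact ((congrArg _ y1).trans (hQ' 2)).symm
    · exact (hy3' u).trans ((congrArg _ y2).trans (by rw [mulVec_smul, hQ']; rfl)).symm
    · exact ((congrArg _ y3).trans (hQ' 4)).symm
    · exact ((congrArg _ y4).trans (hQ' 5)).symm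
    · exact (hy3' w).trans ((congrArg _ y5).trans (by rw [mulVec_smul, hQ']; rfl)).symm
  refine ⟨Q, hQ, fun a ha => ?_⟩
  obtain ⟨c, hc⟩ := hn a ha
  refine ⟨c, ?_⟩
  have e : mat P2 θ 6 Y * (Q⁻¹).1 = (Q⁻¹).1 * y := by
    rw [← one_mul (mat P2 θ 6 Y), ← gl_inv_mul Q, mul_assoc _ Q.1, ← hQy, mul_assoc, mul_assoc,
      gl_mul_inv, mul_one]
  rw [Units.val_mul, Units.val_mul, mul_assoc, ← hQy, mul_assoc, ← mul_assoc a.1, hc,
    smul_mul_assoc, mul_smul_comm, ← mul_assoc (mat P2 θ 6 Y), ← mul_assoc (mat P2 θ 6 Y), e]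
  simp only [mul_assoc]

theorem not_max [Fintype F] (hF : Fintype.card F = 2 ^ 2)
    {K : Subalgebra F (Matrix (Fin 6) (Fin 6) F)} (hK : IsFieldSubalgebra 3 K)
    (hA : IsAdjointClosedFor (hermForm 6 F 2) K) {H : Subgroup (GL (Fin 6) F)}
    (hH : IsMaximalIn (sisom (hermForm 6 F 2)) H) (hle : H ≤ subalgebraNormalizer K) : False := by
  obtain ⟨θ, h⟩ := exists_fc2 hF
  obtain ⟨Q, hQ, hQ'⟩ := standard h hK hA
  obtain ⟨k, hk1, hk2⟩ := h.exists_su (n := 6) le_rfl (cs := [1, 4, 1024, 64, 256, 16]) rfl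
    (by decide +kernel) (t := 2) (by decide) (by decide +kernel)
  obtain ⟨g, hg1, hg2⟩ := h.exists_su (n := 6) le_rfl (cs := [1, 4, 16, 64, 1024, 256]) rfl
    (by decide +kernel) (t := 2) (by decide) (by decide +kernel)
  refine not_max_of_cert hH Q (conj_mem_sisom hQ) (stab (om P2 θ 6 mask))
    (fun m => m ∈ nrm (mat P2 θ 6 Y)) (fun a ha => hQ' a (hle ha)) (fun m => mem_stab h hL loopA loopB)
    ⟨k, hk1, hk2 ▸ h.mem_stab le_rfl rfl (by decide +kernel), ?_⟩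
    ⟨g, hg1, hg2 ▸ h.not_mem_stab le_rfl rfl (v := 1883) (by decide) (by decide +kernel)
      (by decide +kernel)⟩
  rintro ⟨c, hc⟩
  obtain ⟨a, ha, rfl⟩ := h.sc_surj c
  have h1 := congrArg (· *ᵥ vec P2 θ 6 16) hc
  simp only [hk2, smul_mulVec, ← mulVec_mulVec] at h1
  rw [← h.vec_mv le_rfl rfl, ← h.vec_mv le_rfl rfl, ← h.vec_mv le_rfl rfl, ← vec_T h] at h1
  have h2 := h.vec_inj (h.mv_lt _ _ _) (h.mv_lt _ _ _) h1
  have h3 : allLt 4 (fun a => not (Nat.beq (mv P2 6 (fp P2 6 [1, 4, 1024, 64, 256, 16])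
      (mv P2 6 (fp P2 6 Y) 16)) (T a (mv P2 6 (fp P2 6 [1, 4, 1024, 64, 256, 16]) 16)))) = true := by
    decide +kernel
  have h4 := allLt_spec h3 a ha
  rw [h2] at h4
  simp [T] at h4

end Cfsg.Agent.H32.Cert.U62E
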