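import Cfsg.Agent.H21.DSDefs

/-! Project DS, piece PIK: the calculus of perfect isometries. -/

set_option autoImplicit false

namespace Cfsg.Agent.H32.DsPik

open Cfsg Cfsg.Agent.H17 Cfsg.Agent.H19 Cfsg.Agent.H22 Cfsg.Agent.H21.DS

universe u

variable {p : ℕ} {M : Ideal AlgInt} {G H L : Type u} [Group G] [Group H] [Group L]

theorem avg_mem [Fintype H] {f : H → ℂ} (hf : IsClassFunction H f)
    (h : ∀ y, f y / (Nat.card (Cg y) : ℂ) ∈ Vr M) : (Nat.card H : ℂ)⁻¹ * ∑ y, f y ∈ Vr M := by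
  classical
  have := Fintype.ofFinite (ConjClasses H)
  rw [← Finset.sum_fiberwise Finset.univ ConjClasses.mk f, Finset.mul_sum]
  refine sum_mem fun C _ => ?_
  obtain ⟨y, rfl⟩ := ConjClasses.mk_surjective C
  rw [Finset.sum_congr rfl (g := fun _ => f y) fun z hz => by
    obtain ⟨g, rfl⟩ := isConj_iff.1 (ConjClasses.mk_eq_mk_iff_isConj.1
      (Finset.mem_filter.1 hz).2).symm
    exact hf y g, Finset.sum_const, nsmul_eq_mul]
  have e := H13.card_isConj_mul_card_centralizer y
  have e' : (Finset.univ.filter fun z => ConjClasses.mk z = ConjClasses.mk y).card =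
      Nat.card {x : H // IsConj y x} := by
    rw [Nat.card_eq_fintype_card, Fintype.card_subtype]
    congr 1
    ext z
    simp only [Finset.mem_filter, Finset.mem_univ, true_and, ConjClasses.mk_eq_mk_iff_isConj]
    exact isConj_comm
  have h1 : (Nat.card {x : H // IsConj y x} : ℂ) ≠ 0 := by
    have : Nonempty {x : H // IsConj y x} := ⟨⟨y, IsConj.refl y⟩⟩
    exact_mod_cast Nat.card_pos.ne'
  convert h y using 1
  rw [e', ← e, Nat.cast_mul]
  field_simp

theorem ker_alg [Finite G] [Finite H] (c : Set (IrrCharacter H)) (I : IrrCharacter H → IrrCharacter G)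
    (ε : IrrCharacter H → ℤ) (x : G) (y : H) : IsAlgebraic ℚ (signedBijectionKernel c I ε x y) :=
  have := irr_finite H
  isAlgebraic_finsum_mem (Set.toFinite c) fun _ _ =>
    ((isAlgebraic_intCast' _).mul (H17.irr_isAlgebraic _ _)).mul (H17.irr_isAlgebraic _ _)

theorem perf_iff [Finite G] [Finite H] (hM : IsPModular p M) {c : Set (IrrCharacter H)}
    {I : IrrCharacter H → IrrCharacter G} {ε : IrrCharacter H → ℤ} :
    IsPerfectFun p M (signedBijectionKernel c I ε) ↔ ∀ x y,
      signedBijectionKernel c I ε x y / (Nat.card (Cg x) : ℂ) ∈ Vr M ∧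
      signedBijectionKernel c I ε x y / (Nat.card (Cg y) : ℂ) ∈ Vr M ∧
      ((IsPRegular p x ↔ IsPRegular p y) ∨ signedBijectionKernel c I ε x y = 0) := by
  refine forall₂_congr fun x y => ?_
  rw [memLocalRing_iff_of_alg hM.2.1 (isAlgebraic_div (ker_alg c I ε x y) (isAlgebraic_natCast' _)),
    memLocalRing_iff_of_alg hM.2.1 (isAlgebraic_div (ker_alg c I ε x y) (isAlgebraic_natCast' _))]

theorem ker_cl (c : Set (IrrCharacter H)) (I : IrrCharacter H → IrrCharacter G)
    (ε : IrrCharacter H → ℤ) (x g : G) (y h : H) :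
    signedBijectionKernel c I ε (g * x * g⁻¹) (h * y * h⁻¹) = signedBijectionKernel c I ε x y :=
  finsum_mem_congr rfl fun ψ _ => by rw [irr_isClassFunction, irr_isClassFunction]

theorem ker_apply [Fintype H] {c : Set (IrrCharacter H)} (I : IrrCharacter H → IrrCharacter G)
    (ε : IrrCharacter H → ℤ) {η : IrrCharacter H} (hη : η ∈ c) (x : G) :
    (Nat.card H : ℂ)⁻¹ * ∑ y, signedBijectionKernel c I ε x y * η.1 y⁻¹ = ε η * (I η).1 x := by
  classical
  have e := H16.classInner_finsum_irr c (fun ψ => ε ψ * (I ψ).1 x) η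
  rw [if_pos hη, H11.classInner_eq_sum_inv (H11.irr_isCharacter η)] at e
  exact e

theorem symm [Finite G] [Finite H] {c : Set (IrrCharacter H)} {B : Set (IrrCharacter G)}
    (h : PI p M c B) : PI p M B c := by
  obtain ⟨I, ε, h1, h2, h3⟩ := h
  have hi := h1.invOn_invFunOn
  have hb := h1.symm hi.symm
  refine ⟨Function.invFunOn I c, fun χ => ε (Function.invFunOn I c χ), hb,
    fun χ hχ => h2 _ (hb.mapsTo hχ), fun y x => ?_⟩
  have e : signedBijectionKernel B (Function.invFunOn I c) (fun χ => ε (Function.invFunOn I c χ))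
      y x = signedBijectionKernel c I ε x y :=
    (finsum_mem_eq_of_bijOn I h1 fun η hη => by simp only [hi.1 hη]; ring).symm
  rw [e]
  exact ⟨(h3 x y).2.1, (h3 x y).1, (h3 x y).2.2.imp_left Iff.symm⟩

theorem reg_inv (y : H) : IsPRegular p y⁻¹ ↔ IsPRegular p y := by
  rw [IsPRegular, IsPRegular, orderOf_inv]

theorem card_Cg_inv (y : H) : Nat.card (Cg y⁻¹) = Nat.card (Cg y) := by
  congr 2
  ext z
  rw [mem_Cg, mem_Cg]
  exact Commute.inv_right_iff

theorem trans (hM : IsPModular p M) [Finite G] [Finite H] [Finite L] {d : Set (IrrCharacter L)}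
    {c : Set (IrrCharacter H)} {B : Set (IrrCharacter G)} (h : PI p M d c) (h' : PI p M c B) :
    PI p M d B := by
  classical
  obtain ⟨I, ε, h1, h2, h3⟩ := h
  obtain ⟨J, δ, k1, k2, k3⟩ := h'
  have := Fintype.ofFinite H
  have := Fintype.ofFinite (IrrCharacter L)
  refine ⟨J ∘ I, fun η => ε η * δ (I η), k1.comp h1, fun η hη => ?_, (perf_iff hM).2 fun x z => ?_⟩
  · rcases h2 η hη with e | e <;> rcases k2 _ (h1.mapsTo hη) with e' | e' <;> simp [e, e']
  rw [perf_iff hM] at h3 k3
  have e : signedBijectionKernel d (J ∘ I) (fun η => ε η * δ (I η)) x z = (Nat.card H : ℂ)⁻¹ *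
      ∑ y, signedBijectionKernel c J δ x y * signedBijectionKernel d I ε y⁻¹ z := by
    simp only [show ∀ y, signedBijectionKernel d I ε y z = _ from fun y => finsum_mem_irr _ _,
      Finset.mul_sum]
    rw [Finset.sum_comm, signedBijectionKernel, finsum_mem_irr]
    refine Finset.sum_congr rfl fun η hη => ?_
    have := ker_apply J δ (h1.mapsTo (Finset.mem_filter.1 hη).2) x
    rw [Int.cast_mul, mul_assoc (ε η : ℂ), Function.comp_apply, ← this, Finset.mul_sum,
      Finset.mul_sum, Finset.sum_mul]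
    exact Finset.sum_congr rfl fun y _ => by ring
  have cl : ∀ a : ℂ, IsClassFunction H fun y =>
      signedBijectionKernel c J δ x y * signedBijectionKernel d I ε y⁻¹ z / a := fun a y g => by
    have e1 := ker_cl c J δ x 1 y g
    have e2 := ker_cl d I ε y⁻¹ g z 1
    simp only [one_mul, inv_one, mul_one] at e1 e2
    simp only [e1, conj_inv, e2]
  rw [e, mul_div_assoc, mul_div_assoc, Finset.sum_div, Finset.sum_div]
  refine ⟨avg_mem (cl _) fun y => ?_, avg_mem (cl _) fun y => ?_, ?_⟩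
  · convert mul_mem (k3 x y).1 (h3 y⁻¹ z).1 using 1
    rw [card_Cg_inv]
    ring
  · convert mul_mem (k3 x y).2.1 (h3 y⁻¹ z).2.1 using 1
    ring
  · by_contra hc
    push Not at hc
    refine hc.2 (by
      rw [Finset.sum_eq_zero, mul_zero]
      intro y _
      rcases (k3 x y).2.2 with e1 | e1
      · rcases (h3 y⁻¹ z).2.2 with e2 | e2
        · rw [reg_inv] at e2
          tauto
        · rw [e2, mul_zero]
      · rw [e1, zero_mul])

theorem refl_aux [Fact p.Prime] (hM : IsPModular p M) [Finite G] {B : Set (IrrCharacter G)}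
    (hB : LamClosed M B) (x y : G) :
    (∑ᶠ χ ∈ B, χ.1 x * χ.1 y) / (Nat.card (Cg x) : ℂ) ∈ Vr M ∧
      (∑ᶠ χ ∈ B, χ.1 x * χ.1 y) / (Nat.card (Cg y) : ℂ) ∈ Vr M ∧
      ((IsPRegular p x ↔ IsPRegular p y) ∨ ∑ᶠ χ ∈ B, χ.1 x * χ.1 y = 0) := by
  have sw : ∑ᶠ χ ∈ B, χ.1 x * χ.1 y = ∑ᶠ χ ∈ B, χ.1 y * χ.1 x :=
    finsum_mem_congr rfl fun _ _ => mul_comm _ _
  refine ⟨sw ▸ H16.finsum_mul_div_mem hB y x, H16.finsum_mul_div_mem hB x y, ?_⟩
  by_cases hx : p ∣ orderOf x <;> by_cases hy : p ∣ orderOf y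
  · exact Or.inl (by simp [IsPRegular, hx, hy])
  · have := H20.weak_block_orth hM hB hy (y := x⁻¹) (by rwa [orderOf_inv])
    rw [inv_inv] at this
    exact Or.inr (sw.trans this)
  · have := H20.weak_block_orth hM hB hx (y := y⁻¹) (by rwa [orderOf_inv])
    rw [inv_inv] at this
    exact Or.inr this
  · exact Or.inl (by simp [IsPRegular, hx, hy])

theorem iso [Fact p.Prime] (hM : IsPModular p M) [Finite G] [Finite H] (e : G ≃* H)
    {B : Set (IrrCharacter G)} (hB : LamClosed M B) : PI p M B (irrMap e '' B) := by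
  refine ⟨irrMap e, fun _ => 1, (irrMap e).injective.injOn.bijOn_image, fun _ _ => Or.inl rfl,
    (perf_iff hM).2 fun x y => ?_⟩
  have e1 : signedBijectionKernel B (irrMap e) (fun _ => 1) x y =
      ∑ᶠ χ ∈ B, χ.1 (e.symm x) * χ.1 y :=
    finsum_mem_congr rfl fun _ _ => by rw [Int.cast_one, one_mul, irrMap_apply]
  have e2 : Nat.card (Cg x) = Nat.card (Cg (e.symm x)) :=
    Nat.card_congr (e.symm.toEquiv.subtypeEquiv fun z => by
      rw [mem_Cg, mem_Cg]
      change _ ↔ e.symm z * _ = _ * e.symm z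
      rw [← map_mul, ← map_mul, e.symm.injective.eq_iff])
  have e3 : IsPRegular p x ↔ IsPRegular p (e.symm x) := by
    rw [IsPRegular, IsPRegular, e.symm.orderOf_eq]
  rw [e1, e2, e3]
  exact refl_aux hM hB _ _

open Classical in
theorem indFun_eq [Fintype G] (T : Subgroup G) [Fintype T] (f : T → ℂ) (x : G) :
    indFun T f x = (Nat.card T : ℂ)⁻¹ *
      ∑ t : T, if IsConj x t then f t * Nat.card (Cg x) else 0 := by
  rw [H14.indFun_apply']
  congr 1
  have e : ∀ z : G, extendByZero T f z = ∑ t : T, if z = t then f t else 0 := fun z => by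
    by_cases hz : z ∈ T
    · rw [H14.extendByZero_of_mem T f hz, Finset.sum_eq_single ⟨z, hz⟩, if_pos rfl]
      · exact fun t _ ht => if_neg fun e => ht (Subtype.ext e.symm)
      · simp
    · rw [H14.extendByZero_of_not_mem T f hz, Finset.sum_eq_zero]
      exact fun t _ => if_neg fun e : z = t => hz (e ▸ t.2)
  simp only [e]
  rw [Finset.sum_comm]
  refine Finset.sum_congr rfl fun t _ => ?_
  rw [← Finset.sum_filter, Finset.sum_const, nsmul_eq_mul, H20.card_filter_conj_eq]
  split_ifs <;> simp [mul_comm]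

theorem ind [Fact p.Prime] (hM : IsPModular p M) [Fintype G] {T : Subgroup G}
    {c : Set (IrrCharacter T)} (hc : LamClosed M c) (hi : IndInj T c) : PI p M c (indSet T c) := by
  classical
  have := Fintype.ofFinite T
  have := Fintype.ofFinite (IrrCharacter T)
  let I : IrrCharacter T → IrrCharacter G := fun ψ =>
    if h : ψ ∈ c then ⟨_, hi.irr ψ h⟩ else trivIrr G
  have hI : ∀ ψ ∈ c, (I ψ).1 = indFun T ψ.1 := fun ψ h => by simp only [I, dif_pos h]
  refine ⟨I, fun _ => 1, ⟨fun ψ h => ⟨ψ, h, hI ψ h⟩, fun ψ h ψ' h' e => hi.inj ψ h ψ' h'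
    (by rw [← hI ψ h, e, hI ψ' h']), fun χ ⟨ψ, h, e⟩ => ⟨ψ, h, Subtype.ext ((hI ψ h).trans e.symm)⟩⟩,
    fun _ _ => Or.inl rfl, (perf_iff hM).2 fun x y => ?_⟩
  have e : signedBijectionKernel c I (fun _ => 1) x y = (Nat.card T : ℂ)⁻¹ *
      ∑ t : T, if IsConj x t then (∑ᶠ ψ ∈ c, ψ.1 t * ψ.1 y) * Nat.card (Cg x) else 0 := by
    rw [← indFun_eq T (fun t => ∑ᶠ ψ ∈ c, ψ.1 t * ψ.1 y), signedBijectionKernel, finsum_mem_irr,
      show (fun t => ∑ᶠ ψ ∈ c, ψ.1 t * ψ.1 y) =
        ∑ ψ ∈ Finset.univ.filter (· ∈ c), ψ.1 y • ψ.1 from funext fun t => by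
          rw [finsum_mem_irr, Finset.sum_apply]
          exact Finset.sum_congr rfl fun _ _ => mul_comm _ _, H14.indFun_sum, Finset.sum_apply]
    refine Finset.sum_congr rfl fun ψ h => ?_
    rw [H14.indFun_smul, hI ψ (Finset.mem_filter.1 h).2, Int.cast_one, one_mul, mul_comm]
    rfl
  have cl : ∀ a : ℂ, IsClassFunction T fun t => (if IsConj x t then
      (∑ᶠ ψ ∈ c, ψ.1 t * ψ.1 y) * Nat.card (Cg x) else 0) / a := fun a t g => by
    have e1 : IsConj x ((g * t * g⁻¹ : T) : G) ↔ IsConj x t :=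
      have : IsConj (t : G) (g * t * g⁻¹ : T) := isConj_iff.2 ⟨g, rfl⟩
      ⟨fun h => h.trans this.symm, fun h => h.trans this⟩
    simp only [e1, fun ψ : IrrCharacter T => irr_isClassFunction ψ t g]
  rw [e, mul_div_assoc, mul_div_assoc, Finset.sum_div, Finset.sum_div]
  refine ⟨avg_mem (cl _) fun t => ?_, avg_mem (cl _) fun t => ?_, ?_⟩
  · split_ifs
    · rw [mul_div_cancel_right₀ _ (H11.card_ne_zero _)]
      exact (refl_aux hM hc t y).1
    · simp
  · split_ifs with h
    · obtain ⟨m, hm⟩ : Nat.card (Cg t) ∣ Nat.card (Cg x) := by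
        rw [card_Cg_isConj h]
        exact Subgroup.card_dvd_of_injective
          ((T.subtype.comp (Cg t).subtype).codRestrict (Cg (t : G))
            fun z => mem_Cg.2 (congrArg Subtype.val (mem_Cg.1 z.2)))
          fun a b e => Subtype.ext (Subtype.ext (congrArg (fun w : Cg (t : G) => (w : G)) e))
      convert mul_mem (refl_aux hM hc t y).2.1 (natCast_mem (Vr M) m) using 1
      have := H11.card_ne_zero (Cg t)
      rw [hm, Nat.cast_mul]
      field_simp
    · simp
  · by_contra hn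
    push Not at hn
    refine hn.2 (by
      rw [Finset.sum_eq_zero, mul_zero]
      intro t _
      split_ifs with h
      · rcases (refl_aux hM hc t y).2.2 with e1 | e1
        · have e2 : IsPRegular p x ↔ IsPRegular p t := by
            obtain ⟨g, hg⟩ := isConj_iff.1 h
            rw [IsPRegular, IsPRegular, ← Subgroup.orderOf_coe t, ← hg,
              show g * x * g⁻¹ = MulAut.conj g x from rfl, MulEquiv.orderOf_eq]
          tauto
        · rw [e1, zero_mul]
      · rfl)

theorem rank_le [Finite G] [Finite H] {c : Set (IrrCharacter H)} {B : Set (IrrCharacter G)}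
    (h : PI p M c B) : blockRank p B ≤ blockRank p c := by
  obtain ⟨I, ε, h1, h2, h3⟩ := h
  have := Fintype.ofFinite H
  let Φ : (H → ℂ) →ₗ[ℂ] G → ℂ :=
    { toFun := fun f x => (Nat.card H : ℂ)⁻¹ * ∑ y, signedBijectionKernel c I ε x y * f y⁻¹
      map_add' := fun f g => funext fun x => by simp [mul_add, Finset.sum_add_distrib]
      map_smul' := fun a f => funext fun x => by
        simp only [Pi.smul_apply, smul_eq_mul, RingHom.id_apply, Finset.mul_sum]
        exact Finset.sum_congr rfl fun y _ => by ring }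
  have key : ∀ η ∈ c, Φ (pRegularPart p η.1) = (ε η : ℂ) • pRegularPart p (I η).1 := by
    intro η hη
    funext x
    change (Nat.card H : ℂ)⁻¹ * ∑ y, signedBijectionKernel c I ε x y * pRegularPart p η.1 y⁻¹ =
      ε η * pRegularPart p (I η).1 x
    by_cases hx : p ∣ orderOf x
    · rw [H16.pRegularPart_of_dvd _ hx, mul_zero, Finset.sum_eq_zero, mul_zero]
      intro y _
      rcases (h3 x y).2.2 with e | e
      · rw [H16.pRegularPart_of_dvd, mul_zero]
        rw [orderOf_inv]
        exact not_not.1 fun hy => e.2 hy hx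
      · rw [e, zero_mul]
    · rw [H16.pRegularPart_of_not_dvd _ hx, ← ker_apply I ε hη]
      congr 1
      refine Finset.sum_congr rfl fun y _ => ?_
      rcases (h3 x y).2.2 with e | e
      · rw [H16.pRegularPart_of_not_dvd]
        rw [orderOf_inv]
        exact e.1 hx
      · rw [e, zero_mul, zero_mul]
  refine le_trans (Submodule.finrank_mono ?_) (Submodule.finrank_map_le Φ _)
  rw [Submodule.span_le]
  rintro _ ⟨_, hχ, rfl⟩
  obtain ⟨η, hη, rfl⟩ := h1.surjOn hχ
  refine ⟨(ε η : ℂ) • pRegularPart p η.1,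
    Submodule.smul_mem _ _ (Submodule.subset_span ⟨η, hη, rfl⟩), ?_⟩
  rw [map_smul, key η hη, smul_smul]
  rcases h2 η hη with e | e <;> simp [e]

theorem pik : PikStmt.{u} where
  symm _ _ _ _ _ _ _ _ _ _ h := symm h
  trans _ _ _ hM _ _ _ _ _ _ _ _ _ _ _ _ h h' := trans hM h h'
  iso _ _ _ hM _ _ _ _ _ _ e _ hB := iso hM e hB
  ind _ _ _ hM _ _ _ _ _ hc hi := ind hM hc hi
  rank _ _ _ _ _ _ _ _ _ _ h := ⟨let ⟨_, _, h1, _⟩ := h; Nat.card_congr h1.equiv,
    le_antisymm (rank_le (symm h)) (rank_le h)⟩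

end Cfsg.Agent.H32.DsPik
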