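import Cfsg.Agent.H30.OrthGen
import Cfsg.Agent.H30.OrthMatrix

/-!
Vanishing of first cohomology of orthogonal groups over the field of two elements whose
non-singular vectors come from a simply laced root system.
-/

set_option autoImplicit false
set_option linter.style.haveILetI false

namespace Cfsg.Agent.H32

open QuadraticMap H30
open scoped commutatorElement

variable {V : Type*} [AddCommGroup V] [Module (ZMod 2) V] {Q : QuadraticForm (ZMod 2) V}

theorem two_add_self (v : V) : v + v = 0 := by
  rw [← two_smul (ZMod 2) v, show (2 : ZMod 2) = 0 from rfl, zero_smul]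

theorem two_neg (v : V) : -v = v := neg_eq_of_add_eq_zero_left (two_add_self v)

theorem refl2 {u : V} (hu : Q u = 1) (x : V) : (refl Q u).1 x = x + polar Q x u • u := by
  rw [refl_apply, hu, inv_one, one_mul, sub_eq_add_neg, two_neg]

theorem polar_self2 (u : V) : polar Q u u = 0 := by
  rw [polar_self, two_smul]; exact two_add_self (V := ZMod 2) _

theorem rr_apply {u v : V} (hu : Q u = 1) (hv : Q v = 1) (x : V) :
    (refl Q u * refl Q v).1 x =
      x + polar Q x v • v + (polar Q x u + polar Q x v * polar Q v u) • u := by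
  change (refl Q u).1 ((refl Q v).1 x) = _
  rw [refl2 hu, refl2 hv, polar_add_left, polar_smul_left, smul_eq_mul]

theorem rr_cube {u v : V} (hu : Q u = 1) (hv : Q v = 1) (huv : polar Q u v = 1) :
    refl Q u * refl Q v * (refl Q u * refl Q v * (refl Q u * refl Q v)) = 1 := by
  have h1 := refl_conj (refl Q u) v
  have h2 := refl_conj (refl Q v) u
  rw [refl2 hu, polar_comm, huv, one_smul] at h1
  rw [refl2 hv, huv, one_smul, add_comm, ← h1] at h2
  have i1 : (refl Q u)⁻¹ = refl Q u := inv_eq_of_mul_eq_one_right (refl_mul_self Q u)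
  have i2 : (refl Q v)⁻¹ = refl Q v := inv_eq_of_mul_eq_one_right (refl_mul_self Q v)
  rw [i1, i2] at h2
  calc _ = (refl Q u * refl Q v * refl Q u) * (refl Q v * refl Q u * refl Q v) := by group
    _ = (refl Q u * refl Q v * refl Q u) * (refl Q u * refl Q v * refl Q u) := by rw [h2]
    _ = refl Q u * (refl Q v * (refl Q u * refl Q u) * refl Q v) * refl Q u := by group
    _ = 1 := by rw [refl_mul_self, mul_one, refl_mul_self, mul_one, refl_mul_self]

section Cocycle

variable {S : Subgroup (O Q)} {f : O Q → V}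
  (hf : ∀ g ∈ S, ∀ h ∈ S, f (g * h) = f g + g.1 (f h))
include hf

theorem coc_one : f 1 = 0 := by
  have := hf 1 S.one_mem 1 S.one_mem
  rw [mul_one] at this
  exact left_eq_add.1 this

theorem coc_three {u v : V} (hu : Q u = 1) (hv : Q v = 1) (huv : polar Q u v = 1)
    (hS : refl Q u * refl Q v ∈ S) :
    f (refl Q u * refl Q v) = polar Q (f (refl Q u * refl Q v)) v • u +
      polar Q (f (refl Q u * refl Q v)) u • v := by
  have h1 := coc_one hf
  rw [← rr_cube hu hv huv, hf _ hS _ (S.mul_mem hS hS), hf _ hS _ hS, map_add] at h1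
  generalize f (refl Q u * refl Q v) = x at h1 ⊢
  have hvu : polar Q v u = 1 := by rw [polar_comm, huv]
  simp only [rr_apply hu hv, polar_add_left, polar_smul_left, polar_self2, huv, hvu,
    smul_eq_mul, mul_one, mul_zero, add_zero] at h1
  generalize polar Q x u = a at h1 ⊢
  generalize polar Q x v = b at h1 ⊢
  have h2 : (2 : ZMod 2) = 0 := rfl
  have h3 : x - (b • u + a • v) = (2 : ZMod 2) • (-x - (2 * a + 3 * b) • u - (a + 2 * b) • v) := by
    rw [← sub_eq_zero, ← h1]; module
  rw [h2, zero_smul, sub_eq_zero] at h3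
  exact h3

theorem coc_two {u v : V} (hu : Q u = 1) (hv : Q v = 1) (huv : polar Q u v = 0)
    (hS : refl Q u * refl Q v ∈ S) :
    polar Q (f (refl Q u * refl Q v)) v • v + polar Q (f (refl Q u * refl Q v)) u • u = 0 := by
  have h0 := refl_conj (refl Q u) v
  rw [refl2 hu, polar_comm, huv, zero_smul, add_zero,
    inv_eq_of_mul_eq_one_right (refl_mul_self Q u)] at h0
  have h1 := coc_one hf
  have h2 : refl Q u * refl Q v * (refl Q u * refl Q v) = 1 := by
    rw [← mul_assoc, h0, refl_mul_self]
  have hvu : polar Q v u = 0 := by rw [polar_comm, huv]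
  rw [← h2, hf _ hS _ hS, rr_apply hu hv, hvu, mul_zero, add_zero, ← add_assoc, ← add_assoc,
    two_add_self, zero_add] at h1
  exact h1

end Cocycle

theorem h1_vanish [FiniteDimensional (ZMod 2) V] (hQ : (polarBilin Q).Nondegenerate)
    (hx : ¬ IsExc Q) {k : ℕ} (e d : Fin (k + 1) → V) (ht : V → ℕ) (he : ∀ i, Q (e i) = 1)
    (hd : ∀ i j, polar Q (d i) (e j) = if i = j then 1 else 0)
    (htri : ∀ i j l, polar Q (e i) (e j) = 1 → polar Q (e l) (e j) = 1 → polar Q (e i) (e l) = 0)
    (hnb : ∀ j, ∃ i, polar Q (e i) (e j) = 1)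
    (hconn : ∀ j, j = 0 ∨ ∃ i, i < j ∧ polar Q (e i) (e j) = 1)
    (horb : ∀ v, Q v = 1 → (∃ i, v = e i) ∨ ∃ i, ht (v + polar Q v (e i) • e i) < ht v)
    (f : O Q → V) (hf : ∀ g ∈ commutator (O Q), ∀ h ∈ commutator (O Q),
      f (g * h) = f g + g.1 (f h)) :
    ∃ w, ∀ g ∈ commutator (O Q), f g = g.1 w - w := by
  have ri : ∀ u, (refl Q u)⁻¹ = refl Q u := fun u => inv_eq_of_mul_eq_one_right (refl_mul_self Q u)
  have hmem : ∀ i j, polar Q (e i) (e j) = 1 → refl Q (e i) * refl Q (e j) ∈ commutator (O Q) := by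
    intro i j hij
    have h1 := rr_cube (he i) (he j) hij
    have h2 : refl Q (e i) * refl Q (e j) = ⁅refl Q (e j), refl Q (e i)⁆ := by
      rw [eq_inv_of_mul_eq_one_left h1, commutatorElement_def]
      simp only [mul_inv_rev, ri, mul_assoc]
    rw [h2]
    exact Subgroup.commutator_mem_commutator (Subgroup.mem_top _) (Subgroup.mem_top _)
  -- the coefficients
  let β : Fin (k + 1) → Fin (k + 1) → ZMod 2 := fun i j =>
    polar Q (f (refl Q (e i) * refl Q (e j))) (e i)
  have hβ : ∀ i j l, polar Q (e i) (e j) = 1 → polar Q (e l) (e j) = 1 → β i j = β l j := by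
    intro i j l hij hlj
    by_cases hil : i = l
    · rw [hil]
    have hil0 := htri i j l hij hlj
    have hjl : polar Q (e j) (e l) = 1 := by rw [polar_comm, hlj]
    have hs : refl Q (e i) * refl Q (e l) ∈ commutator (O Q) := by
      have := Subgroup.mul_mem _ (hmem i j hij) (hmem j l hjl)
      rwa [mul_assoc, ← mul_assoc (refl Q (e j)), refl_mul_self, one_mul] at this
    have h1 := congrArg (polar Q (d i)) (coc_two hf (he i) (he l) hil0 hs)
    rw [polar_add_right, polar_smul_right, polar_smul_right, hd, hd, if_neg hil, if_pos rfl,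
      polar_zero_right] at h1
    simp only [smul_eq_mul, mul_zero, mul_one, zero_add] at h1
    have h2 : refl Q (e i) * refl Q (e j) =
        refl Q (e i) * refl Q (e l) * (refl Q (e l) * refl Q (e j)) := by
      rw [mul_assoc, ← mul_assoc (refl Q (e l)), refl_mul_self, one_mul]
    change polar Q (f (refl Q (e i) * refl Q (e j))) (e i) = _
    rw [h2, hf _ hs _ (hmem l j hlj), polar_add_left, h1, zero_add, rr_apply (he i) (he l),
      polar_add_left, polar_add_left, polar_smul_left, polar_smul_left, polar_self2,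
      polar_comm Q (e l) (e i), hil0, smul_zero, smul_zero, add_zero, add_zero,
      coc_three hf (he l) (he j) hlj (hmem l j hlj), polar_add_left, polar_smul_left,
      polar_smul_left, polar_comm Q (e l) (e i), hil0, polar_comm Q (e j) (e i), hij]
    simp [β]
  have hα : ∀ i j, polar Q (e i) (e j) = 1 →
      polar Q (f (refl Q (e i) * refl Q (e j))) (e j) = β j i + β i j := by
    intro i j hij
    have hji : polar Q (e j) (e i) = 1 := by rw [polar_comm, hij]
    have h1 := coc_one hf
    have h2 : refl Q (e j) * refl Q (e i) * (refl Q (e i) * refl Q (e j)) = 1 := by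
      rw [mul_assoc, ← mul_assoc (refl Q (e i)), refl_mul_self, one_mul, refl_mul_self]
    rw [← h2, hf _ (hmem j i hji) _ (hmem i j hij)] at h1
    have h3 := congrArg (fun x => polar Q x (e j)) h1
    simp only [polar_add_left, rr_apply (he j) (he i), polar_smul_left, polar_self2, hij,
      smul_eq_mul, mul_one, mul_zero, add_zero, polar_zero_left] at h3
    have h4 : (2 : ZMod 2) = 0 := rfl
    simp only [β]
    linear_combination h3 - (polar Q (f (refl Q (e j) * refl Q (e i))) (e j) +
      polar Q (f (refl Q (e i) * refl Q (e j))) (e i)) * h4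
  choose nb hnb using hnb
  let w : V := ∑ i, β (nb i) i • d i
  have hw : ∀ j, polar Q w (e j) = β (nb j) j := by
    intro j
    change polarBilin Q w (e j) = _
    simp only [w, map_sum, map_smul, LinearMap.sum_apply, LinearMap.smul_apply,
      polarBilin_apply_apply, hd, smul_eq_mul, mul_ite, mul_one, mul_zero]
    simp
  let K : Subgroup (O Q) :=
    { carrier := {g | g ∈ commutator (O Q) ∧ f g = g.1 w - w}
      one_mem' := ⟨Subgroup.one_mem _, by rw [coc_one hf]; exact (sub_self w).symm⟩
      mul_mem' := fun {a b} ha hb => ⟨Subgroup.mul_mem _ ha.1 hb.1, by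
        rw [hf _ ha.1 _ hb.1, ha.2, hb.2, map_sub]
        change _ = a.1 (b.1 w) - w
        abel⟩
      inv_mem' := fun {a} ha => ⟨Subgroup.inv_mem _ ha.1, by
        have h1 := hf _ (Subgroup.inv_mem _ ha.1) _ ha.1
        rw [inv_mul_cancel, coc_one hf, ha.2, map_sub] at h1
        have h2 : (a⁻¹).1 (a.1 w) = w := by
          change (a⁻¹ * a).1 w = w
          rw [inv_mul_cancel]; rfl
        rw [h2] at h1
        rw [eq_neg_of_add_eq_zero_left h1.symm, neg_sub]⟩ }
  have hK : ∀ i j, polar Q (e i) (e j) = 1 → refl Q (e i) * refl Q (e j) ∈ K := by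
    intro i j hij
    have hji : polar Q (e j) (e i) = 1 := by rw [polar_comm, hij]
    refine ⟨hmem i j hij, ?_⟩
    rw [coc_three hf (he i) (he j) hij (hmem i j hij), hα i j hij, rr_apply (he i) (he j), hw, hw,
      hji, mul_one, hβ (nb j) j i (hnb j) hij, hβ (nb i) i j (hnb i) hji]
    change _ + β i j • e j = _
    abel
  have hK0 : ∀ j, refl Q (e 0) * refl Q (e j) ∈ K := by
    intro j
    induction j using WellFoundedLT.induction with
    | ind j ih =>
      rcases hconn j with rfl | ⟨i, hi, hij⟩
      · rw [refl_mul_self]; exact K.one_mem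
      · have := K.mul_mem (ih i hi) (hK i j hij)
        rwa [mul_assoc, ← mul_assoc (refl Q (e i)), refl_mul_self, one_mul] at this
  have hKv : ∀ (n : ℕ) (v : V), ht v = n → Q v = 1 → refl Q (e 0) * refl Q v ∈ K := by
    intro n
    induction n using Nat.strong_induction_on with
    | h n ih =>
      intro v hn hv
      rcases horb v hv with ⟨i, rfl⟩ | ⟨i, hi⟩
      · exact hK0 i
      · rw [← refl2 (he i)] at hi
        have h1 := ih _ (hn ▸ hi) _ rfl (by rw [(refl Q (e i)).2 v, hv])
        rw [← refl_conj, ri] at h1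
        have h2 := K.mul_mem (K.mul_mem (hK0 i) (K.inv_mem h1)) (hK0 i)
        have h3 : refl Q (e 0) * refl Q (e i) *
            (refl Q (e 0) * (refl Q (e i) * refl Q v * refl Q (e i)))⁻¹ *
            (refl Q (e 0) * refl Q (e i)) = refl Q (e 0) * (refl Q (e i) * refl Q (e i)) *
              refl Q v * (refl Q (e i) * (refl Q (e 0) * refl Q (e 0)) * refl Q (e i)) := by
          simp only [mul_inv_rev, ri, mul_assoc]
        rw [h3, refl_mul_self, refl_mul_self, mul_one, mul_one, refl_mul_self, mul_one] at h2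
        exact h2
  have hall : ∀ g : O Q, refl Q (e 0) * g ∈ K ∨ g ∈ K := by
    intro g
    induction g using refl_induction hQ hx with
    | h1 => exact Or.inr K.one_mem
    | hmul v g hv ih =>
      have hv1 : Q v = 1 := by
        generalize Q v = a at hv
        revert a; decide
      have h1 := hKv _ v rfl hv1
      rcases ih with h | h
      · right
        have := K.mul_mem (K.inv_mem h1) h
        rwa [mul_inv_rev, ri, ri, mul_assoc, ← mul_assoc (refl Q (e 0)), refl_mul_self,
          one_mul] at this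
      · left
        rw [← mul_assoc]; exact K.mul_mem h1 h
  have hidx : K.index ∣ 2 := Subgroup.index_dvd_two_iff'.2 ⟨_, hall⟩
  refine ⟨w, fun g hg => ?_⟩
  suffices h : commutator (O Q) ≤ K from (h hg).2
  rcases (Nat.dvd_prime Nat.prime_two).1 hidx with h | h
  · rw [Subgroup.index_eq_one.1 h]; exact le_top
  · rw [commutator_def, Subgroup.commutator_le]
    intro a _ b _
    simp only [commutatorElement_def, Subgroup.mul_mem_iff_of_index_two h, inv_mem_iff]
    tauto

/-- Matrix form. -/
theorem h1_vanish_mat {ι : Type} [Fintype ι] [DecidableEq ι]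
    {Q : QuadraticForm (ZMod 2) (ι → ZMod 2)}
    (H : ∀ f : O Q → ι → ZMod 2, (∀ g ∈ commutator (O Q), ∀ h ∈ commutator (O Q),
      f (g * h) = f g + g.1 (f h)) → ∃ w, ∀ g ∈ commutator (O Q), f g = g.1 w - w)
    (f : Omega (ZMod 2) ⇑Q → ι → ZMod 2)
    (hf : ∀ g h : Omega (ZMod 2) ⇑Q, f (g * h) = f g + Matrix.mulVec
      (((g : isometryGroup (ZMod 2) ⇑Q) : GL ι (ZMod 2)) : Matrix ι ι (ZMod 2)) (f h)) :
    ∃ v, ∀ g : Omega (ZMod 2) ⇑Q, f g = Matrix.mulVec
      (((g : isometryGroup (ZMod 2) ⇑Q) : GL ι (ZMod 2)) : Matrix ι ι (ZMod 2)) v - v := by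
  classical
  have hm : ∀ g, g ∈ commutator (O Q) ↔ (isoEquiv Q).symm g ∈ Omega (ZMod 2) ⇑Q := by
    intro g
    have h1 : (commutator (O Q)).map (isoEquiv Q).symm.toMonoidHom = Omega (ZMod 2) ⇑Q := by
      rw [map_commutator_eq, MonoidHom.range_eq_top.2 (isoEquiv Q).symm.surjective]; rfl
    rw [← h1]
    exact (Subgroup.mem_map_iff_mem (f := (isoEquiv Q).symm.toMonoidHom)
      (isoEquiv Q).symm.injective).symm
  obtain ⟨w, hw⟩ := H (fun g => if h : g ∈ commutator (O Q) then f ⟨_, (hm g).1 h⟩ else 0)
    (fun g hg h hh => by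
      rw [dif_pos hg, dif_pos hh, dif_pos (Subgroup.mul_mem _ hg hh), ← isoEquiv_symm_mulVec,
        ← hf ⟨_, (hm g).1 hg⟩ ⟨_, (hm h).1 hh⟩]
      congr 1
      exact Subtype.ext (map_mul _ _ _))
  refine ⟨w, fun g => ?_⟩
  have h1 : isoEquiv Q g ∈ commutator (O Q) := (hm _).2 (by simp)
  have h2 := hw _ h1
  simp only [dif_pos h1, MulEquiv.symm_apply_apply] at h2
  exact h2

end Cfsg.Agent.H32
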