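import Mathlib

/-!
The generalised dihedral group `F^3 : 2` and its representations on preprojective
Kronecker modules.
-/

set_option autoImplicit false
set_option linter.style.haveILetI false

namespace Cfsg.Agent.H32

open Matrix

/-- Pairs (sign, vector). -/
@[ext] structure KG (F : Type) where
  e : ℤˣ
  x : Fin 3 → F

variable {F : Type} [Field F]

instance : Mul (KG F) := ⟨fun g h => ⟨g.e * h.e, g.x + ((g.e : ℤ) : F) • h.x⟩⟩
instance : One (KG F) := ⟨⟨1, 0⟩⟩
instance : Inv (KG F) := ⟨fun g => ⟨g.e, -(((g.e : ℤ) : F) • g.x)⟩⟩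

theorem KG.mul_e (g h : KG F) : (g * h).e = g.e * h.e := rfl
theorem KG.mul_x (g h : KG F) : (g * h).x = g.x + ((g.e : ℤ) : F) • h.x := rfl
theorem KG.one_e : (1 : KG F).e = 1 := rfl
theorem KG.one_x : (1 : KG F).x = 0 := rfl
theorem KG.inv_e (g : KG F) : (g⁻¹).e = g.e := rfl
theorem KG.inv_x (g : KG F) : (g⁻¹).x = -(((g.e : ℤ) : F) • g.x) := rfl

instance : Group (KG F) := Group.ofLeftAxioms
  (fun a b c => by
    ext1
    · simp [KG.mul_e, mul_assoc]
    · simp [KG.mul_e, KG.mul_x, add_assoc, mul_smul])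
  (fun a => by
    ext1
    · simp [KG.mul_e, KG.one_e]
    · simp [KG.mul_x, KG.one_e, KG.one_x])
  (fun a => by
    ext1
    · simp [KG.mul_e, KG.one_e, KG.inv_e]
    · simp [KG.mul_x, KG.inv_e, KG.inv_x, KG.one_x])

def KG.equiv : KG F ≃ ℤˣ × (Fin 3 → F) :=
  ⟨fun g => (g.e, g.x), fun p => ⟨p.1, p.2⟩, fun _ => rfl, fun _ => rfl⟩

instance [Finite F] : Finite (KG F) := Finite.of_equiv _ KG.equiv.symm

theorem KG.card : Nat.card (KG F) = 2 * Nat.card F ^ 3 := by
  rw [Nat.card_congr KG.equiv, Nat.card_prod, Nat.card_fun]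
  simp

/-- The three maps. -/
def kA (a : ℕ) (x : Fin 3 → F) : Matrix (Fin (a + 1)) (Fin a) F := fun i j =>
  (if i.val = j.val then x 0 else 0) + (if i.val = j.val + 1 then x 1 else 0) +
    (if i.val = a ∧ j.val = 0 then x 2 else 0)

theorem kA_add (a : ℕ) (x y : Fin 3 → F) (c : F) : kA a (x + c • y) = kA a x + c • kA a y := by
  ext i j
  simp only [kA, Matrix.add_apply, Matrix.smul_apply, Pi.add_apply, Pi.smul_apply, smul_eq_mul]
  split_ifs <;> ring

theorem kA_zero (a : ℕ) : kA a (0 : Fin 3 → F) = 0 := by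
  ext i j; simp [kA]

def kM (a : ℕ) (g : KG F) : Matrix (Fin a ⊕ Fin (a + 1)) (Fin a ⊕ Fin (a + 1)) F :=
  fromBlocks 1 0 (kA a g.x) (((g.e : ℤ) : F) • 1)

theorem kM_mul (a : ℕ) (g h : KG F) : kM a (g * h) = kM a g * kM a h := by
  simp [kM, fromBlocks_multiply, KG.mul_e, KG.mul_x, kA_add, smul_smul, mul_comm]

theorem kM_one (a : ℕ) : kM a (1 : KG F) = 1 := by
  simp [kM, KG.one_e, KG.one_x, kA_zero]

theorem kM_det (k : ℕ) (g : KG F) : (kM (2 * k + 1) g).det = 1 := by
  rw [kM, det_fromBlocks_zero₁₂, det_one, one_mul, det_smul, det_one, mul_one, Fintype.card_fin]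
  have : 2 * k + 1 + 1 = 2 * (k + 1) := by ring
  rw [this, pow_mul]
  rcases Int.units_eq_one_or g.e with h | h <;> simp [h]

theorem mul_kA0 {m : Type} (a : ℕ) (B : Matrix m (Fin (a + 1)) F) (i : m) (j : Fin a) :
    (B * kA a (Pi.single 0 (1 : F))) i j = B i j.castSucc := by
  rw [mul_apply, Finset.sum_eq_single j.castSucc]
  · simp [kA]
  · intro b _ hb
    have : ¬ (b.val = j.val) := fun h => hb (Fin.ext h)
    simp [kA, this]
  · simp

theorem mul_kA1 {m : Type} (a : ℕ) (B : Matrix m (Fin (a + 1)) F) (i : m) (j : Fin a) :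
    (B * kA a (Pi.single 1 (1 : F))) i j = B i j.succ := by
  rw [mul_apply, Finset.sum_eq_single j.succ]
  · simp [kA]
  · intro b _ hb
    have : ¬ (b.val = j.val + 1) := fun h => hb (Fin.ext h)
    simp [kA, this]
  · simp

theorem kA0_mul (a : ℕ) (C : Matrix (Fin a) (Fin a) F) (i j : Fin a) :
    (kA a (Pi.single 0 (1 : F)) * C) i.castSucc j = C i j := by
  rw [mul_apply, Finset.sum_eq_single i]
  · simp [kA]
  · intro b _ hb
    have : ¬ (i.val = b.val) := fun h => hb (Fin.ext h.symm)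
    simp [kA, this]
  · simp

theorem kA0_mul_last (a : ℕ) (C : Matrix (Fin a) (Fin a) F) (j : Fin a) :
    (kA a (Pi.single 0 (1 : F)) * C) (Fin.last a) j = 0 := by
  rw [mul_apply]
  refine Finset.sum_eq_zero fun b _ => ?_
  have : ¬ (a = b.val) := b.2.ne'
  simp [kA, this]

theorem kA1_mul (a : ℕ) (C : Matrix (Fin a) (Fin a) F) (i j : Fin a) :
    (kA a (Pi.single 1 (1 : F)) * C) i.succ j = C i j := by
  rw [mul_apply, Finset.sum_eq_single i]
  · simp [kA]
  · intro b _ hb
    have : ¬ (i.val = b.val) := fun h => hb (Fin.ext h.symm)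
    simp [kA, this]
  · simp

theorem kA1_mul_zero (a : ℕ) (C : Matrix (Fin a) (Fin a) F) (j : Fin a) :
    (kA a (Pi.single 1 (1 : F)) * C) 0 j = 0 := by
  rw [mul_apply]
  refine Finset.sum_eq_zero fun b _ => ?_
  simp [kA]

/-- Toeplitz argument. -/
theorem toeplitz (a : ℕ) (B : Matrix (Fin (a + 1)) (Fin (a + 1)) F)
    (h1 : ∀ i j : Fin a, B i.castSucc j.castSucc = B i.succ j.succ)
    (h2 : ∀ j : Fin a, B (Fin.last a) j.castSucc = 0) (h3 : ∀ j : Fin a, B 0 j.succ = 0) :
    B = B 0 0 • (1 : Matrix _ _ F) := by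
  have step : ∀ (d i j : ℕ) (hi : i + d < a + 1) (hj : j + d < a + 1),
      B ⟨i + d, hi⟩ ⟨j + d, hj⟩ = B ⟨i, by omega⟩ ⟨j, by omega⟩ := by
    intro d
    induction d with
    | zero => intro i j _ _; rfl
    | succ d ih =>
      intro i j hi hj
      rw [← ih i j (by omega) (by omega)]
      exact (h1 ⟨i + d, by omega⟩ ⟨j + d, by omega⟩).symm
  ext ⟨i, hi⟩ ⟨j, hj⟩
  rcases lt_trichotomy i j with h | rfl | h
  · obtain ⟨c, rfl⟩ : ∃ c, j = (c + 1) + i := ⟨j - i - 1, by omega⟩
    have e1 := step i 0 (c + 1) (by omega) hj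
    have e2 := h3 ⟨c, by omega⟩
    have hne : (⟨i, hi⟩ : Fin (a + 1)) ≠ ⟨c + 1 + i, hj⟩ := fun e => by
      have := congrArg Fin.val e; simp at this
    simp only [zero_add] at e1
    rw [e1, Matrix.smul_apply, one_apply_ne hne, smul_zero]
    exact e2
  · have e1 := step i 0 0 (by omega) (by omega)
    simp only [zero_add] at e1
    rw [e1]; simp
  · have e1 := step (a - i) i j (by omega) (by omega)
    have e2 := h2 ⟨j + (a - i), by omega⟩
    have hne : (⟨i, hi⟩ : Fin (a + 1)) ≠ ⟨j, hj⟩ := fun e => by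
      have := congrArg Fin.val e; simp at this; omega
    rw [← e1, Matrix.smul_apply, one_apply_ne hne, smul_zero, ← e2]
    congr 1
    exact Fin.ext (by simp; omega)

theorem scalar_of_proj_comm (h2 : (2 : F) ≠ 0) (a : ℕ) (ha : 0 < a)
    (G : Matrix (Fin a ⊕ Fin (a + 1)) (Fin a ⊕ Fin (a + 1)) F) (hG : G.det ≠ 0)
    (hc : ∀ g : KG F, ∃ c : F, G * kM a g = c • (kM a g * G)) : ∃ r : F, G = r • 1 := by
  obtain ⟨C, D, E, B, rfl⟩ : ∃ C D E B, G = fromBlocks C D E B :=
    ⟨_, _, _, _, (fromBlocks_toBlocks G).symm⟩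
  have hrow : ¬ (C = 0 ∧ D = 0) := by
    rintro ⟨rfl, rfl⟩
    apply hG
    apply det_eq_zero_of_row_eq_zero (Sum.inl ⟨0, ha⟩)
    rintro (j | j) <;> simp
  have hu : ∀ x : Fin 3 → F, ∃ c : F, C + D * kA a x = c • C ∧
      E + B * kA a x = c • (kA a x * C + E) := by
    intro x
    obtain ⟨c, h⟩ := hc ⟨1, x⟩
    simp only [kM, fromBlocks_multiply, fromBlocks_smul, fromBlocks_inj] at h
    refine ⟨c, by simpa using h.1, by simpa using h.2.2.1⟩
  obtain ⟨c, h⟩ := hc ⟨-1, 0⟩
  simp only [kM, fromBlocks_multiply, fromBlocks_smul, fromBlocks_inj, kA_zero] at h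
  obtain ⟨hC, hD, hE, -⟩ := h
  simp only [Matrix.mul_one, Matrix.mul_zero, add_zero, Matrix.one_mul, Matrix.zero_mul,
    zero_add, Units.val_neg, Units.val_one, Int.cast_neg, Int.cast_one, Matrix.mul_smul,
    Matrix.smul_mul] at hC hD hE
  by_cases hc1 : c = 1
  · subst hc1
    have hD0 : D = 0 := by
      have : (2 : F) • D = 0 := by
        rw [two_smul]; nth_rewrite 1 [← one_smul F D, ← hD]; simp
      exact (smul_eq_zero.1 this).resolve_left h2
    have hE0 : E = 0 := by
      have : (2 : F) • E = 0 := by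
        rw [two_smul]; nth_rewrite 1 [hE]; simp
      exact (smul_eq_zero.1 this).resolve_left h2
    subst hD0 hE0
    have hC0 : C ≠ 0 := fun h => hrow ⟨h, rfl⟩
    have hx : ∀ x : Fin 3 → F, B * kA a x = kA a x * C := by
      intro x
      obtain ⟨c, h1, h3⟩ := hu x
      have : c = 1 := by
        have h4 : (c - 1) • C = 0 := by rw [sub_smul, ← h1]; simp
        exact sub_eq_zero.1 ((smul_eq_zero.1 h4).resolve_right hC0)
      subst this
      simpa using h3
    have e0 : ∀ i j : Fin a, B i.castSucc j.castSucc = C i j := fun i j => by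
      rw [← mul_kA0 a B, hx, kA0_mul]
    have hB := toeplitz a B (fun i j => by rw [e0, ← mul_kA1 a B, hx, kA1_mul])
      (fun j => by rw [← mul_kA0 a B, hx, kA0_mul_last]) (fun j => by rw [← mul_kA1 a B, hx, kA1_mul_zero])
    refine ⟨B 0 0, ?_⟩
    have hC' : C = B 0 0 • (1 : Matrix _ _ F) := by
      ext i j
      rw [← e0]
      conv_lhs => rw [hB]
      simp [one_apply]
    rw [← fromBlocks_one, fromBlocks_smul, smul_zero, smul_zero, ← hB, ← hC']
  · exfalso
    have hC0 : C = 0 := by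
      have h4 : (c - 1) • C = 0 := by rw [sub_smul, ← hC]; simp
      exact (smul_eq_zero.1 h4).resolve_left (sub_ne_zero.2 hc1)
    subst hC0
    refine hrow ⟨rfl, ?_⟩
    have hx : ∀ x : Fin 3 → F, D * kA a x = 0 := fun x => by
      obtain ⟨c, h1, -⟩ := hu x
      simpa using h1
    ext i j
    rcases Fin.eq_zero_or_eq_succ j with rfl | ⟨j, rfl⟩
    · have := mul_kA0 a D i ⟨0, ha⟩
      rw [hx] at this
      exact this.symm
    · rw [← mul_kA1 a D, hx]; rfl

theorem eq_one_of_kM_scalar (h2 : (2 : F) ≠ 0) (a : ℕ) (ha : 2 ≤ a) (g : KG F) (r : F)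
    (h : kM a g = r • 1) : g = 1 := by
  rw [← fromBlocks_one, fromBlocks_smul, kM, fromBlocks_inj] at h
  obtain ⟨h1, -, h3, h4⟩ := h
  have hr : r = 1 := by
    have := congrFun (congrFun h1 ⟨0, by omega⟩) ⟨0, by omega⟩
    simpa using this.symm
  subst hr
  ext1
  · rcases Int.units_eq_one_or g.e with h | h
    · exact h
    · exfalso
      have := congrFun (congrFun h4 0) 0
      simp [h] at this
      apply h2
      linear_combination -this
  · have e0 := congrFun (congrFun h3 ⟨0, by omega⟩) ⟨0, by omega⟩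
    have e1 := congrFun (congrFun h3 ⟨1, by omega⟩) ⟨0, by omega⟩
    have e2 := congrFun (congrFun h3 ⟨a, by omega⟩) ⟨0, by omega⟩
    have a0 : ¬ (0 = a) := by omega
    have a1 : ¬ (1 = a) := by omega
    have a0' : ¬ (a = 0) := by omega
    have a1' : ¬ (a = 1) := by omega
    simp [kA, a0, a1, a0', a1'] at e0 e1 e2
    funext i
    fin_cases i
    · exact e0
    · exact e1
    · exact e2

/-- The representation in `SL`. -/
def kSL (k : ℕ) : KG F →* Matrix.SpecialLinearGroup (Fin (2 * k + 1 + (2 * k + 1 + 1))) F where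
  toFun g := ⟨reindex finSumFinEquiv finSumFinEquiv (kM (2 * k + 1) g), by
    rw [det_reindex_self, kM_det]⟩
  map_one' := Subtype.ext (by simp [kM_one])
  map_mul' g h := Subtype.ext (by
    change reindex finSumFinEquiv finSumFinEquiv (kM (2 * k + 1) (g * h)) =
      reindex finSumFinEquiv finSumFinEquiv (kM (2 * k + 1) g) *
        reindex finSumFinEquiv finSumFinEquiv (kM (2 * k + 1) h)
    simp [kM_mul])

theorem kron_main (h2 : (2 : F) ≠ 0) (N : ℕ) : ∃ n, N ≤ n ∧
    ∃ φ : KG F →* Matrix.ProjectiveSpecialLinearGroup (Fin n) F, Function.Injective φ ∧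
      Subgroup.centralizer (φ.range : Set (Matrix.ProjectiveSpecialLinearGroup (Fin n) F)) = ⊥ := by
  refine ⟨2 * (N + 1) + 1 + (2 * (N + 1) + 1 + 1), by omega,
    (QuotientGroup.mk' _).comp (kSL (N + 1)), ?_, ?_⟩
  · rw [injective_iff_map_eq_one]
    intro g hg
    rw [MonoidHom.comp_apply, QuotientGroup.mk'_apply, QuotientGroup.eq_one_iff,
      Matrix.SpecialLinearGroup.mem_center_iff] at hg
    obtain ⟨r, -, hr⟩ := hg
    apply eq_one_of_kM_scalar h2 (2 * (N + 1) + 1) (by omega) g r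
    apply (reindex finSumFinEquiv finSumFinEquiv).injective
    have : reindex finSumFinEquiv finSumFinEquiv (kM (2 * (N + 1) + 1) g) = scalar _ r := hr.symm
    rw [this]
    simp [scalar_apply, smul_one_eq_diagonal]
  · rw [eq_bot_iff]
    intro x hx
    obtain ⟨G, rfl⟩ := QuotientGroup.mk_surjective x
    rw [Subgroup.mem_bot, QuotientGroup.eq_one_iff, Matrix.SpecialLinearGroup.mem_center_iff]
    obtain ⟨r, hr⟩ := scalar_of_proj_comm h2 (2 * (N + 1) + 1) (by omega)
      (reindex finSumFinEquiv.symm finSumFinEquiv.symm G.1) (by rw [det_reindex_self]; simp)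
      (fun g => by
        have h1 := hx _ ⟨g, rfl⟩
        rw [MonoidHom.comp_apply, QuotientGroup.mk'_apply, ← QuotientGroup.mk_mul,
          ← QuotientGroup.mk_mul, QuotientGroup.eq, Matrix.SpecialLinearGroup.mem_center_iff] at h1
        obtain ⟨c, -, hc⟩ := h1
        refine ⟨c, ?_⟩
        have h3 : (G * kSL (N + 1) g).1 = c • (kSL (N + 1) g * G).1 := by
          have h4 : (G * kSL (N + 1) g) = (kSL (N + 1) g * G) *
              ((kSL (N + 1) g * G)⁻¹ * (G * kSL (N + 1) g)) := by group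
          rw [h4, Matrix.SpecialLinearGroup.coe_mul, ← hc]
          simp [scalar_apply, ← smul_one_eq_diagonal]
        apply (reindex finSumFinEquiv finSumFinEquiv).injective
        have h5 : ∀ A B : Matrix (Fin (2 * (N + 1) + 1) ⊕ Fin (2 * (N + 1) + 1 + 1))
            (Fin (2 * (N + 1) + 1) ⊕ Fin (2 * (N + 1) + 1 + 1)) F,
            reindex finSumFinEquiv finSumFinEquiv (A * B) =
              reindex finSumFinEquiv finSumFinEquiv A * reindex finSumFinEquiv finSumFinEquiv B :=
          fun A B => by simp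
        have h6 : ∀ A : Matrix (Fin (2 * (N + 1) + 1) ⊕ Fin (2 * (N + 1) + 1 + 1))
            (Fin (2 * (N + 1) + 1) ⊕ Fin (2 * (N + 1) + 1 + 1)) F,
            reindex finSumFinEquiv finSumFinEquiv (c • A) =
              c • reindex finSumFinEquiv finSumFinEquiv A := fun A => rfl
        have h7 : reindex finSumFinEquiv finSumFinEquiv
            (reindex finSumFinEquiv.symm finSumFinEquiv.symm G.1) = G.1 := by simp
        rw [h6, h5, h5, h7]
        exact h3)
    have hG : G.1 = scalar _ r := by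
      have h7 : reindex finSumFinEquiv finSumFinEquiv
            (reindex finSumFinEquiv.symm finSumFinEquiv.symm G.1) = G.1 := by simp
      rw [← h7, hr]
      ext i j; simp [one_apply, diagonal_apply]
    refine ⟨r, ?_, hG.symm⟩
    have := G.2
    rw [hG] at this
    simpa using this

end Cfsg.Agent.H32
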