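import Mathlib

/-!
Finite lemmas on monomial 2-groups in dimension at most five.
-/

set_option autoImplicit false

namespace Cfsg.Agent.H32.L45S

open Equiv

section Idx

variable {G : Type*} [Group G] {H : Subgroup G}

@[to_additive normal_of_two]
theorem normal_of_sq (h : ∀ x, x ^ 2 ∈ H) : H.Normal := ⟨fun n hn x => by
  rw [show x * n * x⁻¹ = (x * n) ^ 2 * n⁻¹ * x⁻¹ ^ 2 by simp only [sq]; group]
  exact mul_mem (mul_mem (h _) (inv_mem hn)) (h _)⟩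

theorem exists_new {Q : Type*} {k : ℕ} (h : k < Nat.card Q) (l : List Q) (hl : l.length ≤ k) :
    ∃ x, x ∉ l := by
  classical
  haveI : Finite Q := Nat.finite_of_card_ne_zero (by omega)
  haveI := Fintype.ofFinite Q
  obtain ⟨x, -, hx⟩ := Finset.exists_mem_notMem_of_card_lt_card (s := l.toFinset) (t := Finset.univ)
    (by rw [Finset.card_univ, ← Nat.card_eq_fintype_card]; exact (l.toFinset_card_le.trans hl).trans_lt h)
  exact ⟨x, by simpa using hx⟩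

theorem eq_inv' (a b : G) : b = a⁻¹ ↔ a * b = 1 := eq_comm.trans inv_eq_iff_mul_eq_one

theorem exists_two (h : ∀ x, x ^ 2 ∈ H) (hi : 2 < H.index) :
    ∃ s t, s ∉ H ∧ t ∉ H ∧ s * t ∉ H := by
  haveI := normal_of_sq h
  obtain ⟨s, hs⟩ := exists_new (k := 2) hi [(1 : G ⧸ H)] (by simp)
  obtain ⟨t, ht⟩ := exists_new (k := 2) hi [(1 : G ⧸ H), s⁻¹] (by simp)
  obtain ⟨s, rfl⟩ := QuotientGroup.mk_surjective s
  obtain ⟨t, rfl⟩ := QuotientGroup.mk_surjective t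
  simp only [List.mem_cons, List.not_mem_nil, or_false, not_or, eq_inv',
    ← QuotientGroup.mk_mul, QuotientGroup.eq_one_iff] at hs ht
  exact ⟨s, t, hs, ht.1, ht.2⟩

theorem exists_three (h : ∀ x, x ^ 2 ∈ H) (hi : 4 < H.index) :
    ∃ s t u, s ∉ H ∧ t ∉ H ∧ s * t ∉ H ∧ u ∉ H ∧ s * u ∉ H ∧ t * u ∉ H ∧ s * t * u ∉ H := by
  haveI := normal_of_sq h
  obtain ⟨s, t, h1, h2, h3⟩ := exists_two h (by omega)
  obtain ⟨u, hu⟩ := exists_new (k := 4) hi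
    [(1 : G ⧸ H), (s : G ⧸ H)⁻¹, (t : G ⧸ H)⁻¹, ((s * t : G) : G ⧸ H)⁻¹] (by simp)
  obtain ⟨u, rfl⟩ := QuotientGroup.mk_surjective u
  simp only [List.mem_cons, List.not_mem_nil, or_false, not_or, eq_inv',
    ← QuotientGroup.mk_mul, QuotientGroup.eq_one_iff] at hu
  exact ⟨s, t, u, h1, h2, h3, hu⟩

@[to_additive add_mem_of_index_lt]
theorem mem_of_index_lt (h : ∀ x, x ^ 2 ∈ H) (h0 : H.index ≠ 0) (hi : H.index < 4) (x y : G) :
    x ∈ H ∨ y ∈ H ∨ x * y ∈ H := by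
  classical
  haveI := normal_of_sq h
  haveI : Finite (G ⧸ H) := Nat.finite_of_card_ne_zero h0
  haveI := Fintype.ofFinite (G ⧸ H)
  by_contra a
  simp only [not_or, ← QuotientGroup.eq_one_iff, QuotientGroup.mk_mul] at a
  have b : ∀ x : G, (x : G ⧸ H) * x = 1 := fun x => by
    rw [← QuotientGroup.mk_mul, QuotientGroup.eq_one_iff, ← sq]; exact h x
  have c : (x : G ⧸ H) ≠ y := fun e => a.2.2 (e ▸ b x)
  have := List.Nodup.length_le_card (l := [1, (x : G ⧸ H), y, x * y]) (by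
    simp [a, c, Ne.symm a.1, Ne.symm a.2.1, Ne.symm a.2.2])
  rw [← Nat.card_eq_fintype_card] at this
  exact absurd hi (not_lt.2 this)

end Idx

/-- The dihedral group of order eight on the first four points. -/
def d8 : Fin 8 → Perm (Fin 5) :=
  ![1, swap 0 1, swap 2 3, swap 0 1 * swap 2 3, swap 0 2 * swap 1 3, swap 0 3 * swap 1 2,
    swap 0 2 * swap 1 3 * swap 0 1, swap 0 2 * swap 1 3 * swap 2 3]

theorem d8_mul : ∀ a b : Fin 8, ∃ c, d8 c = d8 a * d8 b := by decide +kernel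

theorem d8_inv : ∀ a : Fin 8, ∃ c, d8 c = (d8 a)⁻¹ := by decide +kernel

theorem d8_inj : Function.Injective d8 := by decide +kernel

theorem d8_three : ∀ a b c : Fin 8, ∃ x ∈ [d8 a, d8 b, d8 a * d8 b, d8 c, d8 a * d8 c, d8 b * d8 c,
    d8 a * d8 b * d8 c], ∃ y ∈ [1, d8 a, d8 b, d8 c, d8 a * d8 b, d8 a * d8 c, d8 b * d8 c],
      x = y ^ 2 := by decide +kernel

theorem d8_two : ∀ a b : Fin 8, (∃ x ∈ [d8 a, d8 b, d8 a * d8 b],
    ∃ y ∈ [1, d8 a, d8 b, d8 a * d8 b], x = y ^ 2) ∨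
    (∀ w ∈ [d8 3, d8 4], ∃ x ∈ [1, d8 a, d8 b, d8 a * d8 b],
      ∃ y ∈ [1, d8 a, d8 b, d8 a * d8 b], w = x * y ^ 2) ∨
    (∀ w ∈ [d8 1, d8 2], w ∈ [d8 a, d8 b, d8 a * d8 b]) := by decide +kernel

theorem exists_d8 {T : Subgroup (Perm (Fin 5))} (h : IsPGroup 2 T) :
    ∃ g : Perm (Fin 5), ∀ t ∈ T, ∃ a, t = g * d8 a * g⁻¹ := by
  let D : Subgroup (Perm (Fin 5)) :=
    { carrier := Set.range d8
      mul_mem' := by rintro _ _ ⟨a, rfl⟩ ⟨b, rfl⟩; exact d8_mul a b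
      one_mem' := ⟨0, rfl⟩
      inv_mem' := by rintro _ ⟨a, rfl⟩; exact d8_inv a }
  have hD : Nat.card D = 2 ^ (Nat.card (Perm (Fin 5))).factorization 2 := by
    rw [Nat.card_perm, Nat.card_fin, show Nat.card D = Nat.card (Fin 8) from
      (Nat.card_range_of_injective d8_inj), Nat.card_fin]
    decide +kernel
  obtain ⟨Q, hQ⟩ := h.exists_le_sylow
  obtain ⟨g, rfl⟩ := MulAction.exists_smul_eq (Perm (Fin 5)) (Sylow.ofCard D hD) Q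
  refine ⟨g, fun t ht => ?_⟩
  obtain ⟨_, ⟨a, rfl⟩, rfl⟩ := hQ ht
  exact ⟨a, rfl⟩

theorem exists_conj {G : Type*} [Group G] (σ : G →* Perm (Fin 5))
    (h : ∀ x, ∃ k, σ x ^ 2 ^ k = 1) : ∃ g : Perm (Fin 5), ∀ x, ∃ a, σ x = g * d8 a * g⁻¹ := by
  obtain ⟨g, hg⟩ := exists_d8 (T := σ.range) fun ⟨_, x, rfl⟩ => (h x).imp fun _ e => Subtype.ext e
  exact ⟨g, fun x => hg _ ⟨x, rfl⟩⟩

section Tau

variable {G : Type*} [Group G] {H : Subgroup G} {σ : G →* Perm (Fin 5)} {g : Perm (Fin 5)}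

theorem mem_of_sq (hk : σ.ker ≤ H) (h : ∀ x, x ^ 2 ∈ H) {x y : G} (e : σ x = σ y ^ 2) : x ∈ H := by
  have : x * (y ^ 2)⁻¹ ∈ H := hk (by simp [MonoidHom.mem_ker, e])
  exact (mul_mem_cancel_right (inv_mem (h y))).1 this

theorem index_le_four (hk : σ.ker ≤ H) (h : ∀ x, x ^ 2 ∈ H)
    (hg : ∀ x, ∃ a, σ x = g * d8 a * g⁻¹) : H.index ≤ 4 := by
  by_contra hi
  obtain ⟨s, t, u, h1, h2, h3, h4, h5, h6, h7⟩ := exists_three h (not_le.1 hi)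
  let τ : G →* Perm (Fin 5) := (MulAut.conj g⁻¹).toMonoidHom.comp σ
  have hτ : ∀ x, ∃ a, d8 a = τ x := fun x => (hg x).imp fun a e => by simp [τ, e, mul_assoc]
  have hk' : τ.ker ≤ H := fun x hx => hk (by simpa [τ, MonoidHom.mem_ker] using hx)
  obtain ⟨a, ha⟩ := hτ s
  obtain ⟨b, hb⟩ := hτ t
  obtain ⟨c, hc⟩ := hτ u
  have := d8_three a b c
  simp only [ha, hb, hc, ← map_mul, ← map_one τ, List.mem_cons, List.not_mem_nil, or_false] at this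
  obtain ⟨x, hx, y, hy, e⟩ := this
  obtain ⟨y, rfl⟩ : ∃ z, y = τ z := by rcases hy with e | e | e | e | e | e | e <;> exact ⟨_, e⟩
  rcases hx with rfl | rfl | rfl | rfl | rfl | rfl | rfl <;> exact absurd (mem_of_sq hk' h e) ‹_›

theorem pattern (hk : σ.ker ≤ H) (h : ∀ x, x ^ 2 ∈ H)
    (hg : ∀ x, ∃ a, σ x = g * d8 a * g⁻¹) (hi : 2 < H.index) :
    ∃ s t, (σ s = g * d8 3 * g⁻¹ ∧ σ t = g * d8 4 * g⁻¹) ∨
      (σ s = g * d8 1 * g⁻¹ ∧ σ t = g * d8 2 * g⁻¹) := by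
  obtain ⟨s, t, h1, h2, h3⟩ := exists_two h hi
  let τ : G →* Perm (Fin 5) := (MulAut.conj g⁻¹).toMonoidHom.comp σ
  have hτ : ∀ x, ∃ a, d8 a = τ x := fun x => (hg x).imp fun a e => by simp [τ, e, mul_assoc]
  have hk' : τ.ker ≤ H := fun x hx => hk (by simpa [τ, MonoidHom.mem_ker] using hx)
  have back : ∀ {x a}, d8 a = τ x → σ x = g * d8 a * g⁻¹ := fun e => by simp [τ, e, mul_assoc]
  obtain ⟨a, ha⟩ := hτ s
  obtain ⟨b, hb⟩ := hτ t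
  have := d8_two a b
  simp only [ha, hb, ← map_mul, ← map_one τ, List.mem_cons, List.not_mem_nil, or_false,
    forall_eq_or_imp, forall_eq] at this
  have k : ∀ {y}, y = τ 1 ∨ y = τ s ∨ y = τ t ∨ y = τ (s * t) → ∃ z, y = τ z := fun hy => by
    rcases hy with e | e | e | e <;> exact ⟨_, e⟩
  rcases this with ⟨x, hx, y, hy, e⟩ | ⟨⟨x, hx, y, hy, e⟩, x', hx', y', hy', e'⟩ | ⟨e, e'⟩
  · obtain ⟨y, rfl⟩ := k hy
    rcases hx with rfl | rfl | rfl <;> exact absurd (mem_of_sq hk' h e) ‹_›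
  · obtain ⟨x, rfl⟩ := k hx
    obtain ⟨y, rfl⟩ := k hy
    obtain ⟨x', rfl⟩ := k hx'
    obtain ⟨y', rfl⟩ := k hy'
    rw [← map_pow, ← map_mul] at e e'
    exact ⟨_, _, Or.inl ⟨back e, back e'⟩⟩
  · obtain ⟨x, e⟩ := k (Or.inr e)
    obtain ⟨y, e'⟩ := k (Or.inr e')
    exact ⟨_, _, Or.inr ⟨back e, back e'⟩⟩

end Tau

/-- Exponent vectors of the diagonal elements of order dividing four. -/
structure Dat {n : ℕ} (A : AddSubgroup (Fin n → ZMod 4)) : Prop where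
  one : (fun _ => 1) ∈ A
  noH : ∀ j, Pi.single j 1 ∉ A
  noI : ∀ j k, j ≠ k → Pi.single j 1 + Pi.single k 1 ∈ A → Pi.single j 2 ∉ A
  two : ∀ x y, 2 • x = 0 → 2 • y = 0 → x ∈ A ∨ y ∈ A ∨ x + y ∈ A

/-- `u` acts, and commutators are squares. -/
def Act {n : ℕ} (A : AddSubgroup (Fin n → ZMod 4)) (u : Perm (Fin n)) : Prop :=
  ∀ a ∈ A, a ∘ u ∈ A ∧ (2 • (a ∘ u - a) = 0 → ∃ b ∈ A, 2 • b = a ∘ u - a)

variable {A : AddSubgroup (Fin 5 → ZMod 4)}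

/-- `x` is congruent to `b` modulo four vectors. -/
def Cg (p q r s b x : Fin 5 → ZMod 4) : Prop :=
  ∃ c d e f : Fin 2, x = b + c.val • p + d.val • q + e.val • r + f.val • s

instance (p q r s b x : Fin 5 → ZMod 4) : Decidable (Cg p q r s b x) := by
  unfold Cg; infer_instance

theorem Cg.mem {p q r s b x : Fin 5 → ZMod 4} (hp : p ∈ A) (hq : q ∈ A) (hr : r ∈ A) (hs : s ∈ A)
    (hb : b ∈ A) (h : Cg p q r s b x) : x ∈ A := by
  obtain ⟨c, d, e, f, rfl⟩ := h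
  exact add_mem (add_mem (add_mem (add_mem hb (nsmul_mem hp _)) (nsmul_mem hq _)) (nsmul_mem hr _))
    (nsmul_mem hs _)

theorem Dat.not4 (h : Dat A) : ![1, 1, 1, 1, 0] ∉ A := fun a =>
  h.noH 4 (by convert sub_mem h.one a using 1; decide)

theorem Dat.pair (h : Dat A) {u : Perm (Fin 5)} (hu : Act A u) {x : Fin 5 → ZMod 4}
    (hx : 2 • x = 0) (e : x ∘ u ∘ u = x) : x + x ∘ u ∈ A := by
  rcases h.two x (x ∘ u) hx (congrArg (· ∘ u) hx) with a | a | a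
  · exact add_mem a (hu x a).1
  · exact add_mem (e ▸ (hu _ a).1) a
  · exact a

theorem Dat.last (h : Dat A) (h1 : ![2, 2, 0, 0, 0] ∈ A) (h2 : ![0, 0, 2, 2, 0] ∈ A) :
    ![0, 0, 0, 0, 2] ∈ A := by
  convert add_mem (add_mem (add_mem h.one h.one) h1) h2 using 1; decide

theorem Dat.v4 (h : Dat A) (hu : Act A (d8 3)) (hv : Act A (d8 4)) : False := by
  have p : ![2, 2, 0, 0, 0] ∈ A := by
    convert h.pair hu (x := ![2, 0, 0, 0, 0]) (by decide) (by decide) using 1; decide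
  have q : ![0, 0, 2, 2, 0] ∈ A := by
    convert h.pair hu (x := ![0, 0, 2, 0, 0]) (by decide) (by decide) using 1; decide
  have r : ![2, 0, 2, 0, 0] ∈ A := by
    convert h.pair hv (x := ![2, 0, 0, 0, 0]) (by decide) (by decide) using 1; decide
  have m := fun {b x} => @Cg.mem A _ _ _ _ b x p q r (h.last p q)
  obtain ⟨b, hb, e⟩ := (hu _ (add_mem r (h.last p q))).2 (by decide)
  have : ∀ b : Fin 5 → ZMod 4, 2 • b = (![2, 0, 2, 0, 0] + ![0, 0, 0, 0, 2]) ∘ d8 3 -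
      (![2, 0, 2, 0, 0] + ![0, 0, 0, 0, 2]) → Cg ![2, 2, 0, 0, 0] ![0, 0, 2, 2, 0] ![2, 0, 2, 0, 0]
        ![0, 0, 0, 0, 2] b ![1, 1, 1, 1, 0] ∨ Cg ![2, 2, 0, 0, 0] ![0, 0, 2, 2, 0] ![2, 0, 2, 0, 0]
        ![0, 0, 0, 0, 2] b ![1, 1, 1, 3, 0] := by decide +kernel
  rcases this b e with a | a
  · exact h.not4 (m hb a)
  obtain ⟨c, hc, e'⟩ := (hu _ (m hb a)).2 (by decide)
  have : ∀ c : Fin 5 → ZMod 4, 2 • c = ![1, 1, 1, 3, 0] ∘ d8 3 - ![1, 1, 1, 3, 0] →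
      Cg ![2, 2, 0, 0, 0] ![0, 0, 2, 2, 0] ![2, 0, 2, 0, 0] ![0, 0, 0, 0, 2] (c ∘ d8 4 - c)
        ![1, 1, 1, 1, 0] := by decide +kernel
  exact h.not4 (m (sub_mem (hv c hc).1 hc) (this c e'))

/-- All sign patterns outside `j, k` occur. -/
def Sgn {n : ℕ} (A : AddSubgroup (Fin n → ZMod 4)) (j k : Fin n) : Prop :=
  ∀ ε : Fin n → ZMod 4, 2 • ε = 0 → ∃ x ∈ A, 2 • x = 0 ∧ ∀ l, l ≠ j → l ≠ k → x l = ε l

theorem sgn_of {p q r : Fin 5 → ZMod 4} {j k : Fin 5} (hp : p ∈ A) (hq : q ∈ A) (hr : r ∈ A)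
    (h : ∀ ε : Fin 5 → ZMod 4, 2 • ε = 0 → ∃ c d e : Fin 2,
      2 • (c.val • p + d.val • q + e.val • r) = 0 ∧
        ∀ l, l ≠ j → l ≠ k → (c.val • p + d.val • q + e.val • r) l = ε l) : Sgn A j k := by
  intro ε hε
  obtain ⟨c, d, e, h1⟩ := h ε hε
  exact ⟨_, add_mem (add_mem (nsmul_mem hp _) (nsmul_mem hq _)) (nsmul_mem hr _), h1⟩

theorem Dat.tr (h : Dat A) (hu : Act A (d8 1)) (hv : Act A (d8 2)) :
    (![1, 1, 0, 0, 0] ∈ A ∧ Sgn A 0 1) ∨ (![0, 0, 1, 1, 0] ∈ A ∧ Sgn A 2 3) := by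
  have p : ![2, 2, 0, 0, 0] ∈ A := by
    convert h.pair hu (x := ![2, 0, 0, 0, 0]) (by decide) (by decide) using 1; decide
  have q : ![0, 0, 2, 2, 0] ∈ A := by
    convert h.pair hv (x := ![0, 0, 2, 0, 0]) (by decide) (by decide) using 1; decide
  have s := h.last p q
  rcases h.two ![2, 0, 0, 0, 0] ![0, 0, 2, 0, 0] (by decide) (by decide) with r | r | r
  · have m := fun {b x} => @Cg.mem A _ _ _ _ b x p q r s
    obtain ⟨b, hb, e⟩ := (hu _ r).2 (by decide)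
    have : ∀ b : Fin 5 → ZMod 4, 2 • b = ![2, 0, 0, 0, 0] ∘ d8 1 - ![2, 0, 0, 0, 0] →
        Cg ![2, 2, 0, 0, 0] ![0, 0, 2, 2, 0] ![2, 0, 0, 0, 0] ![0, 0, 0, 0, 2] b ![1, 1, 0, 0, 0] ∨
        Cg ![2, 2, 0, 0, 0] ![0, 0, 2, 2, 0] ![2, 0, 0, 0, 0] ![0, 0, 0, 0, 2] b
          ![1, 1, 0, 2, 0] := by decide +kernel
    rcases this b e with a | a
    · exact absurd (by convert r using 1; decide) (h.noI 0 1 (by decide)
        (by convert m hb a using 1; decide))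
    obtain ⟨c, hc, e'⟩ := (hv _ (m hb a)).2 (by decide)
    have : ∀ c : Fin 5 → ZMod 4, 2 • c = ![1, 1, 0, 2, 0] ∘ d8 2 - ![1, 1, 0, 2, 0] →
        Cg ![2, 2, 0, 0, 0] ![0, 0, 2, 2, 0] ![2, 0, 0, 0, 0] ![0, 0, 0, 0, 2] c ![0, 0, 1, 1, 0] ∨
        Cg ![2, 2, 0, 0, 0] ![0, 0, 2, 2, 0] ![2, 0, 0, 0, 0] ![0, 0, 0, 0, 2]
          (c + ![1, 1, 0, 2, 0]) ![1, 1, 1, 1, 0] := by decide +kernel
    rcases this c e' with a' | a'
    · exact Or.inr ⟨m hc a', sgn_of p r s (by decide +kernel)⟩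
    · exact absurd (m (add_mem hc (m hb a)) a') h.not4
  · have m := fun {b x} => @Cg.mem A _ _ _ _ b x p q r s
    obtain ⟨b, hb, e⟩ := (hv _ r).2 (by decide)
    have : ∀ b : Fin 5 → ZMod 4, 2 • b = ![0, 0, 2, 0, 0] ∘ d8 2 - ![0, 0, 2, 0, 0] →
        Cg ![2, 2, 0, 0, 0] ![0, 0, 2, 2, 0] ![0, 0, 2, 0, 0] ![0, 0, 0, 0, 2] b ![0, 0, 1, 1, 0] ∨
        Cg ![2, 2, 0, 0, 0] ![0, 0, 2, 2, 0] ![0, 0, 2, 0, 0] ![0, 0, 0, 0, 2] b
          ![0, 2, 1, 1, 0] := by decide +kernel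
    rcases this b e with a | a
    · exact absurd (by convert r using 1; decide) (h.noI 2 3 (by decide)
        (by convert m hb a using 1; decide))
    obtain ⟨c, hc, e'⟩ := (hu _ (m hb a)).2 (by decide)
    have : ∀ c : Fin 5 → ZMod 4, 2 • c = ![0, 2, 1, 1, 0] ∘ d8 1 - ![0, 2, 1, 1, 0] →
        Cg ![2, 2, 0, 0, 0] ![0, 0, 2, 2, 0] ![0, 0, 2, 0, 0] ![0, 0, 0, 0, 2] c ![1, 1, 0, 0, 0] ∨
        Cg ![2, 2, 0, 0, 0] ![0, 0, 2, 2, 0] ![0, 0, 2, 0, 0] ![0, 0, 0, 0, 2]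
          (c + ![0, 2, 1, 1, 0]) ![1, 1, 1, 1, 0] := by decide +kernel
    rcases this c e' with a' | a'
    · exact Or.inl ⟨m hc a', sgn_of q r s (by decide +kernel)⟩
    · exact absurd (m (add_mem hc (m hb a)) a') h.not4
  · replace r : ![2, 0, 2, 0, 0] ∈ A := by convert r using 1; decide
    have m := fun {b x} => @Cg.mem A _ _ _ _ b x p q r s
    obtain ⟨b, hb, e⟩ := (hu _ r).2 (by decide)
    obtain ⟨c, hc, e'⟩ := (hv _ r).2 (by decide)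
    have h1 : ∀ b : Fin 5 → ZMod 4, 2 • b = ![2, 0, 2, 0, 0] ∘ d8 1 - ![2, 0, 2, 0, 0] →
        Cg ![2, 2, 0, 0, 0] ![0, 0, 2, 2, 0] ![2, 0, 2, 0, 0] ![0, 0, 0, 0, 2] b ![1, 1, 0, 0, 0] ∨
        Cg ![2, 2, 0, 0, 0] ![0, 0, 2, 2, 0] ![2, 0, 2, 0, 0] ![0, 0, 0, 0, 2] b
          ![1, 3, 0, 0, 0] := by decide +kernel
    have h2 : ∀ b : Fin 5 → ZMod 4, 2 • b = ![2, 0, 2, 0, 0] ∘ d8 2 - ![2, 0, 2, 0, 0] →
        Cg ![2, 2, 0, 0, 0] ![0, 0, 2, 2, 0] ![2, 0, 2, 0, 0] ![0, 0, 0, 0, 2] b ![0, 0, 1, 1, 0] ∨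
        Cg ![2, 2, 0, 0, 0] ![0, 0, 2, 2, 0] ![2, 0, 2, 0, 0] ![0, 0, 0, 0, 2] b
          ![0, 0, 1, 3, 0] := by decide +kernel
    rcases h1 b e with a | a
    · exact Or.inl ⟨m hb a, sgn_of q r s (by decide +kernel)⟩
    rcases h2 c e' with a' | a'
    · exact Or.inr ⟨m hc a', sgn_of p r s (by decide +kernel)⟩
    · exact absurd (m (add_mem (m hb a) (m hc a')) (by decide +kernel)) h.not4

/-- One of three commutators is a square. -/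
def Act2 {n : ℕ} (A : AddSubgroup (Fin n → ZMod 4)) (u v : Perm (Fin n)) : Prop :=
  ∀ a a' : Fin n → ZMod 4, 2 • a = 0 → 2 • a' = 0 → ∃ b ∈ A,
    2 • b = a ∘ u - a ∨ 2 • b = a' ∘ v - a' ∨ 2 • b = (a ∘ u - a) + (a' ∘ v - a')

theorem mem_of_all {n : ℕ} {A : AddSubgroup (Fin n → ZMod 4)} (hs : ∀ x, 2 • x = 0 → x ∈ A)
    {b c : Fin n → ZMod 4} (hb : b ∈ A) (e : 2 • b = 2 • c) : c ∈ A := by
  simpa using add_mem (hs (c - b) (by rw [smul_sub, e, sub_self])) hb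

theorem Dat.all (h : Dat A) (hs : ∀ x, 2 • x = 0 → x ∈ A)
    (hu : Act2 A (d8 3) (d8 3) ∨ Act2 A (d8 1) (d8 2)) : False := by
  obtain ⟨b, hb, e⟩ : ∃ b ∈ A, 2 • b = 2 • (Pi.single 0 1 + Pi.single 1 1) ∨
      2 • b = 2 • (Pi.single 2 1 + Pi.single 3 1) ∨ 2 • b = 2 • ![1, 1, 1, 1, 0] := by
    rcases hu with hu | hu <;>
      convert hu ![2, 0, 0, 0, 0] ![0, 0, 2, 0, 0] (by decide) (by decide) using 6 <;> decide
  rcases e with e | e | e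
  · exact h.noI 0 1 (by decide) (mem_of_all hs hb e) (hs _ (by decide))
  · exact h.noI 2 3 (by decide) (mem_of_all hs hb e) (hs _ (by decide))
  · exact h.not4 (mem_of_all hs hb e)

theorem Dat.all' {n : ℕ} {A : AddSubgroup (Fin n → ZMod 4)} (h : Dat A)
    (hs : ∀ x, 2 • x = 0 → x ∈ A) {u : Perm (Fin n)} (hu : Act A u) : u = 1 := by
  have t : (2 : ℕ) • (2 : ZMod 4) = 0 := by decide
  have s2 : ∀ j : Fin n, 2 • (Pi.single j 2 : Fin n → ZMod 4) = 0 := fun j => by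
    rw [← Pi.single_smul, t, Pi.single_zero]
  ext j
  by_contra e
  replace e : u j ≠ j := fun a => e (congrArg Fin.val a)
  have e1 : (Pi.single (u j) 2 : Fin n → ZMod 4) ∘ u - Pi.single (u j) 2 =
      2 • (Pi.single j 1 + Pi.single (u j) 1) := by
    ext l
    simp only [Pi.sub_apply, Function.comp, Pi.single_apply, EmbeddingLike.apply_eq_iff_eq,
      Pi.smul_apply, Pi.add_apply]
    split_ifs <;> decide
  obtain ⟨b, hb, e2⟩ := (hu _ (hs _ (s2 (u j)))).2 (by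
    rw [e1, smul_smul]; ext l
    exact (by decide : ∀ x : ZMod 4, (2 * 2) • x = 0) _)
  exact h.noI j (u j) e.symm (mem_of_all hs hb (e2.trans e1)) (hs _ (s2 j))

/-- Relabelling the coordinates. -/
def rl (A : AddSubgroup (Fin 5 → ZMod 4)) (g : Perm (Fin 5)) : AddSubgroup (Fin 5 → ZMod 4) :=
  A.comap (AddMonoidHom.mk' (fun a : Fin 5 → ZMod 4 => a ∘ ⇑g⁻¹) fun _ _ => rfl)

theorem mem_rl {g : Perm (Fin 5)} {a : Fin 5 → ZMod 4} : a ∈ rl A g ↔ a ∘ ⇑g⁻¹ ∈ A := Iff.rfl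

theorem comp_mem_rl {g : Perm (Fin 5)} {a : Fin 5 → ZMod 4} (h : a ∈ A) : a ∘ g ∈ rl A g := by
  rw [mem_rl]; convert h using 1; ext; simp

theorem single_comp (g : Perm (Fin 5)) (j : Fin 5) (c : ZMod 4) :
    (Pi.single j c : Fin 5 → ZMod 4) ∘ ⇑g⁻¹ = Pi.single (g j) c := by
  ext l; simp [Pi.single_apply, Equiv.symm_apply_eq]

theorem Dat.rl (h : Dat A) (g : Perm (Fin 5)) : Dat (rl A g) where
  one := h.one
  noH j a := h.noH (g j) (single_comp g j 1 ▸ a)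
  noI j k e a b := h.noI (g j) (g k) (by simpa using e)
    (by rw [← single_comp, ← single_comp]; exact a) (single_comp g j 2 ▸ b)
  two x y hx hy := h.two (x ∘ ⇑g⁻¹) (y ∘ ⇑g⁻¹) (congrArg (· ∘ ⇑g⁻¹) hx) (congrArg (· ∘ ⇑g⁻¹) hy)

theorem rl_comm (g u : Perm (Fin 5)) (a : Fin 5 → ZMod 4) :
    (a ∘ ⇑g⁻¹) ∘ ⇑(g * u * g⁻¹) = (a ∘ u) ∘ ⇑g⁻¹ := by ext; simp

theorem rl_back (g : Perm (Fin 5)) {b c : Fin 5 → ZMod 4} (h : 2 • b = c ∘ ⇑g⁻¹) :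
    2 • (b ∘ g) = c := by
  ext l; simpa using congrFun h (g l)

theorem Act.rl {g u : Perm (Fin 5)} (h : Act A (g * u * g⁻¹)) : Act (rl A g) u := by
  intro a ha
  obtain ⟨h1, h2⟩ := h _ (mem_rl.1 ha)
  rw [rl_comm] at h1 h2
  refine ⟨h1, fun e => ?_⟩
  obtain ⟨b, hb, e'⟩ := h2 (congrArg (· ∘ ⇑g⁻¹) e)
  exact ⟨_, comp_mem_rl hb, rl_back g e'⟩

theorem Act2.rl {g u v : Perm (Fin 5)} (h : Act2 A (g * u * g⁻¹) (g * v * g⁻¹)) :
    Act2 (rl A g) u v := by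
  intro a a' ha ha'
  obtain ⟨b, hb, e⟩ := h (a ∘ ⇑g⁻¹) (a' ∘ ⇑g⁻¹) (congrArg (· ∘ ⇑g⁻¹) ha) (congrArg (· ∘ ⇑g⁻¹) ha')
  rw [rl_comm, rl_comm] at e
  exact ⟨_, comp_mem_rl hb, e.imp (rl_back g) (Or.imp (rl_back g) (rl_back g))⟩

theorem Sgn.rl {g : Perm (Fin 5)} {j k : Fin 5} (h : Sgn (rl A g) j k) : Sgn A (g j) (g k) := by
  intro ε hε
  obtain ⟨x, h1, h2, h3⟩ := h (ε ∘ g) (congrArg (· ∘ g) hε)
  refine ⟨_, h1, congrArg (· ∘ ⇑g⁻¹) h2, fun l a b => ?_⟩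
  simpa using h3 (g⁻¹ l) (by rwa [Ne, Perm.inv_eq_iff_eq]) (by rwa [Ne, Perm.inv_eq_iff_eq])

theorem Dat.tr' (h : Dat A) {g : Perm (Fin 5)} (hu : Act A (g * d8 1 * g⁻¹))
    (hv : Act A (g * d8 2 * g⁻¹)) : ∃ j k, j ≠ k ∧ (g * d8 1 * g⁻¹ = swap j k ∨
      g * d8 2 * g⁻¹ = swap j k) ∧ Pi.single j 1 + Pi.single k 1 ∈ A ∧ Sgn A j k := by
  rcases (h.rl g).tr hu.rl hv.rl with ⟨a, b⟩ | ⟨a, b⟩
  · refine ⟨g 0, g 1, by simp, Or.inl (swap_apply_apply g 0 1).symm, ?_, b.rl⟩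
    rw [← single_comp, ← single_comp]
    rwa [show ![1, 1, 0, 0, 0] = (Pi.single 0 1 + Pi.single 1 1 : Fin 5 → ZMod 4) by decide] at a
  · refine ⟨g 2, g 3, by simp, Or.inr (swap_apply_apply g 2 3).symm, ?_, b.rl⟩
    rw [← single_comp, ← single_comp]
    rwa [show ![0, 0, 1, 1, 0] = (Pi.single 2 1 + Pi.single 3 1 : Fin 5 → ZMod 4) by decide] at a

end Cfsg.Agent.H32.L45S
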