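import Cfsg.Agent.H32.LinTransv

/-!
Orders of stabilisers of coordinate subspaces in `GL`, and the inverse-transpose automorphism.
-/

set_option autoImplicit false

namespace Cfsg.Agent.H32

open Matrix Cfsg Cfsg.Geo
open scoped MatrixGroups

variable {ι : Type} [Fintype ι] [DecidableEq ι] {F : Type*} [Field F]

theorem card_GL_of_card [Fintype F] {n : ℕ} (hn : Fintype.card ι = n) :
    Nat.card (GL ι F) = ∏ i : Fin n, (Fintype.card F ^ n - Fintype.card F ^ (i : ℕ)) := by
  rw [← Matrix.card_GL_field]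
  exact Nat.card_congr (glReindex (Fintype.equivFinOfCardEq hn)).toEquiv

/-- The block upper triangular matrix with blocks `A`, `B`, `D` for the predicate `p`. -/
noncomputable def blockGL (p : ι → Prop) [DecidablePred p]
    (x : GL {i // p i} F × Matrix {i // p i} {i // ¬ p i} F × GL {i // ¬ p i} F) :
    subspaceStabilizer (coordSub F p) :=
  ⟨GeneralLinearGroup.mkOfDetNeZero
    (Matrix.reindex (Equiv.sumCompl p) (Equiv.sumCompl p)
      (fromBlocks (x.1 : Matrix _ _ F) x.2.1 0 (x.2.2 : Matrix _ _ F))) (by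
      rw [det_reindex_self, det_fromBlocks_zero₂₁]
      exact mul_ne_zero x.1.det_ne_zero x.2.2.det_ne_zero), by
    rw [mem_subspaceStabilizer_coordSub_iff]
    intro i j hi hj
    change Matrix.reindex (Equiv.sumCompl p) (Equiv.sumCompl p)
      (fromBlocks (x.1 : Matrix _ _ F) x.2.1 0 (x.2.2 : Matrix _ _ F)) i j = 0
    rw [reindex_apply, submatrix_apply, Equiv.sumCompl_symm_apply_of_neg hi,
      Equiv.sumCompl_symm_apply_of_pos hj, fromBlocks_apply₂₁, Matrix.zero_apply]⟩

theorem coe_blockGL (p : ι → Prop) [DecidablePred p]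
    (x : GL {i // p i} F × Matrix {i // p i} {i // ¬ p i} F × GL {i // ¬ p i} F) :
    ((blockGL p x : GL ι F) : Matrix ι ι F) = Matrix.reindex (Equiv.sumCompl p) (Equiv.sumCompl p)
      (fromBlocks (x.1 : Matrix _ _ F) x.2.1 0 (x.2.2 : Matrix _ _ F)) := rfl

theorem blockGL_bijective (p : ι → Prop) [DecidablePred p] :
    Function.Bijective (blockGL (F := F) p) := by
  constructor
  · rintro ⟨A, B, D⟩ ⟨A', B', D'⟩ h
    have h' := congrArg (fun g : subspaceStabilizer (coordSub F p) =>
      ((g : GL ι F) : Matrix ι ι F)) h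
    simp only [coe_blockGL, EmbeddingLike.apply_eq_iff_eq, fromBlocks_inj] at h'
    obtain ⟨h1, h2, -, h4⟩ := h'
    exact Prod.ext (Units.ext h1) (Prod.ext h2 (Units.ext h4))
  · rintro ⟨g, hg⟩
    have hg' := (mem_subspaceStabilizer_coordSub_iff p g).1 hg
    set M := (g : Matrix ι ι F) with hM
    have hblock : M.submatrix (Equiv.sumCompl p) (Equiv.sumCompl p) =
        fromBlocks (M.toBlock p p) (M.toBlock p fun i => ¬ p i) 0
          (M.toBlock (fun i => ¬ p i) fun i => ¬ p i) := by
      ext (i | i) (j | j)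
      · simp [toBlock_apply]
      · simp [toBlock_apply]
      · simpa using hg' i j i.2 j.2
      · simp [toBlock_apply]
    have hdet : (M.toBlock p p).det * (M.toBlock (fun i => ¬ p i) fun i => ¬ p i).det ≠ 0 := by
      rw [← det_fromBlocks_zero₂₁ _ (M.toBlock p fun i => ¬ p i), ← hblock,
        det_submatrix_equiv_self]
      exact g.det_ne_zero
    refine ⟨⟨GeneralLinearGroup.mkOfDetNeZero _ (left_ne_zero_of_mul hdet),
      M.toBlock p fun i => ¬ p i,
      GeneralLinearGroup.mkOfDetNeZero _ (right_ne_zero_of_mul hdet)⟩, ?_⟩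
    apply Subtype.ext
    apply Units.ext
    rw [coe_blockGL]
    change Matrix.reindex _ _ (fromBlocks (M.toBlock p p) (M.toBlock p fun i => ¬ p i) 0
          (M.toBlock (fun i => ¬ p i) fun i => ¬ p i)) = M
    rw [← hblock]
    simp

theorem card_subspaceStabilizer_coordSub (p : ι → Prop) [DecidablePred p] :
    Nat.card (subspaceStabilizer (coordSub F p)) =
      Nat.card F ^ (Fintype.card {i // p i} * Fintype.card {i // ¬ p i}) *
        Nat.card (GL {i // p i} F) * Nat.card (GL {i // ¬ p i} F) := by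
  rw [← Nat.card_eq_of_bijective _ (blockGL_bijective p), Nat.card_prod, Nat.card_prod]
  have : Nat.card (Matrix {i // p i} {i // ¬ p i} F) =
      Nat.card F ^ (Fintype.card {i // p i} * Fintype.card {i // ¬ p i}) := by
    change Nat.card ({i // p i} → {i // ¬ p i} → F) = _
    rw [Nat.card_fun, Nat.card_fun, ← pow_mul, Nat.card_eq_fintype_card (α := {i // p i}),
      Nat.card_eq_fintype_card (α := {i // ¬ p i}), mul_comm]
  rw [this]
  ring

/-- The inverse-transpose automorphism of `GL`. -/
def invTranspose (ι : Type) [Fintype ι] [DecidableEq ι] (F : Type*) [Field F] :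
    GL ι F ≃* GL ι F where
  toFun g := ⟨((g⁻¹ : GL ι F) : Matrix ι ι F)ᵀ, (g : Matrix ι ι F)ᵀ,
    by rw [← transpose_mul, ← Units.val_mul, mul_inv_cancel, Units.val_one, transpose_one],
    by rw [← transpose_mul, ← Units.val_mul, inv_mul_cancel, Units.val_one, transpose_one]⟩
  invFun g := ⟨((g⁻¹ : GL ι F) : Matrix ι ι F)ᵀ, (g : Matrix ι ι F)ᵀ,
    by rw [← transpose_mul, ← Units.val_mul, mul_inv_cancel, Units.val_one, transpose_one],
    by rw [← transpose_mul, ← Units.val_mul, inv_mul_cancel, Units.val_one, transpose_one]⟩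
  left_inv g := Units.ext rfl
  right_inv g := Units.ext rfl
  map_mul' g h := Units.ext (by
    change (((g * h)⁻¹ : GL ι F) : Matrix ι ι F)ᵀ =
      ((g⁻¹ : GL ι F) : Matrix ι ι F)ᵀ * ((h⁻¹ : GL ι F) : Matrix ι ι F)ᵀ
    rw [_root_.mul_inv_rev, Units.val_mul, transpose_mul])

theorem coe_invTranspose (g : GL ι F) :
    (invTranspose ι F g : Matrix ι ι F) = ((g⁻¹ : GL ι F) : Matrix ι ι F)ᵀ := rfl

theorem coe_glReindex {κ : Type} [Fintype κ] [DecidableEq κ] (e : κ ≃ ι) (g : GL κ F) :
    (glReindex e g : Matrix ι ι F) = (g : Matrix κ κ F).submatrix e.symm e.symm := rfl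

theorem invTranspose_mem_iff (p : ι → Prop) (g : GL ι F) :
    invTranspose ι F g ∈ subspaceStabilizer (coordSub F fun i => ¬ p i) ↔
      g ∈ subspaceStabilizer (coordSub F p) := by
  rw [← Subgroup.inv_mem_iff (x := g), mem_subspaceStabilizer_coordSub_iff,
    mem_subspaceStabilizer_coordSub_iff]
  simp only [coe_invTranspose, transpose_apply, not_not]
  exact ⟨fun h i j hi hj => h j i hj hi, fun h i j hi hj => h j i hj hi⟩

theorem glReindex_mem_iff {κ : Type} [Fintype κ] [DecidableEq κ] (e : κ ≃ ι) (p : ι → Prop)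
    (g : GL κ F) :
    glReindex e g ∈ subspaceStabilizer (coordSub F p) ↔
      g ∈ subspaceStabilizer (coordSub F fun i => p (e i)) := by
  rw [mem_subspaceStabilizer_coordSub_iff, mem_subspaceStabilizer_coordSub_iff]
  simp only [coe_glReindex, submatrix_apply]
  exact ⟨fun h i j hi hj => by simpa using h (e i) (e j) hi hj,
    fun h i j hi hj => h _ _ (by simpa using hi) (by simpa using hj)⟩

/-- A group isomorphism carrying one subgroup exactly onto another restricts to them. -/
def mulEquivOfMemIff {G H : Type*} [Group G] [Group H] (e : G ≃* H) (A : Subgroup G)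
    (B : Subgroup H) (h : ∀ g, e g ∈ B ↔ g ∈ A) : A ≃* B where
  toFun a := ⟨e a, (h a).2 a.2⟩
  invFun b := ⟨e.symm b, (h _).1 (by simp)⟩
  left_inv a := by simp
  right_inv b := by simp
  map_mul' a b := by simp

end Cfsg.Agent.H32
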