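import Cfsg.Agent.H17.LPDefs
import Cfsg.Agent.H43.Net

/-! Project LP: codes for `T / Q` and its action on `Q / Z`. -/

set_option autoImplicit false
set_option maxRecDepth 100000

namespace Cfsg.Agent.H32.LpKit

open Cfsg Subgroup Matrix Cfsg.Agent.H17.LP

/-- seven bits -/
def e7 (a b c d e f g : F) : ℕ :=
  a.val + 2 * b.val + 4 * c.val + 8 * d.val + 16 * e.val + 32 * f.val + 64 * g.val

/-- the code of an element of `T` modulo `Q`: bits `x12 x34 x35 x45 z34 z35 z45` -/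
def tc (n : N0) : ℕ :=
  e7 (n.g.1 0 1) (n.g.1 2 3) (n.g.1 2 4) (n.g.1 3 4) (n.a 2 3) (n.a 2 4) (n.a 3 4)

def bt (c k : ℕ) : ℕ := Nat.land (Nat.shiftRight c k) 1

/-- multiplication of codes -/
def tm (a c : ℕ) : ℕ :=
  Nat.xor (Nat.xor (Nat.xor a c) (Nat.mul 4 (Nat.land (bt a 1) (bt c 3))))
    (Nat.xor (Nat.mul 16 (Nat.xor (Nat.land (bt c 5) (bt a 3))
      (Nat.land (bt c 6) (Nat.xor (Nat.land (bt a 1) (bt a 3)) (bt a 2)))))
      (Nat.mul 32 (Nat.land (bt c 6) (bt a 1))))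

theorem e7_mul : ∀ a b c d e f g a' b' c' d' e' f' g' : F,
    e7 (a + a') (b + b') (c + c' + b * d') (d + d') (e + e' + f' * d + g' * (b * d + c))
      (f + f' + g' * b) (g + g') = tm (e7 a b c d e f g) (e7 a' b' c' d' e' f' g') := by
  decide +kernel

theorem e7_lt : ∀ a b c d e f g : F, e7 a b c d e f g < 128 := by decide +kernel

set_option synthInstance.maxSize 2000 in
theorem e7_zero : ∀ a b c d e f g : F, e7 a b c d e f g = 0 ↔
    a = 0 ∧ b = 0 ∧ c = 0 ∧ d = 0 ∧ e = 0 ∧ f = 0 ∧ g = 0 := by decide +kernel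

theorem tc_lt (n : N0) : tc n < 128 := e7_lt ..

theorem two0 : (2 : F) = 0 := rfl

theorem ut {s : N0} (h : s ∈ T0) : s.g.1 0 0 = 1 ∧ s.g.1 1 1 = 1 ∧ s.g.1 2 2 = 1 ∧ s.g.1 3 3 = 1 ∧
    s.g.1 4 4 = 1 ∧ s.g.1 1 0 = 0 ∧ s.g.1 2 0 = 0 ∧ s.g.1 3 0 = 0 ∧ s.g.1 4 0 = 0 ∧ s.g.1 2 1 = 0 ∧
    s.g.1 3 1 = 0 ∧ s.g.1 4 1 = 0 ∧ s.g.1 3 2 = 0 ∧ s.g.1 4 2 = 0 ∧ s.g.1 4 3 = 0 :=
  have k := (mem_Pat.1 h).2
  ⟨k 0 0 rfl, k 1 1 rfl, k 2 2 rfl, k 3 3 rfl, k 4 4 rfl, k 1 0 rfl, k 2 0 rfl, k 3 0 rfl, k 4 0 rfl,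
    k 2 1 rfl, k 3 1 rfl, k 4 1 rfl, k 3 2 rfl, k 4 2 rfl, k 4 3 rfl⟩

theorem al (s : N0) : s.a 0 0 = 0 ∧ s.a 1 1 = 0 ∧ s.a 2 2 = 0 ∧ s.a 3 3 = 0 ∧ s.a 4 4 = 0 ∧
    s.a 1 0 = s.a 0 1 ∧ s.a 2 0 = s.a 0 2 ∧ s.a 3 0 = s.a 0 3 ∧ s.a 4 0 = s.a 0 4 ∧
    s.a 2 1 = s.a 1 2 ∧ s.a 3 1 = s.a 1 3 ∧ s.a 4 1 = s.a 1 4 ∧ s.a 3 2 = s.a 2 3 ∧
    s.a 4 2 = s.a 2 4 ∧ s.a 4 3 = s.a 3 4 :=
  have k := s.alt.symm
  ⟨s.alt.2 0, s.alt.2 1, s.alt.2 2, s.alt.2 3, s.alt.2 4, k 1 0, k 2 0, k 3 0, k 4 0, k 2 1, k 3 1,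
    k 4 1, k 3 2, k 4 2, k 4 3⟩

theorem tc_mul {s t : N0} (hs : s ∈ T0) (ht : t ∈ T0) : tc (s * t) = tm (tc s) (tc t) := by
  rw [tc, tc, tc, ← e7_mul]
  simp only [mul_a, mul_g, coe_mul', Matrix.add_apply, mul_apply, transpose_apply,
    Fin.sum_univ_five, ut hs, ut ht, al t, mul_zero, zero_mul, mul_one, one_mul, add_zero, zero_add]
  congr 1 <;> ring

theorem Q0_le : Q0 ≤ T0 := fun s h => mem_Pat.2 ⟨fun _ _ e => by simp at e, fun i j e =>
  (mem_Pat.1 h).2 i j (by revert i j; decide)⟩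

theorem qz {s : N0} (h : s ∈ Q0) : s.g.1 0 1 = 0 ∧ s.g.1 2 3 = 0 ∧ s.g.1 2 4 = 0 ∧ s.g.1 3 4 = 0 ∧
    s.a 2 3 = 0 ∧ s.a 2 4 = 0 ∧ s.a 3 4 = 0 :=
  have k := mem_Pat.1 h
  ⟨k.2 0 1 rfl, k.2 2 3 rfl, k.2 2 4 rfl, k.2 3 4 rfl, k.1 2 3 rfl, k.1 2 4 rfl, k.1 3 4 rfl⟩

theorem tc_eq_zero {s : N0} (h : s ∈ T0) : tc s = 0 ↔ s ∈ Q0 := by
  rw [tc, e7_zero]
  refine ⟨fun k => mem_Pat.2 ⟨fun i j e => ?_, fun i j e => ?_⟩, qz⟩
  · have := al s
    fin_cases i <;> fin_cases j <;> simp_all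
  · have := ut h
    fin_cases i <;> fin_cases j <;> simp_all

theorem mul_inv_mem {s t : N0} (hs : s ∈ T0) (ht : t ∈ T0) (e : tc s = tc t) : s * t⁻¹ ∈ Q0 := by
  rw [← tc_eq_zero (mul_mem hs (inv_mem ht)), tc_mul hs (inv_mem ht), e, ← tc_mul ht (inv_mem ht),
    mul_inv_cancel]
  rfl

/-- the codes of a subgroup -/
def cs (W : Subgroup N0) (c : ℕ) : Prop := ∃ s ∈ W, tc s = c

theorem cs.zero (W : Subgroup N0) : cs W 0 := ⟨1, one_mem _, rfl⟩

theorem cs.lt {W : Subgroup N0} {c : ℕ} (h : cs W c) : c < 128 := let ⟨s, _, e⟩ := h; e ▸ tc_lt s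

theorem cs.mul {W : Subgroup N0} (hW : W ≤ T0) {a b : ℕ} (ha : cs W a) (hb : cs W b) :
    cs W (tm a b) := by
  obtain ⟨s, hs, rfl⟩ := ha
  obtain ⟨t, ht, rfl⟩ := hb
  exact ⟨_, mul_mem hs ht, tc_mul (hW hs) (hW ht)⟩

theorem cs.sq {Y : Subgroup N0} (h : El Y) {a : ℕ} (ha : cs Y a) : tm a a = 0 := by
  obtain ⟨s, hs, rfl⟩ := ha
  rw [← tc_mul (h.2.1 hs) (h.2.1 hs), tc_eq_zero (h.2.1 (mul_mem hs hs))]
  exact h.2.2 s hs

theorem le_of_cs {W W' : Subgroup N0} (hW : W ≤ T0) (h1 : Q0 ≤ W') (h2 : W' ≤ T0)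
    (h : ∀ c, cs W c → cs W' c) : W ≤ W' := fun s hs => by
  obtain ⟨t, ht, e⟩ := h _ ⟨s, hs, rfl⟩
  have := mul_mem (h1 (mul_inv_mem (hW hs) (h2 ht) e.symm)) ht
  rwa [inv_mul_cancel_right] at this

theorem card_le (q : QKStmt) {Y : Subgroup N0} (hY : Y ≤ T0) (l : List ℕ)
    (h : ∀ c, cs Y c → c ∈ l) : Nat.card Y ≤ l.length * 2 ^ 13 := by
  classical
  have ex : ∀ c, ∃ r : N0, cs Y c → r ∈ Y ∧ tc r = c := fun c => by
    by_cases e : cs Y c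
    · exact ⟨e.choose, fun _ => e.choose_spec⟩
    · exact ⟨1, fun e' => absurd e' e⟩
  choose r hr using ex
  have := Nat.card_le_card_of_injective (α := Y) (β := l.toFinset × Q0)
    (fun s => (⟨tc s, List.mem_toFinset.2 (h _ ⟨s, s.2, rfl⟩)⟩, ⟨s * (r (tc s))⁻¹,
      mul_inv_mem (hY s.2) (hY (hr _ ⟨s, s.2, rfl⟩).1) (hr _ ⟨s, s.2, rfl⟩).2.symm⟩))
    fun s t e => by
      have e1 : tc s = tc t := Subtype.mk.inj (Prod.mk.inj e).1
      have e2 : s.1 * (r (tc s))⁻¹ = t.1 * (r (tc t))⁻¹ := Subtype.mk.inj (Prod.mk.inj e).2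
      rw [e1] at e2
      exact Subtype.ext (mul_right_cancel e2)
  rw [Nat.card_prod, q.2.2.2.2.2.2.2.1, Nat.card_eq_fintype_card (α := l.toFinset), Fintype.card_coe] at this
  exact this.trans (Nat.mul_le_mul_right _ (List.toFinset_card_le l))

theorem ncard_le (q : QKStmt) {S : Set N0} (hS : ∀ v ∈ S, v ∈ Q0) (l : List ℕ)
    (h : ∀ v ∈ S, qc v ∈ l) : S.ncard ≤ 2 * l.length := by
  classical
  choose! r hr using q.2.2.2.1
  refine le_trans (Set.ncard_le_ncard (t := (fun p : ℕ × Bool => (r p.1)⁻¹ * cond p.2 (zz 1 2) 1) ''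
    (l.toFinset ×ˢ (Finset.univ : Finset Bool) : Finset (ℕ × Bool))) (fun v hv => ?_)
    ((Finset.finite_toSet _).image _)) ((Set.ncard_image_le (Finset.finite_toSet _)).trans ?_)
  · obtain ⟨h1, h2⟩ := hr (qc v) (q.2.1 v)
    have := (q.2.2.1 _ (mul_mem h1 (hS v hv))).1 (by rw [q.1 _ h1 _ (hS v hv), h2, Nat.xor_self])
    rcases this with e | e
    · exact ⟨(qc v, false), by simpa using h v hv, by simp [← e]⟩
    · exact ⟨(qc v, true), by simpa using h v hv, by simp [← e]⟩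
  · rw [Set.ncard_coe_finset, Finset.card_product, mul_comm]
    exact Nat.mul_le_mul_left _ (List.toFinset_card_le l)

/-! ### Masks -/

def sc (b : Bool) (x : ℕ) : ℕ := cond b x 0

theorem sc_testBit (b : Bool) (x v : ℕ) : (sc b x).testBit v = (b && x.testBit v) := by
  cases b <;> simp [sc]

/-- the mask of the codes whose bit `k` is set -/
def pt (k : ℕ) : ℕ := H43.pat 4096 k

theorem pt_testBit (k : ℕ) {v : ℕ} (h : v < 4096) : (pt k).testBit v = v.testBit k := by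
  rw [pt, H43.pat_testBit, decide_eq_true h, Bool.true_and]

/-- the mask of the codes moved by `c` -/
def NF (c : ℕ) : ℕ :=
  sc (c.testBit 0) (pt 9) ||| (sc (c.testBit 1) (pt 6) ^^^ sc (c.testBit 0) (pt 10)) |||
  (sc (c.testBit 2) (pt 6) ^^^ sc (c.testBit 3) (pt 7) ^^^ sc (c.testBit 0) (pt 11)) |||
  sc (c.testBit 1) (pt 9) ||| (sc (c.testBit 2) (pt 9) ^^^ sc (c.testBit 3) (pt 10)) |||
  (sc (c.testBit 4) (pt 10) ^^^ sc (c.testBit 5) (pt 11) ^^^ sc (c.testBit 1) (pt 4) ^^^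
    sc (c.testBit 2) (pt 5)) |||
  (sc (c.testBit 4) (pt 9) ^^^ sc (c.testBit 6) (pt 11) ^^^ sc (c.testBit 3) (pt 5)) |||
  (sc (c.testBit 5) (pt 9) ^^^ sc (c.testBit 6) (pt 10)) |||
  (sc (c.testBit 4) (pt 7) ^^^ sc (c.testBit 5) (pt 8) ^^^ sc (c.testBit 1) (pt 1) ^^^
    sc (c.testBit 2) (pt 2) ^^^
    sc (c.testBit 0) (pt 3 ^^^ sc (c.testBit 1) (pt 4) ^^^ sc (c.testBit 2) (pt 5))) |||
  (sc (c.testBit 4) (pt 6) ^^^ sc (c.testBit 6) (pt 8) ^^^ sc (c.testBit 3) (pt 2) ^^^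
    sc (c.testBit 0) (pt 4 ^^^ sc (c.testBit 3) (pt 5))) |||
  (sc (c.testBit 5) (pt 6) ^^^ sc (c.testBit 6) (pt 7) ^^^ sc (c.testBit 0) (pt 5))

/-- booleans as elements of the field -/
def τ (b : Bool) : F := (b.toNat : F)

theorem τ_xor : ∀ a b, τ (a ^^ b) = τ a + τ b := by decide
theorem τ_and : ∀ a b, τ (a && b) = τ a * τ b := by decide
theorem τ_false : ∀ a, a = false ↔ τ a = 0 := by decide

theorem e7_bit : ∀ a b c d e f g : F, τ ((e7 a b c d e f g).testBit 0) = a ∧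
    τ ((e7 a b c d e f g).testBit 1) = b ∧ τ ((e7 a b c d e f g).testBit 2) = c ∧
    τ ((e7 a b c d e f g).testBit 3) = d ∧ τ ((e7 a b c d e f g).testBit 4) = e ∧
    τ ((e7 a b c d e f g).testBit 5) = f ∧ τ ((e7 a b c d e f g).testBit 6) = g := by
  decide +kernel

def e12 (a b c d e f g h i j k l : F) : ℕ :=
  a.val + 2 * b.val + 4 * c.val + 8 * d.val + 16 * e.val + 32 * f.val + 64 * g.val + 128 * h.val +
    256 * i.val + 512 * j.val + 1024 * k.val + 2048 * l.val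

theorem e12_bit : ∀ a b c d e f g h i j k l : F, ∀ n, n = e12 a b c d e f g h i j k l →
    τ (n.testBit 0) = a ∧ τ (n.testBit 1) = b ∧ τ (n.testBit 2) = c ∧ τ (n.testBit 3) = d ∧
    τ (n.testBit 4) = e ∧ τ (n.testBit 5) = f ∧ τ (n.testBit 6) = g ∧ τ (n.testBit 7) = h ∧
    τ (n.testBit 8) = i ∧ τ (n.testBit 9) = j ∧ τ (n.testBit 10) = k ∧ τ (n.testBit 11) = l := by
  simp only [forall_eq]
  decide +kernel

theorem fix (q : QKStmt) {v s : N0} (hv : v ∈ Q0) (hs : s ∈ T0) (h : v * s * v⁻¹ * s⁻¹ ∈ Z0) :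
    (NF (tc s)).testBit (qc v) = false := by
  have e : v * s = (v * s * v⁻¹ * s⁻¹) * (s * v) := by group
  generalize v * s * v⁻¹ * s⁻¹ = z at h e
  have zg : z.g.1 = 1 := Matrix.ext fun i j => (mem_Pat.1 h).2 i j rfl
  have za := (mem_Pat.1 h).1
  have eg : (v * s).g.1 = (s * v).g.1 := by rw [e, mul_g z, coe_mul', zg, Matrix.one_mul]
  have ea : (v * s).a = z.a + (s * v).a := by
    rw [e, mul_a z, zg, Matrix.one_mul, transpose_one, Matrix.mul_one]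
  have g02 := congrFun (congrFun eg 0) 2
  have g03 := congrFun (congrFun eg 0) 3
  have g04 := congrFun (congrFun eg 0) 4
  have g13 := congrFun (congrFun eg 1) 3
  have g14 := congrFun (congrFun eg 1) 4
  have a02 := congrFun (congrFun ea 0) 2
  have a03 := congrFun (congrFun ea 0) 3
  have a04 := congrFun (congrFun ea 0) 4
  have a12 := congrFun (congrFun ea 1) 2
  have a13 := congrFun (congrFun ea 1) 3
  have a14 := congrFun (congrFun ea 1) 4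
  simp only [mul_a, mul_g, coe_mul', Matrix.add_apply, mul_apply, transpose_apply,
    Fin.sum_univ_five, ut hs, ut (Q0_le hv), qz hv, al s, al v, mul_zero, zero_mul, mul_one, one_mul,
    add_zero, zero_add, za 0 2 rfl, za 0 3 rfl, za 0 4 rfl, za 1 2 rfl, za 1 3 rfl, za 1 4 rfl]
    at g02 g03 g04 g13 g14 a02 a03 a04 a12 a13 a14
  have b7 := e7_bit (s.g.1 0 1) (s.g.1 2 3) (s.g.1 2 4) (s.g.1 3 4) (s.a 2 3) (s.a 2 4) (s.a 3 4)
  have b12 := e12_bit _ _ _ _ _ _ _ _ _ _ _ _ (qc v) rfl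
  simp only [NF, Nat.testBit_or, Bool.or_eq_false_iff]
  simp only [τ_false, Nat.testBit_xor, sc_testBit, pt_testBit _ (q.2.1 v), τ_xor, τ_and, tc, b7, b12]
  refine ⟨⟨⟨⟨⟨⟨⟨⟨⟨⟨?_, ?_⟩, ?_⟩, ?_⟩, ?_⟩, ?_⟩, ?_⟩, ?_⟩, ?_⟩, ?_⟩, ?_⟩
  · linear_combination -g02
  · linear_combination g03 + (s.g.1 0 1 * v.g.1 1 3) * two0
  · linear_combination g04 + (s.g.1 0 1 * v.g.1 1 4) * two0
  · linear_combination g13
  · linear_combination g14
  · linear_combination a12 + (s.g.1 2 3 * v.a 1 3 + s.g.1 2 4 * v.a 1 4) * two0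
  · linear_combination a13 + (s.g.1 3 4 * v.a 1 4) * two0
  · linear_combination a14
  · linear_combination a02 + (s.g.1 2 3 * v.a 0 3 + s.g.1 2 4 * v.a 0 4 +
      s.g.1 0 1 * (v.a 1 2 + s.g.1 2 3 * v.a 1 3 + s.g.1 2 4 * v.a 1 4)) * two0
  · linear_combination a03 + (s.g.1 3 4 * v.a 0 4 +
      s.g.1 0 1 * (v.a 1 3 + s.g.1 3 4 * v.a 1 4)) * two0
  · linear_combination a04 + (s.g.1 0 1 * v.a 1 4) * two0

/-- the complement of a mask -/
def FS (N : ℕ) : ℕ := Nat.xor (Nat.sub (Nat.pow 2 4096) 1) N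

theorem FS_testBit {N v : ℕ} (hv : v < 4096) (h : N.testBit v = false) : (FS N).testBit v = true := by
  change ((2 ^ 4096 - 1) ^^^ N).testBit v = true
  rw [Nat.testBit_xor, Nat.testBit_two_pow_sub_one, h, decide_eq_true hv]
  rfl

/-- the mask of the codes not orthogonal to `u` -/
def MO (u : ℕ) : ℕ :=
  sc (u.testBit 6) (pt 3) ^^^ sc (u.testBit 3) (pt 6) ^^^ sc (u.testBit 7) (pt 4) ^^^
  sc (u.testBit 4) (pt 7) ^^^ sc (u.testBit 8) (pt 5) ^^^ sc (u.testBit 5) (pt 8) ^^^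
  sc (u.testBit 9) (pt 0) ^^^ sc (u.testBit 0) (pt 9) ^^^ sc (u.testBit 10) (pt 1) ^^^
  sc (u.testBit 1) (pt 10) ^^^ sc (u.testBit 11) (pt 2) ^^^ sc (u.testBit 2) (pt 11)

theorem qf_cast (v : ℕ) : (qf v : F) = τ (v.testBit 6) * τ (v.testBit 3) +
    τ (v.testBit 7) * τ (v.testBit 4) + τ (v.testBit 8) * τ (v.testBit 5) +
    τ (v.testBit 9) * τ (v.testBit 0) + τ (v.testBit 10) * τ (v.testBit 1) +
    τ (v.testBit 11) * τ (v.testBit 2) := by
  simp only [qf, τ, Nat.toNat_testBit, ZMod.natCast_mod, Nat.cast_add, Nat.cast_mul]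
  norm_num

theorem comm_of (q : QKStmt) {u v : N0} (hu : u ∈ Q0) (hv : v ∈ Q0)
    (h : (MO (qc u)).testBit (qc v) = false) : u * v = v * u := by
  simp only [MO, τ_false, Nat.testBit_xor, sc_testBit, pt_testBit _ (q.2.1 v), τ_xor, τ_and] at h
  have e : ((qf (qc u) + qf (qc v) + qf (qc u ^^^ qc v) : ℕ) : F) = 0 := by
    simp only [Nat.cast_add, qf_cast, Nat.testBit_xor, τ_xor]
    linear_combination h + (τ ((qc u).testBit 6) * τ ((qc u).testBit 3) +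
      τ ((qc u).testBit 7) * τ ((qc u).testBit 4) +
      τ ((qc u).testBit 8) * τ ((qc u).testBit 5) +
      τ ((qc u).testBit 9) * τ ((qc u).testBit 0) +
      τ ((qc u).testBit 10) * τ ((qc u).testBit 1) +
      τ ((qc u).testBit 11) * τ ((qc u).testBit 2) +
      τ ((qc v).testBit 6) * τ ((qc v).testBit 3) +
      τ ((qc v).testBit 7) * τ ((qc v).testBit 4) +
      τ ((qc v).testBit 8) * τ ((qc v).testBit 5) +
      τ ((qc v).testBit 9) * τ ((qc v).testBit 0) +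
      τ ((qc v).testBit 10) * τ ((qc v).testBit 1) +
      τ ((qc v).testBit 11) * τ ((qc v).testBit 2)) * two0
  obtain ⟨k, hk⟩ := (ZMod.natCast_eq_zero_iff _ 2).1 e
  rw [q.2.2.2.2.2.1 u hu v hv, hk, pow_mul, show zz 1 2 ^ 2 = 1 by decide, one_pow, mul_one]

/-- run through the set bits -/
noncomputable def peel (P : ℕ → Bool) (n : ℕ) : ℕ → Bool :=
  Nat.rec (motive := fun _ => ℕ → Bool) (fun S => Nat.beq S 0)
    (fun _ ih S => cond (Nat.beq S 0) true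
      (cond (P (Nat.log2 S)) (ih (Nat.xor S (Nat.pow 2 (Nat.log2 S)))) false)) n

theorem peel_spec {P : ℕ → Bool} {n S : ℕ} (h : peel P n S = true) :
    ∃ l : List ℕ, l.length ≤ n ∧ ∀ v, S.testBit v = true → v ∈ l ∧ P v = true := by
  induction n generalizing S with
  | zero =>
    obtain rfl : S = 0 := Nat.eq_of_beq_eq_true h
    exact ⟨[], le_rfl, fun v hv => by simp at hv⟩
  | succ n ih =>
    change cond (Nat.beq S 0) true (cond (P (Nat.log2 S)) (peel P n (S ^^^ 2 ^ Nat.log2 S)) false) =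
      true at h
    cases e : Nat.beq S 0
    · cases e' : P (Nat.log2 S)
      · rw [e, e'] at h; cases h
      · rw [e, e'] at h
        obtain ⟨l, h1, h2⟩ := ih h
        refine ⟨Nat.log2 S :: l, Nat.succ_le_succ h1, fun v hv => ?_⟩
        by_cases c : Nat.log2 S = v
        · exact ⟨c ▸ List.mem_cons_self, c ▸ e'⟩
        · have := h2 v (by rw [Nat.testBit_xor, hv, Nat.testBit_two_pow, decide_eq_false c]; rfl)
          exact ⟨List.mem_cons_of_mem _ this.1, this.2⟩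
    · obtain rfl : S = 0 := Nat.eq_of_beq_eq_true e
      exact ⟨[], Nat.zero_le _, fun v hv => by simp at hv⟩

/-- all numbers below `n` -/
noncomputable def allB (P : ℕ → Bool) (n : ℕ) : Bool :=
  Nat.rec (motive := fun _ => Bool) true (fun k ih => cond (P k) ih false) n

theorem allB_spec {P : ℕ → Bool} {n : ℕ} (h : allB P n = true) : ∀ k < n, P k = true := by
  induction n with
  | zero => exact fun k hk => absurd hk (Nat.not_lt_zero k)
  | succ n ih =>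
    change cond (P n) (allB P n) false = true at h
    cases e : P n
    · rw [e] at h; cases h
    · rw [e] at h
      intro k hk
      rcases Nat.lt_succ_iff_lt_or_eq.1 hk with c | rfl
      exacts [ih h k c, e]

theorem CQ_bit (q : QKStmt) {Y : Subgroup N0} (hY : Y ≤ T0) {c : ℕ} (hc : cs Y c) {v : N0}
    (hv : v ∈ CQ Y) : (NF c).testBit (qc v) = false := by
  obtain ⟨s, hs, rfl⟩ := hc
  exact fix q hv.1 (hY hs) (hv.2 s hs)

/-- a bound for the fixed group from a mask -/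
theorem CQ_le (q : QKStmt) {Y : Subgroup N0} {N n : ℕ}
    (hN : ∀ v ∈ CQ Y, N.testBit (qc v) = false) (h : peel (fun _ => true) n (FS N) = true) :
    (CQ Y).ncard ≤ 2 * n := by
  obtain ⟨l, h1, h2⟩ := peel_spec h
  exact (ncard_le q (fun v hv => hv.1) l fun v hv =>
    (h2 _ (FS_testBit (q.2.1 v) (hN v hv))).1).trans (Nat.mul_le_mul_left _ h1)

end Cfsg.Agent.H32.LpKit
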