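import Cfsg.Agent.H32.LpKit

/-! Project LP: the second table. -/

set_option autoImplicit false
set_option maxRecDepth 100000

namespace Cfsg.Agent.H32.LpTb2

open Cfsg Subgroup Matrix Cfsg.Agent.H17.LP Cfsg.Agent.H32.LpKit

def iv (a : ℕ) : Bool := Nat.beq (tm a a) 0

def span8 (a b c : ℕ) : List ℕ := [0, a, b, tm a b, c, tm a c, tm b c, tm (tm a b) c]

def EA : List ℕ := [0, 16, 32, 48, 64, 80, 96, 112]
def EP : List ℕ := [0, 4, 8, 12, 16, 20, 24, 28]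
def EPP : List ℕ := [0, 16, 36, 52, 72, 88, 108, 124]

def c1 (a : ℕ) : Bool := Nat.blt 0 a && iv a
def c2 (a b : ℕ) : Bool := Nat.blt a b && iv b && iv (tm a b) &&
  (Nat.beq (tm a b) 0 || Nat.beq (tm a b) a || Nat.ble b (tm a b))
def mn (a b c x : ℕ) : Bool := iv x &&
  (Nat.beq x 0 || Nat.beq x a || Nat.beq x b || Nat.beq x (tm a b) || Nat.ble c x)
def c3 (a b c : ℕ) : Bool := Nat.blt b c && iv c && !Nat.beq c (tm a b) && mn a b c (tm a c) &&
  mn a b c (tm b c) && mn a b c (tm (tm a b) c)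

noncomputable def sp (E : List ℕ) (a b c : ℕ) : Bool :=
  E.all (fun e => (span8 a b c).contains e) && allB (fun d =>
    !(iv d && iv (tm a d) && iv (tm b d) && iv (tm c d)) || E.contains d ||
      peel (fun _ => true) 16 (FS (NF a ||| NF b ||| NF c ||| NF d))) 128

noncomputable def fin3 (a b c : ℕ) : Bool :=
  peel (fun u => Nat.beq (Nat.land (FS (NF a ||| NF b ||| NF c)) (MO u)) 0) 64
      (FS (NF a ||| NF b ||| NF c)) &&
    (peel (fun _ => true) 16 (FS (NF a ||| NF b ||| NF c)) || sp EA a b c || sp EP a b c ||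
      sp EPP a b c)

noncomputable def chk : Bool :=
  allB (fun a => !c1 a || allB (fun b => !c2 a b || allB (fun c => !c3 a b c || fin3 a b c) 128)
    128) 128

theorem chk_true : chk = true := by decide +kernel

theorem span_mem {W : Subgroup N0} (hW : W ≤ T0) {a b c : ℕ} (ha : cs W a) (hb : cs W b)
    (hc : cs W c) : ∀ x ∈ span8 a b c, cs W x := by
  simp only [span8, List.mem_cons, List.not_mem_nil, or_false, forall_eq_or_imp, forall_eq]
  exact ⟨cs.zero W, ha, hb, ha.mul hW hb, hc, ha.mul hW hc, hb.mul hW hc, (ha.mul hW hb).mul hW hc⟩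

/-- the preimage of a closed set of codes -/
def PE (E : List ℕ) (h : 0 ∈ E ∧ ∀ a ∈ E, ∀ b ∈ E, tm a b ∈ E) : Subgroup N0 := ofSubmonoid
  { carrier := {s | s ∈ T0 ∧ tc s ∈ E}
    one_mem' := ⟨one_mem _, h.1⟩
    mul_mem' := fun {s t} hs ht =>
      ⟨mul_mem hs.1 ht.1, by rw [tc_mul hs.1 ht.1]; exact h.2 _ hs.2 _ ht.2⟩ }

theorem Q0_PE (E : List ℕ) (h : 0 ∈ E ∧ ∀ a ∈ E, ∀ b ∈ E, tm a b ∈ E) : Q0 ≤ PE E h :=
  fun _ hs => ⟨Q0_le hs, by rw [(tc_eq_zero (Q0_le hs)).2 hs]; exact h.1⟩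

theorem cs_iff {W : Subgroup N0} {E : List ℕ} {h : 0 ∈ E ∧ ∀ a ∈ E, ∀ b ∈ E, tm a b ∈ E}
    (hW : W ≤ PE E h) {x y z : N0} (hx : x ∈ W) (hy : y ∈ W) (hz : z ∈ W)
    (hE : ∀ e ∈ E, e ∈ span8 (tc x) (tc y) (tc z)) : W ≤ T0 ∧ ∀ c, cs W c ↔ c ∈ E :=
  ⟨fun _ hs => (hW hs).1, fun c => ⟨fun ⟨_, hs, e⟩ => e ▸ (hW hs).2, fun hc =>
    span_mem (fun _ hs => (hW hs).1) ⟨x, hx, rfl⟩ ⟨y, hy, rfl⟩ ⟨z, hz, rfl⟩ c (hE c hc)⟩⟩

theorem eA : ∀ e f g : F, e7 0 0 0 0 e f g ∈ EA := by decide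
theorem eP : ∀ c d e : F, e7 0 0 c d e 0 0 ∈ EP := by decide
theorem eZ : ∀ e : F, e7 0 0 0 0 e 0 0 ∈ EPP := by decide

theorem cs_QA : QA ≤ T0 ∧ ∀ c, cs QA c ↔ c ∈ EA := by
  refine cs_iff (h := by decide) (fun s hs => ?_) (x := zz 3 4) (y := zz 3 5) (z := zz 4 5)
    (by unfold QA; decide) (by unfold QA; decide) (by unfold QA; decide) (by decide)
  have k := (mem_Pat.1 hs).2
  refine ⟨mem_Pat.2 ⟨fun _ _ e => by simp at e, fun i j e => k i j (by revert i j; decide)⟩, ?_⟩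
  rw [tc, show s.g.1 0 1 = 0 from k 0 1 rfl, show s.g.1 2 3 = 0 from k 2 3 rfl,
    show s.g.1 2 4 = 0 from k 2 4 rfl, show s.g.1 3 4 = 0 from k 3 4 rfl]
  exact eA ..

theorem cs_Ap : Q0 ⊔ Ap ≤ T0 ∧ ∀ c, cs (Q0 ⊔ Ap) c ↔ c ∈ EP := by
  refine cs_iff (h := by decide) (sup_le (Q0_PE _ _) fun s hs => ?_) (x := xx 3 5) (y := xx 4 5)
    (z := zz 3 4) (mem_sup_right (by unfold Ap; decide)) (mem_sup_right (by unfold Ap; decide))
    (mem_sup_right (by unfold Ap; decide)) (by decide)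
  have k := (mem_Pat.1 hs).2
  have k' := (mem_Pat.1 hs).1
  refine ⟨mem_Pat.2 ⟨fun _ _ e => by simp at e, fun i j e => k i j (by revert i j; decide)⟩, ?_⟩
  rw [tc, show s.g.1 0 1 = 0 from k 0 1 rfl, show s.g.1 2 3 = 0 from k 2 3 rfl,
    k' 2 4 rfl, k' 3 4 rfl]
  exact eP ..

theorem cs_App : Q0 ⊔ App ≤ T0 ∧ ∀ c, cs (Q0 ⊔ App) c ↔ c ∈ EPP := by
  refine cs_iff (h := by decide) (sup_le (Q0_PE _ _) (sup_le (fun s hs => ?_) ?_)) (x := zz 3 4)
    (y := xx 3 5 * zz 3 5) (z := xx 4 5 * zz 4 5)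
    (mem_sup_right (mem_sup_left (by unfold Z6; decide)))
    (mem_sup_right (mem_sup_right (subset_closure ⟨3, by decide, rfl⟩)))
    (mem_sup_right (mem_sup_right (subset_closure ⟨4, by decide, rfl⟩))) (by decide)
  · have k := (mem_Pat.1 hs).2
    have k' := (mem_Pat.1 hs).1
    refine ⟨mem_Pat.2 ⟨fun _ _ e => by simp at e, fun i j _ => k i j rfl⟩, ?_⟩
    rw [tc, show s.g.1 0 1 = 0 from k 0 1 rfl, show s.g.1 2 3 = 0 from k 2 3 rfl,
      show s.g.1 2 4 = 0 from k 2 4 rfl, show s.g.1 3 4 = 0 from k 3 4 rfl, k' 2 4 rfl, k' 3 4 rfl]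
    exact eZ ..
  · rw [closure_le]
    rintro _ ⟨h, hh, rfl⟩
    have : ∀ h ∈ [1, 2, 3, 4], xx h 5 * zz h 5 ∈ T0 ∧ tc (xx h 5 * zz h 5) ∈ EPP := by
      unfold T0; decide
    exact this h hh

theorem iv_of {Y : Subgroup N0} (h : El Y) {a : ℕ} (ha : cs Y a) : iv a = true := by
  rw [iv, ha.sq h]; rfl

theorem eq_of_sp (q : QKStmt) {Y W : Subgroup N0} (h : El Y) {E : List ℕ} (hQ : Q0 ≤ W)
    (hW : W ≤ T0 ∧ ∀ c, cs W c ↔ c ∈ E) {a b c : ℕ} (ha : cs Y a) (hb : cs Y b) (hc : cs Y c)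
    (hs : sp E a b c = true) (hn : 2 ^ 5 < (CQ Y).ncard) : Y = W := by
  rw [sp, Bool.and_eq_true, List.all_eq_true] at hs
  refine le_antisymm (le_of_cs h.2.1 hQ hW.1 fun d hd => (hW.2 d).2 ?_)
    (le_of_cs hW.1 h.1 h.2.1 fun d hd => span_mem h.2.1 ha hb hc d
      (List.contains_iff_mem.1 (hs.1 d ((hW.2 d).1 hd))))
  have := allB_spec hs.2 d hd.lt
  rw [iv_of h hd, iv_of h (ha.mul h.2.1 hd), iv_of h (hb.mul h.2.1 hd), iv_of h (hc.mul h.2.1 hd)]
    at this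
  rcases Bool.or_eq_true _ _ ▸ this with e | e
  · exact List.contains_iff_mem.1 e
  · have := CQ_le q (Y := Y) (fun v hv => by
      simp only [Nat.testBit_or, CQ_bit q h.2.1 ha hv, CQ_bit q h.2.1 hb hv, CQ_bit q h.2.1 hc hv,
        CQ_bit q h.2.1 hd hv, Bool.or_false]) e
    omega

theorem pick (q : QKStmt) {Y : Subgroup N0} (hY : Y ≤ T0) (hc : 2 ^ 16 ≤ Nat.card Y) (l : List ℕ)
    (hl : l.length ≤ 4) : ∃ a, cs Y a ∧ a ∉ l ∧ ∀ x, cs Y x → x ∈ l ∨ a ≤ x := by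
  classical
  have ex : ∃ a, cs Y a ∧ a ∉ l := by
    by_contra c
    have := card_le q hY l fun x hx => by_contra fun e => c ⟨x, hx, e⟩
    omega
  exact ⟨_, (Nat.find_spec ex).1, (Nat.find_spec ex).2, fun x hx =>
    or_iff_not_imp_left.2 fun e => Nat.find_min' ex ⟨hx, e⟩⟩

theorem tb2 (q : QKStmt) : Tb2Stmt := by
  intro Y h hY
  have T := h.2.1
  obtain ⟨a, ha, a1, a2⟩ := pick q T hY [0] (by decide)
  obtain ⟨b, hb, b1, b2⟩ := pick q T hY [0, a] (by simp)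
  obtain ⟨c, hc, d1, d2⟩ := pick q T hY [0, a, b, tm a b] (by simp)
  simp only [List.mem_cons, List.not_mem_nil, or_false, not_or] at a1 a2 b1 b2 d1 d2
  have k1 : c1 a = true := by
    simp only [c1, iv_of h ha, Bool.and_true, Nat.blt_eq]; omega
  have k2 : c2 a b = true := by
    have := a2 b hb
    have := b2 _ (ha.mul T hb)
    simp only [c2, iv_of h hb, iv_of h (ha.mul T hb), Bool.and_true, Bool.and_eq_true, Nat.blt_eq,
      Bool.or_eq_true, Nat.beq_eq, Nat.ble_eq]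
    omega
  have km : ∀ x, cs Y x → mn a b c x = true := fun x hx => by
    have := d2 x hx
    simp only [mn, iv_of h hx, Bool.true_and, Bool.or_eq_true, Nat.beq_eq, Nat.ble_eq]
    omega
  have k3 : c3 a b c = true := by
    have := b2 c hc
    have nb : Nat.beq c (tm a b) = false :=
      Bool.eq_false_iff.2 fun e => d1.2.2.2 (Nat.eq_of_beq_eq_true e)
    simp only [c3, nb, Bool.not_false, iv_of h hc, km _ (ha.mul T hc), km _ (hb.mul T hc),
      km _ ((ha.mul T hb).mul T hc), Bool.and_true, Nat.blt_eq]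
    omega
  have f1 := allB_spec chk_true a ha.lt
  rw [k1, Bool.not_true, Bool.false_or] at f1
  have f2 := allB_spec f1 b hb.lt
  rw [k2, Bool.not_true, Bool.false_or] at f2
  have f3 := allB_spec f2 c hc.lt
  rw [k3, Bool.not_true, Bool.false_or] at f3
  rw [fin3, Bool.and_eq_true] at f3
  have hN : ∀ v ∈ CQ Y, (NF a ||| NF b ||| NF c).testBit (qc v) = false := fun v hv => by
    simp only [Nat.testBit_or, CQ_bit q T ha hv, CQ_bit q T hb hv, CQ_bit q T hc hv, Bool.or_false]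
  refine ⟨fun u hu v hv => comm_of q hu.1 hv.1 ?_, fun hn => ?_⟩
  · obtain ⟨l, -, hl⟩ := peel_spec f3.1
    have e := Nat.eq_of_beq_eq_true (hl _ (FS_testBit (q.2.1 u) (hN u hu))).2
    have := congrArg (fun n => n.testBit (qc v)) e
    change (FS _ &&& MO _).testBit _ = _ at this
    rwa [Nat.testBit_and, FS_testBit (q.2.1 v) (hN v hv), Bool.true_and, Nat.zero_testBit] at this
  · have f := f3.2
    simp only [Bool.or_eq_true] at f
    rcases f with ((e | e) | e) | e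
    · have := CQ_le q hN e
      omega
    · exact .inl (eq_of_sp q h (fun s hs => mem_Pat.2 ⟨fun _ _ e => by simp at e, (mem_Pat.1 hs).2⟩)
        cs_QA ha hb hc e hn)
    · exact .inr (.inl (eq_of_sp q h le_sup_left cs_Ap ha hb hc e hn))
    · exact .inr (.inr (eq_of_sp q h le_sup_left cs_App ha hb hc e hn))

end Cfsg.Agent.H32.LpTb2
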