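import Cfsg.Agent.H45.OnDefs
import Cfsg.Agent.S0493

/-!
# Project ON, piece IDX5: proper subgroups of a nonabelian simple group have index at least five
-/

set_option autoImplicit false

namespace Cfsg.Agent.H32.OnIdx5

open Subgroup Cfsg.Agent.H45.On

universe u

theorem five_le {K : Type*} [Group K] [Finite K] [IsSimpleGroup K] (hn : ¬ IsMulCommutative K)
    (J : Subgroup K) (hJ : J ≠ ⊤) : 5 ≤ J.index := by
  by_contra h
  have h60 : 60 ≤ Nat.card K := by
    by_cases h : Nat.card K ≤ 100
    · exact (S0493.result (fun _ => hn inferInstance) h).ge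
    · omega
  rcases (J.normalCore_normal).eq_bot_or_eq_top with e | e
  · have h1 : J.normalCore.index ∣ J.index.factorial := by
      rw [normalCore_eq_ker, index_ker, index_eq_card, ← Nat.card_perm]
      exact card_subgroup_dvd_card (MulAction.toPermHom K (K ⧸ J)).range
    rw [e, index_bot] at h1
    have h2 := Nat.le_of_dvd (Nat.factorial_pos _) h1
    have h3 : J.index.factorial ≤ Nat.factorial 4 := Nat.factorial_le (by omega)
    have : Nat.factorial 4 = 24 := rfl
    omega
  · exact hJ (top_le_iff.1 (e ▸ J.normalCore_le))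

theorem idx5 : Idx5Stmt.{u} := by
  intro G _ _ M hs hc Y hY
  have h1 := five_le (K := M) (fun h => hc fun a ha b hb =>
    congrArg Subtype.val (h.is_comm.comm (⟨a, ha⟩ : M) ⟨b, hb⟩)) (Y.subgroupOf M)
    fun h => hY (subgroupOf_eq_top.1 h)
  have := Fintype.ofFinite (M ⧸ Y.subgroupOf M)
  obtain ⟨f⟩ := Function.Embedding.nonempty_of_card_le (α := Fin 5) (β := M ⧸ Y.subgroupOf M)
    (by rwa [Fintype.card_fin, ← Nat.card_eq_fintype_card])
  refine ⟨fun i => (f i).out, fun i => (f i).out.2, fun i j h => f.injective ?_⟩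
  rw [← (f i).out_eq', ← (f j).out_eq']
  exact QuotientGroup.eq.2 h

end Cfsg.Agent.H32.OnIdx5
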