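import Cfsg.Agent.H27.PowRank

/-!
Matrix algebra factors of a linear group: root elements, the radical, transport.
-/

set_option autoImplicit false
set_option linter.unusedSectionVars false

namespace Cfsg.Agent.H32

open Module Function H27
open H36 (InG QT inG_one)

variable {F U V : Type*} [Field F] [AddCommGroup U] [Module F U] [AddCommGroup V] [Module F V]

/-- A symmetric non-degenerate form on a space of dimension at least three. -/
structure UF (f : LinearMap.BilinForm F U) : Prop where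
  nd : f.Nondegenerate
  sy : ∀ x y, f x y = f y x
  three : 3 ≤ finrank F U

variable {f : LinearMap.BilinForm F U} [FiniteDimensional F U]

theorem UF.refl (hf : UF f) : f.IsRefl := fun x y h => by rwa [hf.sy]

theorem UF.orth₂ (hf : UF f) (a b : U) : ∃ y, y ≠ 0 ∧ f a y = 0 ∧ f b y = 0 := by
  obtain ⟨w, hw, hw0⟩ := Submodule.exists_mem_ne_zero_of_ne_bot
    (LinearMap.ker_ne_bot_of_finrank_lt (f := (f a).prod (f b)) (by have := hf.three; simp; omega))
  simp only [LinearMap.mem_ker, LinearMap.prod_apply, Function.prod, Prod.mk_eq_zero] at hw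
  exact ⟨w, hw0, hw⟩

theorem UF.sep (hf : UF f) {x u : U} (h : u ∉ F ∙ x) : ∃ y, f u y = 1 ∧ f x y = 0 := by
  obtain ⟨y, h1, h2⟩ := H79.exists_orth_eq_one hf.nd hf.refl h
  exact ⟨y, h1, h2 x rfl⟩

theorem UF.exists_orth_notMem (hf : UF f) (x y : U) : ∃ u, f u y = 0 ∧ u ∉ F ∙ x := by
  by_contra! H
  have h1 := Submodule.finrank_mono (show LinearMap.ker (f y) ≤ F ∙ x from
    fun u hu => H u (by rw [hf.sy]; exact hu))
  have h2 := LinearMap.finrank_range_add_finrank_ker (f y)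
  have h3 := Submodule.finrank_le (LinearMap.range (f y))
  have h4 := finrank_span_le_card (R := F) ({x} : Set U)
  have := hf.three
  simp at h3 h4
  omega

theorem UF.exists_notMem₂ (hf : UF f) (a b : U) : ∃ u, u ∉ Submodule.span F {a, b} := by
  classical
  obtain ⟨w, -, hw⟩ := SetLike.exists_of_lt (span_lt_top_of_card_lt_finrank (R := F)
    (s := (({a, b} : Finset U) : Set U)) (by
      have := hf.three
      have := Finset.card_le_two (a := a) (b := b)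
      simp only [Finset.toFinset_coe]; omega))
  exact ⟨w, by simpa using hw⟩

theorem UF.exists_flag (hf : UF f) : ∃ x y : U, x ≠ 0 ∧ y ≠ 0 ∧ f x y = 0 := by
  obtain ⟨x, hx, -⟩ := hf.orth₂ 0 0
  obtain ⟨y, hy, h, -⟩ := hf.orth₂ x x
  exact ⟨x, y, hx, hy, h⟩

theorem UF.exists_rep (hf : UF f) (l : U →ₗ[F] F) : ∃ y, ∀ u, f u y = l u :=
  ⟨(f.toDual hf.nd).symm l, fun u => by
    rw [hf.sy, LinearMap.BilinForm.apply_toDual_symm_apply]⟩

/-- Every rank one operator is a product of two nilpotent ones. -/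
theorem UF.exists_split (hf : UF f) (x y : U) :
    ∃ x' y', f x y' = 0 ∧ f x' y = 0 ∧ f x' y' = 1 := by
  obtain ⟨x', h1, h2⟩ := hf.exists_orth_notMem x y
  obtain ⟨y', h3, h4⟩ := hf.sep h2
  exact ⟨x', y', h4, h1, h3⟩

theorem UF.mem_of_roots (hf : UF f) {A : Type*} [Ring A] [Algebra F A] {θ : End F U →ₐ[F] A}
    (C : Subalgebra F A) (h : ∀ x y, f x y = 0 → eE f θ x y ∈ C) (a : End F U) : θ a ∈ C := by
  refine ro_induction (P := fun a => θ a ∈ C) hf.nd (by simp)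
    (fun a b ha hb => by simpa using C.add_mem ha hb) (fun x y => ?_) a
  obtain ⟨x', y', h1, h2, h3⟩ := hf.exists_split x y
  have := C.mul_mem (h x y' h1) (h x' y h2)
  rwa [eE_mul, h3, one_smul] at this

theorem UF.cm_of_roots (hf : UF f) {A : Type*} [Ring A] [Algebra F A] {θ : End F U →ₐ[F] A}
    {c : A} (h : ∀ x y, f x y = 0 → eE f θ x y * c = c * eE f θ x y) : Cm θ c := fun a =>
  (hf.mem_of_roots (Subalgebra.centralizer F {c}) (fun x y hxy => by
    rintro _ rfl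
    exact (h x y hxy).symm) a c rfl).symm

variable {X : Subgroup (End F V)ˣ} {θ θ' : End F U →ₐ[F] End F V} {x y x' y' : U}
  {n ξ η : End F V}

omit [FiniteDimensional F U] in
theorem Cm.of_range {c : End F V} (h : Cm θ c) (e : θ'.range ≤ θ.range) : Cm θ' c := fun a => by
  obtain ⟨b, hb⟩ := e ⟨a, rfl⟩
  have := h b
  rwa [show θ b = θ' a from hb] at this

theorem UF.eE_ne_zero [Nontrivial V] (hf : UF f) (θ : End F U →ₐ[F] End F V) (hx : x ≠ 0)
    (hy : y ≠ 0) : eE f θ x y ≠ 0 := fun h =>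
  one_ne_zero ((cm_one (φ := θ)).eq_zero hf.nd hx hy (by rwa [mul_one]))

theorem UF.inj [Nontrivial V] (hf : UF f) (θ : End F U →ₐ[F] End F V) : Injective θ :=
  (injective_iff_map_eq_zero θ).2 fun a ha => by_contra fun h =>
    one_ne_zero ((cm_one (φ := θ)).eq_zero_of_phi hf.nd h (by rwa [mul_one]))

theorem UF.not_cm [Nontrivial V] (hf : UF f) (hx : x ≠ 0) (hy : y ≠ 0) (h : f x y = 0) :
    ¬ Cm θ (eE f θ x y) := fun hc => by
  obtain ⟨z, hz⟩ := exists_apply_eq_one' hf.nd hy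
  have := hc.comm_eE (f := f) z y
  rw [eE_mul, eE_mul, h, hz, zero_smul, one_smul] at this
  exact hf.eE_ne_zero θ hx hy this.symm

theorem UF.mem_range (hf : UF f) (hy : y ≠ 0) (x z : U) (p : V) :
    eE f θ x z p ∈ LinearMap.range (eE f θ x y) := by
  obtain ⟨w, hw⟩ := exists_apply_eq_one' hf.nd hy
  exact ⟨eE f θ w z p, by rw [eE_eE, hw, one_smul]⟩

theorem UF.range_eq (hf : UF f) (hy : y ≠ 0) (hy' : y' ≠ 0) (x : U) :
    LinearMap.range (eE f θ x y) = LinearMap.range (eE f θ x y') :=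
  le_antisymm (by rintro _ ⟨p, rfl⟩; exact hf.mem_range hy' _ _ _)
    (by rintro _ ⟨p, rfl⟩; exact hf.mem_range hy _ _ _)

theorem UF.eE_of_ker (hf : UF f) (hx : x ≠ 0) {p : V} (hp : eE f θ x y p = 0) (z : U) :
    eE f θ z y p = 0 := by
  obtain ⟨w, hw⟩ := exists_apply_eq_one hf.nd hx
  have := eE_eE (f := f) θ z w x y p
  rwa [hp, map_zero, hw, one_smul, eq_comm] at this

omit [FiniteDimensional F U] in
theorem eE_of_range {p : V} (hp : p ∈ LinearMap.range (eE f θ x y)) (a b : U) :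
    ∃ q, eE f θ x y q = p ∧ eE f θ a b p = f x b • eE f θ a y q := by
  obtain ⟨q, rfl⟩ := hp
  exact ⟨q, rfl, eE_eE _ _ _ _ _ _⟩

omit [FiniteDimensional F U] in
theorem eE_range_zero {p : V} (hp : p ∈ LinearMap.range (eE f θ x y)) (a : U) {b : U}
    (h : f x b = 0) : eE f θ a b p = 0 := by
  obtain ⟨q, -, e⟩ := eE_of_range hp a b
  rw [e, h, zero_smul]

omit [FiniteDimensional F U] in
theorem eE_range_self {p : V} (hp : p ∈ LinearMap.range (eE f θ x y)) {b : U}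
    (h : f x b = 1) : eE f θ x b p = p := by
  obtain ⟨q, e', e⟩ := eE_of_range hp x b
  rw [e, h, one_smul, e']

/-- The rank of a rank one operator of the factor on an invariant subspace. -/
theorem UF.mul_rk [FiniteDimensional F V] (hf : UF f) (hx : x ≠ 0) (hy : y ≠ 0) {c : End F V}
    (hc : Cm θ c) : finrank F U * rk (eE f θ x y * c) = rk c := by
  obtain ⟨z, hz⟩ := exists_apply_eq_one hf.nd hx
  obtain ⟨w, hw⟩ := exists_apply_eq_one' hf.nd hy
  have h0 : ∀ a b p, eE f θ a b (c p) = c (eE f θ a b p) := fun a b =>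
    LinearMap.congr_fun (hc.comm_eE a b)
  have h1 : ∀ r : LinearMap.range (eE f θ x y * c), eE f θ x z r = r := by
    rintro ⟨_, p, rfl⟩
    simp [eE_eE, hz]
  let Ψ : (Fin (finrank F U) → LinearMap.range (eE f θ x y * c)) →ₗ[F] LinearMap.range c :=
    LinearMap.codRestrict _
      (∑ i, eE f θ (dbas hf.nd i) z ∘ₗ Submodule.subtype _ ∘ₗ LinearMap.proj i) fun r => by
        rw [LinearMap.sum_apply]
        refine Submodule.sum_mem _ fun i _ => ?_
        obtain ⟨p, hp⟩ := (r i).2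
        exact ⟨eE f θ (dbas hf.nd i) z (eE f θ x y p), by simp [← hp, h0]⟩
  have := (LinearEquiv.ofBijective Ψ ⟨(injective_iff_map_eq_zero _).2 fun r hr => funext fun j => by
    have := congrArg (eE f θ x (bas F U j)) (congrArg Subtype.val hr)
    simpa [Ψ, eE_eE, dbas_bas, h1] using this, fun ⟨_, p, hp⟩ =>
    ⟨fun i => ⟨eE f θ x (bas F U i) (c p), eE f θ w (bas F U i) p, by simp [← h0, eE_eE, hw]⟩,
      Subtype.ext (by simp [Ψ, eE_eE, hz, ← LinearMap.sum_apply, sum_eE, hp])⟩⟩).finrank_eq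
  simpa [finrank_pi_fintype] using this

theorem UF.mul_rk_one [FiniteDimensional F V] (hf : UF f) (θ : End F U →ₐ[F] End F V) (hx : x ≠ 0)
    (hy : y ≠ 0) : finrank F U * rk (eE f θ x y) = finrank F V := by
  have := hf.mul_rk hx hy (cm_one (φ := θ))
  rwa [mul_one, rk, rk, End.one_eq_id, LinearMap.range_id, finrank_top] at this

theorem UF.rk_eq [FiniteDimensional F V] (hf : UF f) (hx : x ≠ 0) (hy : y ≠ 0) (hx' : x' ≠ 0)
    (hy' : y' ≠ 0) : rk (eE f θ x y) = rk (eE f θ' x' y') :=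
  Nat.eq_of_mul_eq_mul_left (by have := hf.three; omega)
    ((hf.mul_rk_one θ hx hy).trans (hf.mul_rk_one θ' hx' hy').symm)

/-- The conjugate of a factor. -/
def cjH (g : (End F V)ˣ) (θ : End F U →ₐ[F] End F V) : End F U →ₐ[F] End F V where
  toFun a := g * θ a * (g⁻¹ : (End F V)ˣ)
  map_one' := by simp
  map_mul' a b := by simp [mul_assoc]
  map_zero' := by simp
  map_add' a b := by simp [mul_add, add_mul]
  commutes' c := by simp [Algebra.algebraMap_eq_smul_one]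

omit [FiniteDimensional F U] in
theorem cjH_apply (g : (End F V)ˣ) (a : End F U) :
    cjH g θ a = g * θ a * (g⁻¹ : (End F V)ˣ) := rfl

omit [FiniteDimensional F U] in
theorem eE_cjH (g : (End F V)ˣ) (x y : U) :
    eE f (cjH g θ) x y = g * eE f θ x y * (g⁻¹ : (End F V)ˣ) := rfl

omit [FiniteDimensional F U] in
theorem cjH_mul (g h : (End F V)ˣ) : cjH (g * h) θ = cjH g (cjH h θ) :=
  AlgHom.ext fun a => by simp [cjH_apply, mul_assoc]

omit [FiniteDimensional F U] in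
theorem cjH_range (g : (End F V)ˣ) (h : θ.range = θ'.range) :
    (cjH g θ).range = (cjH g θ').range := by
  have key : ∀ {θ θ' : End F U →ₐ[F] End F V}, θ.range = θ'.range →
      (cjH g θ).range ≤ (cjH g θ').range := by
    rintro θ θ' h _ ⟨a, rfl⟩
    obtain ⟨b, hb⟩ := h.le ⟨a, rfl⟩
    exact ⟨b, congrArg (fun t => g.1 * t * (g⁻¹).1) hb⟩
  exact le_antisymm (key h) (key h.symm)

omit [FiniteDimensional F U] in
theorem cjH_of_cm {g : (End F V)ˣ} (h : Cm θ g.1) : cjH g θ = θ :=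
  AlgHom.ext fun a => by rw [cjH_apply, ← h, Units.mul_inv_cancel_right]

omit [FiniteDimensional F U] in
theorem Cm.cj {c : End F V} (h : Cm θ c) (g : (End F V)ˣ) :
    Cm (cjH g θ) (g * c * (g⁻¹ : (End F V)ˣ)) := fun a => by
  simp only [cjH_apply, mul_assoc, Units.inv_mul_cancel_left]
  rw [← mul_assoc (θ a), h, mul_assoc]

omit [FiniteDimensional F U] in
theorem Cm.of_cj {c : End F V} {g : (End F V)ˣ} (h : Cm (cjH g θ) c) :
    Cm θ ((g⁻¹ : (End F V)ˣ) * c * g) := by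
  have := Cm.cj h g⁻¹
  rwa [← cjH_mul, inv_mul_cancel, cjH_of_cm cm_one, inv_inv] at this

omit [FiniteDimensional F U] in
theorem range_cj (g : (End F V)ˣ) (T : End F V) :
    LinearMap.range (g * T * (g⁻¹ : (End F V)ˣ) : End F V) = (LinearMap.range T).map g.1 := by
  ext p
  constructor
  · rintro ⟨q, rfl⟩
    exact ⟨_, ⟨_, rfl⟩, rfl⟩
  · rintro ⟨_, ⟨q, rfl⟩, rfl⟩
    exact ⟨g.1 q, by simp [← End.mul_apply (g⁻¹).1 g.1]⟩

/-- A factor of `X`: the root elements lie in `X`, and only scalar coefficients occur. -/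
structure Fa (f : LinearMap.BilinForm F U) (X : Subgroup (End F V)ˣ)
    (θ : End F U →ₐ[F] End F V) : Prop where
  root : ∀ x y, f x y = 0 → InG X (1 + eE f θ x y)
  m : ∀ x y, x ≠ 0 → y ≠ 0 → f x y = 0 → ∀ e, Cm θ e → InG X (1 + eE f θ x y * e) →
    ∃ c : F, e = c • 1

omit [FiniteDimensional F U] in
theorem Fa.cj (h : Fa f X θ) {g : (End F V)ˣ} (hg : g ∈ X) : Fa f X (cjH g θ) := by
  refine ⟨fun x y hxy => inG_conj ⟨g, hg, rfl⟩ g.mul_inv (h.root x y hxy),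
    fun x y hx hy hxy e he h1 => ?_⟩
  obtain ⟨c, hc⟩ := h.m x y hx hy hxy _ (Cm.of_cj he) (by
    convert inG_conj ⟨g⁻¹, X.inv_mem hg, rfl⟩ g.inv_mul h1 using 2
    simp [eE_cjH, mul_assoc])
  refine ⟨c, ?_⟩
  have := congrArg (fun t => g.1 * t * (g⁻¹).1) hc
  simpa [mul_assoc] using this

theorem Fa.r1 [Nontrivial V] (hf : UF f) (h : Fa f X θ) (hx : x ≠ 0) (hy : y ≠ 0)
    (hn : InG X (1 + n))
    (h1 : ∀ p, n p ∈ LinearMap.range (eE f θ x y))
    (h2 : ∀ p ∈ LinearMap.range (eE f θ x y), n p = 0) : ∃ z, f x z = 0 ∧ n = eE f θ x z := by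
  obtain ⟨χ, hχ⟩ := exists_apply_eq_one hf.nd hx
  have h3 : eE f θ x χ * n = n := LinearMap.ext fun p => eE_range_self (h1 p) hχ
  have key : ∀ u, ∃ c : F, co hf.nd θ χ u n = c • 1 := fun u => by
    obtain ⟨ψ, h4, h5, h6⟩ := hf.orth₂ x u
    have h7 : eE f θ u ψ * n = 0 := LinearMap.ext fun p => eE_range_zero (h1 p) u h5
    have h8 := inG_comm hn (h.root u ψ h6) (by rw [mul_assoc, h7, mul_zero])
      (by rw [mul_assoc, eE_mul, h6, zero_smul, mul_zero]) (by rw [h7, zero_mul])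
      (by rw [h7, zero_mul])
    exact h.m x ψ hx h4 h5 _ (cm_co _ _ _) (by rwa [eE_mul_co, h3, ← sub_zero (n * _), ← h7])
  choose c hc using key
  have h4 : n = eE f θ x (∑ j, c (dbas hf.nd j) • bas F U j) := by
    rw [← h3, ← mul_one (_ * n), ← sum_eE (φ := θ) hf.nd]
    simp only [Finset.mul_sum, ← eE_mul_co (hf := hf.nd), hc, map_sum, map_smul, mul_smul_comm,
      mul_one]
  refine ⟨_, ?_, h4⟩
  have h5 : n * eE f θ x y = 0 := LinearMap.ext fun p => h2 _ ⟨p, rfl⟩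
  rw [h4, eE_mul] at h5
  exact (smul_eq_zero.1 h5).resolve_right (hf.eE_ne_zero θ hx hy)

theorem Fa.r2 [Nontrivial V] (hf : UF f) (h : Fa f X θ) (hx : x ≠ 0) (hy : y ≠ 0)
    (hn : InG X (1 + n))
    (h1 : ∀ p, eE f θ x y (n p) = 0) (h2 : ∀ p, eE f θ x y p = 0 → n p = 0) :
    ∃ z, f z y = 0 ∧ n = eE f θ z y := by
  obtain ⟨w, hw⟩ := exists_apply_eq_one' hf.nd hy
  have h3 : n * eE f θ w y = n := LinearMap.ext fun p => by
    have := h2 (p - eE f θ w y p) (by simp [eE_eE, hw])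
    rwa [map_sub, sub_eq_zero, eq_comm] at this
  have h0 : n * n = 0 := LinearMap.ext fun p => h2 _ (h1 p)
  have key : ∀ ψ, ∃ c : F, co hf.nd θ ψ w n = c • 1 := fun ψ => by
    obtain ⟨u, h4, h5, h6⟩ := hf.orth₂ ψ y
    rw [hf.sy] at h5 h6
    have h7 : n * eE f θ u ψ = 0 := by rw [← h3, mul_assoc, eE_mul, h6, zero_smul, mul_zero]
    have h8 := inG_comm (h.root u ψ h5) hn (by rw [mul_assoc, h7, mul_zero])
      (by rw [mul_assoc, h0, mul_zero]) (by rw [h7, zero_mul]) (by rw [h7, zero_mul])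
    exact h.m u y h4 hy h6 _ (cm_co _ _ _) (by
      rwa [eE_mul_co, mul_assoc, h3, ← sub_zero (_ * n), ← h7])
  choose c hc using key
  have h4 : n = eE f θ (∑ j, c (bas F U j) • dbas hf.nd j) y := by
    rw [← h3, ← one_mul (n * _), ← sum_eE (φ := θ) hf.nd]
    simp only [Finset.sum_mul, ← mul_assoc, ← eE_mul_co (hf := hf.nd), hc, map_sum, map_smul,
      mul_smul_comm, mul_one, LinearMap.sum_apply, LinearMap.smul_apply]
  refine ⟨_, ?_, h4⟩
  have h5 : eE f θ x y * n = 0 := LinearMap.ext h1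
  rw [h4, eE_mul] at h5
  exact (smul_eq_zero.1 h5).resolve_right (hf.eE_ne_zero θ hx hy)

/-- Two factors with a common centre coincide. -/
theorem Fa.range_eq [Nontrivial V] (hf : UF f) (h : Fa f X θ) (h' : Fa f X θ') (hx : x ≠ 0)
    (hy : y ≠ 0) (hx' : x' ≠ 0) (hy' : y' ≠ 0)
    (e : LinearMap.range (eE f θ x y) = LinearMap.range (eE f θ' x' y')) :
    θ.range = θ'.range := by
  have A : ∀ {θ θ' : End F U →ₐ[F] End F V} {x y x' y' : U}, Fa f X θ → Fa f X θ' → y ≠ 0 →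
      x' ≠ 0 → y' ≠ 0 → LinearMap.range (eE f θ x y) = LinearMap.range (eE f θ' x' y') →
      ∀ ψ, f x ψ = 0 → ∃ ψ', f x' ψ' = 0 ∧ eE f θ x ψ = eE f θ' x' ψ' :=
    fun h h' hy hx' hy' e ψ hψ => h'.r1 hf hx' hy' (h.root _ _ hψ)
      (fun p => e ▸ hf.mem_range hy _ _ _) fun p hp => eE_range_zero (e ▸ hp) _ hψ
  have key : ∀ {θ θ' : End F U →ₐ[F] End F V} {x y x' y' : U}, Fa f X θ → Fa f X θ' → x ≠ 0 →
      y ≠ 0 → x' ≠ 0 → y' ≠ 0 →
      LinearMap.range (eE f θ x y) = LinearMap.range (eE f θ' x' y') → θ.range ≤ θ'.range := by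
    rintro θ θ' x y x' y' h h' hx hy hx' hy' e _ ⟨a, rfl⟩
    refine hf.mem_of_roots _ (fun u z hz => ?_) a
    by_cases hu : u = 0
    · simp [hu]
    obtain ⟨ψ, h1, h2, h3⟩ := hf.orth₂ x u
    obtain ⟨ψ', h4, h5⟩ := A h h' hy hx' hy' e ψ h2
    have h6 : ψ' ≠ 0 := by
      rintro rfl
      exact hf.eE_ne_zero θ hx h1 (by simp [h5])
    obtain ⟨u', -, h8⟩ := h'.r2 hf hx' h6 (h.root u ψ h3) (fun p => by simp [← h5, eE_eE, h3])
      fun p hp => hf.eE_of_ker hx (h5 ▸ hp) u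
    obtain ⟨z', -, h9⟩ := A h h' h1 (x' := u') (by
      rintro rfl
      exact hf.eE_ne_zero θ hu h1 (by simp [h8])) h6 (by rw [h8]) z hz
    exact ⟨_, h9.symm⟩
  exact le_antisymm (key h h' hx hy hx' hy' e) (key h' h hx' hy' hx hy e.symm)

/-- An element normalising a factor is a product of an element of the factor and an element of
the commutant. -/
theorem UF.exists_factor [Nontrivial V] (hf : UF f) {g : (End F V)ˣ}
    (h : (cjH g θ).range = θ.range) :
    ∃ (γ : U ≃ₗ[F] U) (β : End F V), Cm θ β ∧ g.1 = θ γ.toLinearMap * β := by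
  obtain ⟨γ, hγ⟩ := ((AlgEquiv.ofInjective _ (hf.inj (cjH g θ))).trans
    ((Subalgebra.equivOfEq _ _ h).trans
      (AlgEquiv.ofInjective _ (hf.inj θ)).symm)).eq_linearEquivConjAlgEquiv
  have h1 : ∀ a, cjH g θ a = θ (γ.toLinearMap * a * γ.symm.toLinearMap) := fun a => by
    have := congrArg (fun t => ((AlgEquiv.ofInjective _ (hf.inj θ) t : θ.range) : End F V))
      (AlgEquiv.congr_fun hγ a)
    simp only [AlgEquiv.trans_apply, AlgEquiv.apply_symm_apply] at this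
    exact this
  have h2 := equiv_mul_symm γ
  have h3 : γ.symm.toLinearMap * γ.toLinearMap = 1 := equiv_mul_symm γ.symm
  refine ⟨γ, θ γ.symm.toLinearMap * g, fun a => ?_, by rw [← mul_assoc, ← map_mul, h2]; simp⟩
  have h4 : g.1 * θ a = θ (γ.toLinearMap * a * γ.symm.toLinearMap) * g := by
    rw [← h1, cjH_apply, Units.inv_mul_cancel_right]
  rw [mul_assoc, h4, ← mul_assoc, ← mul_assoc, ← map_mul, ← map_mul, ← mul_assoc, ← mul_assoc, h3,
    one_mul]

/-- `ξ` is the nilpotent part of a root element of the factor `θ`. -/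
def Rt (f : LinearMap.BilinForm F U) (θ : End F U →ₐ[F] End F V) (ξ : End F V) : Prop :=
  ∃ x y, x ≠ 0 ∧ y ≠ 0 ∧ f x y = 0 ∧ ξ = eE f θ x y

/-- `ξ` is the nilpotent part of a root element of some factor of `X`. -/
def Sg (f : LinearMap.BilinForm F U) (X : Subgroup (End F V)ˣ) (ξ : End F V) : Prop :=
  ∃ θ : End F U →ₐ[F] End F V, Fa f X θ ∧ Rt f θ ξ

omit [FiniteDimensional F U] in
theorem Rt.cj (h : Rt f θ ξ) (g : (End F V)ˣ) :
    Rt f (cjH g θ) (g * ξ * (g⁻¹ : (End F V)ˣ)) := by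
  obtain ⟨x, y, h1, h2, h3, rfl⟩ := h
  exact ⟨x, y, h1, h2, h3, rfl⟩

omit [FiniteDimensional F U] in
theorem Rt.mem (h : Rt f θ ξ) : ξ ∈ θ.range := by
  obtain ⟨x, y, -, -, -, rfl⟩ := h
  exact ⟨_, rfl⟩

omit [FiniteDimensional F U] in
theorem Rt.sq (h : Rt f θ ξ) : ξ * ξ = 0 := by
  obtain ⟨x, y, -, -, h, rfl⟩ := h
  rw [eE_mul, h, zero_smul]

theorem Rt.not_cm [Nontrivial V] (hf : UF f) (h : Rt f θ ξ) : ¬ Cm θ ξ := by
  obtain ⟨x, y, h1, h2, h3, rfl⟩ := h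
  exact hf.not_cm h1 h2 h3

theorem Rt.ne [Nontrivial V] (hf : UF f) (h : Rt f θ ξ) : ξ ≠ 0 := fun e =>
  h.not_cm hf (e ▸ cm_zero)

theorem Rt.rk_eq [FiniteDimensional F V] (hf : UF f) (h : Rt f θ ξ) (h' : Rt f θ' η) :
    rk ξ = rk η := by
  obtain ⟨x, y, h1, h2, -, rfl⟩ := h
  obtain ⟨x', y', h3, h4, -, rfl⟩ := h'
  exact hf.rk_eq h1 h2 h3 h4

theorem Rt.range_eq [Nontrivial V] (hf : UF f) (hθ : Fa f X θ) (hθ' : Fa f X θ') (h : Rt f θ ξ)
    (h' : Rt f θ' η) (e : LinearMap.range ξ = LinearMap.range η) : θ.range = θ'.range := by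
  obtain ⟨x, y, h1, h2, -, rfl⟩ := h
  obtain ⟨x', y', h3, h4, -, rfl⟩ := h'
  exact hθ.range_eq hf hθ' h1 h2 h3 h4 e

omit [FiniteDimensional F U] in
theorem Sg.cj (h : Sg f X ξ) {g : (End F V)ˣ} (hg : g ∈ X) :
    Sg f X (g * ξ * (g⁻¹ : (End F V)ˣ)) := by
  obtain ⟨θ, h1, h2⟩ := h
  exact ⟨_, h1.cj hg, h2.cj g⟩

omit [FiniteDimensional F U] in
theorem Sg.qt (h : Sg f X ξ) : QT F X ξ := by
  obtain ⟨θ, h1, h2⟩ := h
  refine ⟨h2.sq, fun c => ?_⟩
  obtain ⟨x, y, -, -, h, rfl⟩ := h2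
  simpa using h1.root (c • x) y (by simp [h])

theorem Sg.eq_smul [Nontrivial V] (hf : UF f) (h : Sg f X ξ) (hn : InG X (1 + n))
    (h1 : ∀ p, n p ∈ LinearMap.range ξ) (h2 : ∀ p, ξ p = 0 → n p = 0) : ∃ c : F, n = c • ξ := by
  obtain ⟨θ, hθ, x, y, hx, hy, hxy, rfl⟩ := h
  obtain ⟨z, -, rfl⟩ := hθ.r1 hf hx hy hn h1 fun p hp => h2 p (eE_range_zero hp _ hxy)
  obtain ⟨w, hw⟩ := exists_apply_eq_one' hf.nd hy
  refine ⟨f w z, LinearMap.ext fun p => ?_⟩
  have := h2 (p - eE f θ w y p) (by simp [eE_eE, hw])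
  rwa [map_sub, eE_eE, sub_eq_zero] at this

theorem Sg.rt [Nontrivial V] (hf : UF f) (h : Sg f X ξ) (hθ : Fa f X θ) (hξ : ξ ∈ θ.range) :
    Rt f θ ξ := by
  obtain ⟨ν, rfl⟩ := hξ
  change Sg f X (θ ν) at h
  change Rt f θ (θ ν)
  obtain ⟨v, hv⟩ : ∃ v, ν v ≠ 0 := by
    by_contra! H
    obtain ⟨_, -, h⟩ := h
    exact h.ne hf (by rw [show ν = 0 from LinearMap.ext H, map_zero])
  have h0 : ν * ν = 0 := hf.inj θ (by rw [map_mul, h.qt.sq, map_zero])
  obtain ⟨z, hz⟩ := exists_apply_eq_one hf.nd hv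
  obtain ⟨y, hy⟩ := hf.exists_rep (f.flip z ∘ₗ ν)
  have hy0 : y ≠ 0 := by
    rintro rfl
    simpa [hz] using hy v
  have h1 : f (ν v) y = 0 := by simp [hy, ← End.mul_apply, h0]
  have h2 : eE f θ (ν v) y = θ ν * eE f θ v z * θ ν := by
    rw [phi_mul_eE, eE_mul_phi fun u => (hy u).symm]
  obtain ⟨c, hc⟩ := h.eq_smul hf (hθ.root _ _ h1) (fun p => ⟨_, by rw [h2]; rfl⟩)
    fun p hp => by simp [h2, hp]
  have hc0 : c ≠ 0 := by
    rintro rfl
    exact hf.eE_ne_zero θ hv hy0 (by simp [hc])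
  exact ⟨c⁻¹ • ν v, y, by simp [hc0, hv], hy0, by simp [h1], by simp [hc, hc0]⟩

/-- A root element normalising a factor lies in it or centralises it. -/
theorem Rt.mem_or_cm [Nontrivial V] [FiniteDimensional F V] (hf : UF f) (h : Rt f θ' ξ)
    {b : (End F V)ˣ} (hb : b.1 = 1 + ξ) (e : (cjH b θ).range = θ.range) :
    ξ ∈ θ.range ∨ Cm θ ξ := by
  obtain ⟨γ, β, hβ, h1⟩ := hf.exists_factor e
  have h2 : ξ = θ γ.toLinearMap * β - 1 := by rw [← h1, hb, add_sub_cancel_left]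
  by_cases h3 : ∀ u, u ∈ F ∙ γ u
  · obtain ⟨a, ha⟩ := γ.toLinearMap.exists_eq_smul_id_of_forall_notLinearIndependent fun v hv => by
      obtain ⟨c, hc⟩ := Submodule.mem_span_singleton.1 (h3 v)
      simpa using (LinearIndependent.pair_iff.1 hv (-1) c (by simp [hc])).1
    rw [h2, ha, map_smul, map_one, smul_mul_assoc, one_mul]
    exact Or.inr ((hβ.smul a).sub cm_one)
  push Not at h3
  obtain ⟨u, hu⟩ := h3
  have hu0 : u ≠ 0 := by rintro rfl; simp at hu
  obtain ⟨φ, h4, h5⟩ := hf.sep hu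
  have h6 : ∀ a b v z, eE f θ a b * ξ * eE f θ v z =
      f (γ v) b • (eE f θ a z * β) - f v b • eE f θ a z := fun a b v z => by
    rw [h2, mul_sub, sub_mul, mul_one, eE_mul, mul_assoc, mul_assoc, ← hβ.comm_eE, ← mul_assoc (θ _),
      phi_mul_eE, eE_mul']
    rfl
  have hφ : φ ≠ 0 := by rintro rfl; simp at h4
  have h7 : LinearMap.range (ξ * eE f θ u φ) = LinearMap.range ξ := by
    refine Submodule.eq_of_le_of_finrank_le (LinearMap.range_comp_le_range _ _) ?_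
    have h8 := rk_mul_le_right (-eE f θ u φ) (ξ * eE f θ u φ)
    rw [neg_mul, ← mul_assoc, h6, h5, h4, zero_smul, one_smul, zero_sub, neg_neg] at h8
    obtain ⟨x, y, hx, hy, -, rfl⟩ := h
    exact (hf.rk_eq hx hy hu0 hφ).le.trans h8
  obtain ⟨u', hu'⟩ := hf.exists_notMem₂ u (γ u)
  obtain ⟨φ', h8, h9⟩ := H79.exists_orth_eq_one hf.nd hf.refl hu'
  have h10 : eE f θ u φ' * ξ = 0 := LinearMap.ext fun p => by
    obtain ⟨q, hq⟩ := h7.ge ⟨p, rfl⟩
    have := LinearMap.congr_fun (h6 u φ' u φ) q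
    rw [h9 u (by simp), h9 (γ u) (by simp), mul_assoc, End.mul_apply, hq] at this
    simpa using this
  have h11 := h6 u φ' u' φ
  rw [h10, zero_mul, h8, one_smul, eq_comm, sub_eq_zero, ← mul_smul_comm] at h11
  have h12 := (hβ.smul _).cancel hf.nd hu0 hφ cm_one (h11.trans (mul_one _).symm)
  have h13 : f (γ u') φ' ≠ 0 := fun e => by simp [e] at h12
  refine Or.inl ⟨(f (γ u') φ')⁻¹ • γ.toLinearMap - 1, ?_⟩
  rw [h2, ← inv_smul_smul₀ h13 β, h12]
  simp

end Cfsg.Agent.H32
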