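import Cfsg.Agent.H32.PwN

/-!
Frames in characteristic two: centres and axes of different frames meet trivially.
-/

set_option autoImplicit false
set_option linter.unusedSectionVars false

namespace Cfsg.Agent.H32

open Module Function H27
open H36 (InG QT inG_one)

variable {F U V τ : Type*} [Field F] [AddCommGroup U] [Module F U] [AddCommGroup V] [Module F V]
  {f : LinearMap.BilinForm F U} [FiniteDimensional F U] [FiniteDimensional F V] [Nontrivial V]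
  {X : Subgroup (End F V)ˣ} {θ θ' : End F U →ₐ[F] End F V} {x y : U} {ξ ξ' η η' T : End F V}
  {φ₀ φ φ' : τ → End F U →ₐ[F] End F V} {I : Finset τ} {a g : (End F V)ˣ}

theorem finrank_map_add_inf_ker (T : End F V) (W : Submodule F V) :
    finrank F (W.map T) + finrank F ↥(W ⊓ LinearMap.ker T) = finrank F W := by
  rw [← LinearMap.finrank_range_add_finrank_ker (T.domRestrict W), LinearMap.range_domRestrict,
    LinearMap.ker_domRestrict, ← Submodule.finrank_map_subtype_eq W, Submodule.map_comap_subtype]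

theorem UF.three_mul_le (hf : UF f) (h : Rt f θ η) (hT : Cm θ T) :
    3 * finrank F ↥(LinearMap.range η ⊓ LinearMap.range T) ≤ rk T := by
  obtain ⟨x, y, hx, -, -, rfl⟩ := h
  obtain ⟨z, hz⟩ := exists_apply_eq_one hf.nd hx
  rw [← hf.mul_rk hx (y := z) (by rintro rfl; simp at hz) hT]
  refine Nat.mul_le_mul hf.three (Submodule.finrank_mono ?_)
  rintro _ ⟨h, p, rfl⟩
  exact ⟨p, eE_range_self h hz⟩

theorem UF.eq_zero_of_range (hf : UF f) {x' y' : U} (h : x' ∉ F ∙ x) {p : V}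
    (h1 : p ∈ LinearMap.range (eE f θ x y)) (h2 : p ∈ LinearMap.range (eE f θ x' y')) : p = 0 := by
  obtain ⟨z, h3, h4⟩ := hf.sep h
  rw [← eE_range_self h2 h3, eE_range_zero h1 _ h4]

theorem Rt.range_eq_of_mem (hf : UF f) (h : Rt f θ η) (h' : Rt f θ η') {p : V} (hp : p ≠ 0)
    (h1 : p ∈ LinearMap.range η) (h2 : p ∈ LinearMap.range η') :
    LinearMap.range η = LinearMap.range η' := by
  obtain ⟨x, y, hx, hy, -, rfl⟩ := h
  obtain ⟨x', y', hx', hy', -, rfl⟩ := h'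
  obtain ⟨c, rfl⟩ := Submodule.mem_span_singleton.1
    (by_contra fun e => hp (hf.eq_zero_of_range e h1 h2))
  rw [hf.range_eq hy hy', map_smul, LinearMap.smul_apply,
    LinearMap.range_smul _ _ fun e => hx' (by simp [e])]

theorem Rt.eq_zero_of_forall (hf : UF f) (h : Rt f θ η) {p : V}
    (hp : ∀ b, θ b p ∈ LinearMap.range η) : p = 0 := by
  obtain ⟨x, y, -, -, -, rfl⟩ := h
  obtain ⟨u, -, hu⟩ := hf.exists_orth_notMem x x
  obtain ⟨z, h1, h2⟩ := hf.sep hu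
  have : ∀ a b, eE f θ a b p = 0 := fun a b => by
    simpa [← eE_apply, eE_eE, h1] using eE_range_zero (hp (ro f u b)) a h2
  simpa [this] using (LinearMap.congr_fun (sum_eE (φ := θ) hf.nd) p).symm

theorem Rt.mul_eq_zero (hf : UF f) (h : Rt f θ η) (h' : Rt f θ η') (e : η * η' = η' * η) :
    η * η' = 0 := by
  obtain ⟨x, y, hx, hy, hxy, rfl⟩ := h
  obtain ⟨x', y', hx', hy', hxy', rfl⟩ := h'
  by_contra h0
  rw [eE_mul] at h0
  have h1 : f x' y ≠ 0 := fun e => h0 (by simp [e])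
  obtain ⟨w, hw⟩ := exists_apply_eq_one' hf.nd hy
  have h2 := congrArg (fun t => eE f θ x y * t * eE f θ w y) e
  simp only [eE_mul, mul_smul_comm, smul_mul_assoc, hxy, zero_smul, smul_zero, hw, smul_smul] at h2
  have h3 := (smul_eq_zero.1 h2.symm).resolve_right (hf.eE_ne_zero θ hx hy)
  rw [eE_mul, eE_mul, show f x y' = 0 by simpa [h1] using h3, zero_smul] at e
  exact h0 e

/-- The frames of `X` which share with `φ₀` the factors in `I`. -/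
structure Fm (f : LinearMap.BilinForm F U) (X : Subgroup (End F V)ˣ) (I : Finset τ)
    (φ₀ φ : τ → End F U →ₐ[F] End F V) : Prop where
  fr : Fr f X φ
  ag : ∀ i ∈ I, (φ i).range = (φ₀ i).range

/-- The elements of `X` centralising the factors in `I`. -/
def cenY (X : Subgroup (End F V)ˣ) (I : Finset τ) (φ₀ : τ → End F U →ₐ[F] End F V) :
    Subgroup (End F V)ˣ where
  carrier := {g | g ∈ X ∧ ∀ i ∈ I, Cm (φ₀ i) g.1}
  mul_mem' ha hb := ⟨X.mul_mem ha.1 hb.1, fun i hi => (ha.2 i hi).mul (hb.2 i hi)⟩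
  one_mem' := ⟨X.one_mem, fun _ _ => cm_one⟩
  inv_mem' {g} ha := ⟨X.inv_mem ha.1, fun i hi => (ha.2 i hi).inv g.mul_inv g.inv_mul⟩

/-- The root elements of the factors outside `I`. -/
def In (f : LinearMap.BilinForm F U) (I : Finset τ) (φ : τ → End F U →ₐ[F] End F V)
    (ξ : End F V) : Prop := ∃ s ∉ I, Rt f (φ s) ξ

theorem Fm.cj (h : Fm f X I φ₀ φ) (hg : g ∈ cenY X I φ₀) :
    Fm f X I φ₀ fun i => cjH g (φ i) :=
  ⟨h.fr.cj hg.1, fun i hi => by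
    rw [cjH_of_cm (Cm.of_range (hg.2 i hi) (h.ag i hi).le), h.ag i hi]⟩

theorem In.cj (h : In f I φ ξ) (g : (End F V)ˣ) :
    In f I (fun i => cjH g (φ i)) (g * ξ * (g⁻¹ : (End F V)ˣ)) := by
  obtain ⟨s, h1, h2⟩ := h
  exact ⟨s, h1, h2.cj g⟩

theorem In.sg (h : In f I φ ξ) (hφ : Fm f X I φ₀ φ) : Sg f X ξ := by
  obtain ⟨s, -, h2⟩ := h
  exact ⟨_, hφ.fr.fa s, h2⟩

theorem In.sq (h : In f I φ ξ) : ξ * ξ = 0 := h.choose_spec.2.sq

theorem In.exists_unit (h2 : (2 : F) = 0) (h : In f I φ ξ) (hφ : Fm f X I φ₀ φ) :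
    ∃ a ∈ cenY X I φ₀, a.1 = 1 + ξ ∧ a * a = 1 := by
  obtain ⟨a, h3, e⟩ := (h.sg hφ).qt.mem 1
  rw [one_smul] at e
  obtain ⟨s, hs, h⟩ := h
  exact ⟨a, ⟨h3, fun i hi => e ▸ cm_one.add (Cm.of_range
    (hφ.fr.cm_of_mem (by rintro rfl; exact hs hi) h.mem) (hφ.ag i hi).ge)⟩, e,
    Units.ext (by rw [Units.val_mul, e]; exact sq_one_add h2 h.sq)⟩

theorem In.of_same (hf : UF f) (h : In f I φ ξ) (hφ : Fm f X I φ₀ φ) (hφ' : Fm f X I φ₀ φ')
    (e : Same φ φ') : In f I φ' ξ := by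
  have h1 := h.sg hφ
  obtain ⟨s, hs, h⟩ := h
  obtain ⟨j, hj⟩ := e s
  exact ⟨j, fun hj' => hs (hφ.fr.eq_of_range hf (hj.trans ((hφ'.ag j hj').trans
    (hφ.ag j hj').symm)) ▸ hj'), h1.rt hf (hφ'.fr.fa j) (hj ▸ h.mem)⟩

/-- The inductive situation. -/
structure Cx (f : LinearMap.BilinForm F U) (X : Subgroup (End F V)ˣ) (I : Finset τ)
    (φ₀ : τ → End F U →ₐ[F] End F V) : Prop where
  uf : UF f
  two : (2 : F) = 0
  ih : ∀ φ φ', Fm f X I φ₀ φ → Fm f X I φ₀ φ' → ∀ s ∉ I, ∀ j, (φ s).range = (φ' j).range →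
    Same φ φ'

theorem Cx.same_of_range (H : Cx f X I φ₀) (hφ : Fm f X I φ₀ φ) (hφ' : Fm f X I φ₀ φ')
    (h : In f I φ ξ) (h' : In f I φ' ξ') (e : LinearMap.range ξ = LinearMap.range ξ') :
    Same φ φ' := by
  obtain ⟨s, hs, h⟩ := h
  obtain ⟨j, -, h'⟩ := h'
  exact H.ih _ _ hφ hφ' s hs j (h.range_eq H.uf (hφ.fr.fa s) (hφ'.fr.fa j) h' e)

theorem Cx.same_of_le (H : Cx f X I φ₀) (hφ : Fm f X I φ₀ φ) (hφ' : Fm f X I φ₀ φ')
    (h : In f I φ ξ) (h' : In f I φ' ξ') (e : LinearMap.range ξ ≤ LinearMap.range ξ') :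
    Same φ φ' :=
  H.same_of_range hφ hφ' h h' (Submodule.eq_of_le_of_finrank_eq e
    (h.choose_spec.2.rk_eq H.uf h'.choose_spec.2))

theorem Cx.same_of_cj (H : Cx f X I φ₀) (hφ : Fm f X I φ₀ φ) (hφ' : Fm f X I φ₀ φ')
    (h : In f I φ η) (ha : a.1 = 1 + η) (e : Same (fun i => cjH a (φ' i)) φ') : Same φ φ' := by
  obtain ⟨j, hj⟩ := hφ'.fr.exists_rt_two H.uf H.two (h.sg hφ) ha e
  obtain ⟨s, hs, h⟩ := h
  exact H.ih _ _ hφ hφ' s hs j (h.range_eq H.uf (hφ.fr.fa s) (hφ'.fr.fa j) hj rfl)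

theorem Cx.same_of_conj (H : Cx f X I φ₀) (hφ : Fm f X I φ₀ φ) (hφ' : Fm f X I φ₀ φ')
    (h : In f I φ η) (haY : a ∈ cenY X I φ₀) (ha : a.1 = 1 + η) (h1 : In f I φ' ξ)
    (h2 : In f I φ' (a * ξ * (a⁻¹ : (End F V)ˣ))) : Same φ φ' :=
  H.same_of_cj hφ hφ' h ha (H.same_of_range (hφ'.cj haY) hφ' (h1.cj a) h2 rfl)

/-- The pointwise stabiliser of a subspace. -/
def fixK (K : Submodule F V) : Subgroup (End F V)ˣ where
  carrier := {g | ∀ p ∈ K, g.1 p = p}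
  mul_mem' ha hb p hp := by rw [Units.val_mul, End.mul_apply, hb p hp, ha p hp]
  one_mem' _ _ := rfl
  inv_mem' {g} ha p hp := by
    conv_lhs => rw [← ha p hp, ← End.mul_apply, g.inv_mul, End.one_apply]

theorem val_conj_sub {b c : (End F V)ˣ} (h : g * b * g⁻¹ = c) (hb : b.1 = 1 + η) :
    c.1 - 1 = g * η * (g⁻¹ : (End F V)ˣ) := by
  rw [← h, Units.val_mul, Units.val_mul, hb, mul_add, add_mul, mul_one, Units.mul_inv,
    add_sub_cancel_left]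

theorem mem_range_of_fix {K : Submodule F V} (hg : g ∈ fixK K) {p : V} (hp : p ∈ K) :
    p ∈ LinearMap.range (g * T * (g⁻¹ : (End F V)ˣ) : End F V) ↔ p ∈ LinearMap.range T := by
  rw [range_cj]
  refine ⟨?_, fun h => ⟨p, h, hg p hp⟩⟩
  rintro ⟨q, hq, e⟩
  have := (fixK K).inv_mem hg p hp
  rw [← e, ← End.mul_apply, g.inv_mul, End.one_apply, e] at this
  rwa [← this]

theorem Rt.conj_mem (h : Fr f X φ) {i s : τ} (hi : Rt f (φ i) ξ) (ha : a.1 = 1 + ξ)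
    (haa : a * a = 1) (hη : η ∈ (φ s).range) : a * η * (a⁻¹ : (End F V)ˣ) ∈ (φ s).range := by
  by_cases his : i = s
  · rw [inv_eq_of_mul_eq_one_right haa, ha]
    have := (φ s).range.add_mem (φ s).range.one_mem (his ▸ hi.mem)
    exact (φ s).range.mul_mem ((φ s).range.mul_mem this hη) this
  · obtain ⟨b, rfl⟩ := hη
    have h1 : Cm (φ s) a.1 := ha ▸ cm_one.add (h.cm_of_mem (Ne.symm his) hi.mem)
    exact ⟨b, show φ s b = a * φ s b * _ by rw [← h1, Units.mul_inv_cancel_right]⟩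

variable [Finite F] [Finite τ]

theorem Cx.step (H : Cx f X I φ₀) (hφ : Fm f X I φ₀ φ) (hφ' : Fm f X I φ₀ φ') (hne : ¬ Same φ φ')
    {K : Submodule F V} (hK : K ≠ ⊥)
    (hmax : ∀ φ φ' η ξ, Fm f X I φ₀ φ → Fm f X I φ₀ φ' → ¬ Same φ φ' → In f I φ η → In f I φ' ξ →
      finrank F ↥(LinearMap.range ξ ⊓ LinearMap.ker η) ≤ finrank F K)
    {s : τ} (hs : s ∉ I) {w w' y : U} (hw : w ≠ 0) (hy : y ≠ 0) (hwy : f w y = 0)
    (hw' : w' ∉ F ∙ w) (hwy' : f w' y = 0) (hξ : In f I φ' ξ)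
    (hK1 : K ≤ LinearMap.range (eE f (φ s) w y)) (hK2 : K ≤ LinearMap.range ξ) :
    ∃ j ζ, j ≠ s ∧ j ∉ I ∧ Rt f (φ j) ζ ∧
      K = LinearMap.range (eE f (φ s) w y) ⊓ LinearMap.range ζ ∧
      (∀ p ∈ LinearMap.range ξ, eE f (φ s) w' y p ∈ LinearMap.range ζ →
        p ∈ LinearMap.range (eE f (φ s) w' y) ⊔ LinearMap.range ζ) ∧
      ∃ p ∈ LinearMap.range ξ, p ∉ K ∧ eE f (φ s) w' y p ∈ LinearMap.range ζ := by
  have hf := H.uf
  have h2 := H.two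
  have : Finite V := Module.finite_of_finite F
  have : Finite (End F V) := Module.finite_of_finite F
  have hR : Rt f (φ s) (eE f (φ s) w y) := ⟨w, y, hw, hy, hwy, rfl⟩
  have hR' : Rt f (φ s) (eE f (φ s) w' y) := ⟨w', y, by rintro rfl; simp at hw', hy, hwy', rfl⟩
  have hKη : K ≤ LinearMap.ker (eE f (φ s) w' y) := fun p hp => eE_range_zero (hK1 hp) _ hwy
  have hdis : ∀ p ∈ K, p ∈ LinearMap.range (eE f (φ s) w' y) → p = 0 := fun p hp =>
    hf.eq_zero_of_range hw' (hK1 hp)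
  generalize eE f (φ s) w' y = η at hR' hKη hdis ⊢
  have hη : In f I φ η := ⟨s, hs, hR'⟩
  have hKe : LinearMap.range ξ ⊓ LinearMap.ker η = K :=
    (Submodule.eq_of_le_of_finrank_le (le_inf hK2 hKη) (hmax _ _ _ _ hφ hφ' hne hη hξ)).symm
  have hnK : ¬ LinearMap.range ξ ≤ K := fun h => hne
    ((H.same_of_le hφ' hφ hξ ⟨s, hs, hR⟩ (h.trans hK1)).symm hf hφ'.fr)
  obtain ⟨p₀, hp₀, hp₀'⟩ := K.exists_mem_ne_zero_of_ne_bot hK
  obtain ⟨a, haY, ha, haa⟩ := hη.exists_unit h2 hφ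
  obtain ⟨c, hcY, hc, hcc⟩ := hξ.exists_unit h2 hφ'
  have hξξ : ∀ p ∈ LinearMap.range ξ, ξ p = 0 := by
    rintro _ ⟨p, rfl⟩
    exact LinearMap.congr_fun hξ.sq p
  rcases dihedral_cases (cenY X I φ₀ ⊓ fixK K) haa hcc
    ⟨haY, fun p hp => by simpa [ha] using hKη hp⟩ ⟨hcY, fun p hp => by simp [hc, hξξ p (hK2 hp)]⟩
    with ⟨g, hg, e⟩ | ⟨z, hz, hz1, hzz, hza, hzc, hcase⟩
  · have h3 := val_conj_sub e ha
    rw [hc, add_sub_cancel_left] at h3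
    exact (hp₀' (hdis _ hp₀ ((mem_range_of_fix hg.2 hp₀).1 (h3 ▸ hK2 hp₀)))).elim
  have key : ∀ {φ φ₁ : τ → End F U →ₐ[F] End F V} {a : (End F V)ˣ} {η : End F V},
      Fm f X I φ₀ φ → Fm f X I φ₀ φ₁ → In f I φ η → a ∈ cenY X I φ₀ → a.1 = 1 + η → z * a = a * z →
      In f I φ₁ ((z * a).1 - 1) → In f I φ ((z * a).1 - 1) := by
    intro φ φ₁ a η h1 h3 h4 h5 h6 h7 h8
    refine h8.of_same hf h3 h1 ((H.same_of_conj h1 h3 h4 h5 h6 h8 ?_).symm hf h1.fr)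
    rwa [← val_conj_sub (c := z * a) (by rw [← mul_assoc, ← h7, mul_inv_cancel_right])
      (add_sub_cancel _ _).symm]
  have hz2 : ∀ {a : (End F V)ˣ} {η : End F V}, a.1 = 1 + η → a * a = 1 →
      z.1 = (1 + ((z * a).1 - 1)) * (1 + η) := fun h h' => by
    rw [add_sub_cancel, ← h, ← Units.val_mul, mul_assoc, h', mul_one]
  have hcm : ((z * c).1 - 1) * ξ = ξ * ((z * c).1 - 1) := by
    have := congrArg Units.val (show z * c * c = c * (z * c) by rw [← mul_assoc, ← hzc])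
    rw [Units.val_mul, Units.val_mul c, hc] at this
    linear_combination (norm := noncomm_ring) this
  rcases hcase with ⟨⟨g, hg, e⟩, g', hg', e'⟩ | ⟨y₀, hy₀, e, e', h3⟩
  · have h3 := val_conj_sub e hc
    have h4 := val_conj_sub e' ha
    obtain ⟨j, hj, h5⟩ := key hφ (hφ'.cj hg.1) hη haY ha hza (h3 ▸ hξ.cj g)
    have h6 := (key hφ' (hφ.cj hg'.1) hξ hcY hc hzc (h4 ▸ hη.cj g')).sq
    have h7 : K ≤ LinearMap.range ((z * a).1 - 1) := fun p hp =>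
      h3 ▸ (mem_range_of_fix hg.2 hp).2 (hK2 hp)
    have h8 : ∀ p ∈ K, p ∈ LinearMap.range ((z * c).1 - 1) → p = 0 := fun p hp h =>
      hdis p hp ((mem_range_of_fix hg'.2 hp).1 (h4 ▸ h))
    have h9 := (hz2 ha haa).symm.trans (hz2 hc hcc)
    generalize (z * a).1 - 1 = ζ at h5 h7 h9
    generalize (z * c).1 - 1 = ξ' at h6 h8 h9 hcm
    have h10 : ∀ p ∈ LinearMap.range ξ, ξ' p = η p + ζ (p + η p) := fun p hp => by
      have := LinearMap.congr_fun h9 p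
      simp only [End.mul_apply, LinearMap.add_apply, End.one_apply, hξξ p hp, add_zero] at this
      rw [← add_right_inj p, ← this, add_assoc]
    have h11 : ∀ p ∈ LinearMap.range ξ ⊓ LinearMap.ker ξ', η p ∈ LinearMap.range ζ := fun p hp =>
      ⟨-(p + η p), by rw [map_neg, neg_eq_iff_add_eq_zero, add_comm, ← h10 p hp.1]; exact hp.2⟩
    have h12 : (LinearMap.range ξ).map ξ' ≤ LinearMap.range ξ ⊓ LinearMap.ker ξ' := by
      rintro _ ⟨_, ⟨p, rfl⟩, rfl⟩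
      exact ⟨⟨_, (LinearMap.congr_fun hcm p).symm⟩, LinearMap.congr_fun h6 _⟩
    have h13 : ∀ p ∈ (LinearMap.range ξ).map ξ', p ∈ K → p = 0 := fun p hp h =>
      h8 p h (LinearMap.map_le_range hp)
    by_cases hjs : j = s
    · subst hjs
      have h14 : LinearMap.range ξ ⊓ LinearMap.ker ξ' ≤ K := fun p hp => hKe.le ⟨hp.1, by_contra
        fun h => hp₀' (hdis _ hp₀ (hR'.range_eq_of_mem hf h5 h ⟨_, rfl⟩ (h11 p hp) ▸ h7 hp₀))⟩
      exact (hnK fun p hp => h14 ⟨hp, h13 _ ⟨p, hp, rfl⟩ (h14 (h12 ⟨p, hp, rfl⟩))⟩).elim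
    have h14 := hφ.fr.cm_of_mem (Ne.symm hjs) h5.mem
    have d1 := hf.three_mul_le hR h14
    have d2 := hf.three_mul_le hR' h14
    have d3 : rk ζ = finrank F (LinearMap.range ξ) := h5.rk_eq hf hξ.choose_spec.2
    have d4 := finrank_map_add_inf_ker ξ' (LinearMap.range ξ)
    have d5 := finrank_map_add_inf_ker η (LinearMap.range ξ ⊓ LinearMap.ker ξ')
    have d6 := finrank_map_add_inf_ker η ((LinearMap.range ξ).map ξ')
    have h15 : (LinearMap.range ξ ⊓ LinearMap.ker ξ').map η ≤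
        LinearMap.range η ⊓ LinearMap.range ζ := by
      rintro _ ⟨p, hp, rfl⟩
      exact ⟨⟨_, rfl⟩, h11 p hp⟩
    have h16 := (Submodule.map_mono h12).trans h15
    have d7 := Submodule.finrank_mono h15
    have d8 := Submodule.finrank_mono h16
    have d9 := Submodule.finrank_mono (show LinearMap.range ξ ⊓ LinearMap.ker ξ' ⊓ LinearMap.ker η ≤
      K from hKe ▸ inf_le_inf_right _ inf_le_left)
    have d10 := Submodule.finrank_mono (le_inf hK1 h7)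
    rw [show (LinearMap.range ξ).map ξ' ⊓ LinearMap.ker η = ⊥ from (Submodule.eq_bot_iff _).2
      fun p hp => h13 p hp.1 (hKe.le ⟨(h12 hp.1).1, hp.2⟩), finrank_bot] at d6
    have d11 := Submodule.one_le_finrank_iff.2 hK
    refine ⟨j, ζ, hjs, hj, h5, Submodule.eq_of_le_of_finrank_le (le_inf hK1 h7) (by omega),
      fun p hp h => ?_, ?_⟩
    · obtain ⟨_, ⟨q, hq, rfl⟩, e⟩ :=
        (Submodule.eq_of_le_of_finrank_le h16 (by omega)).ge ⟨⟨p, rfl⟩, h⟩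
      have h17 : p - ξ' q ∈ K := hKe.le ⟨sub_mem hp (h12 ⟨q, hq, rfl⟩).1, by simp [e]⟩
      rw [← sub_add_cancel p (ξ' q)]
      exact add_mem (Submodule.mem_sup_right (h7 h17))
        (h10 q hq ▸ Submodule.add_mem_sup ⟨_, rfl⟩ ⟨_, rfl⟩)
    · obtain ⟨p, hp, hp'⟩ := Submodule.exists_mem_ne_zero_of_ne_bot
        (Submodule.one_le_finrank_iff.1 (show 1 ≤ finrank F ((LinearMap.range ξ).map ξ') by omega))
      exact ⟨p, (h12 hp).1, fun h => hp' (h13 p hp h), h11 p (h12 hp)⟩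
  exfalso
  have key2 : ∀ {φ : τ → End F U →ₐ[F] End F V} {d : (End F V)ˣ} {η : End F V} {s : τ},
      Fm f X I φ₀ φ → s ∉ I → Rt f (φ s) η → d ∈ cenY X I φ₀ → d.1 = 1 + η → d * d = 1 →
      z * d = d * z → (d = a ∨ d = c) → y₀ * d * y₀⁻¹ = z * d → Rt f (φ s) ((z * d).1 - 1) := by
    intro φ₁ d η₁ s₁ a1 a2 a3 a4 a5 a6 a7 a8 a9
    have a10 : In f I φ₁ η₁ := ⟨s₁, a2, a3⟩
    have a11 := key a1 (a1.cj hy₀.1) a10 a4 a5 a7 (val_conj_sub a9 a5 ▸ a10.cj y₀)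
    have a12 : y₀ * d * d * (y₀ * d)⁻¹ = z * d := by rw [← a9]; group
    have a13 := val_conj_sub a12 a5
    obtain ⟨φ₂, b1, b2⟩ : ∃ φ₂, Fm f X I φ₀ φ₂ ∧ In f I φ₂ ((y₀ * d).1 - 1) := by
      obtain ⟨g, hg, e | e⟩ := h3 d a8
      · exact ⟨_, hφ.cj hg.1, val_conj_sub e.symm ha ▸ hη.cj g⟩
      · exact ⟨_, hφ'.cj hg.1, val_conj_sub e.symm hc ▸ hξ.cj g⟩
    obtain ⟨i, -, b3⟩ := b2.of_same hf b1 a1 (H.same_of_conj b1 a1 b2 (mul_mem hy₀.1 a4)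
      (add_sub_cancel _ _).symm a10 (a13 ▸ a11))
    exact (a11.sg a1).rt hf (a1.fr.fa s₁) (a13 ▸ Rt.conj_mem a1.fr b3 (add_sub_cancel _ _).symm
      (Units.ext (by simpa using sq_one_add h2 b3.sq)) a3.mem)
  obtain ⟨s', hs', hξ'⟩ := hξ
  have h4 := key2 hφ hs hR' haY ha haa hza (Or.inl rfl) e
  have h5 := (key2 hφ' hs' hξ' hcY hc hcc hzc (Or.inr rfl) e').mul_eq_zero hf hξ' hcm
  have h6 : (z.1 - 1) * ξ = 0 := by
    rw [hz2 hc hcc]
    linear_combination (norm := noncomm_ring) h5 * (1 + ξ) + hξ'.sq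
  obtain ⟨ν, hν⟩ : z.1 - 1 ∈ (φ s).range := by
    rw [hz2 ha haa]
    exact sub_mem (mul_mem (add_mem (one_mem _) h4.mem) (add_mem (one_mem _) hR'.mem)) (one_mem _)
  change φ s ν = _ at hν
  obtain ⟨v, hv⟩ : ∃ v, ν v ≠ 0 := by
    by_contra! h
    rw [show ν = 0 from LinearMap.ext h, map_zero, eq_comm, sub_eq_zero] at hν
    exact hz1 (Units.ext hν)
  obtain ⟨u, hu⟩ := exists_apply_eq_one hf.nd hv
  obtain ⟨y₁, h7⟩ := hf.exists_rep (f.flip u ∘ₗ ν)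
  obtain ⟨x₁, h8, h9, -⟩ := hf.orth₂ y₁ y₁
  have h10 := hmax _ _ _ _ hφ hφ' hne ⟨s, hs, x₁, y₁, h8, by
    rintro rfl; simpa [hu] using h7 v, by rwa [hf.sy], rfl⟩ ⟨s', hs', hξ'⟩
  rw [inf_eq_left.2 (by
    rintro _ ⟨p, rfl⟩
    rw [LinearMap.mem_ker, ← eE_mul_phi fun u => (h7 u).symm, hν, ← End.mul_apply, mul_assoc, h6]
    simp)] at h10
  exact hnK (Submodule.eq_of_le_of_finrank_le hK2 h10).ge

/-- Centres and axes belonging to different frames meet trivially. -/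
theorem Cx.free (H : Cx f X I φ₀) (hφ : Fm f X I φ₀ φ) (hφ' : Fm f X I φ₀ φ') (hne : ¬ Same φ φ')
    (hη : In f I φ η) (hξ : In f I φ' ξ) : LinearMap.range ξ ⊓ LinearMap.ker η = ⊥ := by
  have hf := H.uf
  classical
  let P : ℕ → Prop := fun k => ∃ φ φ' η ξ, Fm f X I φ₀ φ ∧ Fm f X I φ₀ φ' ∧ ¬ Same φ φ' ∧
    In f I φ η ∧ In f I φ' ξ ∧ finrank F ↥(LinearMap.range ξ ⊓ LinearMap.ker η) = k
  have hbd : ∀ k, P k → k ≤ finrank F V := by
    rintro k ⟨_, _, _, _, -, -, -, -, -, rfl⟩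
    exact Submodule.finrank_le _
  have h0 : P _ := ⟨_, _, _, _, hφ, hφ', hne, hη, hξ, rfl⟩
  obtain ⟨φ₁, φ₂, η₁, ξ₁, a1, a2, a3, a4, a5, a6⟩ := Nat.findGreatest_spec (hbd _ h0) h0
  set K := LinearMap.range ξ₁ ⊓ LinearMap.ker η₁ with hKdef
  have hmax : ∀ φ φ' η ξ, Fm f X I φ₀ φ → Fm f X I φ₀ φ' → ¬ Same φ φ' → In f I φ η →
      In f I φ' ξ → finrank F ↥(LinearMap.range ξ ⊓ LinearMap.ker η) ≤ finrank F K :=
    fun φ φ' η ξ b1 b2 b3 b4 b5 => a6 ▸ Nat.le_findGreatest (Submodule.finrank_le _)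
      ⟨_, _, _, _, b1, b2, b3, b4, b5, rfl⟩
  by_contra hcon
  have hK : K ≠ ⊥ := Submodule.one_le_finrank_iff.1
    ((Submodule.one_le_finrank_iff.2 hcon).trans (hmax _ _ _ _ hφ hφ' hne hη hξ))
  obtain ⟨a, haY, ha, -⟩ := a4.exists_unit H.two a1
  have b1 := a2.cj haY
  have b2 : ¬ Same (fun i => cjH a (φ₂ i)) φ₂ := fun h => a3 (H.same_of_cj a1 a2 a4 ha h)
  have b3 : K ≤ LinearMap.range (a * ξ₁ * (a⁻¹ : (End F V)ˣ) : End F V) := fun p hp =>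
    (mem_range_of_fix (K := K) (fun p hp => by simpa [ha] using hp.2) hp).2 hp.1
  obtain ⟨s, hs, w, y, hw, hy, hwy, e⟩ := a5.cj a
  rw [e] at b3
  generalize (fun i => cjH a (φ₂ i)) = φ₃ at b1 b2 b3
  obtain ⟨w', c1, c2⟩ := hf.exists_orth_notMem w y
  have c3 : w' + w ∉ F ∙ w := fun e => c2 (by
    simpa using Submodule.sub_mem _ e (Submodule.mem_span_singleton_self w))
  obtain ⟨j, ζ, d1, d2, d3, d4, d5, p, d6, d7, d8⟩ :=
    H.step b1 a2 b2 hK hmax hs hw hy hwy c2 c1 a5 b3 inf_le_left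
  obtain ⟨j', ζ', e1, -, e3, e4, e5, -⟩ :=
    H.step b1 a2 b2 hK hmax hs hw hy hwy c3 (by simp [c1, hwy]) a5 b3 inf_le_left
  obtain ⟨p₀, hp₀, hp₀'⟩ := K.exists_mem_ne_zero_of_ne_bot hK
  have hinv : ∀ {i : τ} {T : End F V}, Cm (φ₃ i) T → ∀ b, ∀ q ∈ LinearMap.range T,
      φ₃ i b q ∈ LinearMap.range T := by
    rintro i T h b _ ⟨q, rfl⟩
    exact ⟨_, (LinearMap.congr_fun (h b) q).symm⟩
  have f1 : LinearMap.range ζ = LinearMap.range ζ' := by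
    by_cases hj : j = j'
    · exact d3.range_eq_of_mem hf (hj ▸ e3) hp₀' (d4.le hp₀).2 (e4.le hp₀).2
    · exact (hp₀' (e3.eq_zero_of_forall hf fun b => (e4.le (d4.ge ⟨hinv (b1.fr.cm _ _ e1 _) _ _
        (d4.le hp₀).1, hinv (b1.fr.cm_of_mem (Ne.symm hj) d3.mem) _ _ (d4.le hp₀).2⟩)).2)).elim
  have f2 := hinv (b1.fr.cm_of_mem d1.symm d3.mem)
  obtain ⟨v, f3, f4⟩ := hf.sep (x := w' + w) (u := w') fun h => by
    obtain ⟨c, hc⟩ := Submodule.mem_span_singleton.1 h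
    have h1 : (1 - c) • w' = c • w := by rw [sub_smul, one_smul, sub_eq_iff_eq_add, add_comm,
      ← smul_add, hc]
    by_cases h2 : 1 - c = 0
    · rw [h2, zero_smul, ← sub_eq_zero.1 h2, one_smul] at h1
      exact hw h1.symm
    · exact c2 ((Submodule.smul_mem_iff _ h2).1 (h1 ▸ Submodule.smul_mem _ _
        (Submodule.mem_span_singleton_self w)))
  obtain ⟨p₁, g1, q₁, g2, g3⟩ := Submodule.mem_sup.1 (d5 p d6 d8)
  obtain ⟨p₂, g4, q₂, g5, g6⟩ := Submodule.mem_sup.1 (e5 p d6 (by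
    have := f2 (ro f (w' + w) v) _ d8
    rwa [← eE_apply, eE_eE, f3, one_smul, f1] at this))
  have g7 := f2 (ro f w' v) (q₂ - q₁) (sub_mem (f1 ▸ g5) g2)
  rw [show q₂ - q₁ = p₁ - p₂ by rw [sub_eq_sub_iff_add_eq_add, g3, add_comm, g6], ← eE_apply,
    map_sub, eE_range_self g1 f3, eE_range_zero g4 _ f4, sub_zero] at g7
  have g8 : LinearMap.range ζ ≤ LinearMap.ker ζ := LinearMap.range_le_ker_iff.2 d3.sq
  exact d7 ((Submodule.eq_of_le_of_finrank_le (le_inf inf_le_left ((d4.le.trans inf_le_right).trans g8))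
    (hmax _ _ _ _ b1 a2 b2 ⟨j, d2, d3⟩ a5)).ge ⟨d6, g8 (g3 ▸ add_mem g7 g2)⟩)

end Cfsg.Agent.H32
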