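import Cfsg.Agent.H32.PwM
import Cfsg.Agent.H27.PowGeo
import Cfsg.Agent.H32.Transfer
import Cfsg.Agent.H32.LinTransv

/-!
Maximality in `SL` of the stabiliser of a tensor power decomposition.
-/

set_option autoImplicit false
set_option linter.unusedSectionVars false

namespace Cfsg.Agent.H32

open Module Function H27 H30 Matrix Cfsg.Geo
open H36 (InG QT inG_one)

variable {F : Type*} [Field F] {m t : ℕ}

theorem det_one_add_of_sq {ι : Type} [Fintype ι] [DecidableEq ι] {N : Matrix ι ι F}
    (h : N * N = 0) : (1 + N).det = 1 := by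
  have h1 := (isNilpotent_charpoly_sub_pow_of_isNilpotent (M := -N)
    ⟨2, by simp [pow_two, h]⟩).eq_zero
  have h2 := eval_charpoly (-N) 1
  rw [sub_eq_zero.1 h1] at h2
  simpa using h2.symm

theorem mul_eq_of_sq {R : Type*} [Ring R] {N : R} (h : N * N = 0) (b : R) :
    (1 + N) * b = (1 + N) * b * (1 - N) * (1 + N) := by
  linear_combination (norm := noncomm_ring) (1 + N) * b * h

/-- The standard tensor power. -/
noncomputable def stdT (m t : ℕ) (F : Type*) [Field F] :
    TPow (Fin t) (dotProductBilin F F : LinearMap.BilinForm F (Fin m → F))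
      (dotProductBilin F F : LinearMap.BilinForm F ((Fin t → Fin m) → F)) where
  pt := pureVML (Fin t) (Fin m) F
  span := by
    refine eq_top_iff.2 fun x _ => ?_
    rw [pi_eq_sum_univ' x]
    exact Submodule.sum_mem _ fun a _ => Submodule.smul_mem _ _
      (Submodule.subset_span ⟨fun s => Pi.single (a s) 1, H25.pureV_single a⟩)
  fac s := Matrix.toLinAlgEquiv'.toAlgHom.comp
    ((H25.factorT (Fin m) F s).comp LinearMap.toMatrixAlgEquiv'.toAlgHom)
  fac_pt s a u := by
    change H25.factorT (Fin m) F s (LinearMap.toMatrix' a) *ᵥ H25.pureV u =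
      H25.pureV (update u s (a (u s)))
    rw [H25.factorT_apply, H25.pureT_mulVec]
    congr 1
    funext i
    by_cases hi : i = s
    · subst hi; simp
    · simp [hi]
  c := 1
  c_ne := one_ne_zero
  form u v := by
    simp only [pureVML_apply, dotProductBilin_apply_apply, dotProduct, H25.pureV, one_mul,
      ← Finset.prod_mul_distrib, Finset.prod_univ_sum, Fintype.piFinset_univ]

theorem stdT_pt (u : Fin t → Fin m → F) : (stdT m t F).pt u = H25.pureV u := rfl

theorem uf_dot (hm : 3 ≤ m) : UF (dotProductBilin F F : LinearMap.BilinForm F (Fin m → F)) :=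
  ⟨⟨fun x h => funext fun i => by simpa using h (Pi.single i 1),
    fun x h => funext fun i => by simpa using h (Pi.single i 1)⟩,
    fun x y => dotProduct_comm x y, by simpa⟩

theorem mem_std_of_nm [NeZero m] [NeZero t] {g : GL (Fin t → Fin m) F}
    (h : Nm (stdT m t F) (Matrix.toLin' g.1)) : g ∈ tensorWreathStandard m t F := by
  obtain ⟨σ, hσ⟩ := h
  obtain ⟨u, hu⟩ := H25.exists_pureGL_of_normalizes ((H25.permGL (Fin m) F σ)⁻¹ * g) fun s a => by
    obtain ⟨a', ha'⟩ := hσ s (Matrix.toLin' a)
    refine ⟨LinearMap.toMatrix' a', ?_⟩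
    have : H25.cj g (H25.factorT (Fin m) F s a) =
        H25.factorT (Fin m) F (σ s) (LinearMap.toMatrix' a') := by
      rw [H25.cj_apply, Units.mul_inv_eq_iff_eq_mul]
      apply Matrix.toLinAlgEquiv'.injective
      rw [map_mul, map_mul]
      conv_lhs => rw [← LinearMap.toMatrix'_toLin' a]
      exact ha'
    rw [H25.cj_mul, this, ← H25.cj_permGL_factorT, H25.cj_inv_cj]
  rw [← mul_inv_cancel_left (H25.permGL (Fin m) F σ) g, hu]
  exact Subgroup.mul_mem _ (Subgroup.subset_closure (Or.inr ⟨σ, fun x y => rfl⟩))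
    (Subgroup.subset_closure (Or.inl ⟨u, fun x y => rfl⟩))

theorem isMaximalIn_tensorWreathStandard [Fintype F] (hm : 3 ≤ m) (ht : 2 ≤ t) :
    IsMaximalIn (specialLinear (Fin t → Fin m) F)
      (tensorWreathStandard m t F ⊓ specialLinear (Fin t → Fin m) F) := by
  have : NeZero m := ⟨by omega⟩
  have : NeZero t := ⟨by omega⟩
  have hf := uf_dot (F := F) hm
  have : Nontrivial (Fin m) := Fin.nontrivial_iff_two_le.2 (by omega)
  have : Nontrivial (Fin t) := Fin.nontrivial_iff_two_le.2 ht
  refine isMaximalIn_of_forall inf_le_right (fun h => ?_) fun M hM1 hM2 g hg hg' => ?_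
  · obtain ⟨a, b, hab⟩ := exists_pair_ne (Fin m)
    obtain ⟨i, j, hij⟩ := exists_pair_ne (Fin t)
    have h0 : (Pi.single (fun _ => a) 1 : (Fin t → Fin m) → F) ⬝ᵥ Pi.single (fun _ => b) 1 = 0 := by
      simp [show (fun _ : Fin t => a) ≠ fun _ => b from fun e => hab (congrFun e i)]
    obtain ⟨σ, α, h1⟩ := exists_act_of_mem_standard (h (tv_mem_specialLinear _ _ h0)).1
    refine not_pres (S := stdT m t F) (g := Matrix.toLin' (tv _ _ h0).1) one_ne_zero
      (y := fun _ => Pi.single a 1) (b := fun _ => Pi.single b 1) (z := fun _ => Pi.single a 1)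
      (z' := fun _ => Pi.single b 1) ?_ (by simp) (by simp) hij (by simp [hab.symm]) (by simp [hab])
      ⟨σ, fun s => Matrix.toLin' (α s).1, fun u => h1 u⟩
    simp [stdT_pt, H25.pureV_single (fun _ : Fin t => a), H25.pureV_single (fun _ : Fin t => b),
      tv_mulVec, -mulVec_single]
  let f : LinearMap.BilinForm F (Fin m → F) := dotProductBilin F F
  let ρ := (GeneralLinearGroup.toLin (n := Fin t → Fin m) (R := F))
  have hmem : ∀ k : (End F ((Fin t → Fin m) → F))ˣ, Nm (stdT m t F) k.1 →
      LinearMap.det k.1 = 1 → k ∈ M.map ρ.toMonoidHom := fun k h1 h2 => by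
    obtain ⟨k, rfl⟩ := ρ.surjective k
    exact ⟨k, hM1 ⟨mem_std_of_nm h1, (mem_specialLinear_iff _).2
      ((LinearMap.det_toLin' _).symm.trans h2)⟩, rfl⟩
  have hX : LX (stdT m t F) (M.map ρ.toMonoidHom) := ⟨hf, fun s x y hxy => by
    have h1 : eE f ((stdT m t F).fac s) x y * eE f ((stdT m t F).fac s) x y = 0 := by
      rw [eE_mul, hxy, zero_smul]
    refine ⟨H36.un _ h1, hmem _ ⟨1, fun j b => ?_⟩ ?_, rfl⟩
    · by_cases hj : j = s
      · refine ⟨(1 + ro f x y) * b * (1 - ro f x y), ?_⟩
        simp only [hj, H36.val_un, Equiv.Perm.one_apply, map_mul, map_add, map_sub, map_one,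
          ← eE_apply]
        exact mul_eq_of_sq h1 _
      · exact ⟨b, ((cm_one.add (cm_fac _ hj _)) b).symm⟩
    · rw [H36.val_un, ← LinearMap.det_toMatrix', map_add, LinearMap.toMatrix'_one]
      exact det_one_add_of_sq (by rw [← LinearMap.toMatrix'_mul, h1, map_zero]), fun σ hσ => by
    obtain ⟨π, hπ⟩ := exists_permHom (S := stdT m t F) fun σ =>
      ⟨Matrix.toLin' (H25.permT (Fin m) F σ), fun u => permT_mulVec_pureV σ u⟩
    refine ⟨π σ, ⟨(LinearMap.GeneralLinearGroup.generalLinearEquiv F _).symm (π σ),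
      hmem _ (act_nm (hπ σ)) ?_, rfl⟩, hπ σ⟩
    exact (LinearEquiv.coe_det (π σ)).symm.trans (congrArg Units.val
      (Abelianization.commutator_subset_ker (LinearEquiv.det.comp π)
      (alternating_le_commutator _ hσ)))⟩
  rcases hX.nm_or with h | h
  · exact (hg' ⟨mem_std_of_nm (h _ ⟨g, hg, rfl⟩), hM2 hg⟩).elim
  refine specialLinear_le_of_elementary M fun a b hab c => ?_
  obtain ⟨s, hs⟩ := Function.ne_iff.1 hab
  obtain ⟨_, ⟨k, hk, rfl⟩, e⟩ := h s (fun i => ro f (update (fun i => (Pi.single (a i) 1 : Fin m → F))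
    s (Pi.single (a s) c) i) (Pi.single (b i) 1)) (Pi.single (a s) c) (Pi.single (b s) 1)
    (by simp [hs]) (by simp [f])
  have h1 := ro_pt (stdT m t F) (update (fun i => Pi.single (a i) 1) s (Pi.single (a s) c))
    fun i => Pi.single (b i) 1
  rw [show (stdT m t F).c = 1 from rfl, one_smul, show (Pi.single (a s) c : Fin m → F) =
    c • Pi.single (a s) 1 by simp [← Pi.single_smul], MultilinearMap.map_update_smul,
    update_eq_self, stdT_pt, stdT_pt, H25.pureV_single, H25.pureV_single] at h1
  suffices h3 : SpecialLinearGroup.toGL (SpecialLinearGroup.transvection hab c) = k from h3 ▸ hk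
  refine GL_ext_mulVec fun v => ?_
  have h2 := LinearMap.congr_fun e v
  rw [show (Pi.single (a s) c : Fin m → F) = c • Pi.single (a s) 1 by simp [← Pi.single_smul],
    ← h1] at h2
  rw [toGL_transvection_mulVec]
  refine Eq.trans ?_ h2.symm
  simp [smul_smul, ← Pi.single_smul, mul_comm]

/-- The stabiliser in `SL` of a tensor power decomposition with factors of dimension at least
three is maximal. -/
theorem isMaximalIn_tensorWreathSubgroup {ι : Type} [Fintype ι] [DecidableEq ι] [Fintype F]
    (hm : 3 ≤ m) (ht : 2 ≤ t) (e : ι ≃ (Fin t → Fin m)) (P : GL ι F) :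
    IsMaximalIn (specialLinear ι F) (tensorWreathSubgroup m t e P ⊓ specialLinear ι F) := by
  have hs : ∀ g : GL (Fin t → Fin m) F,
      (H25.pullGL (H25.conjT (H25.frameEquiv e P))).symm g ∈ specialLinear ι F ↔
        g ∈ specialLinear (Fin t → Fin m) F :=
    fun g => glConj_mem_specialLinear_iff (H25.frameEquiv e P) g
  refine isMaximalIn_of_iff (H25.pullGL (H25.conjT (H25.frameEquiv e P))).symm hs (fun g => ?_)
    (isMaximalIn_tensorWreathStandard hm ht)
  rw [Subgroup.mem_inf, Subgroup.mem_inf, hs, tensorWreathSubgroup, H25.mem_map_frame_iff_pullGL,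
    MulEquiv.apply_symm_apply]

end Cfsg.Agent.H32
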