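import Cfsg.Agent.H32.PwTwo

/-!
Overgroups of tensor induced linear groups: the coefficient algebras.
-/

set_option autoImplicit false
set_option linter.unusedSectionVars false

namespace Cfsg.Agent.H32

open Module Function H27 H30
open H36 (InG QT inG_one)

variable {F U V τ : Type*} [Field F] [AddCommGroup U] [Module F U] [AddCommGroup V] [Module F V]
  {f : LinearMap.BilinForm F U} [FiniteDimensional F U]

theorem UF.flag_induction (hf : UF f) {P : U → U → Prop}
    (hc : ∀ w w' y v, f w y = 0 → f w' y = 0 → f w v = 1 → f w' v = 0 → P w y → P w' y)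
    (ha : ∀ w y y' v, f w y = 0 → f w y' = 0 → f v y = 1 → f v y' = 0 → P w y → P w y')
    {w y : U} (hw : w ≠ 0) (hwy : f w y = 0) (hy : y ≠ 0) (h : P w y) {x z : U}
    (hxz : f x z = 0) : P x z := by
  have key : ∀ {P : U → Prop} {y : U},
      (∀ w w' v, f w y = 0 → f w' y = 0 → f w v = 1 → f w' v = 0 → P w → P w') → ∀ w w', w ≠ 0 →
      f w y = 0 → f w' y = 0 → P w → P w' := by
    intro P y hc w w' hw h1 h2 h
    have hc' : ∀ w w', w ∉ F ∙ w' → f w y = 0 → f w' y = 0 → P w → P w' := fun w w' h3 h1 h2 => by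
      obtain ⟨v, h4, h5⟩ := hf.sep h3
      exact hc w w' v h1 h2 h4 h5
    by_cases h3 : w ∈ F ∙ w'
    swap
    · exact hc' w w' h3 h1 h2 h
    obtain ⟨u, h4, h5⟩ := hf.exists_orth_notMem w' y
    refine hc' u w' h5 h4 h2 (hc' w u (fun e => h5 ?_) h1 h4 h)
    obtain ⟨c, rfl⟩ := Submodule.mem_span_singleton.1 e
    exact (Submodule.smul_mem_iff _ fun e => hw (by simp [e])).1 h3
  have key' : ∀ w y y', y ≠ 0 → f w y = 0 → f w y' = 0 → P w y → P w y' :=
    fun w y y' h1 h3 h4 => key (P := P w) (y := w) (fun y y' v h5 h6 h7 h8 =>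
      ha w y y' v (by rwa [hf.sy]) (by rwa [hf.sy]) (by rwa [hf.sy]) (by rwa [hf.sy])) y y' h1
      (by rwa [hf.sy]) (by rwa [hf.sy])
  obtain ⟨v, h1, h2, h3⟩ := hf.orth₂ w x
  exact key' x v z h1 h3 hxz (key (P := fun w => P w v) (fun w w' => hc w w' v) w x hw h2 h3
    (key' w y v hy hwy h2 h))

section Red

variable {A : Type*} [Ring A] [Algebra F A] {θ : End F U →ₐ[F] A} {L : Submodule F A} {D : A}

/-- A subspace invariant under conjugation by the root elements of a factor. -/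
def RInv (f : LinearMap.BilinForm F U) (θ : End F U →ₐ[F] A) (L : Submodule F A) : Prop :=
  ∀ x y, f x y = 0 → ∀ D ∈ L, (1 + eE f θ x y) * D * (1 - eE f θ x y) ∈ L

theorem RInv.reduce (hf : UF f) (hL : RInv f θ L) (hD : D ∈ L) (hD' : ¬ Cm θ D) :
    ∃ a, a ≠ 0 ∧ Cm θ a ∧ ∀ x y, f x y = 0 → eE f θ x y * a ∈ L := by
  have ht : ∀ x y, f x y = 0 → ∀ E ∈ L, (1 + eE f θ x y) * E * (1 - eE f θ x y) - E ∈ L :=
    fun x y h E hE => L.sub_mem (hL x y h E hE) hE
  obtain ⟨y, w, hwy, h⟩ : ∃ y w, f w y = 0 ∧ co hf.nd θ y w D ≠ 0 := by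
    by_contra! H
    exact hD' (cm_of_co H)
  have hw : w ≠ 0 := by rintro rfl; simp at h
  have hy : y ≠ 0 := by rintro rfl; simp at h
  obtain ⟨y', h1, h2⟩ := hf.exists_orth_notMem y w
  obtain ⟨w', h3, h4⟩ := hf.sep h2
  rw [hf.sy] at h1 h3 h4
  have h5 : eE f θ w y * co hf.nd θ y w D ∈ L := by
    convert ht w' y h4 _ (ht w y' h1 _ (ht w y hwy D hD)) using 1
    simp only [eE_mul_co, mul_add, add_mul, mul_sub, sub_mul, mul_assoc, eE_mul, eE_mul', hwy, h1,
      h3, h4, one_mul, mul_one, zero_smul, one_smul, mul_zero, zero_mul]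
    abel
  refine ⟨_, h, cm_co _ _ _, fun x z hxz => ?_⟩
  have hc := cm_co (hf := hf.nd) (φ := θ) y w D
  generalize co hf.nd θ y w D = a at h5 hc
  refine hf.flag_induction (P := fun x z => eE f θ x z * a ∈ L)
    (fun w w' y v a1 a2 a3 a4 a5 => ?_) (fun w y y' v a1 a2 a3 a4 a5 => ?_) hw hwy hy h5 hxz
  · convert ht w' v a4 _ a5 using 1
    simp [mul_sub, add_mul, mul_assoc, ← hc.comm_eE, eE_mul', a2, a3]
  · convert L.neg_mem (ht v y' a4 _ a5) using 1
    simp [mul_sub, add_mul, mul_assoc, ← hc.comm_eE, eE_mul', a2, a3]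

end Red

variable [Fintype τ] [DecidableEq τ] {B : LinearMap.BilinForm F V} {S : TPow τ f B}
  {X : Subgroup (End F V)ˣ}

/-- The factors allowed at position `j` for the type `A`. -/
def rtS (f : LinearMap.BilinForm F U) (A : Finset τ) (j : τ) : Set (End F U) :=
  if j ∈ A then {n | ∃ x y, f x y = 0 ∧ n = ro f x y} else {1}

theorem UF.nt (hf : UF f) : Nontrivial U :=
  (finrank_pos_iff (R := F)).1 (by have := hf.three; omega)

theorem reduce_all (hf : UF f) (T : Finset τ) : ∀ (L : Submodule F (End F V)) (D : End F V),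
    (∀ j ∈ T, RInv f (S.fac j) L) → D ∈ L → D ≠ 0 → (∀ i ∉ T, Cm (S.fac i) D) →
    ∃ A ⊆ T, (∀ n, (∀ j, n j ∈ rtS f A j) → Phi S n ∈ L) ∧ (A.Nonempty ∨ ∃ c : F, D = c • 1) := by
  have := hf.nt
  induction T using Finset.induction_on with
  | empty =>
    intro L D _ hD h0 h
    obtain ⟨c, rfl⟩ := exists_smul_of_cm S hf.nd fun i => h i (by simp)
    refine ⟨∅, by simp, fun n hn => ?_, Or.inr ⟨c, rfl⟩⟩
    rw [show n = 1 from funext fun j => hn j, map_one]
    exact (L.smul_mem_iff fun e => h0 (by simp [e])).1 hD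
  | insert j T hj ih =>
    intro L D hL hD h0 h
    by_cases hE : Cm (S.fac j) D
    · obtain ⟨A, h1, h2⟩ := ih L D (fun i hi => hL i (by simp [hi])) hD h0 fun i hi => by
        by_cases e : i = j
        · exact e ▸ hE
        · exact h i (by simp [e, hi])
      exact ⟨A, h1.trans (Finset.subset_insert _ _), h2⟩
    have hne : ∀ i ∉ insert j T, i ≠ j := fun i hi e => hi (by simp [e])
    let C : Submodule F (End F V) :=
      { carrier := {E | ∀ i ∉ insert j T, Cm (S.fac i) E}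
        add_mem' := fun ha hb i hi => (ha i hi).add (hb i hi)
        zero_mem' := fun _ _ => cm_zero
        smul_mem' := fun c a ha i hi => (ha i hi).smul c }
    obtain ⟨a, a1, a2, a3⟩ := RInv.reduce (θ := S.fac j) (L := L ⊓ C) hf (fun x y hxy E hE =>
      ⟨hL j (by simp) x y hxy E hE.1, fun i hi => ((cm_one.add (cm_fac S (hne i hi) _)).mul
        (hE.2 i hi)).mul (cm_one.sub (cm_fac S (hne i hi) _))⟩) ⟨hD, h⟩ hE
    let L' : Submodule F (End F V) :=
      { carrier := {E | ∀ x y, f x y = 0 → eE f (S.fac j) x y * E ∈ L}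
        add_mem' := fun ha hb x y h => mul_add (eE f (S.fac j) x y) _ _ ▸ L.add_mem (ha x y h)
          (hb x y h)
        zero_mem' := by simp
        smul_mem' := fun c a ha x y h => by simpa using L.smul_mem c (ha x y h) }
    obtain ⟨A, h1, h2, -⟩ := ih L' a (fun i hi u v huv E hE x y hxy => by
      have h3 : Cm (S.fac j) (1 + eE f (S.fac i) u v) :=
        cm_one.add (cm_fac S (by rintro rfl; exact hj hi) _)
      rw [← mul_assoc, ← mul_assoc, h3.comm_eE, mul_assoc _ _ E]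
      exact hL i (by simp [hi]) u v huv _ (hE x y hxy)) (fun x y h => (a3 x y h).1) a1
      fun i hi => by
        by_cases e : i = j
        · exact e ▸ a2
        obtain ⟨x, y, hx, hy, hxy⟩ := hf.exists_flag
        refine fun b => sub_eq_zero.1 (Cm.eq_zero hf.nd hx hy (((cm_fac S (Ne.symm e) b).mul a2).sub
          (a2.mul (cm_fac S (Ne.symm e) b))) ?_)
        rw [mul_sub, ← mul_assoc, (cm_fac S (Ne.symm e) b).comm_eE, mul_assoc,
          (a3 x y hxy).2 i (by simp [e, hi]), mul_assoc, sub_self]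
    refine ⟨insert j A, Finset.insert_subset_insert _ h1, fun n hn => ?_, by simp⟩
    obtain ⟨x, y, hxy, e⟩ : ∃ x y, f x y = 0 ∧ n j = ro f x y := by simpa [rtS] using hn j
    rw [← update_eq_self j n, Phi_update, e]
    refine h2 _ (fun i => ?_) x y hxy
    by_cases hi : i = j
    · simp [hi, rtS, show j ∉ A from fun h => hj (h1 h)]
    · simpa [hi, rtS] using hn i

/-- A group containing the root elements of the factors and the even permutations. -/
structure LX (S : TPow τ f B) (X : Subgroup (End F V)ˣ) : Prop where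
  uf : UF f
  root : ∀ s x y, f x y = 0 → InG X (1 + eE f (S.fac s) x y)
  alt : HasAlt S X

/-- The coefficient algebra. -/
def LX.coef (hX : LX S X) (s : τ) : Subalgebra F (End F V) where
  carrier := {e | Cm (S.fac s) e ∧ ∀ x y, f x y = 0 → InG X (1 + eE f (S.fac s) x y * e)}
  mul_mem' {e e'} h h' := ⟨h.1.mul h'.1, fun x y hxy => by
    obtain ⟨x', y', h1, h2, h3⟩ := hX.uf.exists_split x y
    have key : ∀ {a b : End F V}, Cm (S.fac s) a → ∀ x y z w, eE f (S.fac s) x y * a *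
        (eE f (S.fac s) z w * b) = f z y • (eE f (S.fac s) x w * (a * b)) := fun h x y z w => by
      rw [mul_assoc, ← mul_assoc _ (eE f _ z w), ← h.comm_eE, mul_assoc, eE_mul']
    simpa [key h.1, key h'.1, hxy, h3] using inG_comm (h.2 x y' h1) (h'.2 x' y h2)
      (by simp [key h.1, key (h.1.mul h'.1), hxy]) (by simp [key h.1, key (h.1.mul h'.1), h2])
      (by simp [key h'.1, hxy]) (by simp [key h'.1, hxy])⟩
  add_mem' {e e'} h h' := ⟨h.1.add h'.1, fun x y hxy => by
    convert (h.2 x y hxy).mul (h'.2 x y hxy) using 1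
    rw [add_mul, one_mul, mul_add _ 1, mul_one, mul_assoc, ← mul_assoc e, ← h.1.comm_eE,
      mul_assoc, eE_mul', hxy, zero_smul, mul_add, add_zero]
    abel⟩
  algebraMap_mem' c := by
    rw [Algebra.algebraMap_eq_smul_one]
    exact ⟨cm_one.smul c, fun x y hxy => by simpa using hX.root s (c • x) y (by simp [hxy])⟩

theorem LX.mem_coef (hX : LX S X) {s : τ} {x y : U} (hx : x ≠ 0) (hy : y ≠ 0) (hxy : f x y = 0)
    {e : End F V} (he : Cm (S.fac s) e) (h : InG X (1 + eE f (S.fac s) x y * e)) :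
    e ∈ hX.coef s := by
  refine ⟨he, fun u v huv => hX.uf.flag_induction
    (P := fun x y => InG X (1 + eE f (S.fac s) x y * e)) (fun w w' y v a1 a2 a3 a4 a5 => ?_)
    (fun w y y' v a1 a2 a3 a4 a5 => ?_) hx hxy hy h huv⟩
  · simpa [mul_assoc, ← he.comm_eE, eE_mul', a2, a3] using inG_comm (hX.root s w' v a4) a5
      (by simp [mul_assoc, ← he.comm_eE, eE_mul', a2])
      (by simp [mul_assoc, ← mul_assoc e, ← he.comm_eE, eE_mul', a1])
      (by simp [mul_assoc, ← he.comm_eE, eE_mul', a2]) (by simp [mul_assoc, ← he.comm_eE, eE_mul', a2])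
  · simpa [mul_assoc, ← he.comm_eE, eE_mul', a2, a3] using inG_comm a5 (hX.root s v y' a4)
      (by simp [mul_assoc, eE_mul', a2]) (by simp [mul_assoc, eE_mul, a4])
      (by simp [eE_mul', a2]) (by simp [eE_mul', a2])

theorem LX.exists_edge (hX : LX S X) {s : τ} {e : End F V} (he : e ∈ hX.coef s)
    (h : ∀ c : F, e ≠ c • 1) : ∃ j, j ≠ s ∧ ∀ b, S.fac j b ∈ hX.coef s := by
  have hf := hX.uf
  obtain ⟨A, h1, h2, h3⟩ := reduce_all (S := S) hf (Finset.univ.erase s)
    (Subalgebra.toSubmodule (hX.coef s)) e (fun j hj x y hxy D hD => by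
      have h4 : Cm (S.fac s) (eE f (S.fac j) x y) := cm_fac S (Finset.ne_of_mem_erase hj).symm _
      refine ⟨((cm_one.add h4).mul hD.1).mul (cm_one.sub h4), fun u v huv => ?_⟩
      have := inG_conj (hX.root j x y hxy) (g' := 1 - eE f (S.fac j) x y)
        (by simp [mul_sub, add_mul, eE_mul, hxy]) (hD.2 u v huv)
      rwa [← mul_assoc, ← (cm_one.add h4).comm_eE, mul_assoc _ _ D, mul_assoc] at this) he
    (by simpa using h 0) fun i hi => by simpa [show i = s by simpa using hi] using he.1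
  obtain ⟨j, hj⟩ := h3.resolve_right fun ⟨c, hc⟩ => h c hc
  refine ⟨j, Finset.ne_of_mem_erase (h1 hj), fun b => ?_⟩
  rw [← Phi_single]
  refine multi_span (Phi S) (Phi_linear S) (Subalgebra.toSubmodule (hX.coef s))
    (G := fun i => {a | ∃ n ∈ rtS f A i, ∃ n' ∈ rtS f A i, a = n * n'}) (fun u hu => ?_) _
    fun i => ?_
  · choose n hn n' hn' e using hu
    rw [show u = n * n' from funext e, map_mul]
    exact (hX.coef s).mul_mem (h2 n hn) (h2 n' hn')
  by_cases hi : i ∈ A
  · refine ro_induction (P := fun a => a ∈ Submodule.span F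
      {a | ∃ n ∈ rtS f A i, ∃ n' ∈ rtS f A i, a = n * n'}) hf.nd (zero_mem _)
      (fun _ _ => add_mem) (fun x y => Submodule.subset_span ?_) _
    obtain ⟨x', y', a1, a2, a3⟩ := hf.exists_split x y
    exact ⟨_, by rw [rtS, if_pos hi]; exact ⟨x, y', a1, rfl⟩, _,
      by rw [rtS, if_pos hi]; exact ⟨x', y, a2, rfl⟩, by rw [ro_mul_ro, a3, one_smul]⟩
  · exact Submodule.subset_span ⟨1, by simp [rtS, hi], 1, by simp [rtS, hi], by
      simp [show i ≠ j from fun e => hi (e ▸ hj)]⟩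

theorem LX.all_edges (hX : LX S X) {s j : τ} (hj : j ≠ s) (h : ∀ b, S.fac j b ∈ hX.coef s)
    {s' j' : τ} (hj' : j' ≠ s') : ∀ b, S.fac j' b ∈ hX.coef s' := by
  have sym : ∀ {s j : τ}, j ≠ s → (∀ b, S.fac j b ∈ hX.coef s) → ∀ b, S.fac s b ∈ hX.coef j :=
    fun hj h => hX.uf.mem_of_roots _ fun x y hxy => ⟨cm_fac S hj _, fun u v huv => by
      rw [(show Cm _ (eE f _ x y) from cm_fac S hj _).comm_eE]
      exact (h _).2 x y hxy⟩
  obtain ⟨σ, hσ, e⟩ := exists_alt_map (A := {s, j}) (A' := {s', j'}) (by simp [hj.symm, hj'.symm])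
    (by simp [hj.symm])
  obtain ⟨g, hg, h1⟩ := hX.alt σ hσ
  obtain ⟨g', -, h2, -⟩ := inG_exists_inv hg
  have h3 := σ.injective.ne hj
  have h4 : ∀ b, S.fac (σ j) b ∈ hX.coef (σ s) := fun b => ⟨cm_fac S h3.symm b, fun x y hxy => by
    have := inG_conj hg h2 ((h b).2 x y hxy)
    have e : ∀ i a, g * S.fac i a = S.fac (σ i) a * g := fun i a => h1.conj_fac i fun _ => rfl
    rwa [← mul_assoc, eE_apply, e, mul_assoc _ g, e, mul_assoc, mul_assoc, h2, mul_one] at this⟩
  have h5 : σ s ∈ ({s', j'} : Finset τ) := e ▸ by simp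
  have h6 : σ j ∈ ({s', j'} : Finset τ) := e ▸ by simp
  by_cases h8 : σ s = s'
  · rwa [h8, show σ j = j' by grind] at h4
  · rw [show σ s = j' by grind, show σ j = s' by grind] at h4
    exact sym hj'.symm h4

theorem LX.fr_or (hX : LX S X) : Fr f X S.fac ∨ ∀ (s : τ) (n : τ → End F U) (x y : U),
    f x y = 0 → n s = ro f x y → InG X (1 + Phi S n) := by
  have := hX.uf.nt
  by_cases h : ∀ s, ∀ e ∈ hX.coef s, ∃ c : F, e = c • 1
  · exact Or.inl ⟨fun s => ⟨hX.root s, fun x y hx hy hxy e he h1 =>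
      h s e (hX.mem_coef hx hy hxy he h1)⟩, fun i j hij => cm_fac S hij,
      fun T => exists_smul_of_cm S hX.uf.nd⟩
  push Not at h
  obtain ⟨s, e, he, h⟩ := h
  obtain ⟨j, hj, h1⟩ := hX.exists_edge he h
  refine Or.inr fun i n x y hxy hn => ?_
  rw [← update_eq_self i n, Phi_update, hn]
  refine (Phi_induction S (p := (· ∈ hX.coef i)) (one_mem _) (fun _ _ => mul_mem) _
    fun l => ?_).2 x y hxy
  by_cases hl : l = i
  · simp [hl]
  · exact hX.all_edges hj h1 hl _

/-- An overgroup either permutes the factors or contains all pure transvections. -/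
theorem LX.nm_or [Finite F] [FiniteDimensional F V] (hX : LX S X) :
    (∀ g ∈ X, Nm S g.1) ∨ ∀ (s : τ) (n : τ → End F U) (x y : U),
      f x y = 0 → n s = ro f x y → InG X (1 + Phi S n) := by
  refine hX.fr_or.imp_left fun h g hg => ?_
  have := hX.uf.nt
  have := nontrivial_pow S hX.uf.nd
  obtain ⟨σ, hσ⟩ := ((h.cj hg).same hX.uf h).exists_perm hX.uf (h.cj hg)
  refine ⟨σ, fun s a => ?_⟩
  obtain ⟨b, hb⟩ := (hσ s).le ⟨a, rfl⟩
  exact ⟨b, by rw [show S.fac (σ s) b = cjH g (S.fac s) a from hb, cjH_apply,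
    Units.inv_mul_cancel_right]⟩

end Cfsg.Agent.H32
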