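import Cfsg.Agent.H32.PwOdd

/-!
Frames in characteristic two: dihedral groups, root elements permuting the factors.
-/

set_option autoImplicit false
set_option linter.unusedSectionVars false

namespace Cfsg.Agent.H32

open Module Function H27
open H36 (InG QT inG_one)

theorem dihedral_cases {G : Type*} [Group G] [Finite G] (K : Subgroup G) {a c : G}
    (ha : a * a = 1) (hc : c * c = 1) (haK : a ∈ K) (hcK : c ∈ K) :
    (∃ g ∈ K, g * a * g⁻¹ = c) ∨ ∃ z ∈ K, z ≠ 1 ∧ z * z = 1 ∧ z * a = a * z ∧ z * c = c * z ∧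
      (((∃ g ∈ K, g * c * g⁻¹ = z * a) ∧ ∃ g ∈ K, g * a * g⁻¹ = z * c) ∨
        ∃ y ∈ K, y * a * y⁻¹ = z * a ∧ y * c * y⁻¹ = z * c ∧ ∀ d, d = a ∨ d = c →
          ∃ g ∈ K, y * d = g * a * g⁻¹ ∨ y * d = g * c * g⁻¹) := by
  set r := a * c with hr
  have hrK : ∀ i : ℕ, r ^ i ∈ K := fun i => K.pow_mem (K.mul_mem haK hcK) i
  have h1 : r * c = a := by rw [hr, mul_assoc, hc, mul_one]
  have h0 : ∀ d, d = a ∨ d = c → ∀ i : ℕ, d * (r ^ i)⁻¹ = r ^ i * d := by
    intro d hd i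
    have : SemiconjBy d r⁻¹ r := by
      rw [SemiconjBy, mul_inv_eq_iff_eq_mul]
      rcases hd with rfl | rfl
      · simp only [hr, mul_assoc, ← mul_assoc d d, ha, one_mul, hc, mul_one]
      · rw [h1, hr, ← mul_assoc, ha, one_mul]
    simpa using (this.pow_right i).eq
  have h2 : ∀ d, d = a ∨ d = c → ∀ i : ℕ, r ^ i * d * (r ^ i)⁻¹ = r ^ (2 * i) * d := by
    intro d hd i
    rw [mul_assoc, h0 d hd, ← mul_assoc, ← pow_add, two_mul]
  have h3 : ∀ i, r ^ (i + 1) * c = r ^ i * a := fun i => by rw [pow_succ, mul_assoc, h1]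
  have hN := pow_orderOf_eq_one r
  have hN0 := orderOf_pos r
  obtain ⟨M, hM | hM⟩ := (orderOf r).even_or_odd'
  swap
  · exact Or.inl ⟨_, hrK M, by rw [h2 a (Or.inl rfl), ← h3, ← hM, hN, one_mul]⟩
  have hz : r ^ M * r ^ M = 1 := by rw [← pow_add, ← two_mul, ← hM, hN]
  have hz' : ∀ d, d = a ∨ d = c → r ^ M * d = d * r ^ M := fun d hd => by
    rw [← h0 d hd, inv_eq_of_mul_eq_one_right hz]
  refine Or.inr ⟨_, hrK M, pow_ne_one_of_lt_orderOf (by omega) (by omega), hz, hz' a (Or.inl rfl),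
    hz' c (Or.inr rfl), ?_⟩
  obtain ⟨i, rfl | rfl⟩ := M.even_or_odd'
  · refine Or.inr ⟨_, hrK i, h2 a (Or.inl rfl) i, h2 c (Or.inr rfl) i, fun d hd => ?_⟩
    obtain ⟨j, rfl | rfl⟩ := i.even_or_odd'
    · rcases hd with rfl | rfl
      · exact ⟨_, hrK j, Or.inl (h2 d (Or.inl rfl) j).symm⟩
      · exact ⟨_, hrK j, Or.inr (h2 d (Or.inr rfl) j).symm⟩
    · rcases hd with rfl | rfl
      · exact ⟨_, hrK (j + 1), Or.inr (by rw [h2 c (Or.inr rfl), ← h3]; rfl)⟩
      · exact ⟨_, hrK j, Or.inl (by rw [h2 a (Or.inl rfl), h3])⟩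
  · exact Or.inl ⟨⟨_, hrK (i + 1), by rw [h2 c (Or.inr rfl), ← h3]; rfl⟩,
      _, hrK i, by rw [h2 a (Or.inl rfl), h3]⟩

variable {F U V τ : Type*} [Field F] [AddCommGroup U] [Module F U] [AddCommGroup V] [Module F V]
  {f : LinearMap.BilinForm F U} [FiniteDimensional F U] [FiniteDimensional F V] [Nontrivial V]
  {X : Subgroup (End F V)ˣ} {θ θ' : End F U →ₐ[F] End F V} {x y : U} {ξ η T : End F V}
  {φ φ' : τ → End F U →ₐ[F] End F V}

theorem add_self_two (h2 : (2 : F) = 0) (T : End F V) : T + T = 0 := by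
  rw [← two_smul F, h2, zero_smul]

theorem sq_one_add (h2 : (2 : F) = 0) (h : T * T = 0) : (1 + T) * (1 + T) = 1 := by
  linear_combination (norm := noncomm_ring) h + add_self_two h2 T

theorem sq_sub_one (h2 : (2 : F) = 0) (h : T * T = 1) : (T - 1) * (T - 1) = 0 := by
  linear_combination (norm := noncomm_ring) h - add_self_two h2 T + add_self_two h2 (1 : End F V)

theorem UF.eq_zero_of_cm (hf : UF f) (h : T ∈ θ.range) (h' : Cm θ T) (h0 : T * T = 0) : T = 0 := by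
  obtain ⟨ν, rfl⟩ := h
  by_cases hν : ν = 0
  · simp [hν]
  · exact h'.eq_zero_of_phi hf.nd hν h0

theorem Rt.range_eq_of_le (hf : UF f) (hθ : Fa f X θ) (hθ' : Fa f X θ') (h : T ∈ θ.range)
    (h0 : T ≠ 0) (hη : Rt f θ' η) (e : ∀ p, T p ∈ LinearMap.range η) : θ.range = θ'.range := by
  obtain ⟨ν, rfl⟩ := h
  obtain ⟨v, hv⟩ : ∃ v, ν v ≠ 0 := by
    by_contra! H
    exact h0 (by rw [show ν = 0 from LinearMap.ext H, map_zero])
  obtain ⟨y, hy, h1, -⟩ := hf.orth₂ (ν v) (ν v)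
  have h2 : Rt f θ (eE f θ (ν v) y) := ⟨_, _, hv, hy, h1, rfl⟩
  refine h2.range_eq hf hθ hθ' hη (Submodule.eq_of_le_of_finrank_eq ?_ (h2.rk_eq hf hη))
  rintro _ ⟨p, rfl⟩
  rw [← phi_mul_eE]
  exact e _

theorem UF.exists_pair (hf : UF f) (w : U) :
    ∃ y y', y ≠ 0 ∧ y' ∉ F ∙ y ∧ f w y = 0 ∧ f w y' = 0 := by
  obtain ⟨y, h1, h2, -⟩ := hf.orth₂ w w
  obtain ⟨y', h3, h4⟩ := hf.exists_orth_notMem y w
  exact ⟨y, y', h1, h4, h2, by rwa [hf.sy]⟩

/-- A root element permuting the factors of a frame lies in one of them. -/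
theorem Fr.exists_rt_two (hf : UF f) (h2 : (2 : F) = 0) (h : Fr f X φ) (hξ : Sg f X ξ)
    {b : (End F V)ˣ} (hb : b.1 = 1 + ξ) (e : Same (fun i => cjH b (φ i)) φ) :
    ∃ i, Rt f (φ i) ξ := by
  refine h.exists_rt hf hξ fun s => ?_
  obtain ⟨j, hj⟩ := e s
  have hbX : b ∈ X := by simpa using (hξ.qt.mem 1).mem (by rw [hb, one_smul])
  have hBB : b.1 * b.1 = 1 := hb ▸ sq_one_add h2 hξ.qt.sq
  obtain ⟨θ, hθ, hξ⟩ := hξ
  by_cases hjs : j = s
  · exact hξ.mem_or_cm hf hb (hjs ▸ hj)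
  exfalso
  have hb' : (b⁻¹).1 = b.1 := Units.inv_eq_of_mul_eq_one_right hBB
  obtain ⟨w, hw, -⟩ := hf.orth₂ 0 0
  set κ := cjH b (φ s) with hκ
  have hC : ∀ a, Cm (φ s) (κ a) := fun a => h.cm_of_mem (Ne.symm hjs) (hj ▸ ⟨a, rfl⟩)
  let E := eE f (φ s) w
  let E' := eE f κ w
  have c1 : ∀ y y', E y * E' y' = E' y' * E y := fun y y' => hC _ _
  have c2 : ∀ y, b.1 * E y = E' y * b.1 := fun y => by
    simp only [E', hκ, eE_cjH, Units.inv_mul_cancel_right, E]
  have c3 : ∀ y, b.1 * E' y = E y * b.1 := fun y => by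
    simp only [E', hκ, eE_cjH, hb', ← mul_assoc, hBB, one_mul, E]
  have c4 : ∀ y, f w y = 0 → ∀ y', E y * E y' = 0 := fun y hy y' => by
    simp only [E, eE_mul, hy, zero_smul]
  have c5 : ∀ y, f w y = 0 → ∀ y', E' y * E' y' = 0 := fun y hy y' => by
    simp only [E', eE_mul, hy, zero_smul]
  let z := fun y => (1 + E y) * (1 + E' y)
  have c6 : ∀ y, b.1 * z y = z y * b.1 := fun y => by
    simp only [z]
    linear_combination (norm := noncomm_ring) c2 y * (1 + E' y) + (1 + E' y) * c3 y - c1 y y * b.1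
  have c7 : ∀ y y', f w y = 0 → z (y + y') = z y * z y' := fun y y' hy => by
    simp only [z, map_add]
    linear_combination (norm := noncomm_ring) (1 + E y) * c1 y' y * (1 + E' y') -
      c4 y hy y' * (1 + E' y) * (1 + E' y') - (1 + E y + E y') * c5 y hy y'
  have dich : ∀ y, y ≠ 0 → f w y = 0 → z y ∈ θ.range ∨ Cm θ (z y * b.1) := fun y hy hwy => by
    obtain ⟨a, haX, ha⟩ := (h.fa s).root w y hwy
    have ha' : (a⁻¹).1 = 1 + E y :=
      Units.inv_eq_of_mul_eq_one_right (ha ▸ sq_one_add h2 (c4 y hwy y))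
    have h3 : (a * b * a⁻¹).1 = z y * b.1 := by
      rw [Units.val_mul, Units.val_mul, ha, ha']
      simp only [z, E] at c2 ⊢
      linear_combination (norm := noncomm_ring) (1 + eE f (φ s) w y) * c2 y
    have h4 : (a * b * a⁻¹).1 = 1 + a * ξ * (a⁻¹).1 := by
      rw [Units.val_mul, Units.val_mul, hb, mul_add, add_mul, mul_one, Units.mul_inv]
    have h5 : z y * b.1 * ξ = ξ * (z y * b.1) := by
      rw [show ξ = b.1 - 1 by rw [hb, add_sub_cancel_left]]
      linear_combination (norm := noncomm_ring) -c6 y * b.1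
    rcases (hξ.cj a).mem_or_cm hf h4 (hξ.range_eq_of_stab hf hθ
      (X.mul_mem (X.mul_mem haX hbX) (X.inv_mem haX)) fun p =>
        ⟨_, by rw [h3, ← End.mul_apply, ← h5, End.mul_apply]⟩) with h6 | h6
    · left
      have := θ.range.mul_mem (θ.range.add_mem θ.range.one_mem h6)
        (θ.range.add_mem θ.range.one_mem hξ.mem)
      rwa [← h4, h3, ← hb, mul_assoc, hBB, mul_one] at this
    · exact Or.inr (by rw [← h3, h4]; exact cm_one.add h6)
  have hin : ∀ y y', y ≠ 0 → y' ∉ F ∙ y → f w y = 0 → f w y' = 0 → z y ∈ θ.range →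
      z y' ∉ θ.range := fun y y' hy hy' h3 h4 h5 h6 => by
    have h7 : (z y - 1) * (z y' - 1) = E y * E' y' + E' y * E y' := by
      simp only [z]
      linear_combination (norm := noncomm_ring) c4 y h3 y' * (1 + E' y') + (1 + E y) * c5 y h3 y' +
        c4 y h3 y' * E' y * (1 + E' y') - E y * c1 y' y * (1 + E' y') - c1 y' y * E' y' +
        E y' * c5 y h3 y'
    have h8 := θ.range.mul_mem (θ.range.sub_mem h5 θ.range.one_mem)
      (θ.range.sub_mem h6 θ.range.one_mem)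
    rw [h7] at h8
    have h9 : E y * E' y' + E' y * E y' ≠ 0 := fun e => by
      obtain ⟨v, h9, h10⟩ := hf.sep hy'
      rw [hf.sy] at h9 h10
      have := congrArg (· * eE f (φ s) v y) e
      simp only [add_mul, c1, mul_assoc, E, eE_mul, h9, h10, zero_smul, mul_zero, zero_add,
        one_smul, zero_mul] at this
      exact hf.eE_ne_zero κ hw hy ((hC _).eq_zero hf.nd hw hy ((c1 y y).trans this))
    have h10 := Rt.range_eq_of_le hf hθ (h.fa s) h8 h9 ⟨w, y, hw, hy, h3, rfl⟩ fun p => by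
      rw [← c1]
      exact add_mem ⟨_, rfl⟩ (hf.mem_range hy _ _ _)
    have h11 := Rt.range_eq_of_le hf hθ ((h.fa s).cj hbX) h8 h9 ⟨w, y, hw, hy, h3, rfl⟩ fun p => by
      rw [c1]
      exact add_mem (hf.mem_range hy _ _ _) ⟨_, rfl⟩
    exact hjs (h.eq_of_range hf (by rw [← hj, ← h11, h10]))
  have hout : ∀ y y', y + y' ≠ 0 → f w y = 0 → f w y' = 0 → Cm θ (z y * b.1) →
      ¬ Cm θ (z y' * b.1) := fun y y' hy h3 h4 h5 h6 => by
    have h7 := h5.mul h6
    rw [mul_assoc, ← mul_assoc b.1, c6, mul_assoc (z y'), hBB, mul_one, ← c7 _ _ h3] at h7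
    have h8 : f w (y + y') = 0 := by simp [h3, h4]
    have h9 : z (y + y') * z (y + y') = 1 := by
      rw [← c7 _ _ h8, ← two_smul F, h2, zero_smul]
      simp [z]
    rcases dich _ hy h8 with h10 | h10
    · have h11 := congrArg (E (y + y') * ·) (hf.eq_zero_of_cm
        (θ.range.sub_mem h10 θ.range.one_mem) (h7.sub cm_one) (sq_sub_one h2 h9))
      refine hf.eE_ne_zero κ hw hy ((hC _).eq_zero hf.nd hw hy ?_)
      change E (y + y') * E' (y + y') = 0
      simp only [z] at h11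
      linear_combination (norm := noncomm_ring) h11 - c4 _ h8 (y + y') * (1 + E' (y + y'))
    · have := (h7.mul h10).sub cm_one
      rw [← mul_assoc, h9, one_mul, hb, add_sub_cancel_left] at this
      exact hξ.not_cm hf this
  obtain ⟨y, y', h3, h4, h5, h6⟩ := hf.exists_pair w
  have h7 : y' ≠ 0 := by rintro rfl; simp at h4
  have h8 : y + y' ∉ F ∙ y := fun e => h4 (by
    simpa using Submodule.sub_mem _ e (Submodule.mem_span_singleton_self y))
  have h9 : y + y' ≠ 0 := fun e => h8 (e ▸ zero_mem _)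
  have h10 : f w (y + y') = 0 := by simp [h5, h6]
  have h11 : ∀ v : U, v + v = 0 := fun v => by rw [← two_smul F, h2, zero_smul]
  rcases dich y h3 h5 with a1 | a1
  · exact hout y' (y + y') (by rwa [add_comm, add_assoc, h11, add_zero]) h6 h10
      ((dich _ h7 h6).resolve_left (hin _ _ h3 h4 h5 h6 a1))
      ((dich _ h9 h10).resolve_left (hin _ _ h3 h8 h5 h10 a1))
  · refine hin y' (y + y') h7 (fun e => h4 ?_) h6 h10
      ((dich _ h7 h6).resolve_right (hout _ _ h9 h5 h6 a1))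
      ((dich _ h9 h10).resolve_right (hout _ _ (by rwa [← add_assoc, h11, zero_add]) h5 h10 a1))
    obtain ⟨c, hc⟩ := Submodule.mem_span_singleton.1 e
    have h12 : y = (c - 1) • y' := by rw [sub_smul, hc, one_smul, add_sub_cancel_right]
    exact Submodule.mem_span_singleton.2 ⟨(c - 1)⁻¹, by
      rw [h12, inv_smul_smul₀ fun e => h3 (by rw [h12, e, zero_smul])]⟩

end Cfsg.Agent.H32
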