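import Cfsg.Agent.H32.PwBasic

/-!
Frames of commuting factors; the case of odd characteristic.
-/

set_option autoImplicit false
set_option linter.unusedSectionVars false

namespace Cfsg.Agent.H32

open Module Function H27
open H36 (InG QT inG_one)

variable {F U V τ : Type*} [Field F] [AddCommGroup U] [Module F U] [AddCommGroup V] [Module F V]
  {f : LinearMap.BilinForm F U} [FiniteDimensional F U] [FiniteDimensional F V] [Nontrivial V]
  {X : Subgroup (End F V)ˣ} {θ θ' : End F U →ₐ[F] End F V} {x y : U} {ξ η z : End F V}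

theorem Rt.range_eq_of_stab (hf : UF f) (hθ : Fa f X θ) (h : Rt f θ ξ) {g : (End F V)ˣ}
    (hg : g ∈ X) (e : ∀ p, g.1 (ξ p) ∈ LinearMap.range ξ) : (cjH g θ).range = θ.range :=
  (h.cj g).range_eq hf (hθ.cj hg) hθ h (Submodule.eq_of_le_of_finrank_eq (by
    rintro _ ⟨p, rfl⟩
    exact e _) ((h.cj g).rk_eq hf h))

theorem Fa.invol_sign (hf : UF f) (hθ : Fa f X θ) (h2 : (2 : F) ≠ 0) (h : Rt f θ η)
    (hz : Invol X η z) :
    (∀ p, z (η p) = -η p) ∧ ∃ x₀, x₀ ≠ 0 ∧ ∀ a p, z (eE f θ x₀ a p) = eE f θ x₀ a p := by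
  obtain ⟨g, hg, rfl⟩ := hz.mem
  obtain ⟨γ, β, hβ, h1⟩ := hf.exists_factor
    (h.range_eq_of_stab hf hθ hg fun p => ⟨_, (hz.comm p).symm⟩)
  obtain ⟨x, y, hx, hy, hxy, rfl⟩ := h
  obtain ⟨v, hv, hv'⟩ := hf.exists_orth_notMem x y
  obtain ⟨φ, h3, h4⟩ := hf.sep hv'
  have h5 : eE f θ x y * (f (γ v) φ • β) = eE f θ x y * 1 := LinearMap.ext fun p => by
    have := eE_range_zero (hz.triv (eE f θ v y p) (by simp [eE_eE, hv])) x h4
    rw [map_sub, h1, End.mul_apply, ← End.mul_apply β, ← hβ.comm_eE, ← End.mul_apply (θ _),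
      ← mul_assoc, phi_mul_eE, End.mul_apply, eE_eE, eE_eE, h3, one_smul, sub_eq_zero] at this
    simpa using this
  have h6 := (hβ.smul _).cancel hf.nd hx hy cm_one h5
  have h7 : f (γ v) φ ≠ 0 := fun e => by simp [e] at h6
  obtain ⟨γ', h8, h9⟩ : ∃ γ' : End F U, g.1 = θ γ' ∧ f (γ' v) φ = 1 :=
    ⟨(f (γ v) φ)⁻¹ • γ.toLinearMap, by rw [h1, ← inv_smul_smul₀ h7 β, h6]; simp, by simp [h7]⟩
  have h10 : ∀ a b p, g.1 (eE f θ a b p) = eE f θ (γ' a) b p := fun a b p => by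
    rw [h8, ← End.mul_apply, phi_mul_eE]
  have h11 : ∀ a, γ' (γ' a) = a := LinearMap.congr_fun (hf.inj θ (a₁ := γ' * γ') (a₂ := 1) (by
    rw [map_mul, map_one, ← h8]; exact LinearMap.ext hz.sq))
  refine ⟨?_, v + γ' v, fun e => h2 ?_, fun a p => by rw [h10, map_add, h11, add_comm]⟩
  · obtain ⟨w, hw⟩ := exists_apply_eq_one' hf.nd hy
    have h12 : γ' * ro f x y = ro f x y * γ' := hf.inj θ (by
      rw [map_mul, map_mul, ← h8]; exact LinearMap.ext hz.comm)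
    have h13 : γ' x = f (γ' w) y • x := by simpa [hw] using LinearMap.congr_fun h12 w
    generalize f (γ' w) y = c at h13
    have h14 := h11 x
    rw [h13, map_smul, h13, smul_smul, ← sub_eq_zero, ← one_smul F x, smul_smul, ← sub_smul,
      smul_eq_zero, mul_one, sub_eq_zero, mul_self_eq_one_iff] at h14
    obtain ⟨p, hp⟩ := hz.ne
    rcases h14.resolve_right hx with rfl | rfl
    · simp [h10, h13] at hp
    · simp [h10, h13]
  · have := congrArg (fun t => f t φ) e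
    simp only [map_add, LinearMap.add_apply, h3, h9, map_zero, LinearMap.zero_apply] at this
    linear_combination this

theorem Sg.mem_or_cm_odd [Finite F] (hf : UF f) (h2 : (2 : F) ≠ 0) (h : Sg f X ξ)
    (hθ : Fa f X θ) : ξ ∈ θ.range ∨ Cm θ ξ := by
  by_cases hn : ∀ η, Rt f θ η → IsNilpotent (η * ξ + ξ * η)
  · refine Or.inr (cm_of_co (hf := hf.nd) fun y x hxy => ?_)
    by_cases hx : x = 0
    · simp [hx]
    by_cases hy : y = 0
    · simp [hy]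
    have hη : Rt f θ (eE f θ x y) := ⟨x, y, hx, hy, hxy, rfl⟩
    obtain ⟨k, hk⟩ := hn _ hη
    refine (cm_co y x ξ).eq_zero hf.nd hx hy ?_
    rw [eE_mul_co]
    refine nil_lemma h2 (Sg f X) (fun _ => Sg.qt) (fun s hs g hg => hs.cj hg)
      (fun s z n hs h hzs hn => ?_) k _ _ ⟨θ, hθ, hη⟩ h (by rw [pow_succ, hk, zero_mul])
    obtain ⟨c, hc⟩ := hs.eq_smul hf (n := z * s) (by simpa using h.mem 1)
      (fun p => ⟨z p, by rw [hzs, End.mul_apply]⟩) fun p hp => by simp [hp]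
    have h2 : ∀ n, z ^ n * s = c ^ n • s := fun n => by
      induction n with
      | zero => simp
      | succ n ih => rw [pow_succ', mul_assoc, ih, mul_smul_comm, hc, smul_smul, pow_succ]
    rw [h2] at hn
    obtain ⟨_, -, hs⟩ := hs
    rw [hc, pow_eq_zero_iff'.1 ((smul_eq_zero.1 hn).resolve_right (hs.ne hf)) |>.1, zero_smul]
  push Not at hn
  obtain ⟨η, hη, hn⟩ := hn
  obtain ⟨z, h5, h6, -⟩ := exists_invol h2 (Sg.qt ⟨θ, hθ, hη⟩) h.qt hn
  obtain ⟨-, x, hx, h7⟩ := hθ.invol_sign hf h2 hη h5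
  obtain ⟨b, hb, e⟩ := h.qt.mem 1
  rw [one_smul] at e
  obtain ⟨θ', hθ', h⟩ := h
  have h8 := (hθ'.invol_sign hf h2 h h6).1
  obtain ⟨y, hy, hxy, -⟩ := hf.orth₂ x x
  refine h.mem_or_cm hf e (Rt.range_eq_of_stab hf hθ ⟨x, y, hx, hy, hxy, rfl⟩ hb fun p => ⟨p, ?_⟩)
  have := h8 (eE f θ x y p)
  rw [h6.comm, h7, eq_neg_iff_add_eq_zero, ← two_smul F] at this
  simp [e, (smul_eq_zero.1 this).resolve_left h2]

/-- A frame of commuting factors with scalar common commutant. -/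
structure Fr (f : LinearMap.BilinForm F U) (X : Subgroup (End F V)ˣ)
    (φ : τ → End F U →ₐ[F] End F V) : Prop where
  fa : ∀ i, Fa f X (φ i)
  cm : ∀ i j, i ≠ j → ∀ a, Cm (φ i) (φ j a)
  scal : ∀ T, (∀ i, Cm (φ i) T) → ∃ c : F, T = c • 1

variable {φ φ' φ'' : τ → End F U →ₐ[F] End F V}

theorem Fr.cj (h : Fr f X φ) {g : (End F V)ˣ} (hg : g ∈ X) : Fr f X fun i => cjH g (φ i) := by
  refine ⟨fun i => (h.fa i).cj hg, fun i j hij a => Cm.cj (h.cm i j hij a) g, fun T hT => ?_⟩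
  obtain ⟨c, hc⟩ := h.scal _ fun i => Cm.of_cj (hT i)
  refine ⟨c, ?_⟩
  have := congrArg (fun t => g.1 * t * (g⁻¹).1) hc
  simpa [mul_assoc] using this

theorem Fr.cm_of_mem (h : Fr f X φ) {i j : τ} (hij : i ≠ j) (hξ : ξ ∈ (φ j).range) :
    Cm (φ i) ξ := by
  obtain ⟨a, rfl⟩ := hξ
  exact h.cm i j hij a

theorem Fr.eq_of_rt (hf : UF f) (h : Fr f X φ) {i j : τ} (h1 : Rt f (φ i) ξ)
    (h2 : ξ ∈ (φ j).range) : i = j :=
  by_contra fun e => h1.not_cm hf (h.cm_of_mem e h2)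

theorem UF.exists_rt (hf : UF f) (θ : End F U →ₐ[F] End F V) : ∃ ξ, Rt f θ ξ := by
  obtain ⟨x, y, h1, h2, h3⟩ := hf.exists_flag
  exact ⟨_, x, y, h1, h2, h3, rfl⟩

theorem Fr.eq_of_range (hf : UF f) (h : Fr f X φ) {i j : τ} (e : (φ i).range = (φ j).range) :
    i = j := by
  obtain ⟨ξ, hξ⟩ := hf.exists_rt (φ i)
  exact h.eq_of_rt hf hξ (e ▸ hξ.mem)

theorem Fr.exists_rt (hf : UF f) (h : Fr f X φ) (hξ : Sg f X ξ)
    (e : ∀ i, ξ ∈ (φ i).range ∨ Cm (φ i) ξ) : ∃ i, Rt f (φ i) ξ := by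
  by_contra! H
  obtain ⟨c, hc⟩ := h.scal ξ fun i => (e i).resolve_left fun h1 => H i (hξ.rt hf (h.fa i) h1)
  have h1 := hξ.qt.sq
  obtain ⟨_, -, h2⟩ := hξ
  have h3 := h2.ne hf
  rw [hc] at h1 h3
  exact absurd (by simpa using h1) h3

/-- Every factor of `φ` is a factor of `φ'`. -/
def Same (φ φ' : τ → End F U →ₐ[F] End F V) : Prop := ∀ s, ∃ j, (φ s).range = (φ' j).range

theorem Same.trans (h : Same φ φ') (h' : Same φ' φ'') : Same φ φ'' := fun s => by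
  obtain ⟨j, e⟩ := h s
  obtain ⟨l, e'⟩ := h' j
  exact ⟨l, e.trans e'⟩

theorem Same.exists_perm [Finite τ] (hf : UF f) (hφ : Fr f X φ) (h : Same φ φ') :
    ∃ σ : Equiv.Perm τ, ∀ s, (φ s).range = (φ' (σ s)).range := by
  choose σ hσ using h
  exact ⟨Equiv.ofBijective σ (Finite.injective_iff_bijective.1 fun i j e =>
    hφ.eq_of_range hf (by rw [hσ, hσ, e])), hσ⟩

theorem Same.symm [Finite τ] (hf : UF f) (hφ : Fr f X φ) (h : Same φ φ') : Same φ' φ := fun s => by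
  obtain ⟨σ, hσ⟩ := h.exists_perm hf hφ
  exact ⟨σ.symm s, by rw [hσ, σ.apply_symm_apply]⟩

theorem Fr.same_odd [Finite F] (hf : UF f) (h2 : (2 : F) ≠ 0) (h : Fr f X φ) (h' : Fr f X φ') :
    Same φ φ' := fun s => by
  obtain ⟨ξ, hξ⟩ := hf.exists_rt (φ s)
  have h1 : Sg f X ξ := ⟨_, h.fa s, hξ⟩
  obtain ⟨j, hj⟩ := h'.exists_rt hf h1 fun i => h1.mem_or_cm_odd hf h2 (h'.fa i)
  exact ⟨j, hξ.range_eq hf (h.fa s) (h'.fa j) hj rfl⟩

end Cfsg.Agent.H32
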