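import Cfsg.Agent.H32.PwFree

/-!
Frames in characteristic two: uniqueness.
-/

set_option autoImplicit false
set_option linter.unusedSectionVars false

namespace Cfsg.Agent.H32

open Module Function H27
open H36 (InG QT inG_one)

variable {F U V τ : Type*} [Field F] [AddCommGroup U] [Module F U] [AddCommGroup V] [Module F V]
  {f : LinearMap.BilinForm F U} [FiniteDimensional F U] [FiniteDimensional F V] [Nontrivial V]
  {X : Subgroup (End F V)ˣ} {θ θ' : End F U →ₐ[F] End F V} {ξ ξ' η η' ζ T x : End F V}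
  {φ₀ φ φ' : τ → End F U →ₐ[F] End F V} {I : Finset τ} {a g z : (End F V)ˣ} {s j l : τ}

/-- `x` is a product of an involution of a factor and a non-free element of its commutant. -/
def NF (I : Finset τ) (φ : τ → End F U →ₐ[F] End F V) (x : End F V) : Prop :=
  ∃ s ∉ I, ∃ T ∈ (φ s).range, ∃ β π : End F V, T * T = 1 ∧ T ≠ 1 ∧ Cm (φ s) β ∧ Cm (φ s) π ∧
    π ≠ 0 ∧ π * π = π ∧ β * π = π ∧ π * β = π ∧ x = T * β

theorem Rt.exists_idem (hf : UF f) (h : Rt f θ η) : ∃ a b : U, a ≠ 0 ∧ b ≠ 0 ∧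
    eE f θ a b * eE f θ a b = eE f θ a b ∧ (1 + η) * eE f θ a b = eE f θ a b ∧
      eE f θ a b * (1 + η) = eE f θ a b := by
  obtain ⟨x, y, -, -, -, rfl⟩ := h
  obtain ⟨a, b, h1, h2, h3⟩ := hf.exists_split x y
  exact ⟨a, b, by rintro rfl; simp at h3, by rintro rfl; simp at h3, by simp [eE_mul, h3],
    by simp [add_mul, eE_mul, h2], by simp [mul_add, eE_mul, h1]⟩

theorem nf_one (hs : s ∉ I) (h : T ∈ (φ s).range) (h1 : T * T = 1) (h2 : T ≠ 1) : NF I φ T :=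
  ⟨s, hs, T, h, 1, 1, h1, h2, cm_one, cm_one, one_ne_zero, by simp⟩

theorem nf_two (hf : UF f) (hφ : Fr f X φ) (hs : s ∉ I) (h : T ∈ (φ s).range) (h1 : T * T = 1)
    (h2 : T ≠ 1) (hj : s ≠ j) (hη : Rt f (φ j) η) : NF I φ (T * (1 + η)) := by
  obtain ⟨a, b, a1, a2, a3, a4, a5⟩ := hη.exists_idem hf
  exact ⟨s, hs, T, h, _, _, h1, h2, cm_one.add (hφ.cm_of_mem hj hη.mem), hφ.cm s j hj _,
    hf.eE_ne_zero _ a1 a2, a3, a4, a5, rfl⟩

theorem nf_three (hf : UF f) (hφ : Fr f X φ) (hs : s ∉ I) (h : T ∈ (φ s).range) (h1 : T * T = 1)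
    (h2 : T ≠ 1) (hj : s ≠ j) (hη : Rt f (φ j) η) (hl : s ≠ l) (hjl : j ≠ l) (hζ : Rt f (φ l) ζ) :
    NF I φ (T * ((1 + η) * (1 + ζ))) := by
  obtain ⟨a, b, a1, a2, a3, a4, a5⟩ := hη.exists_idem hf
  obtain ⟨c, d, b1, b2, b3, b4, b5⟩ := hζ.exists_idem hf
  have c1 : Cm (φ j) (eE f (φ l) c d) := hφ.cm j l hjl _
  have c2 := (cm_one.add (hφ.cm_of_mem hjl hζ.mem)).comm_eE (f := f) a b
  have c3 := (cm_one.add (hφ.cm_of_mem hjl.symm hη.mem)).comm_eE (f := f) c d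
  refine ⟨s, hs, T, h, _, eE f (φ j) a b * eE f (φ l) c d, h1, h2,
    (cm_one.add (hφ.cm_of_mem hj hη.mem)).mul (cm_one.add (hφ.cm_of_mem hl hζ.mem)),
    (hφ.cm s j hj _).mul (hφ.cm s l hl _), fun e => hf.eE_ne_zero _ b1 b2
      (c1.eq_zero hf.nd a1 a2 e), ?_, ?_, ?_, rfl⟩
  · rw [mul_assoc, ← mul_assoc (eE f (φ l) c d), ← c1.comm_eE, mul_assoc, b3, ← mul_assoc, a3]
  · rw [mul_assoc, ← mul_assoc (1 + ζ), ← c2, mul_assoc, b4, ← mul_assoc, a4]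
  · rw [mul_assoc, ← mul_assoc (eE f (φ l) c d), c3, mul_assoc, b5, ← mul_assoc, a5]

theorem Rt.one_add (hf : UF f) (h2 : (2 : F) = 0) (h : Rt f θ η) :
    1 + η ∈ θ.range ∧ (1 + η) * (1 + η) = 1 ∧ 1 + η ≠ 1 :=
  ⟨add_mem (one_mem _) h.mem, sq_one_add h2 h.sq, by simpa using h.ne hf⟩

theorem Rt.not_cm_mul (hf : UF f) (h2 : (2 : F) = 0) (h : Rt f θ η) (h1 : Cm θ ζ)
    (h3 : ζ * ζ = 0) : ¬ Cm θ ((1 + η) * (1 + ζ)) := fun e => by
  have := (e.mul (cm_one.add h1)).sub cm_one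
  rw [mul_assoc, sq_one_add h2 h3, mul_one, add_sub_cancel_left] at this
  exact h.not_cm hf this

theorem nf_pair (hf : UF f) (h2 : (2 : F) = 0) (hφ : Fr f X φ) (hs : s ∉ I) (hη : Rt f (φ s) η)
    (hζ : Rt f (φ j) ζ) (hc : η * ζ = ζ * η) (h1 : (1 + η) * (1 + ζ) ≠ 1) :
    NF I φ ((1 + η) * (1 + ζ)) := by
  obtain ⟨a1, a2, a3⟩ := hη.one_add hf h2
  by_cases hj : s = j
  · subst hj
    obtain ⟨b1, b2, -⟩ := hζ.one_add hf h2
    refine nf_one hs (mul_mem a1 b1) ?_ h1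
    linear_combination (norm := noncomm_ring) a2 * ((1 + ζ) * (1 + ζ)) + b2 -
      (1 + η) * hc * (1 + ζ)
  · exact nf_two hf hφ hs a1 a2 a3 hj hζ

theorem stab_of_comm (h : x * ξ = ξ * x) (p : V) : x (ξ p) ∈ LinearMap.range ξ :=
  ⟨_, (LinearMap.congr_fun h p).symm⟩

theorem comm_sub_one {a b : (End F V)ˣ} (h : a * b = b * a) :
    a.1 * (b.1 - 1) = (b.1 - 1) * a.1 := by
  have := congrArg Units.val h
  rw [Units.val_mul, Units.val_mul] at this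
  rw [mul_sub, sub_mul, this, mul_one, one_mul]

variable [Finite F] [Finite τ]

theorem Cx.same_of_nf (H : Cx f X I φ₀) (hφ : Fm f X I φ₀ φ) (hφ' : Fm f X I φ₀ φ')
    (hx : NF I φ x) (hξ : In f I φ' ξ) (h : ∀ p, x (ξ p) ∈ LinearMap.range ξ) : Same φ φ' := by
  have hf := H.uf
  by_contra hne
  obtain ⟨s, hs, _, ⟨γ, rfl⟩, β, π, a1, a2, a3, a4, a5, a6, a7, a8, rfl⟩ := hx
  change φ s γ * φ s γ = 1 at a1
  change φ s γ ≠ 1 at a2
  change ∀ p, (φ s γ * β) _ ∈ _ at h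
  have b1 : (γ - 1) * (γ - 1) = 0 := hf.inj (φ s) (by simpa using sq_sub_one H.two a1)
  obtain ⟨v, hv⟩ : ∃ v, (γ - 1) v ≠ 0 := by
    by_contra! h
    exact a2 (by rw [sub_eq_zero.1 (LinearMap.ext h : γ - 1 = 0), map_one])
  obtain ⟨y₀, b2⟩ := exists_apply_eq_one hf.nd hv
  obtain ⟨y₁, b3⟩ := hf.exists_rep (f.flip y₀ ∘ₗ (γ - 1))
  have b4 : y₁ ≠ 0 := by
    rintro rfl
    have := b3 v
    rw [map_zero] at this
    exact zero_ne_one (this.trans b2)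
  obtain ⟨w, hw, b5, -⟩ := hf.orth₂ y₁ y₁
  rw [hf.sy] at b5
  have b6 : eE f (φ s) w y₁ * φ s γ = eE f (φ s) w y₁ := eE_mul_phi (fun u => by
    have := b3 ((γ - 1) u)
    rw [LinearMap.comp_apply, ← End.mul_apply, b1] at this
    simpa [sub_eq_zero] using this) w
  have b7 : eE f (φ s) w y₀ * φ s γ = eE f (φ s) w (y₀ + y₁) :=
    eE_mul_phi (fun u => by simp [b3]) w
  have hR : Rt f (φ s) (eE f (φ s) w y₁) := ⟨w, y₁, hw, b4, b5, rfl⟩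
  have b8 := H.free hφ hφ' hne ⟨s, hs, hR⟩ hξ
  have b9 := finrank_map_add_inf_ker (eE f (φ s) w y₁) (LinearMap.range ξ)
  rw [b8, finrank_bot, add_zero] at b9
  obtain ⟨p, hp⟩ := DFunLike.ne_iff.1 (mt (a4.eq_zero hf.nd hw b4) a5)
  obtain ⟨_, ⟨q, rfl⟩, hq⟩ := (Submodule.eq_of_le_of_finrank_eq LinearMap.map_le_range
    (b9.trans (hξ.choose_spec.2.rk_eq hf hR))).ge ⟨π p, rfl⟩
  have c0 : ∀ y q, eE f (φ s) w y (β q) = β (eE f (φ s) w y q) := fun y =>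
    LinearMap.congr_fun (a3.comm_eE w y)
  have c1 : ∀ q, eE f (φ s) w y₁ (π q) = π (eE f (φ s) w y₁ q) :=
    LinearMap.congr_fun (a4.comm_eE w y₁)
  have c2 : β (eE f (φ s) w y₁ (ξ q)) = eE f (φ s) w y₁ (ξ q) := by
    rw [hq, c1, ← End.mul_apply, a7]
  have c3 : (φ s γ * β) (ξ q) = ξ q := sub_eq_zero.1 ((Submodule.eq_bot_iff _).1 b8 _
    ⟨sub_mem (h q) ⟨q, rfl⟩, by
      rw [SetLike.mem_coe, LinearMap.mem_ker, map_sub, ← End.mul_apply, ← mul_assoc, b6,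
        End.mul_apply, c0, c2, sub_self]⟩)
  have c4 := congrArg (fun t => π (eE f (φ s) w y₀ t)) c3
  simp only [← End.mul_apply (eE f (φ s) w y₀), ← mul_assoc, b7] at c4
  rw [End.mul_apply, map_add, LinearMap.add_apply, c0, c0, c2, map_add, ← End.mul_apply π β, a8,
    End.mul_apply, add_eq_left, hq, c1, ← End.mul_apply π π, a6, ← c1] at c4
  exact hp c4

theorem Cx.same_cj_of_comm (H : Cx f X I φ₀) (hφ : Fm f X I φ₀ φ) (hx : NF I φ x)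
    (hη : In f I φ η) (h : x * η = η * x) (hg : g ∈ cenY X I φ₀) (h' : g * x = x * g) :
    Same (fun i => cjH g (φ i)) φ :=
  (H.same_of_nf hφ (hφ.cj hg) hx (hη.cj g) (stab_of_comm (by
    rw [← mul_assoc, ← mul_assoc, ← h', mul_assoc _ x, h, mul_assoc, mul_assoc, mul_assoc,
      mul_assoc, (Commute.units_inv_left h').eq]))).symm H.uf hφ.fr

theorem Cx.not_stab (H : Cx f X I φ₀) (hφ : Fm f X I φ₀ φ) (hφ' : Fm f X I φ₀ φ')
    (hne : ¬ Same φ' φ) (hx : NF I φ' z.1) (hz : z * z = 1) (hs : s ∉ I) :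
    (cjH z (φ s)).range ≠ (φ s).range := fun e => by
  have hf := H.uf
  obtain ⟨γ, β, h1, h2⟩ := hf.exists_factor e
  have h3 : φ s (γ.toLinearMap * γ.toLinearMap) * (β * β) = 1 := by
    rw [map_mul, mul_assoc, ← mul_assoc _ β, h1, mul_assoc β, ← mul_assoc, ← h2,
      ← Units.val_mul, hz, Units.val_one]
  have h4 := (h1.mul h1).inv ((h1.mul h1 _).symm.trans h3) h3
  obtain ⟨u, hu, -⟩ := hf.orth₂ 0 0
  obtain ⟨v, hv⟩ := exists_apply_eq_one hf.nd hu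
  have h5 := (h4.co_self (hf := hf.nd) v u).symm.trans (co_phi v u _)
  obtain ⟨μ, hμ⟩ := FiniteField.isSquare_of_char_two (CharP.ringChar_of_prime_eq_zero
    Nat.prime_two (by exact_mod_cast H.two)) (f ((γ.toLinearMap * γ.toLinearMap) u) v)
  rw [hv, one_smul, hμ, ← map_one (φ s), ← map_smul] at h5
  have h6 := LinearMap.congr_fun (hf.inj _ h5)
  obtain ⟨w, hw, h7⟩ : ∃ w, w ≠ 0 ∧ γ w = μ • w := by
    by_cases h : γ u = μ • u
    · exact ⟨u, hu, h⟩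
    · refine ⟨γ u - μ • u, sub_ne_zero.2 h, ?_⟩
      have h8 : γ (γ u) = (μ * μ) • u := h6 u
      rw [map_sub, map_smul, h8]
      linear_combination (norm := module) H.two • ((μ * μ) • u - μ • γ u)
  obtain ⟨y, hy, hwy, -⟩ := hf.orth₂ w w
  refine hne (H.same_of_nf hφ' hφ hx ⟨s, hs, w, y, hw, hy, hwy, rfl⟩ fun p => ⟨μ • β p, ?_⟩)
  rw [h2, ← End.mul_apply (_ * β), mul_assoc, ← h1.comm_eE, ← mul_assoc, phi_mul_eE]
  simp [h7]

theorem Cx.swap (H : Cx f X I φ₀) (hφ : Fm f X I φ₀ φ) (hφ' : Fm f X I φ₀ φ') (hne : ¬ Same φ φ')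
    (hs : s ∉ I) (hξ : Rt f (φ' s) ξ) (hξ' : Rt f (φ' j) ξ') (hc : ξ * ξ' = ξ' * ξ)
    (h1 : (1 + ξ) * (1 + ξ') ≠ 1) (hg : g ∈ cenY X I φ₀) (hgg : g * g = 1) (hx : NF I φ g.1)
    (h : g * ((1 + ξ) * (1 + ξ')) = (1 + ξ) * (1 + ξ') * g) :
    (cjH g (φ' s)).range = (φ' j).range := by
  have hf := H.uf
  obtain ⟨l, hl⟩ := H.same_cj_of_comm hφ' (nf_pair hf H.two hφ'.fr hs hξ hξ' hc h1) ⟨s, hs, hξ⟩
    (by linear_combination (norm := noncomm_ring) -(1 + ξ) * hc) hg h s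
  have h3 : l ≠ s := fun e => H.not_stab hφ' hφ hne hx hgg hs (e ▸ hl)
  by_cases hlj : l = j
  · exact hlj ▸ hl
  have h4 := Cm.of_cj (Cm.of_range ((cm_one.add (hφ'.fr.cm_of_mem h3 hξ.mem)).mul
    (cm_one.add (hφ'.fr.cm_of_mem hlj hξ'.mem))) hl.le)
  rw [mul_assoc, ← h, Units.inv_mul_cancel_left] at h4
  by_cases hsj : s = j
  · subst hsj
    obtain ⟨a1, a2, -⟩ := hξ.one_add hf H.two
    obtain ⟨b1, b2, -⟩ := hξ'.one_add hf H.two
    refine (h1 (sub_eq_zero.1 (hf.eq_zero_of_cm (sub_mem (mul_mem a1 b1) (one_mem _))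
      (h4.sub cm_one) (sq_sub_one H.two ?_)))).elim
    linear_combination (norm := noncomm_ring) a2 * ((1 + ξ') * (1 + ξ')) + b2 -
      (1 + ξ) * hc * (1 + ξ')
  · exact (hξ.not_cm_mul hf H.two (hφ'.fr.cm_of_mem hsj hξ'.mem) hξ'.sq h4).elim

theorem nf_triple (hf : UF f) (h2 : (2 : F) = 0) (hφ : Fr f X φ) (hs : s ∉ I) (hj : j ∉ I)
    (hsj : s ≠ j) (hη : Rt f (φ s) η) (hη' : Rt f (φ j) η') (hζ : Rt f (φ s) ζ)
    (h : (1 + ζ) * ((1 + η) * (1 + η')) * ((1 + ζ) * ((1 + η) * (1 + η'))) = 1) :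
    NF I φ ((1 + ζ) * ((1 + η) * (1 + η'))) := by
  obtain ⟨b1, b2, b3⟩ := hη'.one_add hf h2
  rw [← mul_assoc (1 + ζ)] at h ⊢
  have h3 := mul_mem (hζ.one_add hf h2).1 (hη.one_add hf h2).1
  generalize (1 + ζ) * (1 + η) = T at h h3 ⊢
  by_cases hT : T = 1
  · rw [hT, one_mul]
    exact nf_one hj b1 b2 b3
  refine nf_two hf hφ hs h3 ?_ hT hsj hη'
  obtain ⟨t, rfl⟩ := h3
  have h4 : φ s t * (1 + η') = (1 + η') * φ s t := cm_one.add (hφ.cm_of_mem hsj hη'.mem) t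
  change φ s t * _ * (φ s t * _) = 1 at h
  change φ s t * φ s t = 1
  rwa [mul_assoc, ← mul_assoc (1 + η'), ← h4, mul_assoc, b2, mul_one] at h

theorem Cx.same (H : Cx f X I φ₀) (hφ : Fm f X I φ₀ φ) (hφ' : Fm f X I φ₀ φ') {s₁ s₂ : τ}
    (h₁ : s₁ ∉ I) (h₂ : s₂ ∉ I) (h12 : s₁ ≠ s₂) : Same φ φ' := by
  have hf := H.uf
  have h2 := H.two
  have : Finite V := Module.finite_of_finite F
  have : Finite (End F V) := Module.finite_of_finite F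
  by_contra hne
  have hne' : ¬ Same φ' φ := fun h => hne (h.symm hf hφ'.fr)
  have pair : ∀ {s j : τ} {η η' : End F V}, s ∉ I → j ∉ I → s ≠ j → Rt f (φ s) η → Rt f (φ j) η' →
      ∃ u ∈ cenY X I φ₀, u.1 = (1 + η) * (1 + η') ∧ u * u = 1 ∧ NF I φ u.1 ∧ η * η' = η' * η := by
    intro s j η η' hs hj hsj hη hη'
    obtain ⟨a, a1, a2, a3⟩ := In.exists_unit h2 ⟨s, hs, hη⟩ hφ
    obtain ⟨b, b1, b2, b3⟩ := In.exists_unit h2 ⟨j, hj, hη'⟩ hφ
    have h3 : η * η' = η' * η := by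
      obtain ⟨t, rfl⟩ := hη.mem
      exact hφ.fr.cm_of_mem hsj hη'.mem t
    have h4 : a * b = b * a := Units.ext (by
      rw [Units.val_mul, Units.val_mul, a2, b2]
      linear_combination (norm := noncomm_ring) h3)
    obtain ⟨c1, c2, c3⟩ := hη.one_add hf h2
    exact ⟨a * b, mul_mem a1 b1, by rw [Units.val_mul, a2, b2], by
      rw [mul_assoc, ← mul_assoc b, ← h4, mul_assoc, b3, mul_one, a3], by
      rw [Units.val_mul, a2, b2]; exact nf_two hf hφ.fr hs c1 c2 c3 hsj hη', h3⟩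
  obtain ⟨η₁, r₁⟩ := hf.exists_rt (φ s₁)
  obtain ⟨η₂, r₂⟩ := hf.exists_rt (φ s₂)
  obtain ⟨ξ, hξ⟩ := hf.exists_rt (φ' s₁)
  obtain ⟨u, huY, hu, huu, hnf, hc⟩ := pair h₁ h₂ h12 r₁ r₂
  have hξ' : In f I φ' ξ := ⟨s₁, h₁, hξ⟩
  obtain ⟨c, hcY, hc', hcc⟩ := hξ'.exists_unit h2 hφ'
  have hin : ∀ e : (End F V)ˣ, ∀ g ∈ cenY X I φ₀, g * c * g⁻¹ = e → u * e = e * u →
      In f I φ (e.1 - 1) := fun e g hg h3 h4 => by
    have h5 := val_conj_sub h3 hc' ▸ hξ'.cj g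
    exact h5.of_same hf (hφ'.cj hg) hφ ((H.same_of_nf hφ (hφ'.cj hg) hnf h5
      (stab_of_comm (comm_sub_one h4))).symm hf hφ.fr)
  rcases dihedral_cases (cenY X I φ₀) huu hcc huY hcY with ⟨g, hg, e⟩ |
    ⟨z, hz, hz1, hzz, hzu, hzc, ⟨⟨g, hg, e⟩, -⟩ | ⟨g, hg, -, e, -⟩⟩
  · obtain ⟨l, -, hl⟩ := hin u g⁻¹ (inv_mem hg) (by rw [← e]; group) rfl
    by_cases h3 : s₁ = l
    · refine r₂.not_cm_mul hf h2 (hφ.fr.cm_of_mem h12.symm r₁.mem) r₁.sq ?_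
      have := cm_one.add (hφ.fr.cm_of_mem (h3 ▸ h12.symm) hl.mem)
      rw [add_sub_cancel, hu] at this
      convert this using 1
      linear_combination (norm := noncomm_ring) -hc
    · have := cm_one.add (hφ.fr.cm_of_mem h3 hl.mem)
      rw [add_sub_cancel, hu] at this
      exact r₁.not_cm_mul hf h2 (hφ.fr.cm_of_mem h12 r₂.mem) r₂.sq this
  · obtain ⟨l, -, hl⟩ := hin _ g hg e (by rw [← mul_assoc, ← hzu])
    have h3 : z.1 = (1 + ((z * u).1 - 1)) * ((1 + η₁) * (1 + η₂)) := by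
      rw [add_sub_cancel, ← hu, ← Units.val_mul, mul_assoc, huu, mul_one]
    generalize (z * u).1 - 1 = ζ at hl h3
    have h4 : z.1 * z.1 = 1 := congrArg Units.val hzz
    have h5 : (1 + η₁) * (1 + η₂) = (1 + η₂) * (1 + η₁) := by
      linear_combination (norm := noncomm_ring) hc
    refine hne (H.same_of_nf hφ hφ' (x := z.1) ?_ hξ' (stab_of_comm ?_))
    · by_cases a1 : l = s₁
      · rw [h3] at h4 ⊢
        exact nf_triple hf h2 hφ.fr h₁ h₂ h12 r₁ r₂ (a1 ▸ hl) h4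
      by_cases a2 : l = s₂
      · rw [h3, h5] at h4 ⊢
        exact nf_triple hf h2 hφ.fr h₂ h₁ h12.symm r₂ r₁ (a2 ▸ hl) h4
      obtain ⟨c1, c2, c3⟩ := hl.one_add hf h2
      obtain ⟨t, ht⟩ := c1
      have h6 := (cm_one.add (hφ.fr.cm_of_mem a1 r₁.mem)).mul
        (cm_one.add (hφ.fr.cm_of_mem a2 r₂.mem)) t
      rw [show φ l t = 1 + ζ from ht] at h6
      obtain ⟨d1, d2, d3⟩ := r₁.one_add hf h2
      rw [h3, h6, mul_assoc]
      exact nf_three hf hφ.fr h₁ d1 d2 d3 h12 r₂ (Ne.symm a1) (Ne.symm a2) hl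
    · simpa [hc'] using comm_sub_one hzc
  have a1 := val_conj_sub e hc' ▸ hξ'.cj g
  have a2 : c * (z * c) = z * c * c := by rw [← mul_assoc, ← hzc]
  obtain ⟨c1, c2, c3⟩ := hξ.one_add hf h2
  obtain ⟨j₁, -, a3⟩ := a1.of_same hf (hφ'.cj hg) hφ' ((H.same_of_nf hφ' (hφ'.cj hg)
    (nf_one h₁ c1 c2 c3) a1 (stab_of_comm (hc' ▸ comm_sub_one a2))).symm hf hφ'.fr)
  have a4 : z.1 = (1 + ξ) * (1 + ((z * c).1 - 1)) := by
    rw [add_sub_cancel, ← hc', ← Units.val_mul, a2, mul_assoc, hcc, mul_one]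
  have a5 : ξ * ((z * c).1 - 1) = ((z * c).1 - 1) * ξ := by
    have := comm_sub_one a2
    rw [hc'] at this
    linear_combination (norm := noncomm_ring) this
  generalize (z * c).1 - 1 = ξ₁ at a3 a4 a5
  have a6 : (1 + ξ) * (1 + ξ₁) ≠ 1 := fun h => hz1 (Units.ext (a4.trans h))
  have a7 : NF I φ' z.1 := a4 ▸ nf_pair hf h2 hφ'.fr h₁ hξ a3 a5 a6
  obtain ⟨j, hj⟩ := H.same_cj_of_comm hφ hnf ⟨s₁, h₁, r₁⟩ (by
    rw [hu]; linear_combination (norm := noncomm_ring) -(1 + η₁) * hc) hz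
    (congrArg Units.val hzu) s₁
  have a8 : s₁ ≠ j := fun e => H.not_stab hφ hφ' hne' a7 hzz h₁ (e ▸ hj)
  have a9 : j ∉ I := fun h => h₁ ((hφ.cj hz).fr.eq_of_range hf
    (hj.trans ((hφ.ag j h).trans ((hφ.cj hz).ag j h).symm)) ▸ h)
  obtain ⟨w, hw, -⟩ := hf.orth₂ 0 0
  have hz' : (z⁻¹).1 = z.1 := by rw [inv_eq_of_mul_eq_one_right hzz]
  have hzz' : z.1 * z.1 = 1 := congrArg Units.val hzz
  have key : ∀ y, y ≠ 0 → f w y = 0 → ∃ u ∈ cenY X I φ₀,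
      u.1 = (1 + eE f (φ s₁) w y) * (1 + eE f (cjH z (φ s₁)) w y) ∧ u * u = 1 ∧ NF I φ u.1 ∧
      (cjH u (φ' s₁)).range = (φ' j₁).range := fun y hy hwy => by
    have b1 : Rt f (φ s₁) (eE f (φ s₁) w y) := ⟨w, y, hw, hy, hwy, rfl⟩
    obtain ⟨u, b2, b3, b4, b5, b6⟩ := pair h₁ a9 a8 b1 (Sg.rt hf ⟨_, (hφ.cj hz).fr.fa s₁, b1.cj z⟩
      (hφ.fr.fa j) (hj ▸ (b1.cj z).mem))
    refine ⟨u, b2, b3, b4, b5, H.swap hφ hφ' hne h₁ hξ a3 a5 a6 b2 b4 b5 ?_⟩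
    rw [← a4, b3, hz']
    rw [hz'] at b6
    linear_combination (norm := noncomm_ring) (1 + eE f (φ s₁) w y) * z.1 * eE f (φ s₁) w y * hzz' -
      z.1 * b6 - hzz' * eE f (φ s₁) w y * z.1 * (1 + eE f (φ s₁) w y)
  obtain ⟨y, y', b1, b2, b3, b4⟩ := hf.exists_pair w
  obtain ⟨u₁, -, d1, d2, -, d3⟩ := key y b1 b3
  obtain ⟨u₂, -, e1, -, -, e3⟩ := key y' (by rintro rfl; simp at b2) b4
  obtain ⟨u₃, -, f1, f2, f3, -⟩ := key (y + y') (fun e => b2 (by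
    rw [eq_neg_of_add_eq_zero_right e]
    exact neg_mem (Submodule.mem_span_singleton_self y))) (by simp [b3, b4])
  have g1 : ∀ b, eE f (φ s₁) w y' * cjH z (φ s₁) b = cjH z (φ s₁) b * eE f (φ s₁) w y' := fun b =>
    hφ.fr.cm_of_mem a8 (hj ▸ ⟨b, rfl⟩) _
  have g2 : u₃ = u₁ * u₂ := Units.ext (by
    have g3 : eE f (φ s₁) w y * eE f (φ s₁) w y' = 0 := by simp [eE_mul, b3]
    have g4 : eE f (cjH z (φ s₁)) w y * eE f (cjH z (φ s₁)) w y' = 0 := by simp [eE_mul, b3]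
    have g5 := g1 (ro f w y)
    rw [← eE_apply] at g5
    rw [Units.val_mul, d1, e1, f1, map_add, map_add]
    linear_combination (norm := noncomm_ring)
      (1 + eE f (φ s₁) w y) * g5 * (1 + eE f (cjH z (φ s₁)) w y') -
      g3 * (1 + eE f (cjH z (φ s₁)) w y) * (1 + eE f (cjH z (φ s₁)) w y') -
      (1 + eE f (φ s₁) w y + eE f (φ s₁) w y') * g4)
  refine H.not_stab hφ' hφ hne f3 f2 h₁ ?_
  rw [g2, cjH_mul, cjH_range u₁ (e3.trans d3.symm), ← cjH_mul, d2, cjH_of_cm cm_one]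

theorem Fr.mem_range (hf : UF f) (h : Fr f X φ) (hT : ∀ j, j ≠ s → Cm (φ j) T) :
    T ∈ (φ s).range := by
  obtain ⟨a, ha⟩ := exists_phi_of_co (hf := hf.nd) (φ := φ s) (T := T) fun x y =>
    h.scal _ fun j => by
      by_cases hj : j = s
      · exact hj ▸ cm_co x y T
      · exact fun a => by
          rw [← (h.cm s j (Ne.symm hj) a).co_mul, hT j hj, (h.cm s j (Ne.symm hj) a).co_mul']
  exact ⟨a, ha.symm⟩

theorem Fr.same_two (hf : UF f) (h2 : (2 : F) = 0) (h : Fr f X φ) (h' : Fr f X φ') :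
    Same φ φ' := by
  classical
  have := Fintype.ofFinite τ
  suffices key : ∀ (I : Finset τ) (φ φ' : τ → End F U →ₐ[F] End F V), Fr f X φ → Fr f X φ' →
      (∀ i ∈ I, (φ' i).range = (φ i).range) → Same φ φ' from key ∅ φ φ' h h' (by simp)
  intro I
  induction I using WellFoundedGT.induction with | _ I ih => ?_
  intro φ φ' h h' e
  by_cases hI : ∃ s₁ ∉ I, ∃ s₂ ∉ I, s₁ ≠ s₂
  · obtain ⟨s₁, h₁, s₂, h₂, h12⟩ := hI
    refine Cx.same (φ₀ := φ) ⟨hf, h2, fun φ₁ φ₂ a1 a2 s hs j hj t => ?_⟩ ⟨h, fun _ _ => rfl⟩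
      ⟨h', e⟩ h₁ h₂ h12
    obtain ⟨l, hl⟩ := ih (insert s I) (Finset.ssubset_insert hs) φ₁ (φ₂ ∘ Equiv.swap s j) a1.fr
      ⟨fun i => a2.fr.fa _, fun i l hil => a2.fr.cm _ _ ((Equiv.swap s j).injective.ne hil),
        fun T hT => a2.fr.scal T fun i => by simpa using hT (Equiv.swap s j i)⟩ (fun i hi => by
        rcases Finset.mem_insert.1 hi with rfl | hi'
        · simpa using hj.symm
        have h3 := (a2.ag i hi').trans (a1.ag i hi').symm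
        rwa [comp_apply, Equiv.swap_apply_of_ne_of_ne (fun e : i = s => hs (e ▸ hi')) fun e : i = j =>
          hs ((a1.fr.eq_of_range hf (hj.trans (e ▸ h3)) : s = i) ▸ hi')]) t
    exact ⟨_, hl⟩
  push Not at hI
  intro s
  by_cases hs : s ∈ I
  · exact ⟨s, (e s hs).symm⟩
  obtain ⟨ξ, hξ⟩ := hf.exists_rt (φ s)
  exact ⟨s, hξ.range_eq hf (h.fa s) (h'.fa s) (Sg.rt hf ⟨_, h.fa s, hξ⟩ (h'.fa s)
    (h'.mem_range hf fun j hj => Cm.of_range (h.cm_of_mem hj hξ.mem)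
      (e j (by_contra fun h => hj (hI j h s hs))).le)) rfl⟩

/-- A group has at most one frame. -/
theorem Fr.same (hf : UF f) (h : Fr f X φ) (h' : Fr f X φ') : Same φ φ' := by
  by_cases h2 : (2 : F) = 0
  · exact h.same_two hf h2 h'
  · exact h.same_odd hf h2 h'

end Cfsg.Agent.H32
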