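import Cfsg.Agent.H77.SgDefs2
import Cfsg.Agent.H51.SgKit

/-! Overgroups of the norm-one torus: every pair of points is conjugate to a pair `(z, s z)`. -/

set_option autoImplicit false
set_option linter.unusedSectionVars false

namespace Cfsg.Agent.H32.SgNu

open Cfsg Module Cfsg.Agent.H77.Sg

universe u v

theorem dc {α : Type*} [Finite α] (S T : Set α) (r : α → α → Prop) (m n : ℕ)
    (hm : ∀ a ∈ S, m ≤ {b | b ∈ T ∧ r a b}.ncard) (hn : ∀ b ∈ T, {a | a ∈ S ∧ r a b}.ncard ≤ n) :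
    S.ncard * m ≤ T.ncard * n := by
  classical
  rw [Set.ncard_eq_toFinset_card S, Set.ncard_eq_toFinset_card T]
  refine Finset.card_mul_le_card_mul r (fun a ha => (hm a (by simpa using ha)).trans_eq ?_)
    fun b hb => Eq.trans_le ?_ (hn b (by simpa using hb))
  all_goals
    rw [← Set.ncard_coe_finset]
    congr 1
    ext
    simp

variable {F : Type u} {K : Type v} [Field F] [Field K] [Algebra F K] [Finite F] [Finite K]

theorem card_dvd (H : Subgroup Kˣ) (S : Set K) (h0 : ∀ x ∈ S, x ≠ 0)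
    (h : ∀ a ∈ H, ∀ x ∈ S, (a : K) * x ∈ S) : Nat.card H ∣ S.ncard := by
  have e1 : S = Units.val '' {u : Kˣ | (u : K) ∈ S} := by
    ext x
    exact ⟨fun hx => ⟨Units.mk0 x (h0 x hx), hx, rfl⟩, by rintro ⟨u, hu, rfl⟩; exact hu⟩
  have e2 : {u : Kˣ | (u : K) ∈ S} =
      QuotientGroup.mk ⁻¹' ((QuotientGroup.mk : Kˣ → Kˣ ⧸ H) '' {u : Kˣ | (u : K) ∈ S}) := by
    ext u
    refine ⟨fun hu => ⟨u, hu, rfl⟩, ?_⟩
    rintro ⟨w, hw, e⟩
    have := h _ (QuotientGroup.eq.1 e) _ hw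
    show (u : K) ∈ S
    rwa [← Units.val_mul, mul_comm, mul_inv_cancel_left] at this
  rw [e1, Set.ncard_image_of_injective _ Units.val_injective, e2, ← Nat.card_coe_set_eq,
    QuotientGroup.card_preimage_mk]
  exact Dvd.intro _ rfl

theorem sc_dvd (S : Set K) (h0 : ∀ x ∈ S, x ≠ 0) (h : ∀ d : F, d ≠ 0 → ∀ x ∈ S, d • x ∈ S) :
    Nat.card F - 1 ∣ S.ncard := by
  have := card_dvd (Units.map (algebraMap F K : F →* K)).range S h0 (by
    rintro _ ⟨d, rfl⟩ x hx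
    have := h d d.ne_zero x hx
    rwa [Algebra.smul_def] at this)
  rwa [← Nat.card_congr (MonoidHom.ofInjective (f := Units.map (algebraMap F K : F →* K))
    (Units.map_injective (algebraMap F K).injective)).toEquiv, Nat.card_units] at this

variable {n q t R : ℕ} {X : Subgroup (K ≃ₗ[F] K)}

theorem cardP (c : C0 n q t R X) : Nat.card (powMonoidHom t : Kˣ →* Kˣ).ker = t := by
  have := (H51.SgKit.kit F K (c.hn ▸ c.pn)).cardP t (by rw [c.card]; exact Dvd.intro_left _ rfl)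
  rwa [Pt, Subgroup.card_map_of_injective mulH_injective] at this

theorem ns (c : C0 n q t R X) {s : Kˣ} (h : s ^ t = 1) (h1 : s ≠ 1) {x : K} (hx : x ≠ 0) :
    (s : K) * x ∉ F ∙ x := fun k => by
  obtain ⟨d, e⟩ := Submodule.mem_span_singleton.1 k
  refine (H51.SgKit.kit F K (c.hn ▸ c.pn)).ns s t (c.hq ▸ c.cop) h h1
    (Submodule.mem_span_singleton.2 ⟨d, mul_right_cancel₀ hx ?_⟩)
  rw [smul_mul_assoc, one_mul, e]

theorem exists_s (c : C0 n q t R X) : ∃ s : Kˣ, s ^ t = 1 ∧ s ≠ 1 := by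
  have h : (powMonoidHom t : Kˣ →* Kˣ).ker ≠ ⊥ := fun e => by
    have h1 := cardP c
    have h2 := c.big
    rw [e, Subgroup.card_bot] at h1
    omega
  obtain ⟨⟨s, hs⟩, h1⟩ := Subgroup.ne_bot_iff_exists_ne_one.1 h
  exact ⟨s, hs, fun e => h1 (Subtype.ext e)⟩

theorem sc_mem (c : C0 n q t R X) {d : F} (hd : d ≠ 0) : ∃ g ∈ X, ∀ x, g x = d • x :=
  ⟨mulH F K (Units.mk0 (algebraMap F K d) ((map_ne_zero _).2 hd)),
    (c.mem _).2 ⟨d, 1, one_pow t, Algebra.algebraMap_eq_smul_one d⟩,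
    fun x => (Algebra.smul_def d x).symm⟩

theorem R_pos (c : C0 n q t R X) : 1 ≤ R := by
  have := c.n7
  rcases c.hR with h | h <;> omega

theorem q_pos (c : C0 n q t R X) : 1 ≤ q - 1 := by
  have : 1 < Nat.card F := Finite.one_lt_card
  have := c.hq
  omega

/-- Invariant relations on points. -/
structure Iv (X : Subgroup (K ≃ₗ[F] K)) (Γ : K → K → Prop) : Prop where
  inv : ∀ g ∈ X, ∀ x y, Γ x y → Γ (g x) (g y)
  sc : ∀ (x y : K) (d : F), d ≠ 0 → Γ x y → Γ x (d • y)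
  ne : ∀ x y, Γ x y → y ∉ F ∙ x

/-- The valency. -/
def Val (q : ℕ) (Γ : K → K → Prop) (k : ℕ) : Prop := ∀ x, x ≠ 0 → {y | Γ x y}.ncard = (q - 1) * k

/-- The relation contains a pair `(z, s z)`. -/
def Bt (t : ℕ) (Γ : K → K → Prop) : Prop :=
  ∃ s : Kˣ, s ^ t = 1 ∧ s ≠ 1 ∧ ∃ z, z ≠ 0 ∧ Γ z (s * z)

variable {Γ : K → K → Prop}

theorem Iv.ne0 (h : Iv X Γ) {x y : K} (k : Γ x y) : y ≠ 0 := fun e =>
  h.ne x y k (e ▸ zero_mem _)

theorem Iv.val (h : Iv X Γ) (c : C0 n q t R X) (tr : Tr X) : ∃ k, Val q Γ k := by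
  obtain ⟨k, hk⟩ := sc_dvd (F := F) {y | Γ 1 y} (fun _ => h.ne0) fun d hd y => h.sc 1 y d hd
  refine ⟨k, fun x hx => ?_⟩
  obtain ⟨g, hg, rfl⟩ := tr 1 x one_ne_zero hx
  rw [← c.hq, ← hk, ← Set.ncard_image_of_injective {y | Γ 1 y} g.injective]
  congr 1
  ext y
  refine ⟨fun e => ⟨g⁻¹ y, ?_, g.apply_symm_apply y⟩, ?_⟩
  · have := h.inv _ (inv_mem hg) _ _ e
    rwa [show g⁻¹ (g 1) = 1 from g.symm_apply_apply 1] at this
  · rintro ⟨y, e, rfl⟩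
    exact h.inv g hg _ _ e

theorem Iv.beta (h : Iv X Γ) (c : C0 n q t R X) (s : Kˣ) :
    ∃ β, {x | x ≠ 0 ∧ Γ x (s * x)}.ncard = (q - 1) * (β * t) := by
  have h1 := sc_dvd (F := F) {x | x ≠ 0 ∧ Γ x (s * x)} (fun _ e => e.1) fun d hd x e => by
    obtain ⟨g, hg, k⟩ := sc_mem c hd
    have := h.inv g hg _ _ e.2
    rw [k, k, ← mul_smul_comm] at this
    exact ⟨smul_ne_zero hd e.1, this⟩
  have h2 := card_dvd (powMonoidHom t : Kˣ →* Kˣ).ker {x | x ≠ 0 ∧ Γ x (s * x)} (fun _ e => e.1)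
    fun a ha x e => by
      have := h.inv _ ((c.mem a).2 ⟨1, a, ha, (one_smul _ _).symm⟩) _ _ e.2
      rw [mulH_apply, mulH_apply, mul_left_comm] at this
      exact ⟨mul_ne_zero a.ne_zero e.1, this⟩
  rw [cardP c] at h2
  rw [c.hq] at h1
  obtain ⟨β, e⟩ := c.cop.symm.mul_dvd_of_dvd_of_dvd h1 h2
  exact ⟨β, by rw [e]; ring⟩

theorem Iv.of_bt (h : Iv X Γ) (c : C0 n q t R X) (c' : Cn0 q t R X) {k : ℕ} (hk : Val q Γ k)
    (b : Bt t Γ) : ∃ β : ℕ, 1 ≤ β ∧ ((β : ℤ) * (t - 1) - k) ^ 2 ≤ (R : ℤ) ^ 3 * k := by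
  obtain ⟨s, s1, s2, z, hz⟩ := b
  obtain ⟨β, e⟩ := h.beta c s
  refine ⟨β, Nat.pos_of_ne_zero ?_, c'.ineqP Γ h.inv h.sc h.ne k β hk s s1 s2 e⟩
  rintro rfl
  rw [zero_mul, mul_zero, Set.ncard_eq_zero] at e
  exact (e.le hz : z ∈ (∅ : Set K))

theorem Iv.of_not_bt (h : Iv X Γ) (c : C0 n q t R X) (c' : Cn0 q t R X) {k : ℕ} (hk : Val q Γ k)
    (b : ¬ Bt t Γ) : k ≤ R ^ 3 := by
  obtain ⟨s, s1, s2⟩ := exists_s c
  have := c'.ineqP Γ h.inv h.sc h.ne k 0 hk s s1 s2 (by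
    rw [zero_mul, mul_zero, Set.ncard_eq_zero, Set.eq_empty_iff_forall_notMem]
    exact fun z hz => b ⟨s, s1, s2, z, hz⟩)
  have e : k * k ≤ R ^ 3 * k := by
    zify
    convert this using 1
    push_cast
    ring
  rcases Nat.eq_zero_or_pos k with rfl | hk
  · exact Nat.zero_le _
  · exact Nat.le_of_mul_le_mul_right e hk

/-- The orbit of a pair of points. -/
def O (X : Subgroup (K ≃ₗ[F] K)) (x y x' y' : K) : Prop :=
  ∃ g ∈ X, ∃ d : F, d ≠ 0 ∧ g x = x' ∧ d • g y = y'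

theorem iv_O {x y : K} (h : y ∉ F ∙ x) : Iv X (O X x y) := by
  refine ⟨?_, ?_, ?_⟩
  · rintro g hg _ _ ⟨a, ha, d, hd, rfl, rfl⟩
    exact ⟨g * a, mul_mem hg ha, d, hd, rfl, (map_smul g d _).symm⟩
  · rintro _ _ e he ⟨a, ha, d, hd, rfl, rfl⟩
    exact ⟨a, ha, e * d, mul_ne_zero he hd, rfl, mul_smul _ _ _⟩
  · rintro _ _ ⟨a, -, d, hd, rfl, rfl⟩ k
    obtain ⟨e, k⟩ := Submodule.mem_span_singleton.1 k
    refine h (Submodule.mem_span_singleton.2 ⟨d⁻¹ * e, a.injective ?_⟩)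
    rw [map_smul, mul_smul, k, inv_smul_smul₀ hd]

theorem comp (c : C0 n q t R X) {x y z : K} (hx : x ≠ 0) (hy : y ∉ F ∙ x) {k k1 k2 : ℕ}
    (h : Val q (O X x z) k) (h1 : Val q (O X x y) k1) (h2 : Val q (O X y z) k2) : k ≤ k1 * k2 := by
  have := dc {z' | O X x z x z'} {y' | O X x y x y'} (fun z' y' => O X y z y' z') (q - 1)
    ((q - 1) * k2) (by
      rintro _ ⟨g, hg, d, hd, e, rfl⟩
      refine Nat.le_of_dvd ((Set.ncard_pos).2 ⟨g y, ⟨g, hg, 1, one_ne_zero, e, one_smul _ _⟩,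
        g, hg, d, hd, rfl, rfl⟩) (c.hq ▸ sc_dvd _ (fun _ k => (iv_O hy).ne0 k.1) ?_)
      rintro a ha _ ⟨k, b, hb, f, hf, rfl, e'⟩
      obtain ⟨m, hm, k'⟩ := sc_mem c ha
      refine ⟨(iv_O hy).sc _ _ a ha k, m * b, mul_mem hm hb, f * a⁻¹,
        mul_ne_zero hf (inv_ne_zero ha), k' _, ?_⟩
      rw [LinearEquiv.mul_apply, k', mul_smul, inv_smul_smul₀ ha, e'])
    fun y' k => by
      rw [← h2 y' ((iv_O hy).ne0 k)]
      exact Set.ncard_le_ncard fun _ e => e.2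
  rw [h x hx, h1 x hx] at this
  have hq := q_pos c
  refine Nat.le_of_mul_le_mul_left (this.trans_eq' ?_ |>.trans_eq ?_) (Nat.mul_pos hq hq)
  all_goals ring

/-- The block argument. -/
theorem nuP_of (block : Block0.{u, v}) (c : C0 n q t R X) (h : ∃ g ∈ X, ¬ Nm g) (tr : Tr X)
    (H : ∀ x y z : K, x ≠ 0 → y ∉ F ∙ x → z ∉ F ∙ y → z ∉ F ∙ x → ¬ Bt t (O X x y) →
      ¬ Bt t (O X y z) → ¬ Bt t (O X x z)) : NuP t X := by
  intro x y hx hy
  have key : Bt t (O X x y) := by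
    by_contra hb
    obtain ⟨g, hg, hn⟩ := h
    refine hn (block F K n q t R X c tr
      (fun x y => x ≠ 0 ∧ y ≠ 0 ∧ (y ∈ F ∙ x ∨ ¬ Bt t (O X x y))) (fun _ _ k => ⟨k.1, k.2.1⟩)
      ?_ ?_ ?_ ?_ ?_ ⟨x, y, ⟨hx, fun e => hy (e ▸ zero_mem _), Or.inr hb⟩, hy⟩ g hg)
    · rintro x y ⟨h1, h2, k⟩
      refine ⟨h2, h1, k.imp (fun k => ?_) (mt ?_)⟩
      · obtain ⟨d, rfl⟩ := Submodule.mem_span_singleton.1 k
        exact Submodule.mem_span_singleton.2 ⟨d⁻¹, inv_smul_smul₀ (left_ne_zero_of_smul h2) _⟩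
      · rintro ⟨s, s1, s2, z, -, a, ha, d, hd, rfl, e⟩
        refine ⟨s⁻¹, by rw [inv_pow, s1, inv_one], inv_ne_one.2 s2, a x, by simpa using h1,
          a, ha, d⁻¹, inv_ne_zero hd, rfl, ?_⟩
        rw [inv_smul_eq_iff₀ hd, ← mul_smul_comm, e, Units.inv_mul_cancel_left]
    · rintro x y z ⟨h1, h2, k1⟩ ⟨-, h3, k2⟩
      refine ⟨h1, h3, or_iff_not_imp_left.2 fun hz => ?_⟩
      by_cases a1 : y ∈ F ∙ x
      · obtain ⟨d, rfl⟩ := Submodule.mem_span_singleton.1 a1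
        have hd := left_ne_zero_of_smul h2
        rintro ⟨s, s1, s2, w, hw, a, ha, e, he, rfl, k⟩
        refine k2.resolve_left (fun k => hz ((Submodule.span_singleton_le_iff_mem _ _).2 a1 k))
          ⟨s, s1, s2, d • a x, smul_ne_zero hd hw, a, ha, d * e, mul_ne_zero hd he,
            map_smul a d x, ?_⟩
        rw [mul_smul, k, mul_smul_comm]
      by_cases a2 : z ∈ F ∙ y
      · obtain ⟨d, rfl⟩ := Submodule.mem_span_singleton.1 a2
        rintro ⟨s, s1, s2, w, hw, a, ha, e, he, rfl, k⟩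
        refine k1.resolve_left a1 ⟨s, s1, s2, a x, hw, a, ha, e * d,
          mul_ne_zero he (left_ne_zero_of_smul h3), rfl, ?_⟩
        rw [mul_smul, ← k, map_smul]
      exact H x y z h1 a1 a2 hz (k1.resolve_left a1) (k2.resolve_left a2)
    · rintro g hg x y ⟨h1, h2, k⟩
      refine ⟨by simpa using h1, by simpa using h2, k.imp (fun k => ?_) (mt ?_)⟩
      · obtain ⟨d, rfl⟩ := Submodule.mem_span_singleton.1 k
        exact Submodule.mem_span_singleton.2 ⟨d, (map_smul g d x).symm⟩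
      · rintro ⟨s, s1, s2, z, hz, a, ha, d, hd, e1, e2⟩
        exact ⟨s, s1, s2, z, hz, a * g, mul_mem ha hg, d, hd, e1, e2⟩
    · exact fun x d h1 h2 => ⟨h1, smul_ne_zero h2 h1, Or.inl (Submodule.mem_span_singleton.2 ⟨d, rfl⟩)⟩
    · rintro x s s1 ⟨h1, -, k⟩
      by_contra s2
      exact k.resolve_left (ns c s1 s2 h1)
        ⟨s, s1, s2, x, h1, 1, one_mem _, 1, one_ne_zero, rfl, one_smul _ _⟩
  obtain ⟨s, s1, s2, z, hz, g, hg, d, hd, e1, e2⟩ := key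
  exact ⟨s, s1, s2, z, d, hz, hd, g, hg, e1, e2⟩

/-- **NU** -/
theorem nuP (block : Block0.{u, v}) : NuP0.{u, v} := by
  intro F K _ _ _ _ _ n q t R X c h c' hb
  refine nuP_of block c h c'.tr fun x y z hx hy hz hz' b1 b2 b => ?_
  obtain ⟨k, hk⟩ := (iv_O hz').val c c'.tr
  obtain ⟨k1, hk1⟩ := (iv_O hy).val c c'.tr
  obtain ⟨k2, hk2⟩ := (iv_O hz).val c c'.tr
  have a1 : k ≤ R ^ 6 := (comp c hx hy hk hk1 hk2).trans ((Nat.mul_le_mul
    ((iv_O hy).of_not_bt c c' hk1 b1) ((iv_O hz).of_not_bt c c' hk2 b2)).trans_eq (by ring))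
  obtain ⟨β, a2, a3⟩ := (iv_O hz').of_bt c c' hk b
  have a4 : R ^ 3 ≤ R ^ 6 := Nat.pow_le_pow_right (R_pos c) (by norm_num)
  zify at a1 a2 a4 hb
  generalize (R : ℤ) ^ 6 = A at a1 a4 hb
  have a5 : (0 : ℤ) ≤ k := Int.natCast_nonneg k
  have a6 : A < β * (t - 1) - k := by nlinarith
  nlinarith

end Cfsg.Agent.H32.SgNu
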