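import Cfsg.Agent.H6.TBDefs

/-! TB-CA and TB-CC: commuting neighbours are adjacent; there are no commuting edges. -/

set_option autoImplicit false

namespace Cfsg.Agent.H32.TbC

open Cfsg Subgroup Cfsg.Agent.H6.TB
open Cfsg.Agent.H83 (cj)
open scoped Cfsg.Agent.H63

universe u

variable {G : Type u} [Group G]

theorem comm_closure {s : Set G} (h : ∀ a ∈ s, ∀ b ∈ s, a * b = b * a) :
    ∀ a ∈ closure s, ∀ b ∈ closure s, a * b = b * a := fun a ha b hb => by
  have k : closure s ≤ centralizer s := (closure_le _).2 fun a ha b hb => h b hb a ha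
  have k' : closure s ≤ C[closure s] := (closure_le _).2 fun a ha b hb => (k hb a ha).symm
  exact k' hb a ha

theorem norm_closure [Finite G] {s : Set G} {g : G} (h : ∀ a ∈ s, g * a * g⁻¹ ∈ s) :
    g ∈ N[closure s] :=
  mem_normalizer_fintype fun x hx => by
    have : closure s ≤ cj g⁻¹ (closure s) := (closure_le _).2 fun a ha =>
      H83.mem_cj.2 (by rw [inv_inv]; exact subset_closure (h a ha))
    have := H83.mem_cj.1 (this hx)
    rwa [inv_inv] at this

theorem cm_le {Ω : Set (Subgroup G)} {B P : Subgroup G} (e : Cm Ω B P) : P ≤ N[B] :=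
  fun y hy => centralizer_le_normalizer _ fun x hx => e.comm x hx y hy

/-- TB-CA -/
theorem ca : CAStmt.{u} := by
  intro G _ _ Ω c B P P' e e' ne
  have : Fact (Nat.Prime 2) := ⟨Nat.prime_two⟩
  have t := c.toC0.toTB
  have la := c.toC0.la
  by_contra na
  have no : ∀ x ∈ P, x ≠ 1 → ∀ y ∈ P', y ≠ 1 → x * y ≠ y * x := fun x hx x1 y hy y1 k =>
    (ad_of e.r e'.r hx x1 (la.cent P' e'.r y hy y1 x k)).elim ne na
  let s : Set G := {x | ∃ r ∈ oo B, x ∈ cj r P}
  have hT := c.gb.sup B e.l P (t.two P e.r) (cm_le e)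
  have le : ∀ r ∈ oo B, cj r P ≤ oo B ⊔ P := fun r hr =>
    H83.cj_le_of_mem le_sup_right (mem_sup_left hr)
  have cX := comm_closure (s := s) fun a ⟨r, hr, ha⟩ b ⟨r', hr', hb⟩ =>
    la.two _ (t.conj P e.r r) _ (t.conj P e.r r') _ hT (le r hr) (le r' hr') a ha b hb
  have PX : P ≤ closure s := fun x hx => subset_closure ⟨1, one_mem _, by rwa [H83.cj_one]⟩
  have nX : oo B ≤ N[closure s] := fun g hg => norm_closure fun a ⟨r, hr, ha⟩ =>
    ⟨g * r, mul_mem hg hr, by rw [H83.cj_mul]; exact H83.conj_mem_cj ha⟩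
  obtain ⟨y, hy, y1⟩ := t.nel P e.r
  obtain ⟨x, hx, x1⟩ := t.nel P' e'.r
  have sq : ∀ x ∈ P', x * x ∈ P' ⊓ oo B := fun x hx =>
    ⟨mul_mem hx hx, c.gb.sq B e.l P' e'.r (cm_le e') x hx⟩
  have lt : Nat.card ↥(P' ⊓ oo B) < 4 := by
    by_contra! h4
    refine no _ (mul_mem hy hy) y1 _ (mul_mem hx hx) x1 (la.fg P' e'.r (closure s) (P' ⊓ oo B)
      (hT.to_le ((closure_le _).2 fun a ⟨r, hr, ha⟩ => le r hr ha)) cX ?_ inf_le_left
      (inf_le_right.trans nX) h4 y (PX hy) _ (sq x hx))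
    refine (eq_bot_iff_forall _).2 fun w hw => by_contra fun w1 => ?_
    exact no _ (mul_mem hy hy) y1 w hw.2 w1 (cX _ (PX (mul_mem hy hy)) w hw.1)
  have zz : x * x * (x * x) = 1 := by
    obtain ⟨k, hk⟩ := IsPGroup.iff_card.1 ((t.two P' e'.r).to_le (inf_le_left (b := oo B)))
    have d : Nat.card ↥(P' ⊓ oo B) ∣ 2 := by
      rw [hk] at lt ⊢
      have : k < 2 := (Nat.pow_lt_pow_iff_right one_lt_two).1 lt
      interval_cases k <;> decide
    have := orderOf_dvd_iff_pow_eq_one.1 (((P' ⊓ oo B).orderOf_dvd_natCard (sq x hx)).trans d)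
    rwa [pow_two] at this
  obtain ⟨R, hR⟩ := c.toC0.lx P' e'.r P e.r ne.symm (fun a => na (la.symm a)) fun g hg a ha b hb => by
    have zm := sq x hx
    generalize x * x = z at x1 zz zm
    obtain ⟨gP, gg⟩ := (la.mem_om P e.r g).1 hg
    have k := cX _ (H83.conj_mem nX zm.2 (PX gP)) g (PX gP)
    have k' : g * z * g⁻¹ * z = z * (g * z * g⁻¹) := by
      rw [inv_eq_of_mul_eq_one_right zz] at k
      rw [inv_eq_of_mul_eq_one_right gg]
      calc g * z * g * z = g * (z * g * z) := by group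
        _ = z * (g * z * g) := by rw [← k]; group
    have m : g * b * g⁻¹ ∈ om (cj g P') := by rw [om_cj]; exact H83.conj_mem_cj hb
    rcases ad_of (t.conj P' e'.r g) e'.r (H83.conj_mem_cj zm.1)
      (fun a => x1 (by simpa [mul_assoc] using congrArg (fun w => g⁻¹ * w * g) a))
      (la.cent P' e'.r z zm.1 x1 _ k') with h | h
    · rw [h] at m
      exact t.comm P' e'.r a (om_le _ ha) _ (om_le _ m)
    · exact (c.toC0.le.adc h _ m a ha).symm
  have h4 := la.sqc P' e'.r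
  rw [← (t.card hR.n1.l e'.r).2, hR.c4.2] at h4
  have : {y | ∃ x ∈ P', y = x * x} ⊆ ((P' ⊓ oo B : Subgroup G) : Set G) := by
    rintro _ ⟨x, hx, rfl⟩; exact sq x hx
  have := Set.ncard_le_ncard this
  rw [h4, ← Nat.card_coe_set_eq] at this
  exact absurd lt (not_lt.2 this)

/-- `R ∈ X^⊥` -/
def Pp (Ω : Set (Subgroup G)) (X R : Subgroup G) : Prop := R = X ∨ Ad Ω X R

theorem Pp.cj {Ω : Set (Subgroup G)} (t : TB Ω) {X R : Subgroup G} (g : G) :
    Pp Ω (cj g X) (cj g R) ↔ Pp Ω X R := by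
  refine ⟨fun h => h.imp H83.cj_inj.1 fun a => ?_, fun h => h.imp (congrArg _) fun a => a.cj t g⟩
  have := a.cj t g⁻¹
  rwa [H83.cj_inv_cj, H83.cj_inv_cj] at this

/-- TB-CC -/
theorem cc : CCStmt.{u} := by
  intro G _ _ Ω c hA hB B P e
  have t := c.toC0.toTB
  have la := c.toC0.la
  have one : ∀ {B P}, Cm Ω B P → ∀ R, Pp Ω B R → Pp Ω P R := fun {B P} e R h => by
    rcases h with rfl | h
    · exact .inr (e.symm.ad t)
    · rcases h.cm_or with h | h
      · exact (eq_or_ne R P).imp_right fun k => hA e h k.symm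
      · exact .inr (hB e h)
  let s : Set G := {a | ∃ X ∈ Ω, (∀ R, Pp Ω X R ↔ Pp Ω B R) ∧ a ∈ om X}
  have nrm : ∀ g, (∀ R, Pp Ω (cj g B) R ↔ Pp Ω B R) → g ∈ N[closure s] := fun g hg =>
    norm_closure fun a ⟨X, hX, k, ha⟩ => ⟨cj g X, t.conj X hX g, fun R => by
      rw [← hg, ← H83.cj_cj_inv g R, Pp.cj t, Pp.cj t, k], by
      rw [om_cj]; exact H83.conj_mem_cj ha⟩
  have cs : ∀ a ∈ s, ∀ b ∈ s, a * b = b * a := fun a ⟨X, hX, k, ha⟩ b ⟨Y, _, k', hb⟩ => by
    rcases (k Y).2 ((k' Y).1 (.inl rfl)) with rfl | h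
    · exact t.comm Y hX a (om_le _ ha) b (om_le _ hb)
    · exact c.toC0.le.adc h a ha b hb
  have two : IsPGroup 2 (closure s) := H83.isPGroup_iff.2 fun x hx => ⟨1, by
    rw [pow_one, pow_two]
    induction hx using closure_induction with
    | mem a ha => obtain ⟨X, hX, -, ha⟩ := ha; exact ((la.mem_om X hX a).1 ha).2
    | one => exact one_mul 1
    | mul a b ha hb h1 h2 =>
      rw [mul_assoc, ← mul_assoc b, ← comm_closure cs a ha b hb, mul_assoc, h2, mul_one, h1]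
    | inv a _ h1 => rw [← mul_inv_rev, h1, inv_one]⟩
  have nb : closure s ≠ ⊥ := fun k => by
    have : om B ≤ ⊥ := fun a ha => k ▸ subset_closure ⟨B, e.l, fun _ => Iff.rfl, ha⟩
    have h4 := t.four B e.l
    rw [le_bot_iff.1 this, card_bot] at h4
    omega
  obtain ⟨g, rfl⟩ := t.trans B e.l P e.r
  exact e.ne (H83.cj_eq_self (c.gm.max B e.l _ two nb
    (fun h hh => nrm h fun R => by rw [H83.cj_eq_self hh])
    (nrm g fun R => ⟨one e.symm R, one e R⟩))).symm

end Cfsg.Agent.H32.TbC
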