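import Cfsg.Agent.H27.TenGeo
import Cfsg.Agent.H30.OrthOmega

/-!
Maximality of `Sp₂ ⊗ O₄⁻` in `Sp₈`.
-/

set_option autoImplicit false

namespace Cfsg.Agent.H32.Ten

open Module TensorProduct QuadraticMap H30 H36 H27

variable {F U W : Type*} [Field F] [AddCommGroup U] [Module F U] [AddCommGroup W] [Module F W]
  {f : LinearMap.BilinForm F U} {Q : QuadraticForm F W} {X : Subgroup (End F (U ⊗[F] W))ˣ}
  {u y : U} {w : W} {g g' k : End F (U ⊗[F] W)} [FiniteDimensional F W]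

theorem exists_orth {D : Submodule F W} (h2 : 2 ≤ finrank F D) (d : W) :
    ∃ x ∈ D, x ≠ 0 ∧ polar Q d x = 0 := by
  have h1 := (polarBilin Q d ∘ₗ D.subtype).finrank_range_add_finrank_ker
  have h3 := (LinearMap.range (polarBilin Q d ∘ₗ D.subtype)).finrank_le
  rw [finrank_self] at h3
  obtain ⟨x, hx, h0⟩ := Submodule.exists_mem_ne_zero_of_ne_bot
    (p := LinearMap.ker (polarBilin Q d ∘ₗ D.subtype)) fun h => by rw [h, finrank_bot] at h1; omega
  exact ⟨x, x.2, fun h => h0 (Subtype.ext h), hx⟩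

omit [FiniteDimensional F W] in
theorem not_sq {D : Submodule F W} (hD : ∀ x ∈ D, Q x = 0 → x = 0) (h2 : (2 : F) ≠ 0) {d d' : W}
    (hd : d ∈ D) (hd' : d' ∈ D) (h0 : Q d ≠ 0) (h0' : Q d' ≠ 0) (h : polar Q d d' = 0) :
    ¬ IsSquare (-(Q d * Q d')) := fun ⟨s, hs⟩ => by
  have h1 := congrArg (polar Q d') (hD (s • d + Q d • d') (D.add_mem (D.smul_mem _ hd)
    (D.smul_mem _ hd')) (by
      rw [Q_add, Q_smul, Q_smul, polar_smul_left', polar_smul_right', h]
      linear_combination -Q d * hs))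
  rw [polar_add_right, polar_smul_right', polar_smul_right', polar_comm, h, polar_self',
    polar_zero_right, mul_zero, zero_add] at h1
  exact mul_ne_zero h0 (mul_ne_zero h2 h0') h1

theorem exists_neg [Finite F] {D H : Submodule F W} (hD : ∀ x ∈ D, Q x = 0 → x = 0)
    (hH : ∀ x ∈ H, Q x = 0 → x = 0) (h2 : (2 : F) ≠ 0) (hH2 : 2 ≤ finrank F H) {d d' : W}
    (hd : d ∈ D) (hd' : d' ∈ D) (h0 : Q d ≠ 0) (h0' : Q d' ≠ 0) (h : polar Q d d' = 0) :
    ∃ e ∈ H, ∃ e' ∈ H, Q e = -Q d ∧ Q e' = -Q d' ∧ polar Q e e' = 0 := by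
  obtain ⟨e, he, h1⟩ := NondegOn.exists_Q_eq (Q := Q) (W := H) (fun x hx h => hH x hx
    ((mul_eq_zero.1 ((polar_self' Q x).symm.trans (h x hx))).resolve_left h2)) hH2 (-Q d)
  obtain ⟨e', he', h3, h4⟩ := exists_orth (Q := Q) hH2 e
  have h5 : Q e' ≠ 0 := fun h => h3 (hH _ he' h)
  obtain ⟨r, hr⟩ := isSquare_mul_of_not (not_sq hD h2 hd hd' h0 h0' h)
    (not_sq hH h2 he he' (h1 ▸ neg_ne_zero.2 h0) h5 h4)
  refine ⟨e, he, (r / (Q d * Q e')) • e', H.smul_mem _ he', h1, ?_, by simp [h4]⟩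
  rw [Q_smul]
  rw [h1] at hr
  field_simp
  linear_combination -hr

variable [FiniteDimensional F U] (hS : TS f Q) (hG : TG f Q X) (hM : TM f X) (h2 : finrank F U ≤ 2)
  (hw : Q w ≠ 0) (hg : InG X g) (h1 : g * g' = 1) (h3 : g' * g = 1)
include hS hG hM h2 hw hg h1 h3

theorem fix (hu : u ≠ 0) (hk : InG X k) (h : k (g (u ⊗ₜ w)) = g (u ⊗ₜ w))
    (hkk : k (k (g (y ⊗ₜ w))) = g (y ⊗ₜ w)) : k (g (y ⊗ₜ w)) = g (y ⊗ₜ w) := by
  have e1 : ∀ p, g (g' p) = p := LinearMap.congr_fun h1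
  have e2 : ∀ p, g' (g p) = p := LinearMap.congr_fun h3
  have hjX : InG X (g' * k * g) := ((inG_inv hg h1).mul hk).mul hg
  have hjv : (g' * k * g) (u ⊗ₜ w) = u ⊗ₜ w := by simp [h, e2]
  have hjj : (g' * k * g) ((g' * k * g) (y ⊗ₜ w)) = y ⊗ₜ w := by simp [e1, e2, hkk]
  suffices (g' * k * g) (y ⊗ₜ w) = y ⊗ₜ w by simpa [e1] using congrArg g this
  generalize g' * k * g = j at *
  have h4 := LinearMap.congr_fun (hG.comm_refl hS hM h2 hu hw hjX hjv) (y ⊗ₜ w)
  rw [End.mul_apply j, End.mul_apply _ j, LinearMap.lTensor_tmul,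
    show reflLin Q w w = -w from refl_apply_self hw, tmul_neg, map_neg, refl_lTensor_apply,
    eq_sub_iff_add_eq, neg_add_eq_iff_eq_add, ← two_smul F] at h4
  obtain ⟨y', hy₁⟩ : ∃ y', j (y ⊗ₜ w) = y' ⊗ₜ w :=
    ⟨((2 : F)⁻¹ * (Q w)⁻¹) • cR (polarBilin Q) U w (j (y ⊗ₜ w)), by
      rw [← smul_tmul', mul_smul, h4, inv_smul_smul₀ hS.two]⟩
  have h6 := hG.iso _ hjX (y ⊗ₜ w) (u ⊗ₜ w)
  rw [hjv, hy₁, tB_tmul, tB_tmul, polarBilin_apply_apply, polar_self'] at h6
  obtain ⟨c, hc⟩ := hS.mem_span h2 hu (x := y' - y) (by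
    rw [map_sub, LinearMap.sub_apply, mul_right_cancel₀ (mul_ne_zero hS.two hw) h6, sub_self])
  rw [sub_eq_iff_eq_add'] at hc
  rw [hy₁, hc, add_tmul, ← smul_tmul', map_add, map_smul, hy₁, hjv, hc, add_tmul, ← smul_tmul',
    add_assoc, add_eq_left, ← two_smul F, smul_smul] at hjj
  rw [hy₁, hc, (mul_eq_zero.1 ((smul_eq_zero.1 hjj).resolve_right (tmul_ne_zero hS.nd hu
    (ne_zero_of_Q_ne_zero hw)))).resolve_left hS.two, zero_smul, add_zero]

variable (h4 : finrank F W = 4)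
  (hm : ∀ z z', Q z = 0 → Q z' = 0 → polar Q z z' = 0 → z ≠ 0 → z' ∈ F ∙ z)
include h4

omit hS hG hM hw hg h1 h3 in
theorem two_le (p : U ⊗[F] W) :
    2 ≤ finrank F (LinearMap.ker ((cR (polarBilin Q) U).flip p)) := by
  have h5 := LinearMap.finrank_range_add_finrank_ker ((cR (polarBilin Q) U).flip p)
  have h6 := Submodule.finrank_le (LinearMap.range ((cR (polarBilin Q) U).flip p))
  omega

include hm

theorem ker_le (hu : u ≠ 0) (y : U) : LinearMap.ker ((cR (polarBilin Q) U).flip (g (u ⊗ₜ w))) ≤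
    LinearMap.ker ((cR (polarBilin Q) U).flip (g (y ⊗ₜ w))) := by
  have h5 := two_le (Q := Q) h2 h4 (g (u ⊗ₜ w))
  obtain ⟨w₁, hw₁, hQ₁⟩ : ∃ w₁ ∈ LinearMap.ker ((cR (polarBilin Q) U).flip (g (u ⊗ₜ w))),
      Q w₁ ≠ 0 := by
    generalize LinearMap.ker ((cR (polarBilin Q) U).flip (g (u ⊗ₜ w))) = D at h5
    by_contra! H
    obtain ⟨z, hz, h0, -⟩ := exists_orth (Q := Q) h5 0
    have := Submodule.finrank_mono (show D ≤ F ∙ z from fun x hx => hm z x (H z hz) (H x hx) (by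
      simpa [H _ hz, H _ hx, H _ (D.add_mem hz hx)] using (Q_add Q z x).symm) h0)
    rw [finrank_span_singleton h0] at this
    omega
  refine mem_of_nonsingular_mem hS.two _ _ hw₁ hQ₁ fun w' hw' hQ' => ?_
  have h8 := fix hS hG hM h2 hw hg h1 h3 (y := y) hu (hG.right (refl Q w'))
    ((refl_lTensor_apply w' _).trans (by
      rw [show cR (polarBilin Q) U w' (g (u ⊗ₜ w)) = 0 from hw']; simp))
    (LinearMap.congr_fun (refl_lTensor_sq w') _)
  exact tmul_right_inj hS.qnd (ne_zero_of_Q_ne_zero hQ') (((smul_eq_zero.1 (sub_eq_self.1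
    ((refl_lTensor_apply w' _).symm.trans h8))).resolve_left (inv_ne_zero hQ')).trans
      (zero_tmul _ _).symm)

theorem exists_sing [Finite F] (hX : ∀ (α : End F U) (β : End F W), (∀ x y, f (α x) (α y) = -f x y) →
    (∀ x y, polar Q (β x) (β y) = -polar Q x y) → InG X (TensorProduct.map α β)) :
    ∃ z, z ≠ 0 ∧ Q z = 0 ∧ ∀ x, cR (polarBilin Q) U z (g (x ⊗ₜ w)) = 0 := by
  have := hS.nt
  have h2' := hS.two
  obtain ⟨u, hu⟩ := exists_ne (0 : U)
  obtain ⟨y, hy, hy'⟩ := hS.exists_pair hu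
  have h5 := two_le (Q := Q) h2 h4 (g (u ⊗ₜ w))
  have hle := fun u hu y => ker_le hS hG hM h2 hw hg h1 h3 h4 hm (u := u) hu y
  by_contra H
  have hD : ∀ z ∈ LinearMap.ker ((cR (polarBilin Q) U).flip (g (u ⊗ₜ w))), Q z = 0 → z = 0 :=
    fun z hz h0 => by_contra fun h => H ⟨z, h, h0, fun x => hle u hu x hz⟩
  have hD' : ∀ z, cR (polarBilin Q) U z (g (u ⊗ₜ w)) = 0 → z ∈ LinearMap.ker
    ((cR (polarBilin Q) U).flip (g (u ⊗ₜ w))) := fun z hz => hz
  have hD'' : ∀ z ∈ LinearMap.ker ((cR (polarBilin Q) U).flip (g (u ⊗ₜ w))), ∀ x,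
    cR (polarBilin Q) U z (g (x ⊗ₜ w)) = 0 := fun z hz x => hle u hu x hz
  generalize LinearMap.ker ((cR (polarBilin Q) U).flip (g (u ⊗ₜ w))) = D at h5 hD hD' hD''
  obtain ⟨d, hd, d0, -⟩ := exists_orth (Q := Q) h5 0
  obtain ⟨d', hd', d0', hdd⟩ := exists_orth (Q := Q) h5 d
  have a0 : Q d ≠ 0 := fun h => d0 (hD _ hd h)
  have b0 : Q d' ≠ 0 := fun h => d0' (hD _ hd' h)
  have h6 : finrank F D ≤ 2 := by
    by_contra h
    obtain ⟨z, h7, h8, h9⟩ := exists_singular_mem Q D (by omega)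
    exact h8 (hD z h7 h9)
  have h7 := finrank_add_finrank_perp hS.qnd D
  obtain ⟨z, z1, z2, z3⟩ : ∃ z ∈ perp Q D, Q z = 0 ∧ z ≠ 0 := by
    by_contra! H
    obtain ⟨e, he, e', he', e1, e2, e3⟩ := exists_neg hD H h2' (by omega) hd hd' a0 b0 hdd
    have e4 := mem_perp.1 he
    have e5 := mem_perp.1 he'
    obtain ⟨c, hc⟩ := Submodule.mem_span_singleton.1 (hm (d + e) (d' + e')
      (by rw [Q_add, e1, e4 d hd]; ring) (by rw [Q_add, e2, e5 d' hd']; ring)
      (by simp [polar_add_left, polar_add_right, hdd, e3, e5 d hd, polar_comm Q e d', e4 d' hd'])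
      fun h => mul_ne_zero h2' a0 (by
        simpa [polar_add_right, e4 d hd, polar_self'] using congrArg (polar Q d) h))
    have := congrArg (polar Q d') hc
    simp [polar_add_right, e4 d' hd', e5 d' hd', polar_comm Q d' d, hdd, polar_self', b0, h2'] at this
  obtain ⟨z', z4, hz⟩ := (NondegOn.perp hS.qnd (W := D) fun x hx h => hD x hx
    ((mul_eq_zero.1 ((polar_self' Q x).symm.trans (h x hx))).resolve_left h2')).exists_isHyp z1 z2 z3
  have hDz : D = hperp Q z z' := Submodule.eq_of_le_of_finrank_le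
    (fun x hx => ⟨mem_perp.1 z1 x hx, mem_perp.1 z4 x hx⟩) (by have := hz.finrank_hperp; omega)
  have hDd : Submodule.span F (Set.range ![d, d']) = D := Submodule.eq_of_le_of_finrank_le
    (Submodule.span_le.2 (Set.range_subset_iff.2 (Fin.forall_fin_two.2 ⟨hd, hd'⟩))) (by
      rw [finrank_span_eq_card (LinearIndependent.pair_iff.2 fun s t h => ⟨by
        simpa [polar_add_right, hdd, polar_self', a0, h2'] using congrArg (polar Q d) h, by
        simpa [polar_add_right, polar_comm Q d' d, hdd, polar_self', b0, h2'] using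
          congrArg (polar Q d') h⟩)]
      exact h6)
  have dec : ∀ v, ∃ a b s t : F, v = a • z + b • z' + (s • d + t • d') := fun v => by
    obtain ⟨a, b, x, hx, rfl⟩ := hz.exists_decomp v
    rw [← hDz, ← hDd, Matrix.range_cons_cons_empty, Submodule.mem_span_pair] at hx
    obtain ⟨s, t, rfl⟩ := hx
    exact ⟨a, b, s, t, rfl⟩
  have exp : ∀ x, g (x ⊗ₜ w) = cR (polarBilin Q) U z' (g (x ⊗ₜ w)) ⊗ₜ z +
      cR (polarBilin Q) U z (g (x ⊗ₜ w)) ⊗ₜ z' := fun x => by
    rw [← sub_eq_zero]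
    refine eq_zero_of_cR hS.nd hS.qnd fun v => ?_
    obtain ⟨a, b, x, hx, rfl⟩ := hz.exists_decomp v
    simp [hD'' _ (hDz ▸ hx), hz.pol, hz.pol', z2, hz.right, polar_comm Q z x, polar_comm Q z' x,
      hx.1, hx.2, add_comm]
  obtain ⟨e, he, e', he', e1, e2, e3⟩ := exists_neg hD hD h2' h5 hd hd' a0 b0 hdd
  rw [hDz] at hd hd' he he'
  let β : End F W := ro (polarBilin Q) z z' - ro (polarBilin Q) z' z +
    (2 * Q d)⁻¹ • ro (polarBilin Q) e d + (2 * Q d')⁻¹ • ro (polarBilin Q) e' d'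
  have β1 : β z = z := by
    simp [β, hz.pol, z2, polar_comm Q z d, polar_comm Q z d', hd.1, hd'.1]
  have β2 : β z' = -z' := by
    simp [β, hz.pol', hz.right, polar_comm Q z' d, polar_comm Q z' d', hd.2, hd'.2]
  have β3 : β d = e := by
    simp [β, hd.1, hd.2, hdd, inv_smul_smul₀ (mul_ne_zero h2' a0), -mul_inv_rev]
  have β4 : β d' = e' := by
    simp [β, hd'.1, hd'.2, polar_comm Q d' d, hdd, inv_smul_smul₀ (mul_ne_zero h2' b0), -mul_inv_rev]
  set x := cR (polarBilin Q) U z' (g (u ⊗ₜ w)) with hx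
  set x' := cR (polarBilin Q) U z (g (u ⊗ₜ w)) with hx'
  have x0 : x ≠ 0 := fun h => hz.right_ne_zero (hD _ (hD' _ h) hz.right)
  have δ : f x' x ≠ 0 := fun h => by
    obtain ⟨c, hc⟩ := hS.mem_span h2 x0 h
    have := (hDz ▸ hD' (z - c • z') (by simp [← hx, ← hx', hc]) : z - c • z' ∈ hperp Q z z').2
    simp [polar_sub_left, hz.pol, hz.right] at this
  have δ' : f x x' = -f x' x := (hS.alt.neg_eq _ _).symm
  have decU : ∀ v, ∃ s t : F, v = s • x + t • x' := fun v => by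
    obtain ⟨c, hc⟩ := hS.mem_span h2 x0 (x := v - (f v x / f x' x) • x') (by simp [δ])
    exact ⟨c, _, sub_eq_iff_eq_add.1 hc⟩
  let α : End F U := -(f x' x)⁻¹ • (ro f x x' + ro f x' x)
  have α1 : α x = x := by simp [α, δ', hS.alt.self_eq_zero, smul_smul, δ]
  have α2 : α x' = -x' := by simp [α, hS.alt.self_eq_zero, smul_smul, δ]
  obtain ⟨s, t, hs⟩ := decU (cR (polarBilin Q) U z' (g (y ⊗ₜ w)))
  obtain ⟨s', t', hs'⟩ := decU (cR (polarBilin Q) U z (g (y ⊗ₜ w)))
  have h8 := fix hS hG hM h2 hw hg h1 h3 (y := y) hu (hX α β (fun v v' => by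
      obtain ⟨a, b, rfl⟩ := decU v
      obtain ⟨a', b', rfl⟩ := decU v'
      simp [α1, α2, hS.alt.self_eq_zero, add_comm]) fun v v' => by
      obtain ⟨a, b, s, t, rfl⟩ := dec v
      obtain ⟨a', b', s', t', rfl⟩ := dec v'
      simp only [map_add, map_smul, β1, β2, β3, β4, polar_add_left, polar_add_right, polar_smul_left',
        polar_smul_right', polar_neg_left, polar_neg_right, polar_self', z2, hz.right, hz.pol, hz.pol',
        e1, e2, e3, hdd, polar_comm Q e' e, polar_comm Q d' d, polar_comm Q z, polar_comm Q z',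
        hd.1, hd.2, hd'.1, hd'.2, he.1, he.2, he'.1, he'.2]
      ring)
    (by rw [exp u]; simp [← hx, ← hx', α1, α2, β1, β2, neg_tmul, tmul_neg])
    (by rw [exp y, hs, hs']; simp [α1, α2, β1, β2, neg_tmul, tmul_neg, add_tmul, ← smul_tmul'])
  have h9 := congrArg (fun p => f (cR (polarBilin Q) U z' p) x) h8
  rw [exp y, hs, hs'] at h9
  simp only [map_add, map_tmul, β1, β2, cR_tmul, polarBilin_apply_apply, hz.pol, polar_neg_left,
    hz.polar_right, map_smul, α1, α2, one_smul, neg_zero, zero_smul, add_zero, LinearMap.add_apply,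
    LinearMap.smul_apply, map_neg, LinearMap.neg_apply, smul_eq_mul] at h9
  obtain rfl : t = 0 := (mul_eq_zero.1 ((mul_eq_zero.1 (by linear_combination -h9 :
    2 * (t * f x' x) = 0)).resolve_left h2')).resolve_right δ
  refine hz.right_ne_zero (hD _ (hD' _ (hle (y - s • u) (fun h => ?_) u ?_)) hz.right)
  · simpa [hy, hS.alt.self_eq_zero] using congrArg (f · u) h
  · simp [sub_tmul, ← smul_tmul', hs, ← hx]

omit hG hM hw hg h1 h3 in
theorem exists_eq_map [Finite F] (M : Subgroup (isomGroup (tB f (polarBilin Q))))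
    (hL : ∀ (g : isomGroup (tB f (polarBilin Q))) (α : End F U) (β : End F W),
      g.1.toLinearMap = TensorProduct.map α β → g ∈ M) (hM : M ≠ ⊤) :
    ∀ g ∈ M, ∃ (α : End F U) (β : End F W), g.1.toLinearMap = TensorProduct.map α β := by
  have hmem : ∀ (α : End F U) (β : End F W), (∀ p q, tB f (polarBilin Q) (TensorProduct.map α β p)
      (TensorProduct.map α β q) = tB f (polarBilin Q) p q) →
      InG (M.map (isoU _)) (TensorProduct.map α β) := fun α β h => by
    have hinj : Function.Injective (TensorProduct.map α β) := (injective_iff_map_eq_zero _).2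
      fun p hp => (tB_nondegenerate hS.nd hS.qnd).1 p fun q => by rw [← h, hp]; simp
    exact ⟨_, ⟨⟨LinearEquiv.ofInjectiveEndo _ hinj, h⟩, hL _ α β rfl, rfl⟩, rfl⟩
  have hG : TG f Q (M.map (isoU _)) := ⟨by
      rintro _ ⟨_, ⟨g, -, rfl⟩, rfl⟩
      exact g.2,
    fun α hα => hmem α LinearMap.id (tB_iso_rTensor hα),
    fun ρ => hmem LinearMap.id ρ.1.toLinearMap (tB_iso_lTensor (O_polar ρ))⟩
  have hTM := hG.tm hS (by
    by_cases h : ∃ t : F, t ≠ 0 ∧ t ≠ -1 ∧ t ≠ -2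
    · exact Or.inl h
    push Not at h
    have h1 : (1 : F) = -2 := h 1 one_ne_zero fun h1 => hS.two (by linear_combination h1)
    refine Or.inr ⟨h4.ge, fun t => ?_⟩
    by_contra! H
    exact H.2.1 (h1 ▸ h t H.1 H.2.2))
    (by rwa [Subgroup.comap_map_eq_self_of_injective (isoU_injective _)])
  intro g hg
  refine TG.exists_eq_map hS (X := M.map (isoU _)) (fun B hB => ?_) ⟨_, ⟨g, hg, rfl⟩, rfl⟩
  obtain ⟨β, hβ⟩ := hS.exists_eq_rTensor_of_refl B fun w hw => by
    obtain ⟨g, g', u, hg, h1, h3, hu, rfl⟩ := hB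
    have hg' := inG_inv hg h1
    obtain ⟨z, hz0, hz, h5⟩ := exists_sing hS hG hTM h2 hw hg' h3 h1 h4 hm fun α β h h' =>
      hmem α β fun p q => by
        induction p using TensorProduct.induction_on with
        | zero => simp
        | add a b ha hb => simp [ha, hb]
        | tmul x w =>
          induction q using TensorProduct.induction_on with
          | zero => simp
          | add a b ha hb => simp only [map_add, ha, hb]
          | tmul y w' => simp [h, h']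
    have e1 : ∀ p, g' (g p) = p := LinearMap.congr_fun h3
    have := hG.comm_tN hS hTM h2 hz0 hz ((hg'.mul (hG.right (refl Q w))).mul hg) (fun x => by
      have h6 : cR (polarBilin Q) U w (g (x ⊗ₜ z)) = 0 := hS.nd.1 _ fun a => by
        rw [← tB_cR, ← hG.iso _ hg', e1, hS.flip, tB_cR, h5]; simp
      exact (congrArg g' ((refl_lTensor_apply w _).trans (by simp [h6]))).trans (e1 _)) hu
    refine LinearMap.ext fun p => ?_
    have h4 := congrArg g (LinearMap.congr_fun this (g' p))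
    simp only [End.mul_apply, ← End.mul_apply g g', h1, End.one_apply] at h4
    exact h4.symm
  exact hB.eq_smul_tN hS hG hTM hβ

end Cfsg.Agent.H32.Ten

namespace Cfsg.Agent.H32.Ten

open Module TensorProduct QuadraticMap H27 Cfsg.Geo

theorem sp_c4_two_four {F : Type*} [Field F] [Fintype F] (h2 : (2 : F) ≠ 0)
    (e : (Fin 4 ⊕ Fin 4) ≃ Fin 2 × Fin 4) (P : GL (Fin 4 ⊕ Fin 4) F)
    (f₁ : (Fin 2 → F) → (Fin 2 → F) → F) (f₂ : (Fin 4 → F) → (Fin 4 → F) → F)
    (hf₁ : IsSymplecticForm f₁) (hf₂ : IsSymmetricForm f₂)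
    (hm : ¬ IsPlusTypeOn (fun v : Fin 4 → F => f₂ v v) ⊤)
    (hT : IsTensorFormStructure id (Cfsg.sympForm 4 F) f₁ f₂ e P) :
    IsMaximalIn (Cfsg.spGL 4 F) (tensorProductSubgroup 2 4 e P ⊓ Cfsg.spGL 4 F) := by
  obtain ⟨c, hc, h⟩ := exists_tenFrame_form hf₁.bilinear hf₂.bilinear hT
  have hQ := polarBilin_halfQ (h := geoBilin hf₂.bilinear) h2 hf₂.symm
  have hnd := geoBilin_nondegenerate hf₁.bilinear hf₁.nondegenerate
  have hS : TS (c • geoBilin hf₁.bilinear) (halfQ (geoBilin hf₂.bilinear)) :=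
    ⟨fun x => by simp [geoBilin_apply, hf₁.alternating],
      ⟨fun x hx => hnd.1 x fun y => by simpa [hc] using hx y,
        fun x hx => hnd.2 x fun y => by simpa [hc] using hx y⟩,
      hQ.symm ▸ geoBilin_nondegenerate hf₂.bilinear hf₂.nondegenerate, h2, inferInstance, by simp⟩
  have hm' : ∀ z z', halfQ (geoBilin hf₂.bilinear) z = 0 → halfQ (geoBilin hf₂.bilinear) z' = 0 →
      polar (halfQ (geoBilin hf₂.bilinear)) z z' = 0 → z ≠ 0 → z' ∈ F ∙ z := by
    intro z z' h1 h3 h4 h5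
    by_contra h6
    refine hm ⟨Submodule.span F (Set.range ![z, z']), le_top, fun v hv => ?_, ?_⟩
    · rw [Matrix.range_cons_cons_empty, Submodule.mem_span_pair] at hv
      obtain ⟨s, t, rfl⟩ := hv
      change geoBilin hf₂.bilinear _ _ = 0
      rw [← hQ, polarBilin_apply_apply, H30.polar_self', H30.Q_add, H30.Q_smul, H30.Q_smul, h1, h3]
      simp [h4]
    · rw [finrank_span_eq_card ((LinearIndependent.pair_iff' h5).2 fun a ha =>
        h6 (Submodule.mem_span_singleton.2 ⟨a, ha⟩))]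
      simp
  rw [← hQ] at h
  let ψ := isomGroupCongr (B' := jBilin (Fin 4) F) (tenFrame e P)
    fun p q => (sympForm_eq_jBilin 4 _ _).symm.trans (h p q)
  have hmem : ∀ g, g ∈ (tensorProductSubgroup 2 4 e P).comap
      ((isomToGL (jBilin (Fin 4) F)).comp ψ.toMonoidHom) ↔
      ∃ α β, g.1.toLinearMap = TensorProduct.map α β := fun g => by
    rw [Subgroup.mem_comap, mem_tensorProductSubgroup_iff]
    refine exists_congr fun α => exists_congr fun β => ?_
    rw [LinearMap.ext_iff]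
    refine forall_congr' fun p => ?_
    rw [MonoidHom.comp_apply, isomToGL_mulVec, MulEquiv.coe_toMonoidHom, isomGroupCongr_apply,
      LinearEquiv.symm_apply_apply]
    exact (tenFrame e P).injective.eq_iff
  refine isMaximalIn_of_isCoatom_comap ((isomToGL (jBilin (Fin 4) F)).comp ψ.toMonoidHom)
    (by rw [MonoidHom.range_comp, MonoidHom.range_eq_top.2 ψ.surjective, ← MonoidHom.range_eq_map,
      range_isomToGL_jBilin]) _ (isCoatom_of_forall (fun htop => ?_) fun M hM ⟨g, hg, hg'⟩ => ?_)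
  · obtain ⟨g, hg⟩ := hS.exists_not_map
    obtain ⟨α, β, h⟩ := (hmem g).1 (htop ▸ Subgroup.mem_top g)
    exact hg α β h
  · by_contra hne
    exact hg' ((hmem g).2 (exists_eq_map hS (by simp) (by simp) hm' M
      (fun g α β h => hM ((hmem g).2 ⟨α, β, h⟩)) hne g hg))

end Cfsg.Agent.H32.Ten
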