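import Cfsg.Agent.H32.XsGrp

/-!
Absolutely irreducible `2`-groups of symplectic type, described by a family `s` of lifts of the
elements of the quotient by the centre.
-/

set_option autoImplicit false

namespace Cfsg.Agent.H32.Xs

open Module

variable {K V W : Type*} [Field K] [AddCommGroup V] [Module K V] [AddCommGroup W]
  [Module (ZMod 2) W]

/-- The sign attached to an element of `ZMod 2`. -/
def sg (K : Type*) [Field K] (c : ZMod 2) : K := if c = 0 then 1 else -1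

@[simp] theorem sg_zero : sg K 0 = 1 := if_pos rfl

@[simp] theorem sg_one : sg K 1 = -1 := if_neg one_ne_zero

theorem sg_mul_self (c : ZMod 2) : sg K c * sg K c = 1 := by rcases z2 c with rfl | rfl <;> simp

theorem sg_ne (c : ZMod 2) : sg K c ≠ 0 := left_ne_zero_of_mul_eq_one (sg_mul_self c)

theorem sg_add (c d : ZMod 2) : sg K (c + d) = sg K c * sg K d := by
  rcases z2 c with rfl | rfl <;> rcases z2 d with rfl | rfl <;> simp [z11]

theorem one_ne_neg (h2 : (2 : K) ≠ 0) : (1 : K) ≠ -1 := fun h => h2 (by linear_combination h)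

theorem sg_inj (h2 : (2 : K) ≠ 0) {c d : ZMod 2} (h : sg K c = sg K d) : c = d := by
  have := one_ne_neg h2
  rcases z2 c with rfl | rfl <;> rcases z2 d with rfl | rfl <;> simp_all [eq_comm]

/-- A family of lifts. -/
structure Fr (b : LinearMap.BilinForm (ZMod 2) W) (q : W → ZMod 2) (s : W → End K V) : Prop where
  sy : Sy b
  two : (2 : K) ≠ 0
  nt : Nontrivial V
  sq : ∀ x, s x * s x = sg K (q x) • 1
  comm : ∀ x y, s x * s y = sg K (b x y) • (s y * s x)
  mul : ∀ x y, ∃ c : K, s x * s y = c • s (x + y)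
  span : Submodule.span K (Set.range s) = ⊤

/-- `g` conjugates `s x` to a multiple of `s y`. -/
def Cj (s : W → End K V) (g : End K V) (x y : W) : Prop := ∃ c : K, g * s x = c • (s y * g)

/-- `g` induces `σ`. -/
def Act (s : W → End K V) (g : End K V) (σ : W → W) : Prop := ∀ x, Cj s g x (σ x)

/-- `a` is the value of an element of `X`. -/
def InG (X : Subgroup (End K V)ˣ) (a : End K V) : Prop := ∃ g ∈ X, (g : End K V) = a

/-- `X` contains the scalars. -/
def HasZ (X : Subgroup (End K V)ˣ) : Prop := ∀ c : K, c ≠ 0 → InG X (c • 1)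

variable {b : LinearMap.BilinForm (ZMod 2) W} {q : W → ZMod 2} {s : W → End K V}
  {X : Subgroup (End K V)ˣ} {g k : End K V} {x y z x' y' : W} {N : W → Prop}

theorem InG.mul (h : InG X g) (h' : InG X k) : InG X (g * k) := by
  obtain ⟨g, h, rfl⟩ := h
  obtain ⟨k, h', rfl⟩ := h'
  exact ⟨g * k, X.mul_mem h h', rfl⟩

theorem InG.isUnit (h : InG X g) : IsUnit g := by
  obtain ⟨g, -, rfl⟩ := h
  exact g.isUnit

theorem InG.inv (h : InG X g) (h' : k * g = 1) : InG X k := by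
  obtain ⟨g, h, rfl⟩ := h
  exact ⟨g⁻¹, X.inv_mem h, (Units.eq_inv_of_mul_eq_one_right h').symm⟩

theorem InG.exists_inv (h : InG X g) : ∃ k, InG X k ∧ k * g = 1 ∧ g * k = 1 := by
  obtain ⟨g, h, rfl⟩ := h
  exact ⟨_, ⟨g⁻¹, X.inv_mem h, rfl⟩, g.inv_mul, g.mul_inv⟩

theorem InG.of_mem {g : (End K V)ˣ} (h : g ∈ X) : InG X g := ⟨g, h, rfl⟩

theorem InG.mem {g : (End K V)ˣ} (h : InG X g) : g ∈ X := by
  obtain ⟨k, h, h'⟩ := h
  rwa [← Units.ext h']

theorem InG.one : InG X 1 := ⟨1, X.one_mem, rfl⟩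

theorem InG.smul (hZ : HasZ X) (h : InG X g) {c : K} (hc : c ≠ 0) : InG X (c • g) := by
  simpa using (hZ c hc).mul h

theorem InG.of_smul (hZ : HasZ X) {c : K} (h : InG X (c • g)) (hc : c ≠ 0) : InG X g := by
  simpa [smul_smul, hc] using h.smul hZ (inv_ne_zero hc)

theorem Cj.mul (h : Cj s g y z) (h' : Cj s k x y) : Cj s (g * k) x z := by
  obtain ⟨c, h⟩ := h
  obtain ⟨c', h'⟩ := h'
  exact ⟨c' * c, by
    rw [mul_assoc, h', mul_smul_comm, ← mul_assoc, h, smul_mul_assoc, smul_smul, mul_assoc]⟩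

theorem Cj.smul (h : Cj s g x y) (c : K) : Cj s (c • g) x y := by
  obtain ⟨d, h⟩ := h
  exact ⟨d, by rw [smul_mul_assoc, h, mul_smul_comm, smul_comm]⟩

theorem Cj.one (x : W) : Cj s 1 x x := ⟨1, by simp⟩

theorem Act.mul {σ τ : W → W} (h : Act s g σ) (h' : Act s k τ) :
    Act s (g * k) fun x => σ (τ x) := fun x => (h _).mul (h' x)

theorem Act.smul {σ : W → W} (h : Act s g σ) (c : K) : Act s (c • g) σ := fun x => (h x).smul c

theorem smul_one_inj [Nontrivial V] {c d : K} (h : c • (1 : End K V) = d • 1) : c = d :=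
  smul_left_injective K one_ne_zero h

theorem Iso.exists_inv [Finite W] (hb : Sy b) {σ : W → W} (h : Iso b N σ) :
    ∃ τ, Iso b N τ ∧ (∀ x, τ (σ x) = x) ∧ ∀ x, σ (τ x) = x := by
  have h1 : Function.Injective σ := fun x y H => hb.ext fun z => by rw [← h.pres, H, h.pres]
  let p := Equiv.ofBijective σ (Finite.injective_iff_bijective.1 h1)
  have h2 : ∀ n : ℕ, Iso b N (p ^ n : Equiv.Perm W) := fun n => by
    induction n with
    | zero => exact ⟨fun _ _ => rfl, fun _ _ => rfl, fun _ h => h⟩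
    | succ n ih => rw [pow_succ]; exact ih.comp h
  have h3 : p ^ (orderOf p - 1) = p⁻¹ := eq_inv_of_mul_eq_one_left (by
    rw [← pow_succ, Nat.sub_add_cancel (orderOf_pos p), pow_orderOf_eq_one])
  have h4 := h2 (orderOf p - 1)
  rw [h3] at h4
  exact ⟨_, h4, p.symm_apply_apply, p.apply_symm_apply⟩

namespace Fr

variable (h : Fr b q s)
include h

theorem isUnit (x : W) : IsUnit (s x) :=
  ⟨⟨s x, sg K (q x) • s x, by rw [mul_smul_comm, h.sq, smul_smul, sg_mul_self, one_smul],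
    by rw [smul_mul_assoc, h.sq, smul_smul, sg_mul_self, one_smul]⟩, rfl⟩

theorem ne_zero {g : End K V} (hg : IsUnit g) : g ≠ 0 := have := h.nt; hg.ne_zero

theorem mul' (x y : W) : ∃ c : K, c ≠ 0 ∧ s x * s y = c • s (x + y) := by
  obtain ⟨c, hc⟩ := h.mul x y
  exact ⟨c, fun h0 => h.ne_zero ((h.isUnit x).mul (h.isUnit y)) (by rw [hc, h0, zero_smul]), hc⟩

theorem mul'' (x y : W) : ∃ c : K, c ≠ 0 ∧ s (x + y) = c • (s x * s y) := by
  obtain ⟨c, hc, h1⟩ := h.mul' x y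
  exact ⟨c⁻¹, inv_ne_zero hc, by rw [h1, inv_smul_smul₀ hc]⟩

theorem s_zero : ∃ c : K, c ≠ 0 ∧ s 0 = c • 1 := by
  obtain ⟨c, hc, h1⟩ := h.mul'' 0 0
  exact ⟨c * sg K (q 0), mul_ne_zero hc (sg_ne _), by rw [← smul_smul, ← h.sq, ← h1, add_zero]⟩

theorem comm0 (hxy : b x y = 0) : s x * s y = s y * s x := by rw [h.comm, hxy]; simp

theorem comm1 (hxy : b x y = 1) : s x * s y = -(s y * s x) := by rw [h.comm, hxy]; simp

theorem act_s (y : W) : Act s (s y) fun x => x := fun x => ⟨_, h.comm y x⟩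

theorem cj_ne {c : K} (hg : IsUnit g) (hc : g * s x = c • (s y * g)) : c ≠ 0 := fun h0 =>
  h.ne_zero (hg.mul (h.isUnit x)) (by rw [hc, h0, zero_smul])

theorem cj_sq {c : K} (hg : IsUnit g) (hc : g * s x = c • (s y * g)) :
    sg K (q x) = c * c * sg K (q y) := by
  have := h.nt
  have h1 : g * (s x * s x) = (c * c) • (s y * s y * g) := by
    rw [← mul_assoc, hc, smul_mul_assoc, mul_assoc, hc, mul_smul_comm, smul_smul, mul_assoc]
  rw [h.sq, h.sq, mul_smul_comm, smul_mul_assoc, smul_smul, mul_one, one_mul] at h1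
  exact smul_left_injective K hg.ne_zero h1

theorem cj_inv (hg : IsUnit g) (hk : k * g = 1) (hc : Cj s g x y) : Cj s k y x := by
  obtain ⟨c, hc⟩ := hc
  have h1 := h.cj_ne hg hc
  refine ⟨c⁻¹, hg.mul_right_cancel ?_⟩
  rw [smul_mul_assoc, mul_assoc (s x), hk, mul_one, mul_assoc, ← inv_smul_smul₀ h1 (s y * g), ← hc,
    mul_smul_comm, ← mul_assoc, hk, one_mul]

theorem cj_add (h1 : Cj s g x x') (h2 : Cj s g y y') : Cj s g (x + y) (x' + y') := by
  obtain ⟨c, h1⟩ := h1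
  obtain ⟨d, h2⟩ := h2
  obtain ⟨a, -, h3⟩ := h.mul'' x y
  obtain ⟨a', h4⟩ := h.mul x' y'
  exact ⟨a * (c * (d * a')), by
    rw [h3, mul_smul_comm, ← mul_assoc, h1, smul_mul_assoc, mul_assoc, h2, mul_smul_comm,
      ← mul_assoc, h4, smul_mul_assoc, smul_smul, smul_smul, smul_smul, mul_assoc, mul_assoc]⟩

theorem cj_pres (hg : IsUnit g) (h1 : Cj s g x x') (h2 : Cj s g y y') : b x' y' = b x y := by
  have := h.nt
  obtain ⟨c, h1⟩ := h1
  obtain ⟨d, h2⟩ := h2
  have h3 : g * (s x * s y) = (c * d) • (s x' * s y' * g) := by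
    rw [← mul_assoc, h1, smul_mul_assoc, mul_assoc, h2, mul_smul_comm, smul_smul, mul_assoc]
  have h4 : g * (s y * s x) = (c * d) • (s y' * s x' * g) := by
    rw [← mul_assoc, h2, smul_mul_assoc, mul_assoc, h1, mul_smul_comm, smul_smul, mul_assoc,
      mul_comm c]
  rw [h.comm x y, mul_smul_comm, h4, h.comm x' y', smul_mul_assoc, smul_comm] at h3
  exact sg_inj h.two (smul_left_injective K (((h.isUnit _).mul (h.isUnit _)).mul hg).ne_zero
    (smul_right_injective _ (mul_ne_zero (h.cj_ne hg h1) (h.cj_ne hg h2)) h3)).symm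

/-- The maps `1 + f` with `f ^ 2 = -1` induce transvections. -/
theorem act_op {c : K} {u : W} (hf : (c • s u) * (c • s u) = -1) :
    Act s (1 + c • s u) (tv b u) := fun x => by
  rcases z2 (b x u) with h1 | h1
  · exact ⟨1, by rw [tv_zero h1, one_smul, add_mul, mul_add, smul_mul_assoc, mul_smul_comm,
      h.comm0 h1, one_mul, mul_one]⟩
  · obtain ⟨d, hd⟩ := h.mul x u
    refine ⟨-(c * d), ?_⟩
    rw [tv_one h1, ← smul_mul_assoc, neg_smul, mul_smul, ← hd, ← mul_smul_comm, neg_mul, mul_assoc,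
      mul_add, hf, add_mul, mul_add, smul_mul_assoc, mul_one, mul_smul_comm, h.comm1 h1]
    simp [add_comm]

theorem op_mul {f : End K V} (hf : f * f = -1) :
    ((2 : K)⁻¹ • (1 + -f)) * (1 + f) = 1 ∧ (1 + f) * ((2 : K)⁻¹ • (1 + -f)) = 1 := by
  have h1 : (2 : K)⁻¹ • ((1 : End K V) + 1) = 1 := by
    rw [← two_smul K, inv_smul_smul₀ h.two]
  constructor
  · rw [smul_mul_assoc, show (1 + -f) * (1 + f) = 1 + 1 by noncomm_ring [hf], h1]
  · rw [mul_smul_comm, show (1 + f) * (1 + -f) = 1 + 1 by noncomm_ring [hf], h1]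

theorem op_unit {f : End K V} (hf : f * f = -1) : IsUnit (1 + f) :=
  ⟨⟨_, _, (h.op_mul hf).2, (h.op_mul hf).1⟩, rfl⟩

variable [FiniteDimensional K V]

theorem tr_s (hx : x ≠ 0) : LinearMap.trace K V (s x) = 0 := by
  obtain ⟨y, hy⟩ := h.sy.b1 hx
  have h1 : LinearMap.trace K V (s y * s x * s y) = sg K (q y) * LinearMap.trace K V (s x) := by
    rw [LinearMap.trace_mul_comm, ← mul_assoc, h.sq, smul_mul_assoc, one_mul, map_smul, smul_eq_mul]
  rw [h.comm1 hy, neg_mul, mul_assoc, h.sq, mul_smul_comm, mul_one, map_neg, map_smul,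
    smul_eq_mul] at h1
  exact (mul_eq_zero.1 ((mul_eq_zero.1 (by linear_combination -h1 :
    2 * (sg K (q y) * _) = 0)).resolve_left h.two)).resolve_left (sg_ne _)

theorem tr_one : LinearMap.trace K V 1 ≠ 0 := fun h0 => by
  have := h.nt
  have h1 : ⊤ ≤ LinearMap.ker (LinearMap.trace K V) := by
    rw [← h.span, Submodule.span_le]
    rintro _ ⟨x, rfl⟩
    by_cases hx : x = 0
    · obtain ⟨c, -, hc⟩ := h.s_zero
      rw [SetLike.mem_coe, LinearMap.mem_ker, hx, hc, map_smul, h0, smul_zero]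
    · exact h.tr_s hx
  obtain ⟨v, hv⟩ := exists_ne (0 : V)
  obtain ⟨φ, hφ⟩ := Module.Projective.exists_dual_ne_zero K hv
  have h2 := h1 (Submodule.mem_top (x := φ.smulRight v))
  rw [LinearMap.mem_ker, LinearMap.trace_smulRight] at h2
  exact hφ h2

theorem tr_mul (hxy : x ≠ y) : LinearMap.trace K V (s x * s y) = 0 := by
  obtain ⟨c, hc⟩ := h.mul x y
  rw [hc, map_smul, h.tr_s (add_ne hxy), smul_zero]

theorem inj {c : K} (hc : s x = c • s y) : x = y := by
  by_contra H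
  have h1 := congrArg (fun a => LinearMap.trace K V (s x * a)) hc
  simp only [mul_smul_comm, map_smul, h.tr_mul H, h.sq, smul_eq_mul, mul_zero] at h1
  exact mul_ne_zero (sg_ne _) h.tr_one h1

theorem cj_uniq (hg : IsUnit g) (h1 : Cj s g x y) (h2 : Cj s g x y') : y = y' := by
  obtain ⟨c, h1⟩ := h1
  obtain ⟨d, h2⟩ := h2
  refine h.inj (c := c⁻¹ * d) (hg.mul_right_cancel ?_)
  rw [smul_mul_assoc, mul_smul, ← h2, h1, inv_smul_smul₀ (h.cj_ne hg h1)]

theorem act_iso {σ : W → W} (hg : IsUnit g) (hσ : Act s g σ) (hN : ∀ x, N x → N (σ x)) :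
    Iso b N σ :=
  ⟨fun x y => h.cj_uniq hg (hσ _) (h.cj_add (hσ x) (hσ y)),
    fun x y => h.cj_pres hg (hσ x) (hσ y), hN⟩

theorem scalar (hg : ∀ x, g * s x = s x * g) : ∃ c : K, g = c • 1 := by
  have h1 : g ∈ Set.center (End K V) := Semigroup.mem_center_iff.2 fun a => by
    have h2 : a ∈ Submodule.span K (Set.range s) := h.span ▸ Submodule.mem_top
    induction h2 using Submodule.span_induction with
    | mem _ h => obtain ⟨x, rfl⟩ := h; exact (hg x).symm
    | zero => simp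
    | add a a' _ _ h1 h2 => rw [add_mul, mul_add, h1, h2]
    | smul c a _ h1 => rw [smul_mul_assoc, mul_smul_comm, h1]
  obtain ⟨c, _, hc⟩ := Module.End.mem_center_iff.1 h1
  exact ⟨c, hc⟩

variable [Finite W]

theorem self (hg : IsUnit g) (h1 : Act s g fun x => x) : ∃ (y : W) (c : K), c ≠ 0 ∧ g = c • s y := by
  classical
  choose c hc using h1
  have h2 : ∀ x, ∃ l, c x = sg K l := fun x => by
    have := h.cj_sq hg (hc x)
    rw [eq_comm, mul_eq_right₀ (sg_ne _), mul_self_eq_one_iff] at this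
    rcases this with h | h
    exacts [⟨0, by simp [h]⟩, ⟨1, by simp [h]⟩]
  choose l hl using h2
  obtain ⟨y, hy⟩ := h.sy.rep (lin l fun x y => sg_inj h.two (by
    obtain ⟨a, ha, h3⟩ := h.mul'' x y
    have h4 := hc (x + y)
    rw [h3, mul_smul_comm, ← mul_assoc, hc, smul_mul_assoc, mul_assoc, hc, mul_smul_comm,
      smul_mul_assoc, smul_comm (c _) a, smul_smul (c x), mul_assoc] at h4
    rw [sg_add, ← hl, ← hl, ← hl]
    exact (smul_left_injective K (h.ne_zero ((h.isUnit x).mul ((h.isUnit y).mul hg)))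
      (smul_right_injective _ ha h4)).symm))
  obtain ⟨d, hd⟩ := h.scalar (g := s y * g) fun x => by
    rw [mul_assoc, hc, hl, mul_smul_comm, ← mul_assoc, h.comm y x, hy, smul_mul_assoc, smul_smul,
      mul_assoc]
    exact (congrArg (· • _) (sg_mul_self _)).trans (one_smul _ _)
  have h3 : g = (sg K (q y) * d) • s y := (h.isUnit y).mul_left_cancel (by
    rw [hd, mul_smul_comm, h.sq, smul_smul, mul_right_comm, sg_mul_self, one_mul])
  exact ⟨y, _, fun h0 => h.ne_zero hg (by rw [h3, h0, zero_smul]), h3⟩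

theorem finrank_sq : finrank K V ^ 2 = 2 ^ finrank (ZMod 2) W := by
  have := Fintype.ofFinite W
  have h1 : LinearIndependent K s := Fintype.linearIndependent_iff.2 fun c hc y => by
    have h2 := congrArg (fun a => LinearMap.trace K V (a * s y)) hc
    simp only [Finset.sum_mul, map_sum, smul_mul_assoc, map_smul, zero_mul, map_zero] at h2
    rw [Finset.sum_eq_single y (fun x _ hx => by rw [h.tr_mul hx, smul_zero]) (by simp), h.sq,
      map_smul, smul_eq_mul, smul_eq_mul] at h2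
    exact (mul_eq_zero.1 h2).resolve_right (mul_ne_zero (sg_ne _) h.tr_one)
  have h2 := finrank_span_eq_card h1
  rw [h.span, finrank_top, Module.finrank_linearMap, Module.card_eq_pow_finrank (K := ZMod 2),
    ZMod.card] at h2
  rw [← h2, pow_two]

theorem finrank_eq {k : ℕ} (hk : finrank (ZMod 2) W = 2 * k) : finrank K V = 2 ^ k :=
  (Nat.pow_left_injective two_ne_zero) (by
    simp only; rw [h.finrank_sq, hk, ← pow_mul, mul_comm])

/-- The normaliser of the group generated by the lifts and the scalars. -/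
def NG : Subgroup (End K V)ˣ where
  carrier := {g | ∀ x, ∃ y, Cj s g x y}
  mul_mem' {g k} hg hk x := by
    obtain ⟨y, h1⟩ := hk x
    obtain ⟨z, h2⟩ := hg y
    exact ⟨z, h2.mul h1⟩
  one_mem' x := ⟨x, Cj.one x⟩
  inv_mem' {g} hg y := by
    choose σ hσ using hg
    obtain ⟨τ, -, -, h1⟩ := (h.act_iso (N := fun _ => True) g.isUnit hσ fun _ _ => trivial).exists_inv
      h.sy
    exact ⟨τ y, h.cj_inv g.isUnit g.inv_mul (by have := hσ (τ y); rwa [h1] at this)⟩

theorem mem_NG {g : (End K V)ˣ} : g ∈ h.NG ↔ ∀ x, ∃ y, Cj s g x y := Iff.rfl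

theorem inG_NG : InG h.NG g ↔ IsUnit g ∧ ∀ x, ∃ y, Cj s g x y :=
  ⟨fun ⟨k, h1, h2⟩ => h2 ▸ ⟨k.isUnit, h1⟩, fun ⟨⟨k, h1⟩, h2⟩ => ⟨k, fun x => h1 ▸ h2 x, h1⟩⟩

theorem inG_NG_of {σ : W → W} (hg : IsUnit g) (hσ : Act s g σ) : InG h.NG g :=
  h.inG_NG.2 ⟨hg, fun x => ⟨_, hσ x⟩⟩

theorem hasZ_NG : HasZ h.NG := fun c hc =>
  h.inG_NG_of (IsUnit.smul (Units.mk0 c hc) isUnit_one) (Act.smul (fun x => Cj.one x) c)

omit [FiniteDimensional K V] [Finite W] in
/-- Removing the sign. -/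
theorem exists_comm (hs : ∀ x, InG X (s x)) (hg : InG X g) (hx : x ≠ 0) (h1 : Cj s g x x) :
    ∃ z, InG X (s z * g) ∧ s z * g * s x = s x * (s z * g) := by
  obtain ⟨c, h1⟩ := h1
  have := h.cj_sq hg.isUnit h1
  rw [eq_comm, mul_eq_right₀ (sg_ne _), mul_self_eq_one_iff] at this
  rcases this with rfl | rfl
  · exact ⟨x, (hs x).mul hg, by rw [mul_assoc, h1, one_smul]⟩
  · obtain ⟨z, hz⟩ := h.sy.b1 hx
    exact ⟨z, (hs z).mul hg, by
      rw [mul_assoc, h1, mul_smul_comm, ← mul_assoc, h.comm1 hz]; simp [mul_assoc]⟩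

omit [FiniteDimensional K V] [Finite W] in
theorem cj_of_s_mul (h1 : Cj s (s z * g) x y) : Cj s g x y := by
  have := ((h.act_s z y).mul h1).smul (sg K (q z))
  rwa [← mul_assoc, h.sq, smul_mul_assoc, smul_smul, sg_mul_self, one_smul, one_mul] at this

/-- The reduction to centralisers. -/
theorem core [Finite K] (h6 : 6 ≤ finrank (ZMod 2) W) (hR : RR b N 3)
    (hR4 : ∀ u w, N u → N w → b u w = 1 → N (u + w)) (hZ : HasZ X) (hs : ∀ x, InG X (s x))
    (hN : ∀ g, InG X g → ∀ x y, Cj s g x y → N x → N y)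
    (rich : ∀ u w, N u → N w → ∃ g, InG X g ∧ Act s g fun x => tv b u (tv b w x))
    (star : ∀ x ≠ 0, ∀ g, InG X g → g * s x = s x * g → ∀ y, b y x = 0 → ∃ y', Cj s g y y') :
    X ≤ h.NG := by
  have hb := h.sy
  have star' : ∀ x ≠ 0, ∀ g, InG X g → Cj s g x x → ∀ y, b y x = 0 → ∃ y', Cj s g y y' :=
    fun x hx g hg h1 y hy => by
      obtain ⟨z, h2, h3⟩ := h.exists_comm hs hg hx h1
      obtain ⟨y', h4⟩ := star x hx _ h2 h3 y hy
      exact ⟨y', h.cj_of_s_mul h4⟩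
  have cent : ∀ x ≠ 0, ∀ g, InG X g → Cj s g x x → ∀ y, ∃ y', Cj s g y y' := by
    intro x hx g hg h1
    have mv : ∀ u w, N u → N w → b u x = 0 → b w x = 0 → b u w = 1 →
        ∃ k σ, InG X k ∧ Act s k σ ∧ σ x = x ∧ σ u = w := fun u w hu hw h2 h3 h4 => by
      obtain ⟨k, h5, h7⟩ := rich w (u + w) hw (hR4 u w hu hw h4)
      refine ⟨k, _, h5, h7, ?_, ?_⟩
      · rw [tv_zero (u := u + w) (by rw [hb.symm]; simp [h2, h3]), tv_zero ((hb.symm _ _).trans h3)]
      · rw [tv_one (u := u + w) (by simp [hb.alt, h4]), aab, hb.tv_self]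
    obtain ⟨z, hz, z1, z2, -⟩ := exists_out (T := orth b (Submodule.span _ {a | a ∈ [x]}))
      (by have := hb.finrank_orth_list [x]; simp only [List.length] at this; omega) x 0
    obtain ⟨a, a1, a2⟩ := hb.b2 z1 z2
    obtain ⟨u, hu, u1, u2, -⟩ := hR.three x a a z
    rw [mem_orth_span.1 hz x (by simp)] at u1
    rw [hb.symm z, a2] at u2
    have u3 : u ≠ 0 := fun h => by simp [h] at u2
    have u4 : u ≠ x := fun h => by rw [h, hb.symm, a1] at u2; exact zero_ne_one u2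
    obtain ⟨w, hw⟩ := star' x hx g hg h1 u u1
    have w1 := hN g hg u w hw hu
    have w2 : b w x = 0 := (h.cj_pres hg.isUnit hw h1).trans u1
    obtain ⟨g', hg', hgg, hgg'⟩ := hg.exists_inv
    have w3 : w ≠ x := fun H => u4 (h.cj_uniq hg'.isUnit (h.cj_inv hg.isUnit hgg (H ▸ hw))
      (h.cj_inv hg.isUnit hgg h1))
    have w4 : w ≠ 0 := fun H => u3 (h.cj_uniq hg'.isUnit (h.cj_inv hg.isUnit hgg (H ▸ hw)) (by
      obtain ⟨c, -, hc⟩ := h.s_zero
      exact ⟨1, by simp [hc]⟩))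
    obtain ⟨y₁, c1, c2⟩ := hb.b2 u3 u4
    obtain ⟨y₂, c3, c4⟩ := hb.b2 w4 w3
    obtain ⟨y₃, c5, c6, c7⟩ := both (b := b) (P := fun y => b y x = 0)
      (fun x y hx hy => by simp [hx, hy]) c1 c3 c2 c4
    obtain ⟨v, hv, v1, v2, v3⟩ := hR.three x u w y₃
    obtain ⟨k, σ, k1, k2, k3, k4⟩ := mv w v w1 hv w2 (v1.trans c5) ((hb.symm _ _).trans (v3.trans c7))
    obtain ⟨k', σ', k5, k6, k7, k8⟩ := mv v u hv hu (v1.trans c5) u1 (v2.trans c6)
    have k9 := k6.mul k2
    have k10 := k5.mul k1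
    have d1 : Cj s (k' * k * g) x x := by simpa only [k3, k7] using (k9 x).mul h1
    have d2 : Cj s (k' * k * g) u u := by simpa only [k4, k8] using (k9 w).mul hw
    intro y
    obtain ⟨y', d3⟩ : ∃ y', Cj s (k' * k * g) y y' := by
      rcases Xs.z2 (b y x) with d3 | d3
      · exact star' x hx _ (k10.mul hg) d1 y d3
      · obtain ⟨t, d4, d5⟩ := hb.b2 hx u4.symm
        obtain ⟨y', d6⟩ := star' x hx _ (k10.mul hg) d1 (y + t) (by simp [d3, d5, z11])
        obtain ⟨t', d7⟩ := star' u u3 _ (k10.mul hg) d2 t d4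
        exact ⟨_, baa t y ▸ h.cj_add d6 d7⟩
    obtain ⟨l, hl, hl1, -⟩ := k10.exists_inv
    obtain ⟨y'', d4⟩ := h.NG.inv_mem (x := k10.isUnit.unit) (fun x => ⟨_, k9 x⟩) y'
    refine ⟨y'', ?_⟩
    have := d4.mul d3
    rwa [← mul_assoc, IsUnit.val_inv_mul, one_mul] at this
  let Z : Subgroup X :=
    { carrier := {g | ∃ c : K, (g.1 : End K V) = c • 1}
      mul_mem' := fun ⟨c, hc⟩ ⟨d, hd⟩ => ⟨c * d, by simp [hc, hd, smul_smul, mul_comm]⟩
      one_mem' := ⟨1, by simp⟩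
      inv_mem' := fun {g} ⟨c, hc⟩ => ⟨c⁻¹, by
        have h1 : c ≠ 0 := fun h0 => h.ne_zero g.1.isUnit (by rw [hc, h0, zero_smul])
        exact Units.inv_eq_of_mul_eq_one_right (by simp [hc, smul_smul, h1])⟩ }
  have : Z.Normal := ⟨fun z ⟨c, hc⟩ g => ⟨c, by simp [hc]⟩⟩
  have : Finite V := Module.finite_of_finite K
  have : Finite (End K V) := DFunLike.finite _
  choose S hS1 hS2 using hs
  let π := QuotientGroup.mk' Z
  have hπ : ∀ g k : X, π g = π k ↔ ∃ c : K, (g.1 : End K V) = c • k.1 := fun g k => by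
    rw [QuotientGroup.mk'_apply, QuotientGroup.mk'_apply, eq_comm, QuotientGroup.eq]
    refine exists_congr fun c => ?_
    simp only [Subgroup.coe_mul, Subgroup.coe_inv, Units.val_mul]
    rw [Units.inv_mul_eq_iff_eq_mul, mul_smul_comm, mul_one]
  let ι : W → X ⧸ Z := fun x => π ⟨S x, hS1 x⟩
  have hι : ∀ (g : X) x y, π g * ι x * (π g)⁻¹ = ι y ↔ Cj s g.1 x y := fun g x y => by
    rw [mul_inv_eq_iff_eq_mul, ← map_mul, ← map_mul, hπ]
    simp only [Subgroup.coe_mul, Units.val_mul, hS2, Cj]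
  have hC : Core b N ι := by
    refine ⟨fun x y => ?_, fun x y H => ?_, fun g x y x' y' h1 h2 => ?_, fun g x x' h1 => ?_,
      fun u w hu hw => ?_, fun x hx g h1 y => ?_, fun g h1 => ?_⟩
    · rw [← map_mul, hπ]
      obtain ⟨c, -, hc⟩ := h.mul'' x y
      exact ⟨c, by simpa [hS2] using hc⟩
    · obtain ⟨c, hc⟩ := (hπ _ _).1 H
      exact h.inj (c := c) (by simpa [hS2] using hc)
    · obtain ⟨g, rfl⟩ := QuotientGroup.mk'_surjective Z g
      exact h.cj_pres g.1.isUnit ((hι _ _ _).1 h1) ((hι _ _ _).1 h2)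
    · obtain ⟨g, rfl⟩ := QuotientGroup.mk'_surjective Z g
      exact hN _ (.of_mem g.2) _ _ ((hι _ _ _).1 h1)
    · obtain ⟨_, ⟨g, h1, rfl⟩, h2⟩ := rich u w hu hw
      exact ⟨π ⟨g, h1⟩, fun x => (hι _ _ _).2 (h2 x)⟩
    · obtain ⟨g, rfl⟩ := QuotientGroup.mk'_surjective Z g
      obtain ⟨y', h2⟩ := cent x hx _ (.of_mem g.2) ((hι _ _ _).1 h1) y
      exact ⟨y', (hι _ _ _).2 h2⟩
    · obtain ⟨g, rfl⟩ := QuotientGroup.mk'_surjective Z g
      obtain ⟨y, c, -, h2⟩ := h.self g.1.isUnit fun x => (hι _ _ _).1 (h1 x)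
      exact ⟨y, (hπ _ _).2 ⟨c, by simpa [hS2] using h2⟩⟩
  intro g hg x
  obtain ⟨y, hy⟩ := hC.nm hb hR h6 (π ⟨g, hg⟩) x
  exact ⟨y, (hι _ _ _).1 hy⟩

end Fr

end Cfsg.Agent.H32.Xs
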