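import Cfsg.Agent.H32.XsTwo

/-!
An elementary abelian `2`-subgroup `E` carrying a symplectic form, whose normaliser contains the
centraliser of each involution of `E` and induces enough transvections, is normal.
-/

set_option autoImplicit false

namespace Cfsg.Agent.H32.Xs

open Module

variable {G : Type*} [Group G] {W : Type*} [AddCommGroup W] [Module (ZMod 2) W]

/-- `g` normalises the image of `ι`. -/
def Nm (ι : W → G) (g : G) : Prop := ∀ y, ∃ y', g * ι y * g⁻¹ = ι y'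

/-- The hypotheses on the embedding `ι`. -/
structure Core (b : LinearMap.BilinForm (ZMod 2) W) (N : W → Prop) (ι : W → G) : Prop where
  add : ∀ x y, ι (x + y) = ι x * ι y
  inj : Function.Injective ι
  pres : ∀ g x y x' y', g * ι x * g⁻¹ = ι x' → g * ι y * g⁻¹ = ι y' → b x' y' = b x y
  ns : ∀ g x x', g * ι x * g⁻¹ = ι x' → N x → N x'
  rich : ∀ u w, N u → N w → ∃ g, ∀ x, g * ι x * g⁻¹ = ι (tv b u (tv b w x))
  cent : ∀ x, x ≠ 0 → ∀ g, g * ι x * g⁻¹ = ι x → Nm ι g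
  self : ∀ g, (∀ x, g * ι x * g⁻¹ = ι x) → ∃ y, g = ι y

variable {b : LinearMap.BilinForm (ZMod 2) W} {N : W → Prop} {ι ι' : W → G}

theorem Nm.mul {g k : G} (hg : Nm ι g) (hk : Nm ι k) : Nm ι (g * k) := fun y => by
  obtain ⟨y', h⟩ := hk y
  obtain ⟨y'', h'⟩ := hg y'
  exact ⟨y'', by rw [← h', ← h]; group⟩

theorem Nm.inv [Finite W] (hι : Function.Injective ι) {g : G} (hg : Nm ι g) : Nm ι g⁻¹ := fun y => by
  choose f hf using hg
  obtain ⟨x, rfl⟩ := Finite.surjective_of_injective (f := f) (fun x x' h => hι (by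
    have := (hf x).trans ((congrArg ι h).trans (hf x').symm)
    simpa using this)) y
  exact ⟨x, by rw [← hf]; group⟩

theorem dih {d d' : G} (hd : d * d = 1) (hd' : d' * d' = 1) (m : ℕ) :
    ∃ k, (d * d') ^ m * d = k * d * k⁻¹ ∨ (d * d') ^ m * d = k * d' * k⁻¹ := by
  have h1 : d⁻¹ = d := inv_eq_of_mul_eq_one_right hd
  have h2 : d'⁻¹ = d' := inv_eq_of_mul_eq_one_right hd'
  have h3 : ∀ j : ℕ, d * ((d * d') ^ j)⁻¹ = (d * d') ^ j * d := fun j => by
    rw [← inv_pow, mul_inv_rev, h1, h2, ← mul_pow_mul]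
  rcases Nat.even_or_odd' m with ⟨j, rfl | rfl⟩
  · exact ⟨(d * d') ^ j, Or.inl (by rw [mul_assoc, h3, two_mul, pow_add, mul_assoc])⟩
  · refine ⟨(d * d') ^ j * d, Or.inr ?_⟩
    rw [mul_inv_rev, h1, mul_assoc, mul_assoc, h3, two_mul, pow_succ', pow_add]
    rw [← mul_assoc d, ← mul_assoc (d * d'), ← mul_assoc, ← pow_succ', ← pow_succ, ← mul_assoc]

namespace Core

theorem conj (h : Core b N ι) (k : G) : Core b N fun x => k * ι x * k⁻¹ where
  add x y := by rw [h.add]; group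
  inj x y H := h.inj (by simpa using H)
  pres g x y x' y' h1 h2 := h.pres (k⁻¹ * g * k) x y x' y'
    (by rw [← mul_left_cancel_iff (a := k), ← mul_right_cancel_iff (a := k⁻¹), ← h1]; group)
    (by rw [← mul_left_cancel_iff (a := k), ← mul_right_cancel_iff (a := k⁻¹), ← h2]; group)
  ns g x x' h1 := h.ns (k⁻¹ * g * k) x x'
    (by rw [← mul_left_cancel_iff (a := k), ← mul_right_cancel_iff (a := k⁻¹), ← h1]; group)
  rich u w hu hw := by
    obtain ⟨g, hg⟩ := h.rich u w hu hw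
    exact ⟨k * g * k⁻¹, fun x => by rw [← hg]; group⟩
  cent x hx g h1 y := by
    obtain ⟨y', h2⟩ := h.cent x hx (k⁻¹ * g * k)
      (by rw [← mul_left_cancel_iff (a := k), ← mul_right_cancel_iff (a := k⁻¹), ← h1]; group) y
    exact ⟨y', by dsimp only; rw [← h2]; group⟩
  self g h1 := by
    obtain ⟨y, h2⟩ := h.self (k⁻¹ * g * k) fun x => by
      rw [← mul_left_cancel_iff (a := k), ← mul_right_cancel_iff (a := k⁻¹), ← h1]; group
    exact ⟨y, by rw [← h2]; group⟩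

variable (h : Core b N ι)
include h

theorem zero : ι 0 = 1 := by simpa using h.add 0 0

theorem sq (x : W) : ι x * ι x = 1 := by rw [← h.add, aa, h.zero]

theorem inv (x : W) : (ι x)⁻¹ = ι x := inv_eq_of_mul_eq_one_right (h.sq x)

theorem fix (x y : W) : ι x * ι y * (ι x)⁻¹ = ι y := by
  rw [h.inv, ← h.add, ← h.add, add_comm x, baa]

theorem ne_one {x : W} (hx : x ≠ 0) : ι x ≠ 1 := fun h1 => hx (h.inj (h1.trans h.zero.symm))

theorem act_add {g : G} {x y x' y' : W} (h1 : g * ι x * g⁻¹ = ι x') (h2 : g * ι y * g⁻¹ = ι y') :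
    g * ι (x + y) * g⁻¹ = ι (x' + y') := by
  rw [h.add, h.add, ← h1, ← h2]; group

theorem act {g : G} (hg : Nm ι g) : ∃ σ, Iso b N σ ∧ ∀ x, g * ι x * g⁻¹ = ι (σ x) := by
  choose σ hσ using hg
  exact ⟨σ, ⟨fun x y => h.inj ((hσ _).symm.trans (h.act_add (hσ x) (hσ y))),
    fun x y => h.pres g _ _ _ _ (hσ x) (hσ y), fun x => h.ns g _ _ (hσ x)⟩, hσ⟩

theorem comm_mem (h' : Core b N ι') {x y x' : W} (h1 : Nm ι' (ι x))
    (h2 : ι' y * ι x * (ι' y)⁻¹ = ι x') : ∃ y', ι (x' + x) = ι' y' := by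
  obtain ⟨y', h3⟩ := h1 y
  refine ⟨y + y', ?_⟩
  rw [h.add, h'.add, ← h2, ← h3, h.inv, h'.inv]
  simp only [mul_assoc]

variable [Finite W] (hb : Sy b) (hR : RR b N 3) (h6 : 6 ≤ finrank (ZMod 2) W)
include hb hR h6

theorem ti (h' : Core b N ι') {d d' : W} (hd : d ≠ 0) (hdd : ι d = ι' d') :
    Set.range ι = Set.range ι' := by
  let D := sub (fun y => ∃ y', ι y = ι' y') ⟨0, by rw [h.zero, h'.zero]⟩
    fun x y ⟨x', h1⟩ ⟨y', h2⟩ => ⟨x' + y', by rw [h.add, h'.add, h1, h2]⟩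
  have hD : ∀ y, y ∈ D ↔ ∃ y', ι y = ι' y' := fun _ => Iff.rfl
  have h0 : ∀ {x x'}, x ≠ 0 → ι x = ι' x' → x' ≠ 0 := fun hx h1 h2 =>
    h.ne_one hx (by rw [h1, h2, h'.zero])
  have h1 : ∀ d ∈ D, ∀ x ∈ D, d ≠ 0 → x ≠ 0 → x ≠ d → ∀ z, b z d = 0 → z ∈ D := by
    rintro d ⟨d', hdd⟩ x ⟨x', hxx⟩ hd hx hxd z hz
    by_contra hzD
    obtain ⟨a, ha, a1⟩ := hb.exists_perp (S := D ⊓ LinearMap.ker (b d)) (a := z) fun h => hzD h.1
    obtain ⟨z', a2, a3⟩ := hb.b2 hx hxd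
    obtain ⟨y, a4, a5, a6⟩ := both (b := b) (P := fun y => b y d = 0)
      (fun x y hx hy => by simp [hx, hy]) a2 hz a3 ((hb.symm _ _).trans a1)
    obtain ⟨u, hu, c1, c2, c3⟩ := hR.three d x a y
    obtain ⟨w, hw, c4, c5, -⟩ := hR.three d x a 0
    obtain ⟨g, hg⟩ := h.rich u w hu hw
    rw [hb.symm] at c1 c2 c3 c4 c5
    have c6 := hg d
    have c7 := hg x
    rw [tv_zero (u := w) (by simpa using c4), tv_zero (c1.trans a4)] at c6
    rw [tv_zero (u := w) (by simpa using c5), tv_one (c2.trans a5)] at c7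
    obtain ⟨y', c8⟩ := h'.cent d' (h0 hd hdd) g (hdd ▸ c6) x'
    have c9 : u ∈ D := by
      rw [← aab x u]
      exact add_mem ⟨x', hxx⟩ ⟨y', by rw [← c7, ← c8, hxx]⟩
    have := ha u ⟨c9, c1.trans a4⟩
    rw [c3, a6] at this
    exact one_ne_zero this
  by_cases H : ∃ x ∈ D, x ≠ 0 ∧ x ≠ d
  · obtain ⟨x, hx, h2, h3⟩ := H
    have h4 : ∀ y, y ∈ D := fun y => by
      rcases z2 (b y d) with h5 | h5
      · exact h1 d ⟨d', hdd⟩ x hx hd h2 h3 y h5
      · obtain ⟨z, h7, h8⟩ := hb.b2 hd h3.symm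
        rw [← baa z y]
        exact add_mem (h1 d ⟨d', hdd⟩ x hx hd h2 h3 _ (by simp [h5, h8, z11]))
          (h1 x hx d ⟨d', hdd⟩ h2 hd h3.symm z h7)
    choose f hf using h4
    refine Set.Subset.antisymm (by rintro _ ⟨y, rfl⟩; exact ⟨f y, (hf y).symm⟩) ?_
    rintro _ ⟨y, rfl⟩
    obtain ⟨x, rfl⟩ := Finite.surjective_of_injective (f := f)
      (fun x x' h1 => h.inj (by rw [hf, hf, h1])) y
    exact ⟨x, hf x⟩
  exfalso
  push Not at H
  obtain ⟨y₁, hy₁⟩ := hb.b1 hd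
  have h2 : ∀ y' y, ι' y' * ι y * (ι' y')⁻¹ = ι y ∨ ι' y' * ι y * (ι' y')⁻¹ = ι (y + d) := by
    intro y' y
    obtain ⟨z, h3⟩ := h.cent d hd (ι' y') (by rw [hdd, h'.fix]) y
    have h4 := h.comm_mem h' (h'.cent d' (h0 hd hdd) (ι y) (by rw [← hdd, h.fix])) h3
    by_cases h5 : z + y = 0
    · exact Or.inl (h3.trans (congrArg ι (eq_of_add h5)))
    · exact Or.inr (by rw [h3, ← H _ h4 h5, add_comm z, aab])
  have h3 : ∀ y', ι' y' * ι y₁ * (ι' y')⁻¹ = ι y₁ → y' = 0 ∨ y' = d' := by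
    intro y' h4
    have h5 : ∀ y, b y d = 0 → ι' y' * ι y * (ι' y')⁻¹ = ι y := fun y hy =>
      (h2 y' y).resolve_right fun h5 => by
        simpa [hb.symm d, hy₁] using h.pres _ _ _ _ _ h5 h4
    obtain ⟨z, hz⟩ := h.self (ι' y') fun y => by
      rcases z2 (b y d) with h7 | h7
      · exact h5 y h7
      · rw [← baa y₁ y]
        exact h.act_add (h5 _ (by simp [h7, hy₁, z11])) h4
    by_cases h7 : z = 0
    · exact Or.inl (h'.inj (by rw [hz, h7, h.zero, h'.zero]))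
    · exact Or.inr (h'.inj (by rw [hz, H z ⟨y', hz.symm⟩ h7, hdd]))
  obtain ⟨s, -, a1, a2, -⟩ := exists_out (T := (⊤ : Submodule (ZMod 2) W))
    (by rw [finrank_top]; omega) d' 0
  obtain ⟨t, -, a3, a4, a5, a6⟩ := exists_out (T := (⊤ : Submodule (ZMod 2) W))
    (by rw [finrank_top]; omega) d' s
  have a7 := (h2 s y₁).resolve_left fun h => by have := h3 s h; tauto
  have a8 := (h2 t y₁).resolve_left fun h => by have := h3 t h; tauto
  rcases h3 (s + t) (by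
    have a9 : ι' s * ι d * (ι' s)⁻¹ = ι d := by rw [hdd, h'.fix]
    have := h.act_add a7 a9
    rw [h'.add, show ι' s * ι' t * ι y₁ * (ι' s * ι' t)⁻¹ =
      ι' s * (ι' t * ι y₁ * (ι' t)⁻¹) * (ι' s)⁻¹ by group, a8, this, baa]) with h4 | h4
  · exact a5 (eq_of_add h4).symm
  · exact a6 (by rw [← h4, add_comm s, baa])

theorem sc_aux (h' : Core b N ι') (hne : Set.range ι ≠ Set.range ι')
    {A B : Submodule (ZMod 2) W} (hA : ∀ x, x ∈ A ↔ Nm ι' (ι x)) (hB : ∀ y, y ∈ B ↔ Nm ι (ι' y)) :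
    (∀ y ∈ B, ∃ σ, Iso b N σ ∧ (∀ x, ι' y * ι x * (ι' y)⁻¹ = ι (σ x)) ∧ (∀ x, σ (σ x) = x) ∧
      (∀ x, x + σ x ∈ orth b A) ∧ (y ≠ 0 → ∀ x, σ x = x ↔ x ∈ A)) ∧
    (B ≠ ⊥ → finrank (ZMod 2) W ≤ 2 * finrank (ZMod 2) A ∧
      finrank (ZMod 2) B ≤ finrank (ZMod 2) (orth b A)) := by
  have h1 : ∀ y ∈ B, ∃ σ, Iso b N σ ∧ (∀ x, ι' y * ι x * (ι' y)⁻¹ = ι (σ x)) ∧
      (∀ x, σ (σ x) = x) ∧ (∀ x, x + σ x ∈ orth b A) ∧ (y ≠ 0 → ∀ x, σ x = x ↔ x ∈ A) := by
    intro y hy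
    obtain ⟨σ, h2, h3⟩ := h.act ((hB y).1 hy)
    have h4 : ∀ x ∈ A, σ x = x := fun x hx => by
      by_contra h4
      obtain ⟨y', h5⟩ := h.comm_mem h' ((hA x).1 hx) (h3 x)
      exact hne (h.ti hb hR h6 h' (add_ne h4) h5)
    refine ⟨σ, h2, h3, fun x => h.inj ?_, fun x a ha => ?_, fun h0 x => ⟨fun hx => ?_, h4 x⟩⟩
    · rw [← h3, ← h3, h'.inv, ← mul_assoc, ← mul_assoc, h'.sq, mul_assoc, mul_assoc, h'.sq]; simp
    · rw [map_add, LinearMap.add_apply, ← h2.pres x a, h4 a ha, aa]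
    · refine (hA x).2 (h'.cent y h0 _ ?_)
      have := h3 x
      rw [hx, mul_inv_eq_iff_eq_mul] at this
      rw [← this, mul_inv_cancel_right]
  refine ⟨h1, fun hB0 => ?_⟩
  obtain ⟨y, hy, hy0⟩ := (Submodule.ne_bot_iff _).1 hB0
  obtain ⟨σ, a1, a2, a3, a4, a5⟩ := h1 y hy
  let n := lin (fun x => x + σ x) fun x y => by rw [a1.add, add_add_add_comm]
  have a6 : LinearMap.ker n = A := Submodule.ext fun x => by
    rw [← a5 hy0, LinearMap.mem_ker]
    exact ⟨fun h => (eq_of_add h).symm, fun h => show x + σ x = 0 by rw [h, aa]⟩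
  have a7 : finrank (ZMod 2) (LinearMap.range n) ≤ finrank (ZMod 2) A := Submodule.finrank_mono (by
    rintro _ ⟨x, rfl⟩
    exact (a5 hy0 _).1 (show σ (x + σ x) = x + σ x by rw [a1.add, a3, add_comm]))
  have a8 := n.finrank_range_add_finrank_ker
  rw [a6] at a8
  refine ⟨by omega, ?_⟩
  obtain ⟨x, hx⟩ : ∃ x, x ∉ A := by
    by_contra H
    push Not at H
    obtain ⟨z, hz⟩ := h.self (ι' y) fun x => by rw [a2, (a5 hy0 x).2 (H x)]
    exact hne (h'.ti hb hR h6 h hy0 hz).symm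
  choose σ c1 c2 c3 c4 c5 using fun y : B => h1 y y.2
  have c6 := Nat.card_le_card_of_injective (fun y : B => (⟨x + σ y x, c4 y x⟩ : orth b A))
    fun y y' H => by
      have c7 : σ y x = σ y' x := add_left_cancel (congrArg Subtype.val H)
      by_contra c8
      refine hx ((c5 (y + y') (add_ne fun h => c8 (Subtype.ext h)) x).1 (h.inj ?_))
      rw [← c2, Submodule.coe_add, h'.add, show ι' y * ι' y' * ι x * (ι' y * ι' y')⁻¹ =
        ι' y * (ι' y' * ι x * (ι' y')⁻¹) * (ι' y)⁻¹ by group, c2, ← c7, c2, c3]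
  rw [Module.natCard_eq_pow_finrank (K := ZMod 2) (V := B),
    Module.natCard_eq_pow_finrank (K := ZMod 2) (V := orth b A), Nat.card_zmod] at c6
  exact (Nat.pow_le_pow_iff_right one_lt_two).1 c6

theorem sc (h' : Core b N ι') {y : W} (hy0 : y ≠ 0) (hy : Nm ι (ι' y)) :
    Set.range ι = Set.range ι' := by
  by_contra hne
  let A := sub (fun x => Nm ι' (ι x)) (fun y => ⟨y, by simp [h.zero]⟩)
    fun x y h1 h2 => h.add x y ▸ h1.mul h2
  let B := sub (fun y => Nm ι (ι' y)) (fun y => ⟨y, by simp [h'.zero]⟩)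
    fun x y h1 h2 => h'.add x y ▸ h1.mul h2
  obtain ⟨h1, h2⟩ := h.sc_aux hb hR h6 h' hne (A := A) (B := B) (fun _ => Iff.rfl) fun _ => Iff.rfl
  obtain ⟨h3, h4⟩ := h2 ((Submodule.ne_bot_iff _).2 ⟨y, hy, hy0⟩)
  obtain ⟨h5, -⟩ := (h'.sc_aux hb hR h6 h (Ne.symm hne) (A := B) (B := A) (fun _ => Iff.rfl)
    fun _ => Iff.rfl).2 fun h => by rw [h, finrank_bot] at h3; omega
  have h7 := hb.finrank_orth A
  obtain ⟨y', hy', hy'0, hyy', -⟩ := exists_out (T := B) (by omega) y 0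
  obtain ⟨σ, a1, a2, a3, a4, a5⟩ := h1 y hy
  obtain ⟨σ', c1, c2, c3, c4, c5⟩ := h1 y' hy'
  replace a5 := a5 hy0
  replace c5 := c5 hy'0
  let n := lin (fun x => x + σ x) fun x y => by rw [a1.add, add_add_add_comm]
  have a6 : LinearMap.ker n = A := Submodule.ext fun x => by
    rw [← a5, LinearMap.mem_ker]
    exact ⟨fun h => (eq_of_add h).symm, fun h => show x + σ x = 0 by rw [h, aa]⟩
  have a8 := n.finrank_range_add_finrank_ker
  rw [a6] at a8
  have a9 : LinearMap.range n = A := Submodule.eq_of_le_of_finrank_le (by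
    rintro _ ⟨x, rfl⟩
    exact (a5 _).1 (show σ (x + σ x) = x + σ x by rw [a1.add, a3, add_comm])) (by omega)
  have a10 : A = orth b A := Submodule.eq_of_le_of_finrank_le (by
    nth_rw 1 [← a9]
    rintro _ ⟨x, rfl⟩
    exact a4 x) (by omega)
  have a11 : ∀ τ, Iso b N τ → (∀ x, τ (τ x) = x) → ∃ c, ∀ x, b x c = b x (τ x) := fun τ d1 d2 => by
    obtain ⟨c, hc⟩ := hb.rep (lin (fun x => b x (τ x)) fun x y => by
      have := d1.pres x (τ y)
      rw [d2, hb.symm] at this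
      simp only [d1.add, map_add, LinearMap.add_apply, this]
      rw [add_assoc, aab])
    exact ⟨c, fun x => (hb.symm _ _).trans (hc x)⟩
  obtain ⟨c, hc⟩ := a11 σ a1 a3
  obtain ⟨c', hc'⟩ := a11 σ' c1 c3
  obtain ⟨a₁, ha₁, d1, d2, d3, d4⟩ := exists_out (T := A) (by omega) c c'
  obtain ⟨v, d5, d6, d7⟩ := hb.b3 d1 d2 d3 d4
  obtain ⟨u, hu, e1, e2, e3⟩ := hR.three c c' a₁ v
  rw [d5, hc] at e1
  rw [d6, hc'] at e2
  have huA : u ∉ A := fun h => by
    rw [d7, (a10 ▸ h : u ∈ orth b A) a₁ ha₁] at e3; exact zero_ne_one e3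
  obtain ⟨g, hg⟩ := h.rich u (σ u) hu (a1.ns u hu)
  have e4 : ∀ x, tv b u (tv b (σ u) x) = x + b x u • u + b x (σ u) • σ u := fun x => by
    simp only [tv, map_add, map_smul, LinearMap.add_apply, LinearMap.smul_apply, hb.symm (σ u) u,
      e1, smul_zero, add_zero]
    abel
  have conj2 : ∀ {p q : G} {f f' : W → W}, (∀ x, p * ι x * p⁻¹ = ι (f x)) →
      (∀ x, q * ι x * q⁻¹ = ι (f' x)) → ∀ x, (p * q) * ι x * (p * q)⁻¹ = ι (f (f' x)) :=
    fun h1 h2 x => by rw [← h1, ← h2]; group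
  have hg' : ∀ x, g⁻¹ * ι x * g⁻¹⁻¹ = ι (tv b (σ u) (tv b u x)) := fun x => by
    have := hg (tv b (σ u) (tv b u x))
    rw [hb.tv_tv, hb.tv_tv] at this
    rw [← this]; group
  obtain ⟨z, hz⟩ := h.self (g * (ι' y * (g⁻¹ * ι' y))) fun x => by
    rw [conj2 hg (conj2 a2 (conj2 hg' a2)), a1.tv, a1.tv, a3, a3]
    simp only [e4, map_add, map_smul, LinearMap.add_apply, LinearMap.smul_apply, hb.alt, e1,
      hb.symm (σ u) u, smul_zero, add_zero]
    congr 1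
    rw [add_right_comm _ (b x u • u), baa, baa]
  have e5 : g * ι' y * g⁻¹ = ι z * ι' y := by
    rw [← hz, mul_assoc g (ι' y * _), mul_assoc (ι' y), mul_assoc g⁻¹, h'.sq]; group
  have e6 : z ∈ LinearMap.range n := by
    rw [a9, ← a5]
    refine (eq_of_add (h.inj ?_)).symm
    rw [h.add, ← a2, h.zero, h'.inv, ← mul_assoc, ← mul_assoc, ← e5, mul_assoc, ← e5]
    rw [show g * ι' y * g⁻¹ * (g * ι' y * g⁻¹) = g * (ι' y * ι' y) * g⁻¹ by group, h'.sq]; group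
  obtain ⟨x, rfl⟩ := e6
  have e7 : ι x * g * ι' y * (ι x * g)⁻¹ = ι' y := by
    have : ι (n x) = ι x * ι (σ x) := h.add _ _
    rw [show ι x * g * ι' y * (ι x * g)⁻¹ = ι x * (g * ι' y * g⁻¹) * (ι x)⁻¹ by group, e5, this, ← a2,
      ← mul_assoc, ← mul_assoc, h.sq]
    group
  have hk := conj2 (h.fix x) hg
  have hk' : ∀ z, (ι x * g)⁻¹ * ι z * (ι x * g)⁻¹⁻¹ = ι (tv b (σ u) (tv b u z)) := fun z => by
    rw [mul_inv_rev, h.inv x]
    exact conj2 hg' (h.fix x) z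
  generalize ι x * g = k at e7 hk hk'
  obtain ⟨y'', e8⟩ := h'.cent y hy0 k e7 y'
  have e9 : ∀ z, ι' (y'' + y') * ι z * (ι' (y'' + y'))⁻¹ =
      ι (tv b u (tv b (σ u) (σ' (tv b (σ u) (tv b u (σ' z)))))) := fun z => by
    rw [h'.add, ← e8]
    exact conj2 (conj2 (conj2 hk c2) hk') c2 z
  obtain ⟨τ, -, f2, -, -, f5⟩ := h1 (y'' + y') fun z => ⟨_, e9 z⟩
  have f6 : σ' (σ u) = σ' u + σ u + u := by
    have := (c5 _).2 (a10 ▸ a4 u : u + σ u ∈ A)
    rw [c1.add] at this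
    rw [← aab (σ' u) (σ' (σ u)), this]; abel
  have f7 : b (σ u) (σ' u) = 0 := by
    have := (a10 ▸ a4 u : u + σ u ∈ orth b A) _ (a10 ▸ c4 u : u + σ' u ∈ A)
    simpa [hb.alt, e1, e2, hb.symm (σ u) u] using this
  have f8 : y'' + y' = 0 := by
    by_contra f8
    refine huA ((f5 f8 u).1 (h.inj ?_))
    rw [← f2, e9, tv_zero ((hb.symm _ _).trans e2), tv_zero ((hb.symm _ _).trans f7), c3,
      tv_zero e1, hb.tv_self]
  have f9 : σ u ≠ u := fun h => huA ((a5 u).1 h)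
  have f10 : σ u ≠ σ' u := fun H => by
    obtain ⟨τ, -, g2, -, -, g5⟩ := h1 (y + y') (add_mem hy hy')
    refine huA ((g5 (add_ne hyy'.symm) u).1 (h.inj ?_))
    rw [← g2, h'.add, conj2 a2 c2, ← H, a3]
  obtain ⟨z, g1, g2⟩ := hb.b2 (a := u + σ' u) (add_ne f9.symm) (by simpa using f10)
  have g3 := e9 z
  rw [f8, h'.zero, one_mul, inv_one, mul_one] at g3
  replace g3 := congrArg (fun t => tv b (σ u) (tv b u t)) (h.inj g3)
  simp only [hb.tv_tv, c1.tv, c3, f6] at g3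
  refine huA ((c5 u).1 ?_)
  rw [map_add] at g1 g2
  have g4 := eq_of_add g1
  have g5 : b z (σ u) = b z u + 1 := by rw [← g2, aab]
  simp only [tv, map_add, map_smul, LinearMap.add_apply, LinearMap.smul_apply, hb.alt, e1, e2,
    hb.symm (σ' u) u, hb.symm (σ' u) (σ u), f7, ← g4, g5, smul_zero, add_zero] at g3
  rcases z2 (b z u) with g6 | g6
  · simp only [g6, zero_add, add_zero, zero_smul, one_smul, add_right_inj] at g3
    rw [add_right_comm, right_eq_add] at g3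
    exact eq_of_add g3
  · simp only [g6, z11, add_zero, zero_add, zero_smul, one_smul, add_assoc, add_right_inj] at g3
    exact g3.symm

/-- The main theorem: the image of `ι` is normal. -/
theorem nm [Finite G] (g : G) : Nm ι g := by
  classical
  by_contra hg
  have h' := h.conj g
  set ι' : W → G := fun x => g * ι x * g⁻¹ with hι'
  have hne : Set.range ι ≠ Set.range ι' := fun H => hg fun y => by
    obtain ⟨y', h1⟩ := (H ▸ ⟨y, rfl⟩ : ι' y ∈ Set.range ι)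
    exact ⟨y', h1.symm⟩
  let D : G → Prop := fun t => ∃ k x, x ≠ 0 ∧ t = k * ι x * k⁻¹
  have hD : ∀ {κ : W → G}, Core b N κ → ∀ t, D t → Nm κ t → t ∈ Set.range κ := by
    rintro κ hκ _ ⟨k, x, hx, rfl⟩ h1
    rw [hκ.sc hb hR h6 (h.conj k) hx h1]
    exact ⟨x, rfl⟩
  have hdih : ∀ d d', D d → D d' → ∀ m, D ((d * d') ^ m * d) := by
    rintro _ _ ⟨k, x, hx, rfl⟩ ⟨k', x', hx', rfl⟩ m
    obtain ⟨l, h1 | h1⟩ := dih ((h.conj k).sq x) ((h.conj k').sq x') m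
    · exact ⟨l * k, x, hx, by rw [h1]; group⟩
    · exact ⟨l * k', x', hx', by rw [h1]; group⟩
  have hsq : ∀ t, D t → t * t = 1 := by
    rintro _ ⟨k, x, -, rfl⟩
    exact (h.conj k).sq x
  have hz : ∀ {κ : W → G}, Core b N κ → ∀ x ≠ 0, ∀ d', D (κ x) → D d' → ∀ m,
      (κ x * d') ^ (2 * m) = 1 → (κ x * d') ^ m ∈ Set.range κ := by
    intro κ hκ x hx d' h1 h2 m h3
    have h4 := hdih _ _ h1 h2 m
    obtain ⟨y, hy⟩ := hD hκ _ h4 (hκ.cent x hx _ (by
      have h5 := hsq _ h4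
      rw [two_mul, pow_add] at h3
      generalize (κ x * d') ^ m = z at h3 h5
      rw [inv_eq_of_mul_eq_one_right h5, mul_assoc z, hκ.sq, mul_one, ← mul_assoc, h3, one_mul]))
    exact ⟨y + x, by rw [hκ.add, hy, mul_assoc, hκ.sq, mul_one]⟩
  have key : ∀ x ≠ 0, ∀ x' ≠ 0, ∃ t, D t ∧ t * ι x * t⁻¹ = ι' x' ∧
      ∀ t', D t' → t' * ι x * t'⁻¹ = ι' x' → t' = t := by
    intro x hx x' hx'
    have d1 : D (ι x) := ⟨1, x, hx, by simp⟩
    have d2 : D (ι' x') := ⟨g, x', hx', rfl⟩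
    have d3 := pow_orderOf_eq_one (ι x * ι' x')
    rcases Nat.even_or_odd' (orderOf (ι x * ι' x')) with ⟨m, h1 | h1⟩
    · exfalso
      rw [h1] at d3
      obtain ⟨y, hy⟩ := hz h x hx _ d1 d2 m d3
      have h2 : ι' x' * ι x = (ι x * ι' x')⁻¹ := by rw [mul_inv_rev, h.inv, h'.inv]
      obtain ⟨y', hy'⟩ := hz h' x' hx' _ d2 d1 m (by rw [h2, inv_pow, d3, inv_one])
      rw [h2, inv_pow, ← hy, h.inv] at hy'
      refine hne (h.ti hb hR h6 h' (fun h3 => ?_) hy'.symm)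
      rw [h3, h.zero] at hy
      have h4 := orderOf_pos (ι x * ι' x')
      exact absurd (Nat.le_of_dvd (by omega) (orderOf_dvd_of_pow_eq_one hy.symm)) (by omega)
    · rw [h1] at d3
      have d4 := hdih _ _ d1 d2 m
      have d5 : (ι x * ι' x') ^ m * ι x * ι x * ((ι x * ι' x') ^ m * ι x)⁻¹ = ι' x' := by
        rw [inv_eq_of_mul_eq_one_right (hsq _ d4), mul_assoc _ (ι x) (ι x), h.sq, mul_one,
          ← mul_assoc, ← pow_add, ← two_mul]
        rw [pow_succ, ← mul_assoc] at d3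
        exact (eq_inv_of_mul_eq_one_left d3).trans (h'.inv x')
      refine ⟨_, d4, d5, fun t d6 d7 => ?_⟩
      have d8 : ∀ s, D s → s * ι x * s⁻¹ = ι' x' → s * ι' x' * s⁻¹ = ι x := fun s h1 h2 => by
        rw [← h2, inv_eq_of_mul_eq_one_right (hsq s h1), ← mul_assoc, ← mul_assoc, hsq s h1,
          mul_assoc, hsq s h1]; simp
      have d9 : ∀ p q, (ι x * ι' x') ^ m * ι x * p * ((ι x * ι' x') ^ m * ι x)⁻¹ = q →
          t * q * t⁻¹ = p → Commute (t * ((ι x * ι' x') ^ m * ι x)) p := fun p q h1 h2 => by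
        rw [← h1] at h2
        exact mul_inv_eq_iff_eq_mul.1 (Eq.trans (by group) h2)
      have d10 := d9 _ _ d5 (d8 _ d6 d7)
      have d11 := (((d10.mul_right (d9 _ _ (d8 _ d4 d5) d7)).pow_right m).mul_right d10).eq
      generalize (ι x * ι' x') ^ m * ι x = t₀ at d4 d5 d10 d11
      rw [mul_assoc, hsq _ d4, mul_one] at d11
      obtain ⟨k, x₀, hx₀, rfl⟩ := d4
      have hκ := h.conj k
      obtain ⟨y, rfl⟩ := hD hκ t d6 (hκ.cent x₀ hx₀ t (by
        rw [mul_inv_eq_iff_eq_mul]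
        nth_rw 2 [d11]
        rw [← mul_assoc _ (k * ι x₀ * k⁻¹), hκ.sq, one_mul]))
      by_contra d12
      rw [← hκ.add] at d10
      have d13 := h.sc hb hR h6 hκ (y := y + x₀) (add_ne fun h => d12 (by rw [h]))
        (h.cent x hx _ (by rw [d10.eq, mul_inv_cancel_right]))
      obtain ⟨z, d14⟩ := (d13 ▸ ⟨x₀, rfl⟩ : k * ι x₀ * k⁻¹ ∈ Set.range ι)
      rw [← d14, h.fix] at d5
      exact hne (h.ti hb hR h6 h' hx d5)
  let T := {t : G // D t ∧ ∀ x, ∃ x', t * ι x * t⁻¹ = ι' x'}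
  choose σ hσ using fun t : T => t.2.2
  have hσ' : ∀ (t : T) x, (g⁻¹ * t.1) * ι x * (g⁻¹ * t.1)⁻¹ = ι (σ t x) := fun t x => by
    rw [← mul_left_cancel_iff (a := g), ← mul_right_cancel_iff (a := g⁻¹)]
    refine Eq.trans ?_ (hσ t x)
    group
  have hbij : ∀ x, ∀ hx : x ≠ 0, Function.Bijective fun t : T => (⟨σ t x, fun h1 => h.ne_one hx (by
      have := hσ' t x
      rwa [h1, h.zero, conj_eq_one_iff] at this)⟩ : {z : W // z ≠ 0}) := fun x hx => by
    constructor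
    · intro t t' H
      have H' : σ t x = σ t' x := congrArg Subtype.val H
      obtain ⟨s, -, -, h3⟩ := key x hx (σ t x) fun h1 => h.ne_one hx (by
        have := hσ' t x
        rwa [h1, h.zero, conj_eq_one_iff] at this)
      exact Subtype.ext ((h3 _ t.2.1 (hσ t x)).trans (h3 _ t'.2.1 (H' ▸ hσ t' x)).symm)
    · rintro ⟨z, hz⟩
      obtain ⟨s, h1, h2, -⟩ := key x hx z hz
      have h3 := (h.conj s).ti hb hR h6 h' hx h2
      refine ⟨⟨s, h1, fun y => ?_⟩, Subtype.ext (h'.inj ((hσ _ x).symm.trans h2))⟩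
      obtain ⟨y', h4⟩ := (h3 ▸ ⟨y, rfl⟩ : s * ι y * s⁻¹ ∈ Set.range ι')
      exact ⟨y', h4.symm⟩
  obtain ⟨q, hq⟩ := hb.exists_q
  have := Fintype.ofFinite T
  have := Fintype.ofFinite W
  have hsum : ∀ x ≠ 0, ∑ t : T, q (σ t x) = ∑ z : {z : W // z ≠ 0}, q z := fun x hx =>
    Fintype.sum_bijective _ (hbij x hx) _ _ fun _ => rfl
  have hfin : ∀ x ≠ 0, ∀ y ≠ 0, x ≠ y →
      (Fintype.card T : ZMod 2) * b x y = ∑ z : {z : W // z ≠ 0}, q z := fun x hx y hy hxy => by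
    rw [← hsum _ (add_ne hxy), Finset.sum_congr rfl fun t _ => by
      rw [h.inj ((hσ' t _).symm.trans (h.act_add (hσ' t x) (hσ' t y))), hq,
        h.pres _ _ _ _ _ (hσ' t x) (hσ' t y)],
      Finset.sum_add_distrib, Finset.sum_add_distrib, hsum x hx, hsum y hy, aa, zero_add]
    simp
  obtain ⟨x, -, hx, -⟩ := exists_out (T := (⊤ : Submodule (ZMod 2) W))
    (by rw [finrank_top]; omega) 0 0
  obtain ⟨y, hy⟩ := hb.b1 hx
  obtain ⟨z, hz, z1, z3, -⟩ := exists_out (T := orth b (Submodule.span _ {a | a ∈ [x]}))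
    (by have := hb.finrank_orth_list [x]; simp only [List.length] at this; omega) x 0
  have h1 := (hfin y (fun h => by simp [h] at hy) x hx (fun h => by simp [h, hb.alt] at hy)).trans
    (hfin z z1 x hx z3).symm
  rw [hy, mem_orth_span.1 hz x (by simp), mul_one, mul_zero, Fintype.card_of_bijective (hbij x hx),
    Fintype.card_subtype_compl, Fintype.card_subtype_eq, Module.card_eq_pow_finrank (K := ZMod 2),
    ZMod.card, Nat.cast_sub (Nat.one_le_two_pow), Nat.cast_pow, ZMod.natCast_self,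
    zero_pow (by omega)] at h1
  exact absurd h1 (by decide)

end Core

end Cfsg.Agent.H32.Xs
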