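import Cfsg.Agent.H32.XsStep
import Cfsg.Agent.H30.K4SL
import Cfsg.Agent.H26.Tv

/-!
Overgroups of the normaliser in the linear case.
-/

set_option autoImplicit false

namespace Cfsg.Agent.H32.Xs

open Module LinearMap

variable {K V W U : Type*} [Field K] [AddCommGroup V] [Module K V] [AddCommGroup W]
  [Module (ZMod 2) W] [AddCommGroup U] [Module K U] {b : LinearMap.BilinForm (ZMod 2) W}
  {q : W → ZMod 2} {s : W → End K V} {X : Subgroup (End K V)ˣ}

/-- A transvection in `X`. -/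
def TV (X : Subgroup (End K V)ˣ) (v : V) (φ : Dual K V) : Prop :=
  φ v = 0 ∧ InG X (transvection φ v)

/-- `X` contains the special linear group. -/
def SLe (X : Subgroup (End K V)ˣ) : Prop := ∀ g : End K V, LinearMap.det g = 1 → InG X g

theorem tvn_mul {v : V} {φ : Dual K V} (h : φ v = 0) :
    (transvection φ v : End K V) * transvection φ (-v) = 1 :=
  LinearMap.ext fun x => by simp [transvection.apply, h]

theorem tvn_conj {g k : End K V} (h : g * k = 1) (v : V) (φ : Dual K V) :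
    g * transvection φ v * k = transvection (φ ∘ₗ k) (g v) :=
  LinearMap.ext fun x => by simp [transvection.apply, show g (k x) = x from LinearMap.congr_fun h x]

theorem tvn_comp (w : V) (φ ψ : Dual K V) : φ ∘ₗ transvection ψ (-w) = φ - φ w • ψ :=
  LinearMap.ext fun x => by simp [transvection.apply, mul_comm, sub_eq_add_neg]

theorem InG.conj [FiniteDimensional K V] {g k a : End K V} (hg : InG X g) (h : g * k = 1)
    (ha : InG X a) : InG X (g * a * k) := (hg.mul ha).mul (hg.inv (mul_eq_one_comm.1 h))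

namespace TV

variable {u v w : V} {φ ψ : Dual K V}

theorem add (h : TV X u φ) (h' : TV X v φ) : TV X (u + v) φ :=
  ⟨by simp [h.1, h'.1], transvection.comp_of_left_eq h'.1 ▸ h.2.mul h'.2⟩

theorem sub (h : TV X u φ) (h' : TV X v φ) : TV X (u - v) φ :=
  sub_eq_add_neg u v ▸ h.add ⟨by simp [h'.1], h'.2.inv (by
    simpa using tvn_mul (φ := φ) (v := -v) (by simp [h'.1]))⟩

theorem sub_right (h : TV X u φ) (h' : TV X u ψ) : TV X u (φ - ψ) :=
  ⟨by simp [h.1, h'.1], by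
    convert h.2.mul ((h'.sub h').sub h').2 using 1
    ext x; simp [transvection.apply, h.1, add_smul, sub_eq_add_neg, add_assoc, add_comm (φ x • u)]⟩

variable [FiniteDimensional K V]

theorem conj {g k : End K V} (h : TV X v φ) (hg : InG X g) (hk : g * k = 1) :
    TV X (g v) (φ ∘ₗ k) :=
  ⟨by simp [show k (g v) = v from LinearMap.congr_fun (mul_eq_one_comm.1 hk) v, h.1],
    tvn_conj hk v φ ▸ hg.conj hk h.2⟩

theorem conj_tv (h : TV X u φ) (h' : TV X w ψ) : TV X (u + ψ u • w) (φ - φ w • ψ) :=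
  tvn_comp w φ ψ ▸ h.conj h'.2 (tvn_mul h'.1)

theorem comm_right (h : TV X u φ) (h' : TV X w ψ) (h0 : ψ u = 0) : TV X u (φ w • ψ) := by
  have h1 : TV X u (φ - φ w • ψ) := by simpa [h0] using h.conj_tv h'
  simpa using h.sub_right h1

end TV

theorem exists_dual {v w : V} (h : v ∉ K ∙ w) (c : K) : ∃ φ : Dual K V, φ v = c ∧ φ w = 0 := by
  obtain ⟨φ, h1, h2⟩ := Submodule.exists_le_ker_of_notMem h
  exact ⟨(c * (φ v)⁻¹) • φ, by simp [h1], by
    simp [LinearMap.mem_ker.1 (h2 (Submodule.mem_span_singleton_self w))]⟩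

theorem all_of_tv {P : V → Prop} {A : Submodule K V} (h2 : 2 ≤ finrank K A)
    (sub : ∀ a a', P a → P a' → P (a - a')) {v : V} (hv : P v) (hv0 : v ≠ 0)
    (hc : ∀ w ∈ A, ∀ χ : Dual K V, χ w = 0 → P (v + χ v • w)) (w : V) (hw : w ∈ A) : P w := by
  have key : ∀ w ∈ A, w ∉ K ∙ v → P w := fun w hw h1 => by
    obtain ⟨χ, h3, h4⟩ := exists_dual (v := v) (w := w) (fun h => h1 (by
      obtain ⟨c, hc⟩ := Submodule.mem_span_singleton.1 h
      exact Submodule.mem_span_singleton.2 ⟨c⁻¹, by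
        rw [← hc, inv_smul_smul₀ (left_ne_zero_of_smul (hc ▸ hv0))]⟩)) (1 : K)
    simpa [h3] using sub _ _ (hc w hw χ h4) hv
  by_cases h1 : w ∈ K ∙ v
  · obtain ⟨w', h3, h4⟩ := H26.exists_mem_notMem_of_finrank_lt (A := A) (S := K ∙ v)
      (by have := finrank_span_singleton (K := K) hv0; omega)
    simpa using sub _ _ (key _ (A.add_mem hw h3) fun h => h4 (by simpa using sub_mem h h1))
      (key _ h3 h4)
  · exact key w hw h1

theorem finrank_ker_dual [FiniteDimensional K V] (φ : Dual K V) :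
    finrank K V ≤ finrank K (ker φ) + 1 := by
  have h1 := φ.finrank_range_add_finrank_ker
  have h2 := (range φ).finrank_le
  rw [finrank_self] at h2
  omega

theorem sl_of_axis [FiniteDimensional K V] (hsp : Submodule.span K {g | InG X g} = ⊤)
    {ψ : Dual K V} (h0 : ψ ≠ 0) (h : ∀ v, ψ v = 0 → TV X v ψ) : SLe X := by
  let B := finBasis K V
  let T := toMatrixAlgEquiv B
  let M := X.map (Units.map T.toAlgHom.toMonoidHom)
  have hM : ∀ g, InG X g ↔ H26.HasMat M (T g) := fun g =>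
    ⟨fun ⟨g, h1, h2⟩ => ⟨_, ⟨g, h1, rfl⟩, h2 ▸ rfl⟩, fun ⟨_, ⟨k, h1, rfl⟩, h2⟩ => ⟨k, h1, T.injective h2⟩⟩
  have key := H26.specialLinear_le_of_elations (M := M) (φ₀ := fun i => ψ (B i)) (fun S hS => by
    have h1 : ∀ g ∈ Submodule.span K {g | InG X g}, ∀ φ ∈ S, Matrix.vecMul φ (T g) ∈ S := by
      intro g hg φ hφ
      induction hg using Submodule.span_induction with
      | mem g hg => obtain ⟨k, h1, h2⟩ := (hM g).1 hg; exact h2 ▸ hS k h1 φ hφ
      | zero => simp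
      | add g g' _ _ h1 h2 => rw [map_add, Matrix.vecMul_add]; exact S.add_mem h1 h2
      | smul c g _ h1 => rw [map_smul, Matrix.vecMul_smul]; exact S.smul_mem c h1
    refine or_iff_not_imp_left.2 fun h2 => eq_top_iff.2 fun χ _ => ?_
    obtain ⟨φ, h3, h4⟩ := Submodule.exists_mem_ne_zero_of_ne_bot h2
    obtain ⟨w, h5⟩ := H26.exists_dot_eq_one h4
    have := h1 (T.symm (Matrix.vecMulVec w χ)) (hsp ▸ Submodule.mem_top) φ h3
    rwa [T.apply_symm_apply, Matrix.vecMul_vecMulVec, dotProduct_comm, h5, one_smul] at this)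
    (fun h1 => h0 (B.ext fun i => congrFun h1 i)) fun v hv => ⟨hv, by
      convert (hM _).1 (h (B.equivFun.symm v) (by
        simpa [dotProduct, mul_comm] using hv)).2 using 1
      ext i j
      simp [T, toMatrixAlgEquiv_apply, transvection.apply, Matrix.vecMulVec_apply, mul_comm,
        Matrix.one_apply, Finsupp.single_apply, eq_comm]⟩
  intro g hg
  obtain ⟨k, hk⟩ : IsUnit (T g) := ((isUnit_iff_isUnit_det g).2 (hg ▸ isUnit_one)).map T
  exact (hM g).2 ⟨k, key ((H26.mem_specialLinear_iff k).2 (hk ▸ (det_toMatrix B g).trans hg)), hk⟩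

namespace Spl

variable {e r : End K V} {j : U →ₗ[K] V} {β : End K U × End K U →ₐ[K] End K V}
  (h : Spl e r j β)
include h

theorem exists_proj : ∃ p : V →ₗ[K] U, (∀ u, p (j u) = u) ∧ ∀ u, p (r (j u)) = 0 := by
  obtain ⟨l, hl⟩ := j.exists_leftInverse_of_injective (ker_eq_bot.2 h.inj)
  refine ⟨l ∘ₗ β (1, 0), fun u => ?_, fun u => by simp [h.βr]⟩
  simpa [h.βj] using LinearMap.congr_fun hl u

theorem exists_Y (X : Subgroup (End K V)ˣ) :
    ∃ Y : Subgroup (End K U)ˣ, ∀ a, InG Y a ↔ InG X (β (a, 1)) :=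
  ⟨X.comap (Units.map (β.toMonoidHom.comp (MonoidHom.inl _ _))), fun a =>
    ⟨fun ⟨a, h1, h2⟩ => ⟨_, h1, h2 ▸ rfl⟩, fun ha => by
      obtain ⟨a, rfl⟩ := (h.unit ha.isUnit).1
      exact InG.of_mem (InG.mem (g := Units.map (β.toMonoidHom.comp (MonoidHom.inl _ _)) a) ha)⟩⟩

theorem exists_inv {a a' : End K U} (ha : InG X (β (a, a'))) :
    ∃ k k', InG X (β (k, k')) ∧ a * k = 1 ∧ k * a = 1 ∧ a' * k' = 1 ∧ k' * a' = 1 := by
  obtain ⟨⟨a, rfl⟩, a', rfl⟩ := h.unit ha.isUnit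
  exact ⟨_, _, ha.inv (by rw [β_mul, a.inv_mul, a'.inv_mul, β_one]), a.mul_inv, a.inv_mul,
    a'.mul_inv, a'.inv_mul⟩

theorem exists_fst (X : Subgroup (End K V)ˣ) :
    ∃ Y : Subgroup (End K U)ˣ, ∀ a, InG Y a ↔ ∃ a', InG X (β (a, a')) := by
  let Y : Subgroup (End K U)ˣ :=
    { carrier := {a | ∃ a', InG X (β (a, a'))}
      mul_mem' := fun ⟨a, h1⟩ ⟨a', h2⟩ => ⟨a * a', by simpa only [β_mul, Units.val_mul] using h1.mul h2⟩
      one_mem' := ⟨1, by rw [Units.val_one, β_one]; exact InG.one⟩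
      inv_mem' := fun {a} ⟨a', h1⟩ => by
        obtain ⟨k, k', h2, h3, -⟩ := h.exists_inv h1
        exact ⟨k', by rwa [Units.inv_eq_of_mul_eq_one_right h3]⟩ }
  refine ⟨Y, fun a => ⟨fun ⟨k, h1, h2⟩ => h2 ▸ h1, fun ⟨a', h1⟩ => ?_⟩⟩
  obtain ⟨a, rfl⟩ := (h.unit h1.isUnit).1
  exact ⟨a, ⟨a', h1⟩, rfl⟩

theorem Y_conj {a a' k y : End K U} (ha : InG X (β (a, a'))) (hk : a * k = 1)
    (hy : InG X (β (y, 1))) : InG X (β (a * y * k, 1)) := by
  obtain ⟨l, l', h1, -, h2, h3, -⟩ := h.exists_inv ha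
  obtain rfl : l = k := left_inv_eq_right_inv h2 hk
  simpa only [β_mul, mul_one, h3] using (ha.mul hy).mul h1

end Spl

namespace Fr

variable (h : Fr b q s) [FiniteDimensional K V]
include h

theorem exists_eig {x : W} {c : K} (hx : x ≠ 0) (he : (c • s x) * (c • s x) = 1) :
    ∃ v ≠ 0, (c • s x) v = v := by
  by_contra H
  push Not at H
  have h1 : c • s x = -1 := LinearMap.ext fun v => by
    by_contra h2
    refine H (v + (c • s x) v) (fun h3 => h2 (eq_neg_of_add_eq_zero_right h3)) ?_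
    rw [map_add, show (c • s x) ((c • s x) v) = v from LinearMap.congr_fun he v, add_comm]
  have h2 := congrArg (trace K V) h1
  rw [map_smul, h.tr_s hx, smul_zero, map_neg, zero_eq_neg] at h2
  exact h.tr_one h2

theorem exists_tvn {x : W} {c : K} (hx : x ≠ 0) (he : (c • s x) * (c • s x) = 1) :
    ∃ (v : V) (φ : Dual K V), v ≠ 0 ∧ φ ≠ 0 ∧ φ v = 0 ∧
      (c • s x) * transvection φ v * (c • s x) = transvection φ (-v) := by
  obtain ⟨v, h1, h2⟩ := h.exists_eig hx he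
  obtain ⟨w, h3, h4⟩ := h.exists_eig hx (c := -c) (by rwa [neg_smul, neg_mul_neg])
  obtain ⟨φ, hφ⟩ := Module.Projective.exists_dual_ne_zero K h3
  have h5 : ∀ y, (c • s x) ((c • s x) y) = y := LinearMap.congr_fun he
  rw [neg_smul, LinearMap.neg_apply, neg_eq_iff_eq_neg] at h4
  generalize c • s x = e at *
  refine ⟨v, φ - φ ∘ₗ e, h1, fun h6 => mul_ne_zero h.two hφ ?_, by simp [h2], ?_⟩
  · simpa [h4, two_mul] using LinearMap.congr_fun h6 w
  · ext y
    simp [transvection.apply, h5, h2, sub_smul]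

theorem mem_of_inverted {Y : Subgroup (End K V)ˣ} {x : W} {c : K} {t t' : End K V}
    (he : (c • s x) * (c • s x) = 1) (ht : (c • s x) * t * (c • s x) = t') (hs : InG Y (s x))
    (hY : ∀ y, InG Y y → InG Y (t * y * t')) : InG Y (t' * t') := by
  have := h.nt
  have h1 : c ≠ 0 := fun h0 => by simp [h0] at he
  have h2 : s x * ((c * c) • s x) = 1 := by rw [← he, smul_mul_smul_comm, mul_smul_comm]
  convert hs.mul (hY _ (hs.inv (mul_eq_one_comm.1 h2))) using 1
  rw [← mul_assoc, ← mul_assoc, ← ht]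
  simp [smul_smul]

variable [Finite W]

theorem sq_sq_of_NG {x : W} {c : K} {t t' : End K V} (he : (c • s x) * (c • s x) = 1)
    (ht : (c • s x) * t * (c • s x) = t') (htt : t * t' = 1) (hN : InG h.NG t') :
    ∃ d : K, t' * t' * (t' * t') = d • 1 := by
  obtain ⟨y, d, hy⟩ := (h.inG_NG.1 hN).2 x
  obtain ⟨d', h1⟩ := h.mul y x
  have h2 : t' * t' = (c * c * d * d') • s (y + x) := by
    calc t' * t' = t' * (c • s x) * t * (c • s x) := by rw [mul_assoc t', mul_assoc t', ht]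
      _ = _ := by
        rw [mul_smul_comm c t', hy, smul_smul, smul_mul_assoc, mul_assoc (s y), mul_eq_one_comm.1 htt,
          mul_one, smul_mul_smul_comm, h1, smul_smul, mul_right_comm c d]
  exact ⟨_, by rw [h2, h.smul_sq]⟩

end Fr

theorem SF.engineL [FiniteDimensional K V] [FiniteDimensional K U] [Finite W] {x₀ y₀ : W}
    {e : End K V} {j : U →ₗ[K] V} {β : End K U × End K U →ₐ[K] End K V}
    {s' : hyp b x₀ y₀ → End K U} (h : SF b q s x₀ y₀ e j β s') {i : K} (hi : i * i = -1)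
    (h4 : 4 ≤ finrank (ZMod 2) (hyp b x₀ y₀)) (hX : h.fr.NG ≤ X)
    (hE : ∀ a, LinearMap.det a = 1 → ∃ a', InG X (β (a, a'))) : SLe X := by
  have hf := h.fr'
  have hU : 4 ≤ finrank K U := by
    have h1 := hf.finrank_sq
    have h2 : 4 ^ 2 ≤ finrank K U ^ 2 := h1 ▸ Nat.pow_le_pow_right (n := 2) two_pos h4
    exact (Nat.pow_le_pow_iff_left two_ne_zero).1 h2
  obtain ⟨Y, hY⟩ := h.spl.exists_Y X
  have hs : ∀ z, InG Y (s' z) := fun z => (hY _).2 ((h.ctl_NG z).mono hX)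
  have hn : ∀ w (ψ : Dual K U), ψ w = 0 → ∀ y, InG Y y →
      InG Y (transvection ψ w * y * transvection ψ (-w)) := fun w ψ h1 y hy => by
    obtain ⟨a', ha⟩ := hE (transvection ψ w) (by simp [h1])
    exact (hY _).2 (h.spl.Y_conj ha (tvn_mul h1) ((hY _).1 hy))
  obtain ⟨z, -, hz⟩ := exists_notMem (S := ⊥) (T := (⊤ : Submodule (ZMod 2) (hyp b x₀ y₀)))
    (by simp; omega)
  obtain ⟨c, hc⟩ := hf.liftI hi z
  obtain ⟨v, ψ, hv, hψ, h1, h2⟩ := hf.exists_tvn hz hc
  have h3 := hf.mem_of_inverted hc h2 (hs z) (hn v ψ h1)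
  have hk := finrank_ker_dual ψ
  have hY' : SLe Y := sl_of_axis (eq_top_iff.2 (hf.span ▸ Submodule.span_mono fun _ ⟨z, h⟩ =>
    h ▸ hs z)) hψ (all_of_tv (P := fun v => TV Y v ψ) (A := ker ψ) (by omega)
      (fun _ _ => TV.sub) (v := -v + -v) ⟨by simp [h1], transvection.comp_of_left_eq (f := ψ)
        (w := -v) (by simp [h1]) ▸ h3⟩ (by
          rw [← two_smul K]; exact smul_ne_zero hf.two (neg_ne_zero.2 hv)) fun w hw χ h5 => ⟨by
        simp [h1, mem_ker.1 hw], by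
        have := hn w χ h5 _ h3
        rwa [show (transvection ψ (-v) : End K U) * transvection ψ (-v) = _ from
          transvection.comp_of_left_eq (by simp [h1]), tvn_conj (tvn_mul h5), tvn_comp, mem_ker.1 hw,
          zero_smul, sub_zero] at this⟩)
  obtain ⟨p, p1, p2⟩ := h.spl.exists_proj
  have hA : ∀ w (χ : Dual K U), χ w = 0 → TV X (j w) (χ ∘ₗ p) := fun w χ h5 => ⟨by simp [p1, h5], by
    convert (hY _).1 (hY' (transvection χ w) (by simp [h5])) using 1
    exact h.spl.ext (fun u => by simp [h.spl.βj, transvection.apply, p1])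
      fun u => by simp [h.spl.βr, transvection.apply, p2]⟩
  obtain ⟨d, hd⟩ := h.fr.lift hi y₀
  have hd0 : d ≠ 0 := fun h0 => by have := h.fr.nt; simp [h0] at hd
  obtain ⟨w, h5, h6⟩ := H26.exists_mem_notMem_of_finrank_lt (A := ker ψ) (S := K ∙ v)
    (by have := finrank_span_singleton (K := K) hv; omega)
  obtain ⟨φ, h7, h8⟩ := exists_dual h6 2
  have h9 := (((hA v φ h8).conj ((h.fr.inG_NG_op hd).mono hX) (h.fr.op_mul hd).2).comm_right
    (hA w ψ h5) (by simp [p1, p2, h1]))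
  have h10 : TV X (s y₀ (j (d • v))) (ψ ∘ₗ p) := by
    have h10 : TV X (j v + d • s y₀ (j v)) (ψ ∘ₗ p) := by simpa [p1, p2, h7, hf.two] using h9
    simpa using h10.sub (hA v ψ h1)
  obtain ⟨k, k1, k2, k3⟩ := ((h.fr.inG_NG_s y₀).mono hX).exists_inv
  have h11 := all_of_tv (P := fun v => TV X (s y₀ (j v)) (ψ ∘ₗ p)) (A := (⊤ : Submodule K U))
    (by simp; omega)
    (fun _ _ h h' => by simpa using h.sub h') h10 (smul_ne_zero hd0 hv) fun w _ χ h5 => by
      simpa [p1, p2, show ∀ v, k (s y₀ v) = v from LinearMap.congr_fun k2] using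
        h10.conj_tv ((hA w χ h5).conj ((h.fr.inG_NG_s y₀).mono hX) k3)
  refine sl_of_axis (ψ := ψ ∘ₗ p) (eq_top_iff.2 (h.fr.span ▸ Submodule.span_mono
    fun _ ⟨z, hz⟩ => hz ▸ (h.fr.inG_NG_s z).mono hX))
    (fun h0 => hψ (LinearMap.ext fun u => by simpa [p1] using LinearMap.congr_fun h0 (j u)))
    fun u hu => ?_
  obtain ⟨u, u', rfl⟩ := h.spl.surj u
  exact (hA u ψ (by simpa [p1, p2] using hu)).add (h11 u' trivial)

namespace Fr

variable (h : Fr b q s) [FiniteDimensional K V] [Finite W]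
include h

theorem base {F E G : Type*} [Field F] [Fintype F] [AddCommGroup E] [Module F E]
    [FiniteDimensional F E] {Q : QuadraticForm F E} [Group G] (hp : (Fintype.card F).Prime)
    (h2 : (2 : F) ≠ 0) (hQ : (QuadraticMap.polarBilin Q).Nondegenerate)
    (h56 : finrank F E = 5 ∨ finrank F E = 6) (ψ : G →* (End K V)ˣ) (hψ : Function.Injective ψ)
    (φ : G →* H30.O Q) (hφ : φ.range = H30.kerDS hQ) {z : G} (hker : ∀ g, φ g = 1 ↔ g = 1 ∨ g = z)
    (hz : (ψ z : End K V) = -1) {μ : Subgroup Kˣ} (h1 : -1 ∈ μ) (h4 : ∀ c ∈ μ, (c : K) ^ 4 = 1)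
    (hm : ∀ x y, ∃ c ∈ μ, s x * s y = (c : K) • s (x + y))
    (hR : ∀ c ∈ μ, ∀ x, InG ψ.range ((c : K) • s x))
    (hc : Nat.card μ * Nat.card W = 2 ^ finrank F E) (hX : h.NG ⊓ ψ.range ≤ X) :
    X ⊓ ψ.range ≤ h.NG ∨ ψ.range ≤ X := by
  have := h.nt
  have hs : ∀ l, ∃ c ∈ μ, sg K l = (c : K) := fun l => by
    rcases z2 l with rfl | rfl
    exacts [⟨1, μ.one_mem, by simp⟩, ⟨-1, h1, by simp⟩]
  have h0 : ∀ c ∈ μ, ∃ d ∈ μ, (c : K) • (1 : End K V) = (d : K) • s 0 := fun c hc => by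
    obtain ⟨d, h3, h5⟩ := hm 0 0
    obtain ⟨d', h6, h7⟩ := hs (q 0)
    refine ⟨c * d'⁻¹ * d, μ.mul_mem (μ.mul_mem hc (μ.inv_mem h6)) h3, ?_⟩
    rw [h.sq, h7, add_zero] at h5
    rw [Units.val_mul, mul_smul, ← h5, smul_smul, ← Units.val_mul, inv_mul_cancel_right]
  let R : Subgroup (End K V)ˣ :=
    { carrier := {g | ∃ c ∈ μ, ∃ x, (g : End K V) = (c : K) • s x}
      mul_mem' := fun ⟨c, h1, x, h2⟩ ⟨d, h3, y, h4⟩ => by
        obtain ⟨t, h5, h6⟩ := hm x y
        exact ⟨c * d * t, μ.mul_mem (μ.mul_mem h1 h3) h5, x + y, by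
          rw [Units.val_mul, h2, h4, smul_mul_smul_comm, h6, smul_smul]; rfl⟩
      one_mem' := by
        obtain ⟨d, h1, h2⟩ := h0 1 μ.one_mem
        exact ⟨d, h1, 0, by simpa using h2⟩
      inv_mem' := fun ⟨c, h1, x, h2⟩ => by
        obtain ⟨d, h3, h4⟩ := hs (q x)
        refine ⟨c⁻¹ * d⁻¹, μ.mul_mem (μ.inv_mem h1) (μ.inv_mem h3), x,
          Units.inv_eq_of_mul_eq_one_right ?_⟩
        rw [h2, smul_mul_smul_comm, h.sq, h4, smul_smul]
        simp }
  have hN : Subgroup.normalizer (R : Set (End K V)ˣ) ≤ h.NG := fun g hg x => by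
    obtain ⟨c, -, y, h3⟩ := (Subgroup.mem_normalizer_iff.1 hg (h.isUnit x).unit).1
      ⟨1, μ.one_mem, x, by simp⟩
    exact ⟨y, c, by rw [← smul_mul_assoc, ← h3]; simp⟩
  have hN' : h.NG ⊓ ψ.range ≤ X := hX
  have key := H30.isMaximalIn_normalizer hp h2 hQ h56 ψ hψ rfl φ hφ (z := z) (fun h3 => by
    rw [h3, map_one, Units.val_one, eq_neg_iff_add_eq_zero, ← two_smul K] at hz
    exact smul_ne_zero h.two one_ne_zero hz) hker (R := R)
    (fun g ⟨c, h3, x, h5⟩ => InG.mem (h5 ▸ hR c h3 x)) (by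
      obtain ⟨d, h3, h5⟩ := h0 _ h1
      exact ⟨d, h3, 0, by simpa [hz] using h5⟩) (fun g ⟨c, h3, x, h5⟩ => by
      have h6 : (c * c * sg K (q x)) * (c * c * sg K (q x)) = 1 := by
        linear_combination c ^ 4 * sg_mul_self (K := K) (q x) + h4 c h3
      refine (mul_self_eq_one_iff.1 h6).imp (fun h7 => Units.ext ?_) fun h7 => Units.ext ?_ <;>
        simp [h5, h.smul_sq, h7, hz]) (by
      rw [← hc, ← Nat.card_prod]
      refine (Nat.card_congr (Equiv.ofBijective (fun p : μ × W => (⟨(IsUnit.smul p.1.1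
        (h.isUnit p.2)).unit, p.1.1, p.1.2, p.2, rfl⟩ : R)) ⟨fun p p' H => ?_,
          fun ⟨g, c, h3, x, h5⟩ => ⟨(⟨c, h3⟩, x), Subtype.ext (Units.ext h5.symm)⟩⟩)).symm
      have h3 : (p.1.1 : K) • s p.2 = (p'.1.1 : K) • s p'.2 := congrArg (fun g : R => g.1.1) H
      have h5 := h.inj ((eq_inv_smul_iff₀ p.1.1.ne_zero).2 h3 |>.trans (smul_smul _ _ _))
      rw [h5] at h3
      exact Prod.ext (Subtype.ext (Units.ext (smul_left_injective K (h.isUnit _).ne_zero h3))) h5)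
  exact (key.2 (X ⊓ ψ.range) (le_inf ((inf_le_inf_right _ hN).trans hX) inf_le_right)
    inf_le_right).imp (fun H => H.le.trans (inf_le_left.trans hN)) fun H => H.ge.trans inf_le_left

theorem mul_four (x y : W) : ∃ c ∈ rootsOfUnity 4 K, s x * s y = (c : K) • s (x + y) := by
  obtain ⟨c, h1, h2⟩ := h.mul' x y
  refine ⟨Units.mk0 c h1, (mem_rootsOfUnity' _ _).2 (h.pow_four (u := x + y)
    (t := sg K (q x + q y + b y x)) (sg_mul_self _) ?_), h2⟩
  rw [Units.val_mk0, ← h2, mul_assoc, ← mul_assoc (s y), h.comm y x, smul_mul_assoc, mul_smul_comm, mul_assoc,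
    h.sq, ← mul_assoc, h.sq, smul_mul_smul_comm, smul_smul, sg_add, sg_add, one_mul, mul_comm]

omit h in
theorem card_W {k : ℕ} (hk : finrank (ZMod 2) W = k) : Nat.card W = 2 ^ k := by
  have := Fintype.ofFinite W
  rw [Nat.card_eq_fintype_card, Module.card_eq_pow_finrank (K := ZMod 2), ZMod.card, hk]

omit [FiniteDimensional K V] [Finite W] in
theorem card_four {i : K} (hi : i * i = -1) : Nat.card (rootsOfUnity 4 K) = 4 := by
  have h1 : IsPrimitiveRoot i 4 := by
    have := orderOf_eq_prime_pow (p := 2) (n := 1) (x := i)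
      (by rw [pow_one, pow_two, hi]; exact (one_ne_neg h.two).symm)
      (by linear_combination (i * i - 1) * hi)
    exact (show 4 = orderOf i from this.symm) ▸ IsPrimitiveRoot.orderOf i
  exact h1.card_rootsOfUnity

theorem det_rich {i : K} (hi : i * i = -1) {u w : W} {c d : K} (hu : u ≠ 0) (hw : w ≠ 0)
    (hc : (c • s u) * (c • s u) = -1) (hd : (d • s w) * (d • s w) = -1) :
    LinearMap.det ((2 : K)⁻¹ • ((1 + c • s u) * (1 + d • s w))) = 1 := by
  obtain ⟨m, h1, h2⟩ := h.det_op hi hu hc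
  obtain ⟨m', h3, h4⟩ := h.det_op hi hw hd
  obtain rfl : m = m' := by omega
  rw [LinearMap.det_smul, map_mul, h2, h4, h1, ← pow_add, ← two_mul, ← mul_pow,
    inv_mul_cancel₀ h.two, one_pow]

/-- The four-dimensional case, from the maximality in a normal subgroup. -/
theorem base_norm {i : K} (hi : i * i = -1) (h4 : finrank (ZMod 2) W = 2 * 2) (hX : h.NG ≤ X)
    {G : Subgroup (End K V)ˣ} (hG : ∀ g ∈ X, ∀ k ∈ G, g * k * g⁻¹ ∈ G) (hs : ∀ x, InG G (s x))
    (rich : ∀ u w (c d : K), u ≠ 0 → w ≠ 0 → (c • s u) * (c • s u) = -1 →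
      (d • s w) * (d • s w) = -1 → InG G ((2 : K)⁻¹ • ((1 + c • s u) * (1 + d • s w))))
    (H : X ⊓ G ≤ h.NG) : X ≤ h.NG := by
  have key : ∀ a, InG h.NG a → InG G a → InG (X ⊓ G) a := fun a ⟨g, h1, h2⟩ h3 =>
    ⟨g, ⟨hX h1, InG.mem (h2 ▸ h3)⟩, h2⟩
  refine h.le_NG_of_normal (by omega) H (fun g hg k hk =>
    ⟨X.mul_mem (X.mul_mem hg hk.1) (X.inv_mem hg), hG g hg k hk.2⟩)
    (fun x => key _ (h.inG_NG_s x) (hs x)) fun u w hu hw => ?_
  obtain ⟨c, hc⟩ := h.lift hi u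
  obtain ⟨d, hd⟩ := h.lift hi w
  exact ⟨_, key _ (((h.inG_NG_op hc).mul (h.inG_NG_op hd)).smul h.hasZ_NG (inv_ne_zero h.two))
    (rich u w c d hu hw hc hd), ((h.act_op hc).mul (h.act_op hd)).smul _⟩

end Fr

variable (K V) in
/-- The special linear group. -/
noncomputable def SLG : Subgroup (End K V)ˣ := (LinearMap.det.comp (Units.coeHom (End K V))).ker

theorem mem_SLG {g : (End K V)ˣ} : g ∈ SLG K V ↔ LinearMap.det (g : End K V) = 1 := Iff.rfl

theorem inG_SLG [FiniteDimensional K V] {g : End K V} : InG (SLG K V) g ↔ LinearMap.det g = 1 :=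
  ⟨fun ⟨_, h1, h2⟩ => h2 ▸ h1, fun h => by
    obtain ⟨g, rfl⟩ := (isUnit_iff_isUnit_det g).2 (h ▸ isUnit_one)
    exact .of_mem h⟩

/-- Matrices as endomorphisms. -/
noncomputable def trB {ι : Type} [Fintype ι] [DecidableEq ι] (B : Basis ι K V) :
    GL ι K ≃* (End K V)ˣ := Units.mapEquiv (Matrix.toLinAlgEquiv B).toMulEquiv

theorem coe_trB {ι : Type} [Fintype ι] [DecidableEq ι] (B : Basis ι K V) (g : GL ι K) :
    (trB B g : End K V) = Matrix.toLin B B g := rfl

theorem Fr.baseL [Fintype K] (hp : (Fintype.card K).Prime) [FiniteDimensional K V] [Finite W]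
    (h : Fr b q s) {i : K} (hi : i * i = -1) (h4 : finrank (ZMod 2) W = 2 * 2) (hX : h.NG ≤ X) :
    X ≤ h.NG ∨ SLe X := by
  have hV : finrank K V = 4 := h.finrank_eq h4
  let B := finBasisOfFinrankEq K V hV
  obtain ⟨φ, hφ, h1⟩ := H30.exists_phi_sl4 (F := K)
  let ψ := (trB B).toMonoidHom.comp (Matrix.SpecialLinearGroup.toGL (n := Fin 4) (R := K))
  have hψ : ψ.range = SLG K V := by
    ext g
    refine ⟨?_, fun hg => ⟨⟨toMatrix B B g, (det_toMatrix B _).trans hg⟩,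
      Units.ext (Matrix.toLin_toMatrix B B _)⟩⟩
    rintro ⟨g, rfl⟩
    exact (det_toLin B _).trans g.2
  have hs := fun c hc x => inG_SLG.2 (h.det_smul_s hi (by omega) (c := c) hc x)
  refine (h.base hp h.two (H30.qPlus_nondegenerate 3) (by simp) ψ
    ((trB B).injective.comp Matrix.SpecialLinearGroup.toGL_injective) φ hφ (z := H28.negOne4 K)
    (fun g => ⟨fun hg => ?_, ?_⟩) ((map_neg (Matrix.toLin B B) 1).trans (by simp; rfl))
    (μ := rootsOfUnity 4 K) ((mem_rootsOfUnity' _ _).2 (by norm_num))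
    (fun c => (mem_rootsOfUnity' _ _).1) h.mul_four
    (fun c hc x => hψ ▸ hs c ((mem_rootsOfUnity' _ _).1 hc) x)
    (by rw [h.card_four hi, Fr.card_W h4]; simp) (inf_le_left.trans hX)).imp
    (fun H => h.base_norm hi h4 hX (G := SLG K V) (fun g _ k hk => (MonoidHom.normal_ker _).conj_mem k hk g)
      (fun x => by simpa using hs 1 (one_pow _) x)
      (fun u w c d hu hw hc hd => inG_SLG.2 (h.det_rich hi hu hw hc hd)) (hψ ▸ H))
    fun H g hg => (inG_SLG.2 hg).mono (hψ ▸ H)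
  · exact (H28.eq_of_klein_eq g.1 (by simp) fun v => by rw [← h1, hg]; rfl).imp
      (fun h => Subtype.ext h) fun h => Subtype.ext h
  · rintro (rfl | rfl)
    · exact map_one _
    · exact H30.O_ext fun v => by rw [h1]; exact (H30.klein_neg 1 v).trans (H30.klein_one v)

universe v w

theorem claimL [Fintype K] (hp : (Fintype.card K).Prime) {i : K} (hi : i * i = -1) (k : ℕ) :
    ∀ {V : Type v} [AddCommGroup V] [Module K V] [FiniteDimensional K V] {W : Type w}
      [AddCommGroup W] [Module (ZMod 2) W] [Finite W] {b : LinearMap.BilinForm (ZMod 2) W}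
      {q : W → ZMod 2} {s : W → End K V} (h : Fr b q s) {X : Subgroup (End K V)ˣ},
      finrank (ZMod 2) W = 2 * (k + 2) → h.NG ≤ X → X ≤ h.NG ∨ SLe X := by
  induction k with
  | zero => exact fun h _ h4 hX => h.baseL hp hi h4 hX
  | succ k ih =>
    intro V _ _ _ W _ _ _ b q s h X hk hX
    refine or_iff_not_imp_right.2 fun hn => h.stepT hi (by omega) hX fun x₀ y₀ c β s' hS => ?_
    have h1 := h.sy.finrank_hyp hS.b01
    obtain ⟨Y, hY⟩ := hS.spl.exists_fst X
    rcases ih hS.fr' (X := Y) (by omega) (fun a ha => InG.mem ((hY a).2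
      ⟨a, (hS.diag_NG (.of_mem ha)).mono hX⟩)) with H | H
    · exact fun a a' ha => ((hY a).2 ⟨a', ha⟩).mono H
    · exact absurd (hS.engineL hi (by omega) hX fun a ha => (hY a).1 (H a ha)) hn

end Cfsg.Agent.H32.Xs
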