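import Cfsg.Agent.H32.XsU

/-!
Centralisers of elements of order four in the symplectic and orthogonal cases.
-/

set_option autoImplicit false

namespace Cfsg.Agent.H32.Xs

open Module LinearMap H26 H26.PForm

variable {K V W U : Type*} [Field K] [AddCommGroup V] [Module K V] [AddCommGroup W]
  [Module (ZMod 2) W] [AddCommGroup U] [Module K U] {b : LinearMap.BilinForm (ZMod 2) W}
  {q : W → ZMod 2} {s : W → End K V} {X : Subgroup (End K V)ˣ} {P : PForm K V}

/-- A family of lifts preserving a bilinear form. -/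
structure OS (P : PForm K V) (b : LinearMap.BilinForm (ZMod 2) W) (q : W → ZMod 2)
    (s : W → End K V) : Prop where
  fr : Fr b q s
  σ : ∀ a, P.σ a = a
  im : ∀ x, Im P (s x)

/-- The hypotheses on an overgroup. -/
structure XR (P : PForm K V) (q : W → ZMod 2) (s : W → End K V) (X : Subgroup (End K V)ˣ) :
    Prop where
  hZ : HasZ X
  hs : ∀ x, InG X (s x)
  rich : ∀ u w (c d : K), q u = 1 → q w = 1 → (c • s u) * (c • s u) = -1 →
    (d • s w) * (d • s w) = -1 → InG X ((1 + c • s u) * (1 + d • s w))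
  sim : SimX P X

/-- The centraliser of `s x` normalises its centraliser in the group of lifts. -/
def Star (b : LinearMap.BilinForm (ZMod 2) W) (s : W → End K V) (X : Subgroup (End K V)ˣ) (x : W) :
    Prop :=
  ∀ g, InG X g → g * s x = s x * g → ∀ y, b y x = 0 → ∃ y', Cj s g y y'

theorem Im.norm [Nontrivial V] {g : End K V} {c : K} (h : Im P g) (h' : Im P (c • g)) :
    c * P.σ c = 1 := by
  obtain ⟨y, hy⟩ := exists_ne (0 : V)
  obtain ⟨x, hx⟩ := P.exists_f_left_eq hy 1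
  have := h' x y
  rwa [LinearMap.smul_apply, LinearMap.smul_apply, P.f_smul_left, P.f_smul_right, h, hx, mul_one] at this

theorem Im.skew {g : End K V} (h : Im P g) (hg : g * g = -1) (x y : V) :
    P.f (g x) y = -P.f x (g y) := by
  rw [← h x, show g (g y) = -y from LinearMap.congr_fun hg y, P.f_neg_right, neg_neg]

theorem eich_pow {e y : V} {ν : K} (h : P.EV e y ν) (hy : P.f y y = 0) (m : ℕ) :
    (P.eich e y ν : End K V) ^ m = P.eich e (m • y) (m • ν) := by
  have key : P.EV e (m • y) (m • ν) ∧ P.f (m • y) y = 0 ∧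
      (P.eich e y ν : End K V) ^ m = P.eich e (m • y) (m • ν) := by
    induction m with
    | zero => exact ⟨by simpa using EV.of_mem h.sing P.Λ.zero_mem, by simp [P.f_zero_left],
        LinearMap.ext fun x => by simp [P.eich_zero_zero]⟩
    | succ m ih =>
      refine ⟨by simpa only [ih.2.1, succ_nsmul', add_zero] using h.add ih.1,
        by rw [succ_nsmul, P.f_add_left, ih.2.1, hy, add_zero], LinearMap.ext fun x => ?_⟩
      rw [pow_succ', ih.2.2, End.mul_apply, h.eich_eich ih.1, ih.2.1, add_zero, succ_nsmul',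
        succ_nsmul']
  exact key.2.2

theorem InG.pow {g : End K V} (h : InG X g) (m : ℕ) : InG X (g ^ m) := by
  obtain ⟨g, h, rfl⟩ := h
  exact ⟨g ^ m, X.pow_mem h m, by simp⟩

theorem cast_pred [Fintype K] : ((Fintype.card K - 1 : ℕ) : K) = -1 := by
  rw [Nat.cast_sub Fintype.card_pos, FiniteField.cast_card_eq_zero]; simp

theorem sing_of_f (h2 : (2 : K) ≠ 0) {x : V} (h : P.f x x = 0) : P.Sing x := by
  simpa [h, Sing] using half_mem (P := P) h2 x

theorem Sy.dec0 (hb : Sy b) {x₀ y₀ y : W} (h01 : b x₀ y₀ = 1) (hy : b y x₀ = 0) :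
    ∃ y' : Xs.hyp b x₀ y₀, y = y' ∨ y = y' + x₀ := by
  obtain ⟨y', h1⟩ := hb.hyp_dec h01 y
  refine ⟨y', ?_⟩
  rcases z2 (b y y₀) with h2 | h2 <;> simp only [h2, hy, zero_smul, one_smul, add_zero] at h1
  exacts [Or.inl h1, Or.inr h1]

namespace OS

variable (h : OS P b q s)
include h

theorem mul (x y : W) : ∃ l, s x * s y = sg K l • s (x + y) := by
  have := h.fr.nt
  obtain ⟨c, hc⟩ := h.fr.mul x y
  have h1 := (h.im _).norm (hc ▸ (h.im x).mul (h.im y))
  rw [h.σ, mul_self_eq_one_iff] at h1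
  rcases h1 with rfl | rfl
  exacts [⟨0, by simpa using hc⟩, ⟨1, by simpa using hc⟩]

theorem qd : Qd b q := fun x y => by
  have := h.fr.nt
  obtain ⟨l, hl⟩ := h.mul x y
  have h1 := h.fr.smul_sq (sg K l) (x + y)
  rw [← hl, mul_assoc, ← mul_assoc (s y), h.fr.comm y x, smul_mul_assoc, mul_smul_comm, mul_assoc,
    h.fr.sq, ← mul_assoc, h.fr.sq, smul_mul_smul_comm, smul_smul, one_mul, sg_mul_self, one_mul,
    ← sg_add, ← sg_add] at h1
  rw [← sg_inj h.fr.two (smul_one_inj h1), h.fr.sy.symm, add_comm]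

theorem sq1 {x : W} (hx : q x = 1) : s x * s x = -1 := by simp [h.fr.sq, hx]

theorem sq0 {x : W} (hx : q x = 0) : s x * s x = 1 := by simp [h.fr.sq, hx]

theorem ne_zero {x : W} (hx : q x = 1) : x ≠ 0 := fun h0 => by
  rw [h0, h.qd.zero] at hx; exact zero_ne_one hx

theorem cj_sq {g : End K V} {c d : K} (hc : c ≠ 0) (hg : Im P (c • g)) {x y : W}
    (hd : g * s x = d • (s y * g)) : d * d = 1 := by
  have := h.fr.nt
  have h1 := hg.mul (h.im x)
  rw [smul_mul_assoc, hd, smul_comm, ← mul_smul_comm] at h1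
  simpa only [h.σ] using ((h.im y).mul hg).norm h1

theorem cj_q (hX : SimX P X) {g : End K V} (hg : InG X g) {x y : W} (hxy : Cj s g x y) :
    q y = q x := by
  obtain ⟨d, hd⟩ := hxy
  obtain ⟨c, h1, h2⟩ := hX g hg
  have := h.fr.cj_sq hg.isUnit hd
  rw [h.cj_sq h1 h2 hd, one_mul] at this
  exact (sg_inj h.fr.two this).symm

variable [FiniteDimensional K V] [Finite W] [Fintype K]

theorem nsa_split (hp : (Fintype.card K).Prime) (hX : XR P q s X) {i : K} (hi : i * i = -1) {k : ℕ}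
    (hk : finrank (ZMod 2) W = 2 * (k + 3)) {x₀ y₀ : W} (hx : q x₀ = 1) [FiniteDimensional K U]
    {j : U →ₗ[K] V} {β : End K U × End K U →ₐ[K] End K V} {s' : hyp b x₀ y₀ → End K U}
    (hS : SF b q s x₀ y₀ (-i • s x₀) j β s') :
    Star b s X x₀ ∨ ∀ v w, P.f (s y₀ (j w)) (j v) = 0 → P.Ei (toE X) (j v) (s y₀ (j w)) 0 := by
  have hb := h.fr.sy
  have h2 := h.fr.two
  have hf := hS.fr'
  have he : ∀ x y, P.f ((-i • s x₀) x) ((-i • s x₀) y) = -P.f x y := fun x y => by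
    rw [LinearMap.smul_apply, LinearMap.smul_apply, P.f_smul_left, P.f_smul_right, h.im, h.σ]
    linear_combination P.f x y * hi
  have h0 : ∀ x y : V, P.f x y = -P.f x y → P.f x y = 0 := fun x y H =>
    (mul_eq_zero.1 (by linear_combination H : (2 : K) * _ = 0)).resolve_left h2
  have o1 : ∀ u v, P.f (j u) (j v) = 0 := fun u v => h0 _ _ (by rw [← he, hS.spl.fix, hS.spl.fix])
  have o2 : ∀ u v, P.f (s y₀ (j u)) (s y₀ (j v)) = 0 := fun u v => (h.im _ _ _).trans (o1 u v)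
  have nd : ∀ {t : End K U}, IsUnit t → ∀ v v', (∀ u, P.f (j (t u)) (s y₀ (j v)) =
      P.f (j (t u)) (s y₀ (j v'))) → v = v' := fun ht v v' H =>
    hS.spl.inj (hS.spl.rinj (eq_of_f_right fun x => by
      obtain ⟨u, u', rfl⟩ := hS.spl.surj x
      obtain ⟨u, rfl⟩ := ((End.isUnit_iff _).1 ht).2 u
      rw [P.f_add_left, P.f_add_left, H, o2, o2]))
  have pr : ∀ {a a'} {c : K}, Im P (c • β (a, a')) → ∀ u v,
      c * c * P.f (j (a u)) (s y₀ (j (a' v))) = P.f (j u) (s y₀ (j v)) := fun H u v => by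
    rw [← H (j u), LinearMap.smul_apply, LinearMap.smul_apply, P.f_smul_left, P.f_smul_right, hS.spl.βj,
      hS.spl.βr, h.σ, mul_assoc]
  have pr' : ∀ z u v, P.f (j (s' z u)) (s y₀ (j (s' z v))) = P.f (j u) (s y₀ (j v)) := fun z u v => by
    simpa using pr (c := 1) (a := s' z) (a' := s' z) (by simpa [← hS.hs] using h.im z) u v
  have f0 : s x₀ = β (i • 1, -i • 1) := by
    rw [neg_smul, ← smul_neg, ← Spl.β_smul, hS.spl.β_e, smul_smul, mul_neg, hi, neg_neg, one_smul]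
  obtain ⟨Y, hY⟩ := hS.spl.exists_fst X
  have hZ : HasZ Y := fun c hc => (hY _).2 ⟨c • 1, by
    simpa only [← Spl.β_smul, Spl.β_one] using hX.hZ c hc⟩
  have h1 := hb.finrank_hyp hS.b01
  have full : ∀ u (c : K), (c • s' u) * (c • s' u) = -1 → InG Y (1 + c • s' u) := by
    intro u c hc
    obtain ⟨w, d, a', h3, h4, h5⟩ : ∃ (w : W) (d : K) (a' : End K U), q w = 1 ∧
        d • s w = β (c • s' u, a') ∧ a' * a' = -1 := by
      rcases z2 (q u) with h3 | h3
      · obtain ⟨t, h4, h5⟩ := hS.s_add u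
        exact ⟨u + x₀, c * t⁻¹, -(c • s' u), by rw [h.qd, h3, hx, hyp0]; rfl, by
          rw [h5, mul_smul, inv_smul_smul₀ h4, Spl.β_smul, smul_neg], by rwa [neg_mul_neg]⟩
      · exact ⟨u, c, _, h3, by rw [hS.hs, Spl.β_smul], hc⟩
    have h6 := hX.rich x₀ w 1 d hx h3 (by simpa using h.sq1 hx) (by
      rw [h4, Spl.β_mul, hc, h5, ← Spl.β_neg, Spl.β_one])
    rw [h4, one_smul, f0, Spl.β_one_add, Spl.β_one_add, Spl.β_mul] at h6
    refine InG.of_smul hZ (c := 1 + i) ?_ (h.fr.one_add_ne hi)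
    convert (hY _).2 ⟨_, h6⟩ using 1
    rw [add_smul, add_mul, one_mul, one_smul, smul_mul_assoc, one_mul]
  rcases claimL hp hi k hf (X := Y) (by omega) (hf.NG_le hi hZ
    (fun z => (hY _).2 ⟨_, hS.hs z ▸ hX.hs z⟩) full) with H | H
  · refine Or.inl fun g hg hge => ?_
    obtain ⟨a, a', rfl⟩ := hS.spl.cent (g := g) (by rw [mul_smul_comm, hge, smul_mul_assoc])
    obtain ⟨ha, ha'⟩ := hS.spl.unit hg.isUnit
    obtain ⟨c, h3, h4⟩ := hX.sim _ hg
    refine hS.cj_perp fun z => ?_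
    obtain ⟨z', d, h5⟩ := (hf.inG_NG.1 (((hY _).2 ⟨a', hg⟩).mono H)).2 z
    have h6 := hf.cj_ne ha h5
    refine hS.cj_β ha ha' ⟨d, h5⟩ ⟨d⁻¹, LinearMap.ext fun v => nd ((hf.isUnit z').mul ha) _ _
      fun u => mul_left_cancel₀ (mul_ne_zero (mul_ne_zero h3 h3) h6) ?_⟩
    have h7 := pr h4 (s' z u) (s' z v)
    rw [show a (s' z u) = _ from LinearMap.congr_fun h5 u, pr', ← pr h4 u v] at h7
    simp only [LinearMap.smul_apply, End.mul_apply, map_smul, P.f_smul_left, P.f_smul_right, h.σ,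
      pr'] at h7 ⊢
    rw [mul_assoc, h7]
    field_simp
  · refine Or.inr fun v w hya => ?_
    have e1 := EV.of_sing (sing_of_f h2 (o1 v v)) (sing_of_f h2 (o2 w w)) hya
    have e2 := e1.neg
    rw [map_zero, mul_zero] at e2
    obtain ⟨t, t', ht⟩ := hS.spl.cent (g := P.eich (j v) (-s y₀ (j w)) 0) (by
      have k1 := hS.spl.fix
      have k2 := hS.spl.neg
      refine hS.spl.ext (fun u => ?_) fun u => ?_ <;> generalize -i • s x₀ = e at k1 k2 ⊢ <;>
        simp [eich_apply, k1, k2, o1, o2, P.f_neg_left, P.f_neg_right, add_comm])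
    have e3 : t = transvection (P.ε • P.fL (s y₀ (j w)) ∘ₗ j) v := LinearMap.ext fun u =>
      hS.spl.inj (by
        rw [← hS.spl.βj t t', ← ht]
        simp [eich_apply, transvection.apply, o1, fL_apply, P.f_neg_right])
    obtain ⟨a', e4⟩ := (hY _).1 (H t (by simp [e3, fL_apply, f_symm_zero hya]))
    obtain ⟨c, e5, e6⟩ := hX.sim _ e4
    have e7 : a' = (c * c)⁻¹ • t' := LinearMap.ext fun u => nd (hS.spl.unit e4.isUnit).1 _ _
      fun u' => mul_left_cancel₀ (mul_ne_zero e5 e5) (by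
        have := pr (c := 1) (a := t) (a' := t') (by
          rw [one_smul, ← ht]; exact e2.f_eich) u' u
        rw [pr e6, ← this]
        simp only [LinearMap.smul_apply, map_smul, P.f_smul_right, h.σ]
        field_simp)
    have e8 := e4.pow (Fintype.card K - 1)
    rw [← map_pow, Prod.pow_mk, e7, smul_pow, FiniteField.pow_card_sub_one_eq_one _
      (inv_ne_zero (mul_ne_zero e5 e5)), one_smul, ← Prod.pow_mk, map_pow, ← ht, eich_pow e2 (by
        simp [P.f_neg_left, P.f_neg_right, o2]), ← Nat.cast_smul_eq_nsmul K, cast_pred] at e8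
    exact ei_iff.2 ⟨e1, by simpa using e8⟩

local notation "L" => QuadraticAlgebra K (-1) 0

open QuadraticAlgebra H28 in
theorem nsa_aux [Fact (∀ r : K, r ^ 2 ≠ -1 + 0 * r)] [Module L V] [IsScalarTower K L V]
    (hp : (Fintype.card K).Prime) (hX : XR P q s X) {k : ℕ}
    (hk : finrank (ZMod 2) W = 2 * (k + 3)) {x₀ : W} (hx : q x₀ = 1)
    (hω : ∀ v, (ω : L) • v = s x₀ v) :
    Star b s X x₀ ∨ ∀ u (c : K), P.f u u = 0 → P.f (s x₀ u) u = 0 → ∃ g, InG X g ∧
      (P.ε = 1 → g = P.eich u (c • s x₀ u) 0) ∧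
      (P.ε = -1 → ∀ x, g x = x - c • (P.f x u • u + P.f x (s x₀ u) • s x₀ u)) := by
  have hb := h.fr.sy
  have h2 := h.fr.two
  have hn : ∀ r : K, r * r ≠ -1 := fun r H =>
    (Fact.out : ∀ r : K, r ^ 2 ≠ -1 + 0 * r) r (by linear_combination H)
  have hff := h.sq1 hx
  have hsk := (h.im x₀).skew hff
  have hi : (ω : L) * ω = -1 := by ext <;> simp
  have hL : ∀ (c : L) (v : V), c • v = c.re • v + c.im • s x₀ v := fun c v => by
    rw [← hω, ← smul_assoc, ← algebraMap_smul L c.re, ← add_smul, ← mk_eq_add_smul_omega]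
  have : FiniteDimensional L V := Module.Finite.of_restrictScalars_finite K L V
  have h2' : (2 : L) ≠ 0 := fun H => h2 (by simpa using congrArg re H)
  let ρ : End L V →* End K V := ⟨⟨restrictScalars K, rfl⟩, fun _ _ => rfl⟩
  have hρ : Function.Injective ρ := restrictScalars_injective K
  have lift : ∀ g : End K V, g * s x₀ = s x₀ * g → ∃ a, ρ a = g := fun g hg =>
    ⟨⟨g.toAddHom, fun c v => by
      simp [hL, show g (s x₀ v) = s x₀ (g v) from LinearMap.congr_fun hg v]⟩, rfl⟩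
  have ρ1 : ∀ (c : K) a, ρ (algebraMap K L c • a) = c • ρ a := fun c a =>
    LinearMap.ext fun v => algebraMap_smul L c (a v)
  have ρ2 : ∀ a, ρ ((ω : L) • a) = s x₀ * ρ a := fun a => LinearMap.ext fun v => hω _
  have ρ3 : ∀ a a', ρ (a + a') = ρ a + ρ a' := fun _ _ => rfl
  have ρ4 : ∀ l, sg L l = algebraMap K L (sg K l) := fun l => by rcases z2 l with rfl | rfl <;> simp
  obtain ⟨y₀, hy⟩ := hb.b1 (h.ne_zero hx)
  replace hy := (hb.symm _ _).trans hy
  choose s₁ hs₁ using fun x : hyp b x₀ y₀ => lift (s x) (h.fr.comm0 (hyp0 x))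
  have hadd : ∀ x : hyp b x₀ y₀, ∃ c : K, c ≠ 0 ∧ ρ ((ω : L) • s₁ x) = c • s (x + x₀) := fun x => by
    obtain ⟨c, h1, h3⟩ := h.fr.mul' x x₀
    exact ⟨c, h1, by rw [ρ2, hs₁, ← h.fr.comm0 (hyp0 x), h3]⟩
  have hf : Fr (b.restrict (hyp b x₀ y₀)) (fun x => q x) s₁ := by
    refine ⟨hb.hyp hy, h2', h.fr.nt, fun x => hρ ?_, fun x y => hρ ?_, fun x y => ?_, ?_⟩
    · rw [map_mul, hs₁, ρ4, ρ1, h.fr.sq, map_one]
    · rw [map_mul, ρ4, ρ1, map_mul, hs₁, hs₁, h.fr.comm]; rfl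
    · obtain ⟨c, hc⟩ := h.fr.mul x y
      exact ⟨algebraMap K L c, hρ (by rw [map_mul, ρ1, hs₁, hs₁, hs₁, hc]; rfl)⟩
    · have key : ∀ g ∈ Submodule.span K (Set.range s), ∃ a ∈ Submodule.span L (Set.range s₁),
          ρ a = g - s x₀ * g * s x₀ := fun g hg => by
        induction hg using Submodule.span_induction with
        | mem _ hg =>
          obtain ⟨x, rfl⟩ := hg
          have h1 : ∀ x, s₁ x ∈ Submodule.span L (Set.range s₁) := fun x =>
            Submodule.subset_span ⟨x, rfl⟩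
          rcases z2 (b x x₀) with h3 | h3
          · rw [← h.fr.comm0 h3, mul_assoc, hff, mul_neg, mul_one, sub_neg_eq_add]
            obtain ⟨y, rfl | rfl⟩ := hb.dec0 hy h3
            · exact ⟨_, add_mem (h1 y) (h1 y), by rw [ρ3, hs₁]⟩
            · obtain ⟨c, h4, hc⟩ := hadd y
              have h5 := Submodule.smul_mem _ (algebraMap K L c⁻¹) (Submodule.smul_mem _ ω (h1 y))
              exact ⟨_, add_mem h5 h5, by rw [ρ3, ρ1, hc, inv_smul_smul₀ h4]⟩
          · exact ⟨0, zero_mem _, by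
              rw [h.fr.comm1 ((hb.symm _ _).trans h3), neg_mul, mul_assoc, hff]; simp; rfl⟩
        | zero => exact ⟨0, zero_mem _, by simp; rfl⟩
        | add g g' _ _ h1 h2 =>
          obtain ⟨a, ha, h1⟩ := h1
          obtain ⟨a', ha', h2⟩ := h2
          exact ⟨a + a', add_mem ha ha', by rw [ρ3, h1, h2]; noncomm_ring⟩
        | smul c g _ h1 =>
          obtain ⟨a, ha, h1⟩ := h1
          exact ⟨_, Submodule.smul_mem _ (algebraMap K L c) ha, by rw [ρ1, h1]; simp [smul_sub]⟩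
      refine eq_top_iff.2 fun a _ => ?_
      obtain ⟨a', ha', h1⟩ := key ((2 : K)⁻¹ • ρ a) (h.fr.span ▸ Submodule.mem_top)
      convert ha'
      refine hρ ?_
      rw [h1, mul_smul_comm, smul_mul_assoc, ← ρ2,
        show ρ ((ω : L) • a) * s x₀ = -ρ a from LinearMap.ext fun v => ?_, smul_neg, sub_neg_eq_add,
        ← two_smul K, smul_inv_smul₀ h2]
      change (ω : L) • a (s x₀ v) = -a v
      rw [← hω, map_smul, smul_smul, hi, neg_one_smul]
  have four : ∀ (c : L) (u : hyp b x₀ y₀), c ^ 4 = 1 → ∃ (w : W) (d : K),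
      ρ (c • s₁ u) = d • s w := fun c u hc => by
    have h1 : (c - 1) * (c + 1) * ((c - ω) * (c + ω)) = 0 := by
      linear_combination hc - (c ^ 2 - 1) * hi
    obtain ⟨d, -, hd⟩ := hadd u
    have h3 : ∀ a, ρ (-a) = -ρ a := fun _ => rfl
    simp only [mul_eq_zero, sub_eq_zero, add_eq_zero_iff_eq_neg] at h1
    rcases h1 with (rfl | rfl) | rfl | rfl
    · exact ⟨u, 1, by simp [hs₁]⟩
    · exact ⟨u, -1, by simp [hs₁, h3]⟩
    · exact ⟨_, d, hd⟩
    · exact ⟨_, -d, by rw [neg_smul, h3, hd, neg_smul]⟩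
  obtain ⟨κ, κ0, κ1, κ2, κ3⟩ : ∃ κ : L, κ ≠ 0 ∧ star κ = algebraMap K L P.ε * κ ∧
      (P.ε = 1 → κ = 1) ∧ (P.ε = -1 → κ = ω) := by
    rcases P.ε_cases with h1 | h1
    · exact ⟨1, one_ne_zero, by simp [h1], fun _ => rfl, fun H => absurd (h1 ▸ H) (one_ne_neg h2)⟩
    · exact ⟨ω, fun H => by simpa using congrArg QuadraticAlgebra.im H, by ext <;> simp [h1],
        fun H => absurd (H ▸ h1) (one_ne_neg h2), fun _ => rfl⟩
  let P₁ : PForm L V := ofHerm starRingAut star_star ⟨ω, fun H => h2 (by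
      have := congrArg QuadraticAlgebra.im H
      simp only [starRingAut_apply, im_star, omega_im] at this
      linear_combination -this)⟩ 2⁻¹ (by
      rw [map_inv₀, map_ofNat, ← two_mul, mul_inv_cancel₀ h2'])
    (fun x y => κ * ⟨P.f x y, -P.f (s x₀ x) y⟩)
    (fun x y z => by rw [← mul_add]; congr 1; ext <;> simp [P.f_add_left, add_comm])
    (fun c x y => by
      rw [mul_left_comm]; congr 1
      ext <;> simp [hL, P.f_add_left, P.f_smul_left, P.f_neg_left, add_comm,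
        show s x₀ (s x₀ x) = -x from LinearMap.congr_fun hff x])
    (fun x y => by
      rw [starRingAut_apply, star_mul', κ1, mul_comm _ κ, mul_assoc]; congr 1
      ext <;> simp [P.herm x y, hsk y x, P.herm (s x₀ x) y, h.σ])
    fun y H => P.nondeg y fun x => congrArg re ((mul_eq_zero.1 (H x)).resolve_left κ0)
  have hP₁ : ∀ x y, P₁.f x y = κ * ⟨P.f x y, -P.f (s x₀ x) y⟩ := fun _ _ => rfl
  have hP : UP P₁ (Fintype.card K) ω :=
    ⟨rfl, fun a => (pow_card_eq_star a).symm, le_rfl, hi, by ext <;> simp [P₁, ofHerm]⟩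
  have him : ∀ a, Im P (ρ a) → Im P₁ a := fun a ha x y => by
    rw [hP₁, hP₁, ← hω, ← map_smul, hω]
    exact congrArg₂ (fun p p' => κ * (⟨p, -p'⟩ : L)) (ha x y) (ha _ y)
  let Y := X.comap (Units.map ρ)
  have hY : ∀ a, InG Y a ↔ InG X (ρ a) := fun a => ⟨fun ⟨a, h1, h3⟩ => ⟨_, h1, h3 ▸ rfl⟩, fun H => by
    obtain ⟨a, rfl⟩ := (End.isUnit_iff a).2 ((End.isUnit_iff (ρ a)).1 H.isUnit)
    exact .of_mem (InG.mem (g := Units.map ρ a) H)⟩
  have h1 := hb.finrank_hyp hy
  have full : ∀ u (c : L), (c • s₁ u) * (c • s₁ u) = -1 → InG (zc Y) (1 + c • s₁ u) := by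
    intro u c hc
    obtain ⟨w, d, h3⟩ := four c u (hf.pow_four (t := -1) (by simp) (by simpa using hc))
    have h4 : (d • s w) * (d • s w) = -1 := by rw [← h3, ← map_mul, hc]; rfl
    refine inG_zc.2 ⟨1 + ω, hf.one_add_ne hi, (hY _).2 ?_⟩
    convert hX.rich x₀ w 1 d hx ((z2 _).resolve_left fun h5 => hn d ?_) (by simpa using hff) h4
      using 1
    · rw [add_smul, one_smul, ρ3, ρ2, ρ3, h3, map_one, one_smul, add_mul, one_mul]
    · have := h.fr.nt
      rw [h.fr.smul_sq, h5, sg_zero, mul_one, ← neg_one_smul K] at h4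
      exact smul_one_inj h4
  rcases claimU hp (card_quadraticAlgebra _ _) k hf (X := zc Y) hP
    (fun x => him _ (hs₁ x ▸ h.im x)) (by omega)
    (hf.NG_le hi hasZ_zc (fun z => ((hY _).2 (hs₁ z ▸ hX.hs z)).mono le_zc) full) (fun a ha => by
      obtain ⟨c, h3, h4⟩ := inG_zc.1 ha
      obtain ⟨d, h5, h6⟩ := hX.sim _ ((hY _).1 h4)
      exact ⟨algebraMap K L d * c, mul_ne_zero (by simpa) h3, him _ (by rwa [mul_smul, ρ1])⟩)
    with H | H
  · refine Or.inl fun g hg hge y hy' => ?_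
    obtain ⟨a, rfl⟩ := lift g hge
    have h3 := ((hY a).2 hg).mono (le_zc.trans H)
    have h4 : ∀ z : hyp b x₀ y₀, ∃ w, Cj s (ρ a) z w := fun z => by
      obtain ⟨z', c, h4⟩ := (hf.inG_NG.1 h3).2 z
      obtain ⟨w, d, h5⟩ := four c z' (hf.cj_four h3.isUnit h4)
      exact ⟨w, d, by rw [← hs₁, ← map_mul, h4, ← smul_mul_assoc, map_mul, h5, smul_mul_assoc]⟩
    obtain ⟨z, rfl | rfl⟩ := hb.dec0 hy hy'
    · exact h4 z
    · exact (h4 z).elim fun w hw => ⟨_, h.fr.cj_add hw ⟨1, by rw [hge, one_smul]⟩⟩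
  · refine Or.inr fun u c h3 h4 => ?_
    have h5 : P₁.EV u 0 (algebraMap K L c * ω) := EV.of_mem
      (sing_of_f h2' (by rw [hP₁, h3, h4, neg_zero]; exact mul_zero κ)) (by
        change _ + star _ = 0
        ext <;> simp)
    obtain ⟨d, h6, h7⟩ := inG_zc.1 (mem_toE.1 (H h5.equiv_mem_E))
    have h8 := h7.pow (Fintype.card L - 1)
    rw [smul_pow, FiniteField.pow_card_sub_one_eq_one _ h6, one_smul,
      show (h5.equiv : V →ₗ[L] V) = P₁.eich u 0 _ from rfl, eich_pow h5 (P₁.f_zero_left _),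
      smul_zero, nsmul_eq_mul, cast_pred] at h8
    refine ⟨_, (hY _).1 h8, fun h9 => LinearMap.ext fun x => ?_, fun h9 x => ?_⟩ <;>
      refine (P₁.eich_zero_apply _ _ _).trans ?_
    · simp [hP₁, κ2 h9, hL, eich_apply, show P₁.ε = 1 from rfl, h9, P.f_smul_right, h.σ, hsk]
      module
    · simp [hP₁, κ3 h9, hL, show P₁.ε = 1 from rfl, hsk]
      module

theorem nsa_ns (hp : (Fintype.card K).Prime) (hX : XR P q s X) (hn : ∀ i : K, i * i ≠ -1) {k : ℕ}
    (hk : finrank (ZMod 2) W = 2 * (k + 3)) {x₀ : W} (hx : q x₀ = 1) :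
    Star b s X x₀ ∨ ∀ u (c : K), P.f u u = 0 → P.f (s x₀ u) u = 0 → ∃ g, InG X g ∧
      (P.ε = 1 → g = P.eich u (c • s x₀ u) 0) ∧
      (P.ε = -1 → ∀ x, g x = x - c • (P.f x u • u + P.f x (s x₀ u) • s x₀ u)) := by
  have : Fact (∀ r : K, r ^ 2 ≠ -1 + 0 * r) := ⟨fun r H => hn r (by linear_combination H)⟩
  let φ : L →ₐ[K] End K V := QuadraticAlgebra.lift ⟨s x₀, by simp [h.sq1 hx]⟩
  let _ : Module L V := Module.compHom V φ.toRingHom
  have : IsScalarTower K L V := ⟨fun c a v => LinearMap.congr_fun (map_smul φ c a) v⟩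
  exact h.nsa_aux hp hX hk hx fun v => LinearMap.congr_fun
    (show φ QuadraticAlgebra.omega = s x₀ by simp [φ]) v

end OS

end Cfsg.Agent.H32.Xs
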