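import Cfsg.Agent.H32.XsS
import Cfsg.Agent.H26.PC3OGeo

/-!
Overgroups of the normaliser in the orthogonal case.
-/

set_option autoImplicit false

namespace Cfsg.Agent.H32.Xs

open Module LinearMap H26 H26.PForm

universe v

variable {K W U : Type*} {V : Type v} [Field K] [AddCommGroup V] [Module K V] [AddCommGroup W]
  [Module (ZMod 2) W] [AddCommGroup U] [Module K U] {b : LinearMap.BilinForm (ZMod 2) W}
  {q : W → ZMod 2} {s : W → End K V} {X : Subgroup (End K V)ˣ} {P : PForm K V} {N : W → Prop}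

theorem burn {G : Type*} [Group G] [Finite G] {ι : W → G} (add : ∀ x y, ι (x + y) = ι x * ι y)
    (hC : ∀ f, N f → ∀ g, g * ι f = ι f * g → ∃ y, ι y = g) (hN : ∀ g, Nm ι g → ∃ y, ι y = g)
    {u w : W} (hu : N u) (hw : N w) (huw : N (u + w)) (g : G) : ∃ y, ι y = g := by
  have h0 : ι 0 = 1 := by simpa using add 0 0
  have sq : ∀ x, ι x * ι x = 1 := fun x => by rw [← add, aa, h0]
  let E : Subgroup G :=
    { carrier := Set.range ι
      mul_mem' := fun ⟨x, hx⟩ ⟨y, hy⟩ => ⟨x + y, by rw [add, hx, hy]⟩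
      one_mem' := ⟨0, h0⟩
      inv_mem' := fun ⟨x, hx⟩ => ⟨x, by rw [← hx, inv_eq_of_mul_eq_one_right (sq x)]⟩ }
  obtain ⟨S, hS⟩ := IsPGroup.exists_le_sylow (p := 2) (P := E) fun ⟨_, x, rfl⟩ =>
    ⟨1, Subtype.ext ((pow_two _).trans (sq x))⟩
  have := S.2.isNilpotent
  have h1 : (S : Subgroup G) = E := le_antisymm (Subgroup.subgroupOf_eq_top.1
    (normalizerCondition_iff_only_full_group_self_normalizing.1 normalizerCondition_of_isNilpotent
      (E.subgroupOf S) (le_antisymm (fun g hg => by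
        refine hN g fun y => ?_
        obtain ⟨x, hx⟩ := (Subgroup.mem_normalizer_iff.1 hg ⟨ι y, hS ⟨y, rfl⟩⟩).1 ⟨y, rfl⟩
        exact ⟨x, hx.symm⟩) Subgroup.le_normalizer))) hS
  have h2 : Subgroup.normalizer (S : Set G) ≤ Subgroup.centralizer (S : Set G) := fun g hg k hk => by
    obtain ⟨x, rfl⟩ := hN g fun y => (h1.le ((Subgroup.mem_normalizer_iff.1 hg (ι y)).1
      (hS ⟨y, rfl⟩))).imp fun _ h => h.symm
    obtain ⟨y, rfl⟩ := h1.le hk
    rw [← add, ← add, add_comm]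
  have h3 := MonoidHom.ker_transferSylow_isComplement' S h2
  have h4 : (MonoidHom.transferSylow S h2).ker.Normal := inferInstance
  generalize (MonoidHom.transferSylow S h2).ker = L at h3 h4
  have h5 : ∀ f, N f → MonoidHom.FixedPointFree (MulAut.conjNormal (ι f) : MulAut L) :=
    fun f hf l hl => Subtype.ext (Subgroup.disjoint_def.1 h3.disjoint l.2 (hS (hC f hf l
      (mul_inv_eq_iff_eq_mul.1 (congrArg Subtype.val hl)).symm)))
  have h6 : ∀ f, N f → ∀ l : L, MulAut.conjNormal (ι f) l = l⁻¹ := fun f hf =>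
    congrFun ((h5 f hf).coe_eq_inv_of_involutive fun l => by
      rw [← MulAut.mul_apply, ← map_mul, sq, map_one, MulAut.one_apply])
  obtain ⟨⟨l, k⟩, rfl, -⟩ := h3.existsUnique g
  rw [h5 _ huw l (by rw [add, map_mul, MulAut.mul_apply, h6 w hw, h6 u hu, inv_inv])]
  exact (h1.le k.2).imp fun _ h => h.trans (one_mul _).symm

namespace Fr

variable (h : Fr b q s) [FiniteDimensional K V]
include h

theorem exists_quot [Finite K] (hs : ∀ x, InG X (s x)) :
    ∃ (G : Type v) (_ : Group G) (_ : Finite G) (π : X →* G) (ι : W → G), Function.Surjective π ∧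
      (∀ x y, ι (x + y) = ι x * ι y) ∧ (∀ g x y, π g * ι x * (π g)⁻¹ = ι y ↔ Cj s g.1 x y) ∧
      ∀ g y, ι y = π g ↔ ∃ c : K, s y = c • (g.1 : End K V) := by
  let Z : Subgroup X :=
    { carrier := {g | ∃ c : K, (g.1 : End K V) = c • 1}
      mul_mem' := fun ⟨c, hc⟩ ⟨d, hd⟩ => ⟨c * d, by simp [hc, hd, smul_smul, mul_comm]⟩
      one_mem' := ⟨1, by simp⟩
      inv_mem' := fun {g} ⟨c, hc⟩ => ⟨c⁻¹, by
        have h1 : c ≠ 0 := fun h0 => h.ne_zero g.1.isUnit (by rw [hc, h0, zero_smul])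
        exact Units.inv_eq_of_mul_eq_one_right (by simp [hc, smul_smul, h1])⟩ }
  have : Z.Normal := ⟨fun z ⟨c, hc⟩ g => ⟨c, by simp [hc]⟩⟩
  have : Finite V := Module.finite_of_finite K
  have : Finite (End K V) := DFunLike.finite _
  choose S hS1 hS2 using hs
  let π := QuotientGroup.mk' Z
  have hπ : ∀ g k : X, π g = π k ↔ ∃ c : K, (g.1 : End K V) = c • k.1 := fun g k => by
    rw [QuotientGroup.mk'_apply, QuotientGroup.mk'_apply, eq_comm, QuotientGroup.eq]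
    refine exists_congr fun c => ?_
    simp only [Subgroup.coe_mul, Subgroup.coe_inv, Units.val_mul]
    rw [Units.inv_mul_eq_iff_eq_mul, mul_smul_comm, mul_one]
  refine ⟨_, _, inferInstance, π, fun x => π ⟨S x, hS1 x⟩, QuotientGroup.mk'_surjective Z,
    fun x y => ?_, fun g x y => ?_, fun g y => by simp only [hπ, hS2]⟩
  · rw [← map_mul, hπ]
    obtain ⟨c, -, hc⟩ := h.mul'' x y
    exact ⟨c, by simpa [hS2] using hc⟩
  · rw [mul_inv_eq_iff_eq_mul, ← map_mul, ← map_mul, hπ]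
    simp only [Subgroup.coe_mul, Units.val_mul, hS2, Cj]

theorem centN [Finite W] (h4 : 4 ≤ finrank (ZMod 2) W) (hR : RR b N 3)
    (hR4 : ∀ u w, N u → N w → b u w = 1 → N (u + w)) (hs : ∀ x, InG X (s x))
    (hN : ∀ g, InG X g → ∀ x y, Cj s g x y → N x → N y)
    (rich : ∀ u w, N u → N w → ∃ g, InG X g ∧ Act s g fun x => tv b u (tv b w x))
    (star : ∀ x ≠ 0, N x → Star b s X x) {x : W} (hx : x ≠ 0) (hx' : N x) {g : End K V}
    (hg : InG X g) (h1 : Cj s g x x) (y : W) : ∃ y', Cj s g y y' := by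
  have hb := h.sy
  have star' : ∀ x ≠ 0, N x → ∀ g, InG X g → Cj s g x x → ∀ y, b y x = 0 → ∃ y', Cj s g y y' :=
    fun x hx hx' g hg h1 y hy => by
      obtain ⟨z, h2, h3⟩ := h.exists_comm hs hg hx h1
      obtain ⟨y', h4⟩ := star x hx hx' _ h2 h3 y hy
      exact ⟨y', h.cj_of_s_mul h4⟩
  have mv : ∀ u w, N u → N w → b u x = 0 → b w x = 0 → b u w = 1 →
      ∃ k σ, InG X k ∧ Act s k σ ∧ σ x = x ∧ σ u = w := fun u w hu hw h2 h3 h4 => by
    obtain ⟨k, h5, h7⟩ := rich w (u + w) hw (hR4 u w hu hw h4)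
    refine ⟨k, _, h5, h7, ?_, ?_⟩
    · rw [tv_zero (u := u + w) (by rw [hb.symm]; simp [h2, h3]), tv_zero ((hb.symm _ _).trans h3)]
    · rw [tv_one (u := u + w) (by simp [hb.alt, h4]), aab, hb.tv_self]
  obtain ⟨z, hz, z1, z2, -⟩ := exists_out (T := orth b (Submodule.span _ {a | a ∈ [x]}))
    (by have := hb.finrank_orth_list [x]; simp only [List.length] at this; omega) x 0
  obtain ⟨a, a1, a2⟩ := hb.b2 z1 z2
  obtain ⟨u, hu, u1, u2, -⟩ := hR.three x a a z
  rw [mem_orth_span.1 hz x (by simp)] at u1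
  rw [hb.symm z, a2] at u2
  have u3 : u ≠ 0 := fun h => by simp [h] at u2
  have u4 : u ≠ x := fun h => by rw [h, hb.symm, a1] at u2; exact zero_ne_one u2
  obtain ⟨w, hw⟩ := star' x hx hx' g hg h1 u u1
  have w1 := hN g hg u w hw hu
  have w2 : b w x = 0 := (h.cj_pres hg.isUnit hw h1).trans u1
  obtain ⟨g', hg', hgg, hgg'⟩ := hg.exists_inv
  have w3 : w ≠ x := fun H => u4 (h.cj_uniq hg'.isUnit (h.cj_inv hg.isUnit hgg (H ▸ hw))
    (h.cj_inv hg.isUnit hgg h1))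
  have w4 : w ≠ 0 := fun H => u3 (h.cj_uniq hg'.isUnit (h.cj_inv hg.isUnit hgg (H ▸ hw)) (by
    obtain ⟨c, -, hc⟩ := h.s_zero
    exact ⟨1, by simp [hc]⟩))
  obtain ⟨y₁, c1, c2⟩ := hb.b2 u3 u4
  obtain ⟨y₂, c3, c4⟩ := hb.b2 w4 w3
  obtain ⟨y₃, c5, c6, c7⟩ := both (b := b) (P := fun y => b y x = 0)
    (fun x y hx hy => by simp [hx, hy]) c1 c3 c2 c4
  obtain ⟨v, hv, v1, v2, v3⟩ := hR.three x u w y₃
  obtain ⟨k, σ, k1, k2, k3, k4⟩ := mv w v w1 hv w2 (v1.trans c5) ((hb.symm _ _).trans (v3.trans c7))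
  obtain ⟨k', σ', k5, k6, k7, k8⟩ := mv v u hv hu (v1.trans c5) u1 (v2.trans c6)
  have k9 := k6.mul k2
  have k10 := k5.mul k1
  have d1 : Cj s (k' * k * g) x x := by simpa only [k3, k7] using (k9 x).mul h1
  have d2 : Cj s (k' * k * g) u u := by simpa only [k4, k8] using (k9 w).mul hw
  obtain ⟨y', d3⟩ : ∃ y', Cj s (k' * k * g) y y' := by
    rcases Xs.z2 (b y x) with d3 | d3
    · exact star' x hx hx' _ (k10.mul hg) d1 y d3
    · obtain ⟨t, d4, d5⟩ := hb.b2 hx u4.symm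
      obtain ⟨y', d6⟩ := star' x hx hx' _ (k10.mul hg) d1 (y + t) (by simp [d3, d5, z11])
      obtain ⟨t', d7⟩ := star' u u3 hu _ (k10.mul hg) d2 t d4
      exact ⟨_, baa t y ▸ h.cj_add d6 d7⟩
  obtain ⟨y'', d4⟩ := h.NG.inv_mem (x := k10.isUnit.unit) (fun x => ⟨_, k9 x⟩) y'
  refine ⟨y'', ?_⟩
  have := d4.mul d3
  rwa [← mul_assoc, IsUnit.val_inv_mul, one_mul] at this

end Fr

theorem SF.act_id [FiniteDimensional K U] {x₀ y₀ : W} {e : End K V} {j : U →ₗ[K] V}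
    {β : End K U × End K U →ₐ[K] End K V} {s' : hyp b x₀ y₀ → End K U}
    (hS : SF b q s x₀ y₀ e j β s') {a : End K U} (ha : IsUnit (β (a, 1))) (z : hyp b x₀ y₀)
    (H : ∃ y, Cj s (β (a, 1)) z y) : Cj s' a z z := by
  obtain ⟨y', h7⟩ := H
  obtain ⟨y, h8⟩ := hS.dec0 ((hS.fr.cj_pres ha h7 (hS.cj_x0 _ _)).trans (hyp0 z))
  obtain ⟨d, h7⟩ := h7
  obtain ⟨t, t', h9⟩ : ∃ t t' : K, d • s y' = β (t • s' y, t' • s' y) := by
    rcases h8 with h8 | h8 <;> rw [h8]
    · exact ⟨d, d, by rw [hS.hs, Spl.β_smul]⟩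
    · obtain ⟨t, -, ht⟩ := hS.s_add y
      exact ⟨d * t, -(d * t), by rw [ht, smul_smul, Spl.β_smul, smul_neg, neg_smul]⟩
  rw [← smul_mul_assoc, h9, hS.hs, Spl.β_mul, Spl.β_mul, one_mul, mul_one] at h7
  obtain ⟨h10, h11⟩ := hS.spl.β_inj h7
  exact ⟨t, by rw [h10, hS.fr'.inj h11, smul_mul_assoc]⟩

namespace OS

variable (h : OS P b q s) [FiniteDimensional K V] [Finite W]
include h

omit [FiniteDimensional K V] [Finite W] in
theorem R4 (u w : W) (hu : q u = 1) (hw : q w = 1) (h2 : b u w = 1) : q (u + w) = 1 := by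
  rw [h.qd, hu, hw, h2]; rfl

omit [FiniteDimensional K V] [Finite W] in
theorem rich (hX : XR P q s X) (u w : W) (hu : q u = 1) (hw : q w = 1) :
    ∃ g, InG X g ∧ Im P g ∧ Act s g fun x => tv b u (tv b w x) := by
  have h1 : ∀ u, q u = 1 → ((1 : K) • s u) * ((1 : K) • s u) = -1 := fun u hu => by
    simpa using h.sq1 hu
  exact ⟨_, (hX.rich u w 1 1 hu hw (h1 u hu) (h1 w hw)).smul hX.hZ (inv_ne_zero h.fr.two),
    Im.rich h.fr.two (by simpa using h.im u) (h1 u hu) (by simpa using h.im w) (h1 w hw),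
    ((h.fr.act_op (h1 u hu)).mul (h.fr.act_op (h1 w hw))).smul _⟩

theorem star_of_ns [Finite K] (hX : XR P q s X) (h8 : 8 ≤ finrank (ZMod 2) W)
    (star : ∀ x, q x = 1 → Star b s X x) : X ≤ h.fr.NG := by
  have hb := h.fr.sy
  refine h.core hX (Or.inl h8) fun x hx => (z2 (q x)).elim (h.star_sing hX (Or.inl h8)
    (fun x₀ y₀ c β s' hS h0 => ?_) hx) (star x)
  have hf := hS.fr'
  have h' := h.hyp hS (h.im0 h0 hS.ee)
  have h6 : 6 ≤ finrank (ZMod 2) (Xs.hyp b x₀ y₀) := by have := hb.finrank_hyp hS.b01; omega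
  have hR := hf.sy.RR_q h'.qd (c := 2) (Or.inl (by omega))
  obtain ⟨Y, hY⟩ := hS.spl.exists_Y X
  have hs := fun z => (hY _).2 (h.ctl hS hX h0 hR z)
  have hC : ∀ f : Xs.hyp b x₀ y₀, q f = 1 → ∀ a, InG Y a → Cj s' a f f → Act s' a fun x => x :=
    fun f h1 a ha h2 z => by
      obtain ⟨t, h3, h4⟩ := hf.exists_comm hs ha (h'.ne_zero h1) h2
      have h5 := (hY _).1 h3
      exact hf.cj_of_s_mul (hS.act_id h5.isUnit z (h.fr.centN (N := fun x => q x = 1) (by omega)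
        (hb.RR_q h.qd (Or.inl (by omega))) h.R4 hX.hs
        (fun _ hg _ _ hxy hx => (h.cj_q hX.sim hg hxy).trans hx)
        (fun u w hu hw => (h.rich hX u w hu hw).imp fun _ h => ⟨h.1, h.2.2⟩) (fun x _ => star x)
        (h.ne_zero h1) h1 h5 ⟨1, by rw [hS.hs, Spl.β_mul, Spl.β_mul, h4]; simp⟩ z))
  have hN : ∀ a, InG Y a → (∀ x, ∃ y, Cj s' a x y) → Act s' a fun x => x := fun a ha h1 x => by
    choose γ hγ using h1
    have h2 := hf.act_iso (N := fun x : Xs.hyp b x₀ y₀ => q x = 1) ha.isUnit hγ fun x hx =>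
      (h'.cj_q (X := Y) (fun a ha => (hX.sim _ ((hY a).1 ha)).imp fun c h =>
        ⟨h.1, hS.spl.im_fst _ h.2⟩) ha (hγ x)).trans hx
    have cm := fun {a} (ha : InG Y a) {δ} (hδ : Act s' a δ) u w hu hw =>
      hS.cm_mem (N := fun x => q x = 1) hX.hZ (fun _ => h.lift) hX.rich ((hY _).1 ha) hu hw hu hw
        (hδ u) (hδ w) (Cj.one u) (Cj.one w)
    have key := hf.sy.LT_q h'.qd (Or.inl h6) (fun δ => ∃ a, InG X (β (a, 1)) ∧ Act s' a δ)
      (fun u v hu hv h3 h4 ⟨a, h5, h6⟩ => by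
        obtain ⟨f, f1, f2, f3⟩ := hR.two u v 0
        have h7 := hC f f1 a ((hY _).2 h5) (by
          have := h6 f
          simp only at this
          rwa [tv_zero (u := u) (by simpa using f2), tv_zero (by simpa using f3)] at this)
        by_contra h8
        obtain ⟨y, h9, h10⟩ := hf.sy.b2 h4 (Ne.symm h8)
        have h11 := hf.cj_uniq (hS.spl.unit h5.isUnit).1 (h6 y) (h7 y)
        simp only [tv_zero h9, tv_one h10, add_eq_left] at h11
        exact h4 h11)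
      (fun δ ⟨a, h3, h4⟩ _ => cm ((hY _).2 h3) h4) γ h2 (cm ha hγ) x
    simpa only [key] using hγ x
  obtain ⟨G, _, _, π, ι, p1, p2, p3, p4⟩ := hf.exists_quot hs
  have p5 : ∀ a : Y, (Act s' a.1 fun x => x) → ∃ y, ι y = π a := fun a ha => by
    obtain ⟨y, c, h1, h2⟩ := hf.self a.1.isUnit ha
    exact ⟨y, (p4 _ _).2 ⟨c⁻¹, by rw [h2, inv_smul_smul₀ h1]⟩⟩
  obtain ⟨u, hu, -⟩ := hR.two 0 0 0
  obtain ⟨y, hy⟩ := hf.sy.b1 (h'.ne_zero hu)
  obtain ⟨w, hw, h1, -⟩ := hR.two u u y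
  have key := burn (N := fun x : Xs.hyp b x₀ y₀ => q x = 1) p2 (fun f h1 g h2 => by
    obtain ⟨g, rfl⟩ := p1 g
    exact p5 g (hC f h1 _ (.of_mem g.2) ((p3 _ _ _).1 (mul_inv_eq_iff_eq_mul.2 h2))))
    (fun g h1 => by
      obtain ⟨g, rfl⟩ := p1 g
      exact p5 g (hN _ (.of_mem g.2) fun x => (h1 x).imp fun y => (p3 _ _ _).1)) hw hu
    (h'.R4 w u hw hu (h1.trans hy))
  intro a a' ha
  obtain ⟨k, k', -, h2, h3, -⟩ := hS.spl.exists_inv ha
  refine hf.inG_NG.2 ⟨(hS.spl.unit ha.isUnit).1, fun x => ?_⟩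
  obtain ⟨t, h4, h5⟩ := (hY _).2 (hS.spl.Y_conj ha h2 ((hY _).1 (hs x)))
  obtain ⟨y, h6⟩ := key (π ⟨t, h4⟩)
  obtain ⟨c, hc⟩ := (p4 _ _).1 h6
  have h7 : c ≠ 0 := fun h0 => hf.ne_zero (hf.isUnit y) (by rw [hc, h0, zero_smul])
  exact ⟨y, c⁻¹, by rw [hc, h5, smul_mul_assoc, inv_smul_smul₀ h7, mul_assoc, h3, mul_one]⟩

omit [Finite W] in
theorem E_le_of_big (hε : P.ε = 1) (hd : P.d ≤ finrank K V)
    (H : ∀ x, q x = 1 → ∀ u (c : K), P.f u u = 0 → P.Ei (toE X) u (c • s x u) 0) :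
    P.E ≤ toE X := by
  have h2 := h.fr.two
  have sy : ∀ x y, P.f x y = P.f y x := fun x y => by rw [P.herm, hε, h.σ, one_mul]
  have key : ∀ u ≠ 0, P.Sing u → P.Full (toE X) u := fun u h0 hu => ⟨hu, fun y ν hy => by
    let T : Submodule K V :=
      { carrier := {y | ∀ c : K, ∃ ν, P.Ei (toE X) u (c • y) ν}
        add_mem' := fun h1 h3 c => (h1 c).elim fun _ h1 => (h3 c).elim fun _ h3 =>
          ⟨_, by rw [smul_add]; exact h1.add h3⟩
        zero_mem' := fun c => ⟨0, by simpa using Ei.zero hu⟩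
        smul_mem' := fun d y hy c => by simpa only [smul_smul] using hy (c * d) }
    have h1 : ∀ g ∈ Submodule.span K (Set.range s), ∃ y ∈ T, ∀ w,
        P.f (g u) w - P.f u (g w) = P.f y w := fun g hg => by
      induction hg using Submodule.span_induction with
      | mem _ hg =>
        obtain ⟨x, rfl⟩ := hg
        rcases z2 (q x) with hx | hx
        · exact ⟨0, T.zero_mem, fun w => by
            rw [← h.im x u, show s x (s x w) = w from LinearMap.congr_fun (h.sq0 hx) w, sub_self,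
              P.f_zero_left]⟩
        · have h3 : s x u ∈ T := fun c => ⟨0, H x hx u c hu.f_self⟩
          exact ⟨_, T.add_mem h3 h3, fun w => by
            rw [P.f_add_left, (h.im x).skew (h.sq1 hx), sub_eq_add_neg]⟩
      | zero => exact ⟨0, T.zero_mem, by simp [P.f_zero_left, P.f_zero_right]⟩
      | add g g' _ _ h1 h3 =>
        obtain ⟨y, h1, h4⟩ := h1
        obtain ⟨y', h3, h5⟩ := h3
        exact ⟨_, T.add_mem h1 h3, fun w => by
          simp only [LinearMap.add_apply, P.f_add_left, P.f_add_right, ← h4, ← h5]; ring⟩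
      | smul c g _ h1 =>
        obtain ⟨y, h1, h4⟩ := h1
        exact ⟨_, T.smul_mem c h1, fun w => by
          simp only [LinearMap.smul_apply, P.f_smul_left, P.f_smul_right, ← h4, h.σ]; ring⟩
    obtain ⟨u', h3⟩ := P.exists_f_right_eq h0 1
    obtain ⟨y', h4, h5⟩ := h1 ((P.fL u').smulRight y - (P.fL y).smulRight u')
      (h.fr.span ▸ Submodule.mem_top)
    obtain ⟨μ, h6⟩ := h4 2⁻¹
    rw [show (2 : K)⁻¹ • y' = y from eq_of_f_left (P := P) fun w => by
      simp only [P.f_smul_left, ← h5, LinearMap.sub_apply, smulRight_apply, fL_apply, h3, hy.orth',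
        P.f_sub_left, P.f_sub_right, P.f_smul_right, h.σ, sy w y]
      field_simp
      ring] at h6
    have h7 := P.Λ_le _ (hy.sub_mem h6.ev)
    rw [hε, h.σ, one_mul, ← two_mul, mul_eq_zero, sub_eq_zero] at h7
    exact h7.resolve_left h2 ▸ h6⟩
  obtain ⟨e, -, h0, he⟩ := P.exists_sing ⊤ (by simpa)
  obtain ⟨e', h1, h3⟩ := Sing.exists_partner' he h0
  exact (key e h0 he).E_le (key e' (fun h => by simp [h, P.f_zero_left] at h3) h1)
    (h3 ▸ one_ne_zero)

theorem big_or [Fintype K] (hp : (Fintype.card K).Prime) (hX : XR P q s X) (hε : P.ε = 1) {k : ℕ}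
    (hk : finrank (ZMod 2) W = 2 * (k + 3)) {x : W} (hx : q x = 1) :
    Star b s X x ∨ ∀ u (c : K), P.f u u = 0 → P.Ei (toE X) u (c • s x u) 0 := by
  have h2 := h.fr.two
  have sy : ∀ x y, P.f x y = P.f y x := fun x y => by rw [P.herm, hε, h.σ, one_mul]
  have h0 : ∀ a : K, a = -a → a = 0 := fun a H =>
    (mul_eq_zero.1 (by linear_combination H : (2 : K) * _ = 0)).resolve_left h2
  have h1 : ∀ u, P.f (s x u) u = 0 := fun u => h0 _ (((h.im x).skew (h.sq1 hx) u u).trans (by rw [sy u]))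
  have ev : ∀ u (c : K), P.f u u = 0 → P.EV u (c • s x u) 0 := fun u c hu =>
    EV.of_sing (sing_of_f h2 hu) ((sing_of_f h2 ((h.im x u u).trans hu)).smul c)
      (by rw [P.f_smul_left, h1, mul_zero])
  by_cases hi : ∃ i : K, i * i = -1
  · obtain ⟨i, hi⟩ := hi
    obtain ⟨y, hy⟩ := h.fr.sy.b1 (h.ne_zero hx)
    obtain ⟨U, _, _, _, j, β, s', hS⟩ := h.fr.exists_sf' ((h.fr.sy.symm _ _).trans hy) (c := -i) rfl
      (by rw [smul_mul_smul_comm, h.sq1 hx, neg_mul_neg, hi]; simp)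
    refine (h.nsa_split hp hX hi hk hx hS).imp_right fun H u c hu => ?_
    have h3 := ev u c hu
    obtain ⟨v, w, rfl⟩ := hS.spl.surj u
    have h4 : ∀ u, s x u = i • (-i • s x) u := fun u => by simp [smul_smul, hi]
    have h5 : ∀ v, P.f (j v) (j v) = 0 := fun v => h0 _ (by
      have := h.im x (j v) (j v)
      rwa [h4, hS.spl.fix, P.f_smul_left, P.f_smul_right, h.σ, ← mul_assoc, hi, neg_one_mul,
        eq_comm] at this)
    rw [P.f_add_left, P.f_add_right, P.f_add_right, h5, h.im, h5, sy (j v), zero_add, add_zero,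
      ← two_mul, mul_eq_zero] at hu
    refine (H v ((-2 * c * i) • w) (by
      rw [map_smul, map_smul, P.f_smul_left, hu.resolve_left h2, mul_zero])).congr h3
        (LinearMap.ext fun z => ?_)
    simp only [eich_apply, hε, h4, map_add, hS.spl.fix, hS.spl.neg, map_smul, P.f_smul_right,
      P.f_add_right, P.f_neg_right, h.σ]
    module
  · refine (h.nsa_ns hp hX (fun i h => hi ⟨i, h⟩) hk hx).imp_right fun H u c hu => ?_
    obtain ⟨g, h3, h4, -⟩ := H u c hu (h1 u)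
    exact ei_iff.2 ⟨ev u c hu, h4 hε ▸ h3⟩

theorem claimO [Fintype K] (hp : (Fintype.card K).Prime) (hX : XR P q s X) (hε : P.ε = 1)
    (hd : P.d ≤ finrank K V) {k : ℕ} (hk : finrank (ZMod 2) W = 2 * (k + 4)) :
    X ≤ h.fr.NG ∨ P.E ≤ toE X := by
  have hb := h.fr.sy
  by_cases H : ∀ x, q x = 1 → Star b s X x
  · exact Or.inl (h.star_of_ns hX (by omega) H)
  push Not at H
  obtain ⟨x, hx, H⟩ := H
  have mv : ∀ x y, q x = 1 → q y = 1 → b x y = 1 →
      (∀ u (c : K), P.f u u = 0 → P.Ei (toE X) u (c • s x u) 0) →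
      ∀ u (c : K), P.f u u = 0 → P.Ei (toE X) u (c • s y u) 0 := fun x y hx hy hxy H u c hu => by
    obtain ⟨g, h1, h2, h3⟩ := h.rich hX y (x + y) hy (h.R4 x y hx hy hxy)
    obtain ⟨d, hd⟩ := h3 x
    simp only [tv_one (show b x (x + y) = 1 by simp [hb.alt, hxy]), aab, hb.tv_self] at hd
    have h4 := h.fr.cj_ne h1.isUnit hd
    obtain ⟨g, h5, rfl⟩ := h1.exists_toE
    obtain ⟨u, rfl⟩ := g.surjective u
    have := (H u (c * d⁻¹) ((h2 u u).symm.trans hu)).conj h5 (h2.isom h.fr.two)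
    rwa [map_smul, show g (s x u) = d • s y (g u) from LinearMap.congr_fun hd u, mul_smul,
      inv_smul_smul₀ h4] at this
  refine Or.inr (h.E_le_of_big hε hd fun y hy => ?_)
  obtain ⟨y₁, h1⟩ := hb.b1 (h.ne_zero hx)
  obtain ⟨y₂, h2⟩ := hb.b1 (h.ne_zero hy)
  obtain ⟨z, -, h3, h4⟩ := both (P := fun _ => True) (fun _ _ _ _ => trivial) trivial trivial h1 h2
  obtain ⟨v, hv, h5, h6⟩ := (hb.RR_q h.qd (c := 2) (Or.inl (by omega))).two x y z
  exact mv v y hv hy (h6.trans h4) (mv x v hx hv ((hb.symm _ _).trans (h5.trans h3))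
    ((h.big_or hp hX hε (k := k + 1) hk hx).resolve_left H))

theorem xr' {G M : Subgroup (End K V)ˣ} (h5 : 5 ≤ finrank (ZMod 2) W) (hM : h.fr.NG ⊓ G ≤ M)
    (hM' : M ≤ IG P) (hG : ∀ g, Im P g → InG G (g * g)) : XR P q s (zc M) := by
  have hb := h.fr.sy
  have h2 := h.fr.two
  have hR := hb.RR_q h.qd (c := 2) (Or.inl h5)
  have k1 : ∀ u w (c d : K), q u = 1 → q w = 1 → (c • s u) * (c • s u) = -1 →
      (d • s w) * (d • s w) = -1 → b u w = 1 →
      InG G ((2 : K)⁻¹ • ((1 + c • s u) * (1 + d • s w))) := fun u w c d hu hw hc hd huw => by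
    have h1 := h.im_smul (c := c) (x := u) (by simpa [hu] using hc)
    have h3 := Im.rich h2 h1 hc (h.im_smul (by simpa [hw] using hd)) hd
    have h4 : (d • s w) * (c • s u) = -((c • s u) * (d • s w)) := by
      rw [smul_mul_smul_comm, smul_mul_smul_comm, h.fr.comm1 huw, smul_neg, neg_neg, mul_comm]
    convert (hG _ h1).mul (hG _ (h3.mul h3)) using 1
    generalize c • s u = f at *
    generalize d • s w = f' at *
    have h6 : (1 + f) * (1 + f') * ((1 + f) * (1 + f')) * ((1 + f) * (1 + f')) =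
        -((2 : K) • (2 : K) • (2 : K) • 1) := by
      have h7 : ∀ a, f' * (f * a) = -(f * (f' * a)) := fun a => by rw [← mul_assoc, h4]; noncomm_ring
      have h8 : ∀ a, f * (f * a) = -a := fun a => by rw [← mul_assoc, hc]; noncomm_ring
      have h9 : ∀ a, f' * (f' * a) = -a := fun a => by rw [← mul_assoc, hd]; noncomm_ring
      simp only [two_smul, mul_add, add_mul, mul_one, one_mul, mul_assoc, h4, h7, h8, h9, hc, hd,
        mul_neg, neg_mul, neg_neg]
      abel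
    simp only [smul_mul_assoc, mul_smul_comm, ← mul_assoc _ _ ((1 + f) * (1 + f')), hc, h6]
    simp [h2]
  have k2 : ∀ u w (c d : K), q u = 1 → q w = 1 → (c • s u) * (c • s u) = -1 →
      (d • s w) * (d • s w) = -1 → InG (zc M) ((1 + c • s u) * (1 + d • s w)) :=
    fun u w c d hu hw hc hd => by
      obtain ⟨y₁, h1⟩ := hb.b1 (h.ne_zero hu)
      obtain ⟨y₂, h3⟩ := hb.b1 (h.ne_zero hw)
      obtain ⟨z, -, h4, h5⟩ := both (P := fun _ => True) (fun _ _ _ _ => trivial) trivial trivial h1 h3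
      obtain ⟨v, hv, h6, h7⟩ := hR.two u w z
      have h8 := (k1 u v c 1 hu hv hc (by simpa using h.sq1 hv) ((hb.symm _ _).trans
        (h6.trans h4))).mul (k1 v w (-1) d hv hw (by simpa using h.sq1 hv) hd (h7.trans h5))
      have h9 := (h.fr.op_mul (h.sq1 hv)).2
      rw [one_smul, neg_one_smul, smul_mul_assoc, ← smul_mul_assoc (2 : K)⁻¹ (1 + -s v), mul_assoc,
        ← mul_assoc (1 + s v), h9, one_mul] at h8
      exact inG_zc.2 ⟨_, inv_ne_zero h2, ((((h.fr.inG_NG_op hc).mul (h.fr.inG_NG_op hd)).smul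
        h.fr.hasZ_NG (inv_ne_zero h2)).inf h8).mono hM⟩
  have k3 : ∀ u, q u = 1 → InG (zc M) (s u) := fun u hu => by
    refine InG.of_smul hasZ_zc (c := 2) ?_ h2
    convert k2 u u 1 1 hu hu (by simpa using h.sq1 hu) (by simpa using h.sq1 hu) using 1
    rw [one_smul, two_smul]
    noncomm_ring [h.sq1 hu]
  refine ⟨hasZ_zc, fun x => (z2 (q x)).elim (fun hx => ?_) (k3 x), k2, simX_zc hM'⟩
  obtain ⟨u, hu, h1, -⟩ := hR.two x x 0
  obtain ⟨c, h3, h4⟩ := h.fr.mul'' u (u + x)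
  rw [aab] at h4
  exact h4 ▸ ((k3 u hu).mul (k3 _ (by
    rw [h.qd, hu, hx, show b u x = 0 by simpa using h1]; rfl))).smul hasZ_zc h3

end OS

theorem o_c6 {F : Type v} [Field F] [Fintype F] {n : ℕ} (hp : (Fintype.card F).Prime)
    (h2 : (2 : F) ≠ 0) (h9 : 9 ≤ n) {Q : (Fin n → F) → F} (hQ : Geo.IsNondegenerateQuadraticForm Q)
    {R : Subgroup (GL (Fin n) F)} (h : Geo.IsSymplecticTypeGroup 2 R)
    (habs : Geo.ActsAbsolutelyIrreducibly (Geo.matrixSet R)) (hR : R ≤ isometryGroup F Q) :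
    Geo.IsMaximalIn (Geo.omegaGL Q) (Geo.subgroupNormalizer R ⊓ Geo.omegaGL Q) := by
  have : Nonempty (Fin n) := ⟨⟨0, by omega⟩⟩
  obtain ⟨W, _, _, _, b, q, s, π, hf, hR'⟩ := exists_fr_GL h2 h habs
  let P := quadP hQ
  have hG : ∀ g, g ∈ Geo.omegaGL Q ↔ tl g ∈ EG P := mem_omegaGL_iff hQ (by simp; omega)
  have hO : OS P b q s := ⟨hf, fun _ => rfl, fun x => by
    obtain ⟨⟨_, g, hg, rfl⟩, h1, -⟩ := hR'.mem x
    rw [← h1]
    intro u v
    have h3 : ∀ v, Q (g.1.mulVec v) = Q v := fun v => hR hg v v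
    change Q (g.1.mulVec u + g.1.mulVec v) - Q (g.1.mulVec u) - Q (g.1.mulVec v) = _
    rw [← Matrix.mulVec_add, h3, h3, h3]; rfl⟩
  have hV : finrank F (Fin n → F) = n := by simp
  obtain ⟨k, hk⟩ := hf.exists_k (by omega)
  rcases k with _ | k
  · have := hf.finrank_eq hk
    omega
  refine isMax_of_tl hG (hO.isMax hR' ⟨_, ⟨_, H30.symp_neg_mem h habs, rfl⟩,
    (congrArg Matrix.toLin' H25.coe_scal_neg_one).trans (by simp; rfl)⟩ (show 3 * 2 ≤ _ by omega)
    (by omega) fun M h1 h3 => hO.claimO hp (hO.xr' (by omega) h1 (h3.trans EG_le_IG) fun g hg => ?_)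
      rfl (show 3 ≤ _ by omega) hk)
  obtain ⟨g, h4, rfl⟩ := hg.exists_equiv h2
  exact mem_toE.1 (EG_le_iff.1 le_rfl (sq_mem_E (H30.ofGeo_nondegenerate hQ) (by omega)
    fun x => sub_eq_zero.1 (h4.2 x)))

end Cfsg.Agent.H32.Xs
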