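import Cfsg.Agent.H32.XsTop
import Cfsg.Agent.H26.PC3

/-!
Generation of symplectic and unitary groups from a split family of lifts.
-/

set_option autoImplicit false

namespace Cfsg.Agent.H32.Xs

open Module LinearMap H26 H26.PForm

variable {K V W U : Type*} [Field K] [AddCommGroup V] [Module K V] [AddCommGroup W]
  [Module (ZMod 2) W] [AddCommGroup U] [Module K U] {b : LinearMap.BilinForm (ZMod 2) W}
  {q : W → ZMod 2} {s : W → End K V} {X : Subgroup (End K V)ˣ} {P : PForm K V}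

/-- Isometries. -/
def Im (P : PForm K V) (g : End K V) : Prop := ∀ x y, P.f (g x) (g y) = P.f x y

/-- The group of linear automorphisms attached to a group of units. -/
def toE (X : Subgroup (End K V)ˣ) : Subgroup (V ≃ₗ[K] V) :=
  X.comap (GeneralLinearGroup.generalLinearEquiv K V).symm.toMonoidHom

theorem mem_toE {g : V ≃ₗ[K] V} : g ∈ toE X ↔ InG X (g : V →ₗ[K] V) :=
  ⟨fun h => ⟨_, h, rfl⟩, fun h => InG.mem (g := (GeneralLinearGroup.generalLinearEquiv K V).symm g) h⟩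

theorem InG.exists_toE {g : End K V} (h : InG X g) : ∃ k ∈ toE X, (k : V →ₗ[K] V) = g := by
  obtain ⟨g, h, rfl⟩ := h
  exact ⟨GeneralLinearGroup.generalLinearEquiv K V g, mem_toE.2 (.of_mem h), rfl⟩

theorem ei_iff {e y : V} {ν : K} : P.Ei (toE X) e y ν ↔ P.EV e y ν ∧ InG X (P.eich e y ν) :=
  ⟨fun ⟨h, h'⟩ => ⟨h, mem_toE.1 h'⟩, fun ⟨h, h'⟩ => ⟨h, mem_toE.2 h'⟩⟩

theorem half_mem (h2 : (2 : K) ≠ 0) (x : V) : 2⁻¹ * P.f x x - P.h x ∈ P.Λ := by
  have h1 := P.Λ_smul 2⁻¹ _ (P.Λ_ge (P.h x))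
  convert P.Λ.neg_mem (P.Λ.add_mem h1 h1) using 1
  rw [P.f_self, map_inv₀, map_ofNat]
  field_simp
  ring

namespace Im

variable {g k : End K V}

theorem isom (h2 : (2 : K) ≠ 0) {g : V ≃ₗ[K] V} (h : Im P g) : g ∈ P.isom :=
  ⟨h, fun x => by
    convert P.Λ.sub_mem (half_mem h2 x) (half_mem h2 (g x)) using 1
    rw [show P.f (g x) (g x) = _ from h x x]; ring⟩

theorem one : Im P 1 := fun _ _ => rfl

theorem mul (h : Im P g) (h' : Im P k) : Im P (g * k) := fun x y => (h _ _).trans (h' x y)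

theorem smul (h : Im P g) {c : K} (hc : c * P.σ c = 1) : Im P (c • g) := fun x y => by
  rw [LinearMap.smul_apply, LinearMap.smul_apply, P.f_smul_left, P.f_smul_right, h, ← mul_assoc, hc, one_mul]

theorem inv (h : Im P g) (hk : g * k = 1) : Im P k := fun x y => by
  have h1 : ∀ v, g (k v) = v := LinearMap.congr_fun hk
  rw [← h, h1, h1]

theorem neg (h : Im P g) : Im P (-g) := by simpa using h.smul (c := -1) (by simp)

theorem op_apply (h : Im P g) (hg : g * g = -1) (x y : V) :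
    P.f ((1 + g) x) ((1 + g) y) = 2 * P.f x y := by
  have h1 := h x (g y)
  rw [show g (g y) = -y from LinearMap.congr_fun hg y, P.f_neg_right] at h1
  simp only [LinearMap.add_apply, End.one_apply, P.f_add_left, P.f_add_right, h x y, ← h1]
  ring

theorem op (h : Im P g) (hg : g * g = -1) {c : K} (hc : c * P.σ c * 2 = 1) :
    Im P (c • (1 + g)) := fun x y => by
  rw [LinearMap.smul_apply, LinearMap.smul_apply, P.f_smul_left, P.f_smul_right, h.op_apply hg, ← mul_assoc,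
    ← mul_assoc, hc, one_mul]

theorem rich (h2 : (2 : K) ≠ 0) (h : Im P g) (hg : g * g = -1) (h' : Im P k) (hk : k * k = -1) :
    Im P ((2 : K)⁻¹ • ((1 + g) * (1 + k))) := fun x y => by
  rw [LinearMap.smul_apply, LinearMap.smul_apply, P.f_smul_left, P.f_smul_right, End.mul_apply, End.mul_apply,
    h.op_apply hg, h'.op_apply hk, map_inv₀, map_ofNat]
  field_simp

theorem orth (h2 : (2 : K) ≠ 0) (h : Im P g) {x y : V} (hx : g x = x) (hy : g y = -y) :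
    P.f x y = 0 := by
  have := h x y
  rw [hx, hy, P.f_neg_right] at this
  exact (mul_eq_zero.1 (by linear_combination -this : (2 : K) * _ = 0)).resolve_left h2

theorem conj {c : K} (hc : c ≠ 0) (h : Im P (c • g)) {a : End K V} (hk : g * a = 1)
    (h' : Im P k) : Im P (g * k * a) := by
  simpa [smul_smul, hc] using (h.mul h').mul (h.inv (k := c⁻¹ • a) (by simp [smul_smul, hc, hk]))

theorem exists_equiv [FiniteDimensional K V] (h2 : (2 : K) ≠ 0) (h : Im P g) :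
    ∃ k ∈ P.isom, (k : V →ₗ[K] V) = g :=
  ⟨LinearEquiv.ofInjectiveEndo g ((injective_iff_map_eq_zero _).2 fun y hy =>
    P.nondeg y fun x => by rw [← h, hy, P.f_zero_right]), isom h2 h, rfl⟩

theorem sing [FiniteDimensional K V] (h2 : (2 : K) ≠ 0) (h : Im P g) {x : V} (hx : P.Sing x) :
    P.Sing (g x) := by
  obtain ⟨k, h1, rfl⟩ := h.exists_equiv h2
  exact hx.map h1

theorem eich [FiniteDimensional K V] (h2 : (2 : K) ≠ 0) (h : Im P g) (e y : V) (ν : K) :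
    g * P.eich e y ν = P.eich (g e) (g y) ν * g := by
  obtain ⟨k, h1, rfl⟩ := h.exists_equiv h2
  exact LinearMap.ext (isom_eich h1 e y ν)

end Im

/-- Restriction of a form. -/
def res (P : PForm K V) (j : U →ₗ[K] V) (hj : Function.Injective j)
    (hn : ∀ y, (∀ x, P.f (j x) (j y) = 0) → y = 0) : PForm K U where
  σ := P.σ
  ε := P.ε
  f x y := P.f (j x) (j y)
  h x := P.h (j x)
  Λ := P.Λ
  d := P.d
  σσ := P.σσ
  ε_sq := P.ε_sq
  f_add_left x y z := by rw [map_add, P.f_add_left]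
  f_smul_left c x y := by rw [map_smul, P.f_smul_left]
  herm _ _ := P.herm _ _
  nondeg := hn
  h_add x y := by rw [map_add]; exact P.h_add _ _
  h_smul c x := by rw [map_smul]; exact P.h_smul _ _
  f_self _ := P.f_self _
  Λ_le := P.Λ_le
  Λ_ge := P.Λ_ge
  Λ_smul := P.Λ_smul
  exists_sing A hA := by
    obtain ⟨_, ⟨e, h1, rfl⟩, h2, h3⟩ := P.exists_sing (A.map j)
      (by rwa [← (Submodule.equivMapOfInjective j hj A).finrank_eq])
    exact ⟨e, h1, fun h => h2 (by rw [h, map_zero]), h3⟩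

variable [FiniteDimensional K V]

theorem engineP {M : Subgroup (V ≃ₗ[K] V)} {A B : Submodule K V} (hAB : P.perp A = B)
    (hd : A ⊓ B = ⊥) (hdA : P.d + 2 ≤ finrank K A) (hdB : P.d + 2 ≤ finrank K B)
    (hA : ∀ e y ν, P.EV e y ν → e ∈ A → y ∈ A → P.Ei M e y ν)
    (hB : ∀ e y ν, P.EV e y ν → e ∈ B → y ∈ B → P.Ei M e y ν) {a a' : V} {ν : K} (ha : a ∈ A)
    (ha' : a' ∈ B) (h0 : a ≠ 0) (h0' : a' ≠ 0) (hs : P.Sing a) (hs' : P.Sing a') (hν : ν ≠ 0)
    (h : P.Ei M (a + a') 0 ν) : P.E ≤ M := by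
  have hBA : P.perp B = A := hAB ▸ perp_perp A
  have hn : ∀ x ∈ A, x ∈ B → x = 0 := fun x h1 h2 => (Submodule.mem_bot K).1 (hd ▸ ⟨h1, h2⟩)
  have ho : ∀ x ∈ B, ∀ y ∈ A, P.f x y = 0 := fun x h1 => mem_perp.1 (hAB ▸ h1)
  have h1 := EV.mem_Λ h.ev
  have h2 := (hA _ _ _ (EV.of_mem hs h1) ha A.zero_mem).of_tv_add
    (hB _ _ _ (EV.of_mem hs' h1) ha' B.zero_mem) h (ho _ ha' _ ha)
  have h3 : -(P.ε * ν) • a' ≠ 0 := smul_ne_zero (neg_ne_zero.2 (mul_ne_zero P.ε_ne_zero hν)) h0'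
  have h4 : ∀ y ∈ B, ∃ μ, P.Ei M a y μ := fun y hy => mem_of_sing_add (P := P) (S := A)
    (U := { carrier := {y | ∃ μ, P.Ei M a y μ}
            add_mem' := fun ⟨_, h⟩ ⟨_, h'⟩ => ⟨_, h.add h'⟩
            zero_mem' := ⟨0, Ei.zero hs⟩
            neg_mem' := fun ⟨_, h⟩ => ⟨_, h.neg⟩ })
    ⟨a', hAB ▸ ha', fun h => h0' (hn _ h ha'), hs'⟩ (fun y hy hy' => by
      by_cases h5 : y = 0
      · exact ⟨0, h5 ▸ Ei.zero hs⟩
      obtain ⟨g, g1, g2, g3, g4⟩ := W2.exists_map (S := A) (W2.of_finrank (by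
        rw [hAB, inf_comm, hd, finrank_bot, zero_add]; exact hdB)) (hAB ▸ hB)
        (hAB ▸ B.smul_mem _ ha') hy (fun h => h3 (hn _ h (B.smul_mem _ ha')))
        (fun h => h5 (hn _ h (hAB ▸ hy))) (hs'.smul _) hy'
      exact ⟨0, by simpa only [g3, g4 a ha] using h2.conj g1 (E_le_isom g2)⟩) (hAB ▸ hy)
  have h5 : P.Full M a := ⟨hs, fun y μ hy => by
    obtain ⟨y₁, h5, y₂, h6, rfl⟩ : ∃ y₁ ∈ A, ∃ y₂ ∈ B, y₁ + y₂ = y := Submodule.mem_sup.1 (by
      rw [Submodule.eq_top_of_finrank_eq (S := A ⊔ B) (by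
        rw [← P.finrank_perp A, hAB, ← Submodule.finrank_sup_add_finrank_inf_eq, hd, finrank_bot,
          add_zero])]; trivial)
    obtain ⟨μ', h7⟩ := h4 y₂ h6
    have h8 := (hA _ _ _ (EV.of_h hs (y := y₁) (by
      simpa [P.f_add_left, ho _ h6 _ ha] using hy.orth)) ha h5).add h7
    simpa using h8.add_zero (hA _ _ _ (EV.of_mem hs (hy.sub_mem h8.ev)) ha A.zero_mem)⟩
  obtain ⟨a₁, h6, h7, h8⟩ := hs.exists_partner (S := B) (hBA ▸ ha) fun h => h0 (hn _ ha h)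
  obtain ⟨g, g1, g2, g3, -⟩ := W2.exists_map (S := B) (W2.of_finrank (by
    rw [hBA, hd, finrank_bot, zero_add]; exact hdA)) (hBA ▸ hA) (hBA ▸ ha) h6
    (fun h => h0 (hn _ ha h)) (fun h => zero_ne_one ((ho _ h _ ha).symm.trans h8)) hs h7
  exact h5.E_le (g3 ▸ h5.conj g1 (E_le_isom g2)) (h8 ▸ one_ne_zero)

theorem E_le_of_norm (h2 : (2 : K) ≠ 0) (hΛ : P.Λ ≠ ⊥) (hd : P.d + 2 ≤ finrank K V)
    (hfix : ∀ a, P.σ a = a → ∃ n : ℤ, (n : K) = a) {M : Subgroup (V ≃ₗ[K] V)}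
    (hM : ∀ g ∈ P.E, ∀ k ∈ M, g * k * g⁻¹ ∈ M) {v y : V} {μ : K} (hy : y ∉ K ∙ v) (hv : v ≠ 0)
    (h : P.Ei M v y μ) : P.E ≤ M := by
  have hc : ∀ g ∈ P.E, ∀ e y ν, P.Ei M e y ν → P.Ei M (g e) (g y) ν := fun g hg e y ν h =>
    ⟨_, h.ev.conj_equiv (E_le_isom hg) ▸ hM g hg _ h.mem⟩
  obtain ⟨ν₀, h1, h3⟩ := exists_mem_Λ hΛ
  obtain ⟨y', h4, h5⟩ := P.exists_perp_f_right hy (-(P.ε * ν₀))
  have h6 := EV.of_h h.ev.sing (mem_perp_span_singleton.1 h4)
  have h7 := hc _ h6.equiv_mem_E _ _ _ h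
  rw [EV.equiv_apply, EV.equiv_apply, h6.eich_self, P.eich_apply_of_orth _ h.ev.orth, h5, mul_neg,
    P.ε_mul_ε_mul, neg_smul, sub_neg_eq_add] at h7
  have h8 := h7.of_add_smul_self.sub_same h
  generalize hν : μ - P.ε * ν₀ + P.σ ν₀ - μ = ν at h8
  have h9 : ν ≠ 0 := fun h0 => mul_ne_zero h2 (mul_ne_zero P.ε_ne_zero h3) (by
    rw [P.Λ_σ h1] at hν; linear_combination -hν - h0)
  refine E_le_of_tv hΛ hd fun w hw ν' h10 => ?_
  by_cases h0 : w = 0
  · exact Ei.of_eq (EV.of_mem hw h10) M.one_mem fun x => by simp [P.eich_zero_apply, h0]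
  obtain ⟨g, -, g2, g3, -⟩ := W2.exists_map (P := P) (S := ⊥) (M := P.E) (W2.of_finrank (by
    rw [finrank_perp_bot, finrank_perp_bot', zero_add]; exact hd))
    (fun _ _ _ h _ _ => Ei.of_le le_rfl h) (x := v) (x' := w) (by simp [perp_bot]) (by simp [perp_bot])
    hv h0 h.ev.sing hw
  have h11 := hc g g2 _ _ _ h8
  rw [g3, map_zero] at h11
  obtain ⟨n, hn⟩ := hfix (ν' / ν) (by
    rw [map_div₀, P.Λ_σ h10, P.Λ_σ h11.ev.mem_Λ, neg_div_neg_eq, mul_div_mul_left _ _ P.ε_ne_zero])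
  have := AddSubgroup.zsmul_mem
    { carrier := {ν | P.Ei M w 0 ν}
      add_mem' := fun h h' => Ei.add_zero h h'
      zero_mem' := Ei.zero hw
      neg_mem' := fun h => Ei.neg_zero h } h11 n
  rwa [zsmul_eq_mul, hn, div_mul_cancel₀ _ h9] at this

namespace Spl

variable {e r : End K V} {j : U →ₗ[K] V} {β : End K U × End K U →ₐ[K] End K V}
  (h : Spl e r j β) (he : Im P e)
include h he

omit [FiniteDimensional K V] in
theorem orth (u u' : U) : P.f (j u) (r (j u')) = 0 := he.orth h.two (h.fix u) (h.neg u')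

omit [FiniteDimensional K V] in
theorem orth' (u u' : U) : P.f (r (j u')) (j u) = 0 := f_symm_zero (h.orth he u u')

omit [FiniteDimensional K V] in
theorem nd (y : U) (hy : ∀ x, P.f (j x) (j y) = 0) : y = 0 :=
  h.inj ((P.nondeg _ fun v => by
    obtain ⟨u, u', rfl⟩ := h.surj v
    rw [P.f_add_left, hy, h.orth' he, add_zero]).trans (map_zero j).symm)

/-- The form on the fixed space. -/
abbrev pf : PForm K U := res P j h.inj (h.nd he)

omit [FiniteDimensional K V] in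
theorem im_fst {c : K} {a a' : End K U} (ha : Im P (c • β (a, a'))) : Im (h.pf he) (c • a) :=
  fun x y => show P.f _ _ = P.f _ _ by simpa only [β_smul, h.βj] using ha (j x) (j y)

omit [FiniteDimensional K V] in
theorem im_β (hr : Im P r) {a a' : End K U} (ha : Im (h.pf he) a) (ha' : Im (h.pf he) a') :
    Im P (β (a, a')) := fun x y => by
  obtain ⟨u, u', rfl⟩ := h.surj x
  obtain ⟨v, v', rfl⟩ := h.surj y
  simp only [map_add, h.βj, h.βr, P.f_add_left, P.f_add_right, h.orth he, h.orth' he, hr _ _]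
  rw [show P.f (j (a u)) (j (a v)) = _ from ha u v, show P.f (j (a' u')) (j (a' v')) = _ from ha' u' v']
  rfl

omit [FiniteDimensional K V] in
theorem β_eich (v y : U) (ν : K) : β ((h.pf he).eich v y ν, 1) = P.eich (j v) (j y) ν :=
  h.ext (fun u => by simp only [h.βj, eich_apply, map_add, map_sub, map_smul]; rfl)
    fun u => by rw [h.βr, P.eich_apply_of_orth₂ _ (h.orth' he _ _) (h.orth' he _ _)]; rfl

end Spl

theorem Fr.exists_eich [Finite W] (h : Fr b q s) (h4 : P.d * 2 ≤ finrank K V) {x : W} {c : K}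
    (hx : x ≠ 0) (hc : (c • s x) * (c • s x) = 1) (he : Im P (c • s x)) :
    ∃ v y ν, v ≠ 0 ∧ y ∉ K ∙ v ∧ P.EV v y ν ∧ P.EV v (-y) ν ∧
      (c • s x) * P.eich v y ν * (c • s x) = P.eich v (-y) ν ∧
      (P.eich v y ν : End K V) * P.eich v (-y) ν = 1 := by
  obtain ⟨y₀, hy⟩ := h.sy.b1 hx
  obtain ⟨β, s', hS⟩ := h.exists_sf ((h.sy.symm _ _).trans hy) hc
  obtain ⟨v, -, h1, h3⟩ := (hS.spl.pf he).exists_sing ⊤ (by
    have := hS.spl.dim
    rw [finrank_top]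
    exact show P.d ≤ _ by omega)
  have h5 := hS.spl.fix v
  have h6 := hS.spl.neg v
  have h7 : P.EV _ _ _ := ⟨h3, hS.spl.orth' he v v, half_mem h.two _⟩
  have h8 : (ker (c • s x - 1)).subtype v ≠ 0 := fun h => h1 (hS.spl.inj (by simpa using h))
  have h9 : s y₀ ((ker (c • s x - 1)).subtype v) ≠ 0 := fun h => h8 (hS.spl.rinj (by simpa using h))
  generalize s y₀ ((ker (c • s x - 1)).subtype v) = y at *
  generalize (ker (c • s x - 1)).subtype v = w at *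
  have h10 : P.ε * P.σ (2⁻¹ * P.f y y) = 2⁻¹ * P.f y y := by
    rw [map_mul, map_inv₀, map_ofNat, mul_left_comm, ← P.herm]
  refine ⟨w, y, _, h8, fun H => ?_, h7, h10 ▸ h7.neg, ?_, LinearMap.ext fun z => ?_⟩
  · obtain ⟨t, rfl⟩ := Submodule.mem_span_singleton.1 H
    rw [map_smul, h5, eq_neg_iff_add_eq_zero, ← two_smul K] at h6
    exact smul_ne_zero h.two h9 h6
  · rw [he.eich h.two, mul_assoc, hc, mul_one, h5, h6]
  · have := h7.eich_eich_neg z
    rwa [h10] at this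

theorem SF.engineP [FiniteDimensional K U] [Finite W] {x₀ y₀ : W}
    {e : End K V} {j : U →ₗ[K] V} {β : End K U × End K U →ₐ[K] End K V}
    {s' : hyp b x₀ y₀ → End K U} (h : SF b q s x₀ y₀ e j β s') (hΛ : P.Λ ≠ ⊥) (hd : P.d ≤ 2)
    (hfix : ∀ a, P.σ a = a → ∃ n : ℤ, (n : K) = a) (hU : 4 ≤ finrank K U) (he : Im P e)
    (hr : Im P (s y₀)) (hrX : InG X (s y₀)) {z : hyp b x₀ y₀} {c : K} (hz : z ≠ 0)
    (hc : (c • s' z) * (c • s' z) = 1) (hi : Im (h.spl.pf he) (c • s' z))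
    (hctl : InG X (β (s' z, 1))) {g : End K V} {v a a' : U} (hg : InG X g) (hg' : Im P g)
    (hv : P.Sing (j v)) (ha : P.Sing (j a)) (h0 : a ≠ 0) (h0' : a' ≠ 0)
    (hga : g (j v) = j a + s y₀ (j a'))
    (hE : ∀ t ∈ (h.spl.pf he).E, ∃ a', InG X (β (t, a'))) : P.E ≤ toE X := by
  have hf := h.fr'
  have h2 := hf.two
  obtain ⟨Y, hY⟩ := h.spl.exists_Y X
  have hn : ∀ t ∈ (h.spl.pf he).E, ∀ k : End K U, t * k = 1 → ∀ y, InG Y y → InG Y (t * y * k) :=
    fun t ht k hk y hy => by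
      obtain ⟨a', ha⟩ := hE t ht
      exact (hY _).2 (h.spl.Y_conj ha hk ((hY _).1 hy))
  obtain ⟨w, y, ν, h1, h3, h4, h5, h6, h7⟩ := hf.exists_eich (P := h.spl.pf he)
    (show P.d * 2 ≤ _ by omega) hz hc hi
  have h8 := hf.mem_of_inverted hc h6 ((hY _).2 hctl) (hn _ h4.equiv_mem_E _ h7)
  have h9 : (h.spl.pf he).E ≤ toE Y := E_le_of_norm (P := h.spl.pf he) h2 hΛ
    (show P.d + 2 ≤ _ by omega) hfix
    (fun t ht k hk => mem_toE.2 (hn t ht _ (LinearMap.ext t.apply_symm_apply) _ (mem_toE.1 hk)))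
    (y := -y + -y) (fun H => h3 (by
      rw [← two_smul K, Submodule.smul_mem_iff _ h2, neg_mem_iff] at H; exact H)) h1
    (ei_iff.2 ⟨h5.add h5, by
      convert h8 using 1; exact LinearMap.ext fun x => (h5.eich_eich h5 x).symm⟩)
  have hA : ∀ v y ν, P.EV (j v) (j y) ν → P.Ei (toE X) (j v) (j y) ν := fun v y ν H =>
    ei_iff.2 ⟨H, h.spl.β_eich he v y ν ▸ (hY _).1 (mem_toE.1 (h9
      (EV.equiv_mem_E (P := h.spl.pf he) ⟨H.sing, H.orth, H.nu⟩)))⟩
  obtain ⟨ρ, ρ1, ρ2⟩ := hrX.exists_toE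
  have ρ3 : ρ ∈ P.isom := Im.isom h2 (ρ2 ▸ hr)
  obtain ⟨γ, γ1, γ2⟩ := hg.exists_toE
  have γ3 : γ ∈ P.isom := Im.isom h2 (γ2 ▸ hg')
  obtain ⟨ν₀, h10, h11⟩ := exists_mem_Λ hΛ
  have h12 := (hA v 0 ν₀ (by rw [map_zero]; exact EV.of_mem hv h10)).conj γ1 γ3
  rw [map_zero, map_zero, show γ (j v) = _ from (LinearMap.congr_fun γ2 _).trans hga] at h12
  have h13 := h.spl.inj
  have h14 : Function.Injective (s y₀ ∘ₗ j) := h.spl.rinj.comp h13
  refine Xs.engineP (A := range j) (B := range (s y₀ ∘ₗ j)) (le_antisymm (fun x hx => ?_) ?_)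
    (eq_bot_iff.2 ?_) (by rw [finrank_range_of_inj h13]; omega)
    (by rw [finrank_range_of_inj h14]; omega) ?_ ?_ ⟨a, rfl⟩ ⟨a', rfl⟩
    (fun H => h0 (h13 (H.trans (map_zero _).symm))) (fun H => h0' (h14 (H.trans (map_zero _).symm)))
    ha ?_ h11 h12
  · obtain ⟨u, u', rfl⟩ := h.spl.surj x
    rw [h.spl.nd he u fun y => f_symm_zero (by
      simpa [P.f_add_left, h.spl.orth' he] using hx _ ⟨y, rfl⟩), map_zero, zero_add]
    exact ⟨u', rfl⟩
  · rintro _ ⟨u, rfl⟩ _ ⟨u', rfl⟩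
    exact h.spl.orth' he _ _
  · rintro _ ⟨⟨u, rfl⟩, u', hu⟩
    rw [h.spl.nd he u fun y => hu ▸ h.spl.orth he _ _, map_zero]
    exact Submodule.zero_mem _
  · rintro _ _ ν H ⟨v, rfl⟩ ⟨y, rfl⟩
    exact hA v y ν H
  · rintro _ _ ν H ⟨v, rfl⟩ ⟨y, rfl⟩
    rw [← ρ2] at H ⊢
    exact (hA v y ν (by simpa using H.map (P.isom.inv_mem ρ3))).conj ρ1 ρ3
  · simpa using h12.ev.sing.sub ha (by rw [P.f_add_left, ha.f_self, h.spl.orth' he, add_zero])

end Cfsg.Agent.H32.Xs
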