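import Cfsg.Agent.H32.XsN
import Cfsg.Agent.H30.K4Sp

/-!
Overgroups of the normaliser in the symplectic case.
-/

set_option autoImplicit false

namespace Cfsg.Agent.H32.Xs

open Module LinearMap H26 H26.PForm

universe v w

variable {K W U : Type*} {V : Type v} [Field K] [AddCommGroup V] [Module K V] [AddCommGroup W]
  [Module (ZMod 2) W] [AddCommGroup U] [Module K U] {b : LinearMap.BilinForm (ZMod 2) W}
  {q : W → ZMod 2} {s : W → End K V} {X : Subgroup (End K V)ˣ} {P : PForm K V}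

theorem Sy.exists_sing [Finite W] (hb : Sy b) (hq : Qd b q) (l : List W)
    (h : l.length + 3 ≤ finrank (ZMod 2) W) : ∃ x ≠ 0, q x = 0 ∧ ∀ a ∈ l, b x a = 0 := by
  by_contra H
  have key : ∀ x ≠ 0, (∀ a ∈ l, b x a = 0) → q x = 1 := fun x h1 h2 =>
    (z2 _).resolve_left fun h3 => H ⟨x, h1, h3, h2⟩
  obtain ⟨z, h1, h2⟩ := exists_notMem (S := ⊥) (T := orth b (Submodule.span _ {x | x ∈ l}))
    (by have := hb.finrank_orth_list l; rw [finrank_bot]; omega)
  obtain ⟨w, h3, h4⟩ := exists_notMem (T := orth b (Submodule.span _ {x | x ∈ z :: l}))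
    ((finrank_span_le [z]).trans_lt (by
      have := hb.finrank_orth_list (z :: l); simp only [List.length] at this ⊢; omega))
  simp only [mem_orth_span, Set.mem_setOf_eq, List.forall_mem_cons] at h1 h3
  have h5 := key (w + z) (add_ne fun h => h4 (h ▸ Submodule.subset_span (by simp)))
    fun a ha => by simp [h1 a ha, h3.2 a ha]
  rw [hq, key z h2 h1, key w (fun h => h4 (h ▸ zero_mem _)) h3.2, h3.1] at h5
  exact absurd h5 (by decide)

theorem Sy.exists_sing₂ [Finite W] (hb : Sy b) (hq : Qd b q)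
    (hW : 6 ≤ finrank (ZMod 2) W ∨ (4 ≤ finrank (ZMod 2) W ∧ Wb q 2)) {u v : W} (hu : q u = 1)
    (hv : q v = 1) (huv : b u v = 1) : ∃ x ≠ 0, q x = 0 ∧ b u x = 0 ∧ b v x = 0 := by
  suffices ∃ x ≠ 0, q x = 0 ∧ b x u = 0 ∧ b x v = 0 by simpa only [hb.symm u, hb.symm v]
  rcases hW with hW | ⟨h4, hW⟩
  · simpa using hb.exists_sing hq [u, v] (by simp only [List.length]; omega)
  by_contra H
  have key : ∀ x : Xs.hyp b u v, x ≠ 0 → q x = 1 := fun x h1 =>
    (z2 _).resolve_left fun h3 => H ⟨x, fun h => h1 (Subtype.ext h), h3, hyp0 x, hyp1 x⟩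
  obtain ⟨z, -, h1⟩ := exists_notMem (S := ⊥) (T := (⊤ : Submodule (ZMod 2) (Xs.hyp b u v)))
    (by have := hb.finrank_hyp huv; simp; omega)
  obtain ⟨w, h2⟩ := (hb.hyp huv).b1 h1
  replace h2 : b w z = 1 := h2
  have h3 := hW.two hq (s := u + w) (s' := v + z)
    (by rw [hq, hu, key w (fun h => by simp [h] at h2), hb.symm, hyp0]; rfl)
    (by rw [hq, hv, key z h1, hb.symm, hyp1]; rfl)
    (by simp [huv, h2, hb.symm u z, hyp0, hyp1, z11])
    (fun h => by simpa [huv, hyp1] using congrArg (b · v) h)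
    (fun h => by simpa [huv, hyp0, hb.symm v] using congrArg (b · u) h)
  simpa [huv, hyp1, hb.alt] using congrArg (b · v) h3

theorem Fr.exists_sf' [FiniteDimensional K V] (h : Fr b q s) {x₀ y₀ : W} (h01 : b x₀ y₀ = 1) {c : K}
    {e : End K V} (he : e = c • s x₀) (hee : e * e = 1) :
    ∃ (U : Type v) (_ : AddCommGroup U) (_ : Module K U) (_ : FiniteDimensional K U)
      (j : U →ₗ[K] V) (β : End K U × End K U →ₐ[K] End K V) (s' : hyp b x₀ y₀ → End K U),
      SF b q s x₀ y₀ e j β s' := by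
  subst he
  obtain ⟨β, s', hS⟩ := h.exists_sf h01 hee
  exact ⟨_, _, _, inferInstance, _, β, s', hS⟩

theorem exists_intCast [Fintype K] (hp : (Fintype.card K).Prime) (a : K) : ∃ n : ℤ, (n : K) = a := by
  have := Fact.mk hp
  have := charP_of_card_eq_prime (R := K) rfl
  exact (mem_bot_iff_intCast _ K).1
    ((Subfield.mem_bot_iff_pow_eq_self K _).2 (FiniteField.pow_card a))

namespace OS

variable (h : OS P b q s)
include h

theorem im_smul {c : K} {x : W} (hc : (c • s x) * (c • s x) = sg K (q x) • 1) : Im P (c • s x) := by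
  have := h.fr.nt
  rw [h.fr.smul_sq] at hc
  exact (h.im x).smul (by rw [h.σ]; exact (mul_eq_right₀ (sg_ne _)).1 (smul_one_inj hc))

theorem im0 {c : K} {x : W} (hx : q x = 0) (hc : (c • s x) * (c • s x) = 1) : Im P (c • s x) :=
  h.im_smul (by simpa [hx] using hc)

theorem lift {u : W} (hu : q u = 1) : ∃ c : K, (c • s u) * (c • s u) = -1 :=
  ⟨1, by simpa using h.sq1 hu⟩

section

variable {x₀ y₀ : W} {e : End K V} {j : U →ₗ[K] V} {β : End K U × End K U →ₐ[K] End K V}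
  {s' : Xs.hyp b x₀ y₀ → End K U} (hS : SF b q s x₀ y₀ e j β s')
include hS

theorem hyp [FiniteDimensional K V] [Finite W] (he : Im P e) :
    OS (hS.spl.pf he) (b.restrict (hyp b x₀ y₀)) (fun x => q x) s' :=
  ⟨hS.fr', h.σ, hS.im_s' he h.im⟩

theorem ctl (hX : XR P q s X) (hx : q x₀ = 0)
    (hR : RR (b.restrict (Xs.hyp b x₀ y₀)) (fun x => q x = 1) 2) (z : Xs.hyp b x₀ y₀) :
    InG X (β (s' z, 1)) := by
  have h2 := h.fr.two
  have sq : ∀ z : Xs.hyp b x₀ y₀, q z = 1 → s' z * s' z = -1 := fun z hz => by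
    simp [hS.fr'.sq, hz]
  have key : ∀ z : Xs.hyp b x₀ y₀, q z = 1 → InG X (β (s' z, 1)) := fun z hz => by
    obtain ⟨t, h3, h4⟩ := hS.s_add z
    have h5 := hX.rich z (z + x₀) 1 t⁻¹ hz (by rw [h.qd, hz, hx, hyp0]; rfl)
      (by simpa using h.sq1 hz) (by
        rw [h4, inv_smul_smul₀ h3, Spl.β_mul, neg_mul_neg, sq z hz, ← Spl.β_neg, Spl.β_one])
    rw [h4, inv_smul_smul₀ h3, one_smul, hS.hs, Spl.β_one_add, Spl.β_one_add, Spl.β_mul] at h5
    refine InG.of_smul hX.hZ (c := 2) ?_ h2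
    convert h5 using 1
    rw [Spl.β_smul, two_smul, two_smul]
    congr 2 <;> noncomm_ring [sq z hz]
  rcases z2 (q z) with hz | hz
  · obtain ⟨u, hu, h3, -⟩ := hR.two z z 0
    obtain ⟨l, hl⟩ := h.mul u (u + z : Xs.hyp b x₀ y₀)
    rw [← Submodule.coe_add, aab, hS.hs, hS.hs, hS.hs, Spl.β_mul, Spl.β_smul] at hl
    have h4 := (key u hu).mul (key (u + z) (by
      rw [Submodule.coe_add, h.qd, hu, hz, show b u z = 0 by simpa using h3]; rfl))
    rw [Spl.β_mul, (hS.spl.β_inj hl).1] at h4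
    rcases z2 l with rfl | rfl
    · simpa using h4
    · simpa [Spl.β_mul, sq u hu] using ((key u hu).mul (key u hu)).mul h4
  · exact key z hz

end

variable [FiniteDimensional K V] [Finite W]

theorem star_sing (hX : XR P q s X)
    (hW : 8 ≤ finrank (ZMod 2) W ∨ (6 ≤ finrank (ZMod 2) W ∧ Wb q 3))
    (H : ∀ x₀ y₀ (c : K) β s', ∀ hS : SF b q s x₀ y₀ (c • s x₀) (ker (c • s x₀ - 1)).subtype β s',
      q x₀ = 0 → ∀ a a', InG X (β (a, a')) → InG hS.fr'.NG a) {x : W} (hx : x ≠ 0) (hq : q x = 0) :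
    Star b s X x := by
  intro g hg hgx
  have hb := h.fr.sy
  obtain ⟨y₀, hy⟩ := hb.b1 hx
  replace hy := (hb.symm _ _).trans hy
  have hc : ((1 : K) • s x) * ((1 : K) • s x) = 1 := by simpa using h.sq0 hq
  obtain ⟨β, s', hS⟩ := h.fr.exists_sf hy hc
  have h' := h.hyp hS (h.im0 hq hc)
  have h1 := hb.finrank_hyp hy
  have hW' : 6 ≤ finrank (ZMod 2) (Xs.hyp b x y₀) ∨
      (4 ≤ finrank (ZMod 2) (Xs.hyp b x y₀) ∧ Wb (fun z : Xs.hyp b x y₀ => q z) 2) :=
    hW.imp (by omega) fun h2 => ⟨by omega, h2.2.hyp h.qd hb hy hq⟩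
  have hR := h'.fr.sy.RR_q h'.qd (c := 2) (hW'.imp (by omega) id)
  obtain ⟨Y, hY⟩ := hS.spl.exists_fst X
  refine hS.star (N := fun x => q x = 1) hX.hZ (fun _ => h.lift) hX.rich (H _ _ _ _ _ hS hq)
    (hX.hs _) (fun a a' ha x y hxy hx => (h'.cj_q (X := Y) (fun a ha => ?_) ((hY a).2 ⟨a', ha⟩)
      hxy).trans hx) (h'.fr.sy.LT_q h'.qd hW')
    (hS.T0_weak (I := fun x => q x = 0) hX.hZ (fun _ => h.lift) hX.rich (h.ctl hS hX hq hR)
      (fun x₁ c h2 h3 h4 => ?_) (fun u hu => ⟨1, by simpa using h.sq0 hu⟩)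
      (fun u v => h'.fr.sy.exists_sing₂ h'.qd hW')
      (fun u w hu hw h2 => by rw [h.qd, hu, hw, h2]; rfl) hR) hg (by simpa using hgx)
  · obtain ⟨a', h2⟩ := (hY a).1 ha
    exact (hX.sim _ h2).imp fun c h => ⟨h.1, hS.spl.im_fst _ h.2⟩
  · obtain ⟨y₁, hy⟩ := hb.b1 h3
    obtain ⟨β, s', hS⟩ := h.fr.exists_sf ((hb.symm _ _).trans hy) h4
    exact hS.ax (H _ _ _ _ _ hS h2)

theorem core [Finite K] (hX : XR P q s X)
    (hW : 8 ≤ finrank (ZMod 2) W ∨ (6 ≤ finrank (ZMod 2) W ∧ Wb q 3))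
    (star : ∀ x ≠ 0, Star b s X x) : X ≤ h.fr.NG :=
  h.fr.core (N := fun x => q x = 1) (by omega) (h.fr.sy.RR_q h.qd (hW.imp (by omega) id))
    (fun u w hu hw h2 => by rw [h.qd, hu, hw, h2]; rfl) hX.hZ hX.hs
    (fun _ hg _ _ hxy hx => (h.cj_q hX.sim hg hxy).trans hx) (fun u w hu hw => by
      obtain ⟨c, hc⟩ := h.lift hu
      obtain ⟨d, hd⟩ := h.lift hw
      exact ⟨_, hX.rich u w c d hu hw hc hd, (h.fr.act_op hc).mul (h.fr.act_op hd)⟩) star

theorem no_unip {x : W} (hx : x ≠ 0) (hq : q x = 0) (hs : Star b s X x) {N : End K V}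
    (hN : InG X (1 + N)) (h1 : N * s x = N) (h2 : s x * N = N) (h3 : N * N = 0) : N = 0 := by
  have hb := h.fr.sy
  obtain ⟨y₀, hy⟩ := hb.b1 hx
  obtain ⟨U, _, _, _, j, β, s', hS⟩ := h.fr.exists_sf' ((hb.symm _ _).trans hy) (one_smul K _).symm
    (h.sq0 hq)
  have hf := hS.fr'
  obtain ⟨n, n', rfl⟩ := hS.spl.cent (h1.trans h2.symm)
  have h5 := h1
  rw [← hS.spl.β_e, Spl.β_mul, mul_neg_one] at h5
  obtain rfl : n' = 0 := (smul_eq_zero.1 (by
    rw [two_smul, ← eq_neg_iff_add_eq_zero, (hS.spl.β_inj h5).2])).resolve_left hf.two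
  have h6 := fun z : Xs.hyp b x y₀ => hs _ hN (by rw [add_mul, mul_add, h1, h2]; simp) z (hyp0 z)
  rw [Spl.β_one_add, add_zero] at hN h6
  obtain ⟨w, c, -, h7⟩ := hf.self (hS.spl.unit hN.isUnit).1 fun z => by
    obtain ⟨y', h7⟩ := h6 z
    obtain ⟨y, h8⟩ := hS.dec0 ((h.fr.cj_pres hN.isUnit h7 (hS.cj_x0 _ _)).trans (hyp0 z))
    obtain ⟨d, h7⟩ := h7
    obtain ⟨t, t', h9⟩ : ∃ t t' : K, d • s y' = β (t • s' y, t' • s' y) := by
      rcases h8 with h8 | h8 <;> rw [h8]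
      · exact ⟨d, d, by rw [hS.hs, Spl.β_smul]⟩
      · obtain ⟨t, -, ht⟩ := hS.s_add y
        exact ⟨d * t, -(d * t), by rw [ht, smul_smul, Spl.β_smul, smul_neg, neg_smul]⟩
    rw [← smul_mul_assoc, h9, hS.hs, Spl.β_mul, Spl.β_mul, one_mul, mul_one] at h7
    obtain ⟨h10, h11⟩ := hS.spl.β_inj h7
    exact ⟨t, by rw [h10, hf.inj h11, smul_mul_assoc]⟩
  rw [Spl.β_mul, zero_mul, ← map_zero β] at h3
  have h8 := (hS.spl.β_inj h3).1
  have h9 := hf.smul_sq c w
  rw [← h7] at h9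
  generalize c * c * sg K _ = d at h9
  have h10 : n = ((2 : K)⁻¹ * (d - 1)) • 1 := by
    rw [mul_smul, eq_inv_smul_iff₀ hf.two, sub_smul, ← h9, two_smul, one_smul]
    noncomm_ring [h8]
  rw [h10, smul_mul_smul_comm, one_mul, smul_eq_zero, mul_self_eq_zero] at h8
  have := hf.nt
  rw [h10, h8.resolve_right one_ne_zero, zero_smul]
  exact map_zero β

theorem star_ns [Fintype K] (hp : (Fintype.card K).Prime) (hX : XR P q s X) (hε : P.ε = -1) {k : ℕ}
    (hk : finrank (ZMod 2) W = 2 * (k + 3)) (hs : ∀ x ≠ 0, q x = 0 → Star b s X x) {x : W}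
    (hx : q x = 1) : Star b s X x := by
  have hb := h.fr.sy
  obtain ⟨y, hy⟩ := hb.b1 (h.ne_zero hx)
  replace hy := (hb.symm _ _).trans hy
  obtain ⟨z, h1, h2, h3⟩ := hb.exists_sing h.qd [x, y] (by simp only [List.length]; omega)
  have h4 := h3 x (by simp)
  have key : ∀ (g : End K V) (u u' : V) (φ ψ : V → K), InG X g → s z u = u → s z u' = u' →
      (∀ v, φ (s z v) = φ v) → (∀ v, ψ (s z v) = ψ v) → (∀ a a' : K, φ (a • u + a' • u') = 0) →
      (∀ a a' : K, ψ (a • u + a' • u') = 0) → (∀ v, g v = v + (φ v • u + ψ v • u')) →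
      ∀ v, φ v • u + ψ v • u' = 0 := fun g u u' φ ψ hg e1 e2 e3 e4 e5 e6 e7 v => by
    have e8 : ∀ v, (g - 1) v = φ v • u + ψ v • u' := fun v => by simp [e7]
    rw [← e8, h.no_unip h1 h2 (hs z h1 h2) (N := g - 1) (by simpa) (LinearMap.ext fun v => by
      rw [End.mul_apply, e8, e8, e3, e4]) (LinearMap.ext fun v => by
      rw [End.mul_apply, e8, map_add, map_smul, map_smul, e1, e2]) (LinearMap.ext fun v => by
      rw [End.mul_apply, e8 v, e8, e5, e6]; simp), LinearMap.zero_apply]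
  have fx : ∀ u, s z u = u → ∀ v, P.f (s z v) u = P.f v u := fun u hu v => by
    rw [← h.im z v, hu]
  have alt : ∀ u, P.f u u = 0 := fun u => (mul_eq_zero.1 (by
    have := P.herm u u
    rw [hε, h.σ] at this
    linear_combination this : (2 : K) * _ = 0)).resolve_left h.fr.two
  by_cases hi : ∃ i : K, i * i = -1
  · obtain ⟨i, hi⟩ := hi
    obtain ⟨U, _, _, _, j, β, s', hS⟩ := h.fr.exists_sf' hy (c := -i) rfl (by
      rw [smul_mul_smul_comm, h.sq1 hx, neg_mul_neg, hi]; simp)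
    refine (h.nsa_split hp hX hi hk hx hS).resolve_right fun H => ?_
    have hf := hS.fr'
    let z' : Xs.hyp b x y := ⟨z, mem_hyp.2 ⟨h4, h3 y (by simp)⟩⟩
    obtain ⟨t, ht⟩ := hf.sy.b1 (a := z') fun h => h1 (congrArg Subtype.val h)
    obtain ⟨U', _, _, _, j', β', s'', hS'⟩ := hf.exists_sf' ((hf.sy.symm _ _).trans ht)
      (one_smul K _).symm (by simp [hf.sq, z', h2])
    have h5 := hf.four_le (by have := hb.finrank_hyp hy; omega)
    have h6 := hS'.spl.dim
    obtain ⟨v, -, hv⟩ := H26.exists_mem_notMem_of_finrank_lt (A := (⊤ : Submodule K U')) (S := ⊥)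
      (by simp; omega)
    obtain ⟨w, h7, hw⟩ := H26.exists_mem_notMem_of_finrank_lt (S := ⊥)
      (A := ker (P.fL (j (j' v)) ∘ₗ s y ∘ₗ j ∘ₗ j')) (by
        have := finrank_ker_dual (P.fL (j (j' v)) ∘ₗ s y ∘ₗ j ∘ₗ j'); simp; omega)
    have h8 := H (j' v) (j' w) h7
    have h9 : ∀ u, s z (j (j' u)) = j (j' u) := fun u => by
      rw [show s z = _ from hS.hs z', hS.spl.βj, hS'.spl.fix]
    have h10 : s z (s y (j (j' w))) = s y (j (j' w)) := by
      rw [show s z = _ from hS.hs z', hS.spl.βr, hS'.spl.fix]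
    have h11 := h8.ev.orth
    have h12 := h8.ev.orth'
    obtain ⟨u, hu⟩ := P.exists_f_left_eq (y := j (j' v)) (fun h => hv (hS'.spl.inj (hS.spl.inj
      (by simpa using h)))) 1
    have h13 := key _ (s y (j (j' w))) (j (j' v)) (P.f · (j (j' v))) (P.f · (s y (j (j' w))))
      (ei_iff.1 h8).2 h10 (h9 v) (fx _ (h9 v)) (fx _ h10)
      (by simp [P.f_add_left, P.f_smul_left, h11, alt]) (by simp [P.f_add_left, P.f_smul_left, h12, alt])
      (fun v => by simp [eich_apply, hε, add_assoc]) u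
    have h14 := congrArg (-i • s x) h13
    simp only [hu, one_smul, map_add, map_smul, hS.spl.fix, hS.spl.neg, map_zero] at h13 h14
    refine hw (hS'.spl.inj (hS.spl.inj (hS.spl.rinj (smul_right_injective _ h.fr.two ?_))))
    simp only [map_zero]
    linear_combination (norm := module) h13 - h14
  · refine (h.nsa_ns hp hX (fun i h => hi ⟨i, h⟩) hk hx).resolve_right fun H => ?_
    obtain ⟨t, ht⟩ := hb.b1 h1
    obtain ⟨U, _, _, _, j, β, s', hS⟩ := h.fr.exists_sf' ((hb.symm _ _).trans ht)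
      (one_smul K _).symm (h.sq0 h2)
    have h5 := hS.fr'.four_le (by have := hb.finrank_hyp hS.b01; omega)
    obtain ⟨u, -, h6, h7⟩ := H30.exists_singular_mem (BilinMap.toQuadraticMap (LinearMap.mk₂ K
      (fun u v => P.f (s x (j u)) (j v)) (by simp [P.f_add_left]) (by simp [P.f_smul_left])
      (by simp [P.f_add_right]) (by simp [P.f_smul_right, h.σ]))) ⊤ (by simp; omega)
    replace h7 : P.f (s x (j u)) (j u) = 0 := h7
    obtain ⟨g, h8, -, h9⟩ := H (j u) (-1) (alt _) h7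
    have h10 : s z (s x (j u)) = s x (j u) := by
      rw [← End.mul_apply, h.fr.comm0 h4, End.mul_apply, hS.spl.fix]
    obtain ⟨v, h11, h12⟩ := P.exists_perp_f_left (W := K ∙ s x (j u)) (x := j u) (fun H => by
      obtain ⟨c, hc⟩ := Submodule.mem_span_singleton.1 H
      refine hi ⟨c, smul_left_injective K (fun h => h6 (hS.spl.inj (h.trans (map_zero j).symm))) ?_⟩
      have := congrArg (s x) hc
      rw [map_smul, show s x (s x (j u)) = -j u from LinearMap.congr_fun (h.sq1 hx) _] at this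
      simp only
      rw [mul_smul, ← neg_neg (c • j u), ← smul_neg, this, smul_neg, hc, neg_one_smul]) 1
    have h13 := key g (j u) (s x (j u)) (P.f · (j u)) (P.f · (s x (j u))) h8 (hS.spl.fix u) h10
      (fx _ (hS.spl.fix u)) (fx _ h10) (by simp [P.f_add_left, P.f_smul_left, h7, alt])
      (by simp [P.f_add_left, P.f_smul_left, f_symm_zero h7, alt]) (fun v => by
        rw [h9 hε, neg_one_smul, sub_neg_eq_add]) v
    rw [h12, mem_perp_span_singleton.1 h11, one_smul, zero_smul, add_zero] at h13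
    exact h6 (hS.spl.inj (h13.trans (map_zero j).symm))

theorem xr (hX : h.fr.NG ⊓ IG P ≤ X) (hZ : HasZ X) (hX' : SimX P X) : XR P q s X := by
  have key : ∀ g, InG h.fr.NG g → Im P g → InG X g := fun g h1 h2 =>
    (h1.inf ((inG_IG h1.isUnit).2 h2)).mono hX
  have h2 := inv_ne_zero h.fr.two
  exact ⟨hZ, fun x => key _ (h.fr.inG_NG_s x) (h.im x), fun u w c d hu hw hc hd =>
    InG.of_smul hZ (key _ (((h.fr.inG_NG_op hc).mul (h.fr.inG_NG_op hd)).smul h.fr.hasZ_NG h2)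
      (Im.rich h.fr.two (h.im_smul (by simpa [hu] using hc)) hc
        (h.im_smul (by simpa [hw] using hd)) hd)) h2, hX'⟩

theorem baseS [Fintype K] (hp : (Fintype.card K).Prime) (hε : P.ε = -1)
    (h4 : finrank (ZMod 2) W = 2 * 2) (hX : h.fr.NG ⊓ IG P ≤ X) (hZ : HasZ X) (hX' : SimX P X) :
    X ≤ h.fr.NG ∨ P.E ≤ toE X := by
  have h2 := h.fr.two
  let B : LinearMap.BilinForm K V := LinearMap.mk₂ K P.f P.f_add_left P.f_smul_left P.f_add_right
    (by simp [P.f_smul_right, h.σ])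
  obtain ⟨e, he⟩ := H27.exists_equiv_jBilin (B := B) ⟨fun _ => eq_zero_of_f_left, P.nondeg⟩
    (fun u => (mul_eq_zero.1 (by
      have := P.herm u u
      rw [hε, h.σ] at this
      linear_combination this : (2 : K) * P.f u u = 0)).resolve_left h2) (m := 2) (h.fr.finrank_eq h4)
  obtain ⟨φ, hφ, -, hk⟩ := H30.exists_phi_sp4 h2
  let θ := (H27.spEquiv (Fin 2) K).trans (H27.isomGroupCongr e he)
  let ψ := (GeneralLinearGroup.generalLinearEquiv K V).symm.toMonoidHom.comp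
    ((H27.isomGroup B).subtype.comp θ.toMonoidHom)
  have hψ : ψ.range = IG P := by
    ext g
    refine ⟨?_, fun hg => ⟨θ.symm ⟨GeneralLinearGroup.generalLinearEquiv K V g, hg⟩, by simp [ψ]⟩⟩
    rintro ⟨g, rfl⟩
    exact (θ g).2
  have h1 : ∀ c ∈ rootsOfUnity 2 K, (c : K) * c = 1 := fun c hc => by
    simpa [pow_two] using (mem_rootsOfUnity' _ _).1 hc
  refine (h.fr.base hp h2 (H30.qOdd_nondegenerate h2 2) (by simp) ψ
    ((GeneralLinearGroup.generalLinearEquiv K V).symm.injective.comp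
      (Subtype.val_injective.comp θ.injective)) φ hφ hk
    (LinearMap.ext fun v => ?_) (μ := rootsOfUnity 2 K) ((mem_rootsOfUnity' _ _).2 (by norm_num))
    (fun c hc => by linear_combination (c * c + 1) * h1 c hc) (fun x y => ?_)
    (fun c hc x => hψ ▸ (inG_IG (IsUnit.smul c (h.fr.isUnit x))).2
      ((h.im x).smul (by rw [h.σ, h1 c hc])))
    (by rw [(IsPrimitiveRoot.neg_one (ringChar K) fun h0 => h2 (by
      simpa [h0] using ringChar.Nat.cast_ringChar (R := K))).card_rootsOfUnity, Fr.card_W h4]; simp)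
    (hψ ▸ hX)).imp (fun H g hg => ?_) fun H g hg => hψ.ge.trans H (E_le_isom hg).1
  · change e (H27.spToLin _ _ _ _) = -v
    rw [H27.spToLin_apply]
    simp [H28.negOneSp, Matrix.neg_mulVec]
  · obtain ⟨l, hl⟩ := h.mul x y
    exact ⟨Units.mk0 _ (sg_ne l), (mem_rootsOfUnity' _ _).2 ((pow_two _).trans (sg_mul_self l)), hl⟩
  · obtain ⟨c, h3, h5⟩ := hX' _ (.of_mem hg)
    have h6 := (InG.of_mem hg).smul hZ h3
    exact (InG.of_smul h.fr.hasZ_NG ((h6.inf (hψ ▸ (inG_IG h6.isUnit).2 h5)).mono H) h3).mem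

end OS

theorem claimS [Fintype K] (hp : (Fintype.card K).Prime) (k : ℕ) :
    ∀ {V : Type v} [AddCommGroup V] [Module K V] [FiniteDimensional K V] {W : Type w}
      [AddCommGroup W] [Module (ZMod 2) W] [Finite W] {b : LinearMap.BilinForm (ZMod 2) W}
      {q : W → ZMod 2} {s : W → End K V} {P : PForm K V} (h : OS P b q s) {X : Subgroup (End K V)ˣ},
      P.ε = -1 → P.d ≤ 2 → finrank (ZMod 2) W = 2 * (k + 2) → Wb q (k + 2) →
      h.fr.NG ⊓ IG P ≤ X → HasZ X → SimX P X → X ≤ h.fr.NG ∨ P.E ≤ toE X := by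
  induction k with
  | zero => exact fun h _ hε _ h4 _ hX hZ hX' => h.baseS hp hε h4 hX hZ hX'
  | succ k ih =>
    intro V _ _ _ W _ _ _ b q s P h X hε hd hk hW hX hZ hX'
    have hb := h.fr.sy
    have h2 := h.fr.two
    have hR := h.xr hX hZ hX'
    have hW' : 8 ≤ finrank (ZMod 2) W ∨ (6 ≤ finrank (ZMod 2) W ∧ Wb q 3) := by
      rcases k with _ | k
      exacts [Or.inr ⟨hk.ge, hW⟩, Or.inl (by omega)]
    refine or_iff_not_imp_right.2 fun hn => ?_
    suffices H : ∀ x ≠ 0, q x = 0 → Star b s X x from h.core hR hW' fun x hx =>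
      (z2 (q x)).elim (H x hx) (h.star_ns hp hR hε hk H)
    refine fun x => h.star_sing hR hW' fun x₀ y₀ c β s' hS hx => ?_
    have h1 := hb.finrank_hyp hS.b01
    have he := h.im0 hx hS.ee
    have h' := h.hyp hS he
    have hW₁ := hW.hyp h.qd hb hS.b01 hx
    obtain ⟨Y, hY⟩ := hS.spl.exists_fst X
    rcases ih h' (X := Y) hε hd (by omega) hW₁ (fun a ha => InG.mem ((hY a).2 ⟨a, ((hS.diag_NG
      (.of_mem ha.1)).inf ((inG_IG (Spl.β_unit a.isUnit a.isUnit)).2
        (hS.spl.im_β he (h.im _) ha.2 ha.2))).mono hX⟩)) (fun c hc => (hY _).2 ⟨c • 1, by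
          simpa only [← Spl.β_smul, Spl.β_one] using hZ c hc⟩) (fun a ha => by
        obtain ⟨a', h2⟩ := (hY a).1 ha
        exact (hX' _ h2).imp fun c h => ⟨h.1, hS.spl.im_fst he h.2⟩) with H | H
    · exact fun a a' ha => ((hY a).2 ⟨a', ha⟩).mono H
    have hU := hS.fr'.four_le (by omega)
    obtain ⟨z, z1, z2, -⟩ := h'.fr.sy.exists_sing h'.qd [] (by simp only [List.length]; omega)
    have hR' := h'.fr.sy.RR_q h'.qd (c := 2) (by
      rcases k with _ | k
      exacts [Or.inr ⟨by omega, hW₁⟩, Or.inl (by omega)])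
    obtain ⟨w, hw, -⟩ := hR'.two 0 0 0
    obtain ⟨u, hu, u1⟩ : ∃ u, q u = 1 ∧ b u x₀ = 1 := by
      have h3 := (hb.symm _ _).trans hS.b01
      rcases Xs.z2 (q y₀) with h4 | h4
      · exact ⟨y₀ + x₀, by rw [h.qd, h4, hx, h3]; rfl, by simp [h3, hb.alt]⟩
      · exact ⟨y₀, h4, h3⟩
    obtain ⟨v, -, hv⟩ := H26.exists_mem_notMem_of_finrank_lt
      (A := (⊤ : Submodule K (ker (c • s x₀ - 1)))) (S := ⊥) (by simp; omega)
    have alt : ∀ u, P.Sing u := fun u => sing_of_f h2 ((mul_eq_zero.1 (by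
      have := P.herm u u
      rw [hε, h.σ] at this
      linear_combination this : (2 : K) * _ = 0)).resolve_left h2)
    have h3 := h.sq1 hu
    have h4 := h.sq1 hw
    have h5 : (2 : K)⁻¹ • (1 + s' w) v ≠ 0 := smul_ne_zero (inv_ne_zero h2) fun h0 => hv
      (((End.isUnit_iff _).1 (h'.fr.op_unit (h'.sq1 hw))).1 (h0.trans (map_zero _).symm))
    generalize ha : (2 : K)⁻¹ • (1 + s' w) v = a at h5
    obtain ⟨a', ha'⟩ := hS.spl.mem' (v := s u ((ker (c • s x₀ - 1)).subtype a)) (by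
      rw [← End.mul_apply, smul_mul_assoc, ← neg_neg (s x₀ * _), ← h.fr.comm1 u1, smul_neg,
        ← mul_smul_comm, LinearMap.neg_apply, End.mul_apply, hS.spl.fix])
    exact absurd (hS.engineP (fun h0 => h2 (by simpa [h0, hε, one_add_one_eq_two] using P.Λ_ge 1)) hd
      (fun a _ => exists_intCast hp a) hU he (h.im _) (hR.hs _) z1 (c := 1)
      (by simpa using h'.sq0 z2) (by simpa using h'.im z) (h.ctl hS hR hx hR' z)
      ((hR.rich u w 1 1 hu hw (by simpa) (by simpa)).smul hZ (inv_ne_zero h2))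
      (by simpa using Im.rich h2 (h.im u) h3 (h.im w) h4) (v := v) (a := a) (a' := a') (alt _) (alt _) h5
      (fun h0 => h5 (hS.spl.inj (((End.isUnit_iff _).1 (h.fr.isUnit u)).1 (by simpa [h0] using ha'))))
      (by
        rw [← ha', ← ha, hS.hs]
        simp only [one_smul, LinearMap.smul_apply, End.mul_apply, LinearMap.add_apply, End.one_apply,
          map_add, map_smul, hS.spl.βj, smul_add]
        abel) fun a ha => (hY a).1 (mem_toE.1 (H ha))) hn

variable {R : Subgroup (End K V)ˣ} {π : R →* Multiplicative W}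

theorem RF.surj (hR : RF R s π) : Function.Surjective π := fun x => (hR.mem x).imp fun _ h => h.2

theorem RF.card (hR : RF R s π) : Nat.card R = Nat.card (Subgroup.center R) * Nat.card W := by
  rw [← hR.ker, ← π.ker.card_mul_index, Subgroup.index_ker, MonoidHom.range_eq_top.2 hR.surj,
    Subgroup.card_top]; rfl

theorem OS.wb [Finite R] [Finite W] (h : OS P b q s) (hR : RF R s π) (hI : R ≤ IG P) {G : Type*}
    [Group G] (e : G ≃* R) (hZ : Nat.card (Subgroup.center G) = 2) {k : ℕ}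
    (hm : ∀ A : Subgroup G, IsMulCommutative A → (∀ x ∈ A, x * x = 1) → Nat.card A < 2 ^ (k + 1)) :
    Wb q k := fun L hL => by
  have := h.fr.nt
  let A := L.toAddSubgroup.toSubgroup.comap (π.comp e.toMonoidHom)
  have h1 := hm A ⟨⟨fun g k => Subtype.ext (e.injective (Subtype.ext (Units.ext ?_)))⟩⟩
    fun g hg => e.injective (Subtype.ext (Units.ext ?_))
  · have h2 := A.card_mul_index
    have h3 := L.toAddSubgroup.toSubgroup.card_mul_index
    rw [Subgroup.index_comap_of_surjective (f := π.comp e.toMonoidHom) _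
      (hR.surj.comp e.surjective), Nat.card_congr e.toEquiv,
      hR.card, ← Nat.card_congr (Subgroup.centerCongr e).toEquiv, hZ,
      show Nat.card W = _ from h3.symm, ← mul_assoc] at h2
    rw [mul_right_cancel₀ Subgroup.index_ne_zero_of_finite h2, pow_succ',
      show Nat.card L.toAddSubgroup.toSubgroup = _ from Fr.card_W (W := L) rfl] at h1
    exact (Nat.pow_lt_pow_iff_right one_lt_two).1 (by omega)
  · obtain ⟨c, h2, -⟩ := hR.sur (e g)
    obtain ⟨d, h3, -⟩ := hR.sur (e k)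
    have h4 := h.qd (π (e g)).toAdd (π (e k)).toAdd
    have h5 : (π (e g)).toAdd ∈ L := g.2
    have h6 : (π (e k)).toAdd ∈ L := k.2
    rw [hL _ (L.add_mem h5 h6), hL _ h5, hL _ h6, add_zero, zero_add] at h4
    simp only [Subgroup.coe_mul, map_mul, Units.val_mul, h2, h3, smul_mul_smul_comm,
      h.fr.comm0 h4.symm, mul_comm c]
  · obtain ⟨c, h2, h3⟩ := hR.sur (e g)
    have h4 := Im.one.norm ((inG_IG h3.isUnit).1 (h3.mono hI))
    rw [h.σ] at h4
    simp [h2, h.sq0 (hL (π (e g)).toAdd hg), smul_smul, h4]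

theorem OS.isMax [FiniteDimensional K V] [Finite W] [Finite R] (h : OS P b q s) (hR : RF R s π)
    (hn : InG R (-1)) (h4 : P.d * 2 ≤ finrank K V) (h3 : 3 ≤ finrank (ZMod 2) W)
    (H : ∀ M, h.fr.NG ⊓ EG P ≤ M → M ≤ EG P → zc M ≤ h.fr.NG ∨ P.E ≤ toE (zc M)) :
    Geo.IsMaximalIn (EG P) (Subgroup.normalizer (R : Set (End K V)ˣ) ⊓ EG P) := by
  refine h.fr.isMax hR (fun g hg x y d H => ?_) ?_ fun M h1 h2 => (H M h1 h2).imp le_zc.trans
    fun H g hg => (h.fr.of_zc h1 h2 (.of_mem hg) (.of_mem (EG_le_iff.2 H hg))).mem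
  · rcases mul_self_eq_one_iff.1 (h.cj_sq one_ne_zero (by
      rw [one_smul]; exact EG_le_IG hg) H) with rfl | rfl
    exacts [by simpa using InG.one, by simpa using hn]
  · obtain ⟨x, h1, h2, -⟩ := h.fr.sy.exists_sing h.qd [] h3
    refine h.fr.not_EG_le h4 ?_ h1 (c := 1) (by simpa using h.sq0 h2) (by simpa using h.im x)
    by_contra h5
    have := (Nat.pow_le_pow_right two_pos h3).trans (h.fr.finrank_sq.ge.trans
      (Nat.pow_le_pow_left (show _ ≤ 2 by omega) 2))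
    omega

theorem sp_c6 {F : Type v} [Field F] [Fintype F] {m k : ℕ} (hp : (Fintype.card F).Prime)
    (h2 : (2 : F) ≠ 0) (h3 : 3 ≤ m) {R : Subgroup (GL (Fin m ⊕ Fin m) F)}
    (h : Geo.IsSymplecticTypeGroup 2 R) (habs : Geo.ActsAbsolutelyIrreducibly (Geo.matrixSet R))
    (hR : R ≤ spGL m F) (hc : Nat.card R = 2 ^ (1 + 2 * k)) (hZ : Nat.card (Subgroup.center R) = 2)
    (hm : Geo.IsOfMinusType k R) :
    Geo.IsMaximalIn (spGL m F) (Geo.subgroupNormalizer R ⊓ spGL m F) := by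
  have : Nonempty (Fin m) := ⟨⟨0, by omega⟩⟩
  obtain ⟨W, _, _, _, b, q, s, π, hf, hR'⟩ := exists_fr_GL h2 h habs
  let P := sympP (H27.isSymplecticForm_sympForm (F := F) m)
  have hG : ∀ g, g ∈ spGL m F ↔ tl g ∈ EG P := mem_spGL_iff
  have hI : R.map tl.toMonoidHom ≤ IG P := by
    rintro _ ⟨g, hg, rfl⟩
    exact hR hg
  have hO : OS P b q s := ⟨hf, fun _ => rfl, fun x => by
    obtain ⟨g, h1, -⟩ := hR'.mem x
    exact h1 ▸ hI g.2⟩
  have hV : finrank F (Fin m ⊕ Fin m → F) = m + m := by simp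
  let e := R.equivMapOfInjective tl.toMonoidHom tl.injective
  obtain ⟨k', hk⟩ := hf.exists_k (by omega)
  obtain rfl : k = k' + 3 := by
    have h1 := hR'.card
    rw [← Nat.card_congr e.toEquiv, ← Nat.card_congr (Subgroup.centerCongr e).toEquiv, hc, hZ,
      Fr.card_W hk, ← pow_succ'] at h1
    have := Nat.pow_right_injective le_rfl h1
    omega
  refine isMax_of_tl hG (hO.isMax hR' ⟨_, ⟨_, H30.symp_neg_mem h habs, rfl⟩,
    (congrArg Matrix.toLin' H25.coe_scal_neg_one).trans (by simp; rfl)⟩ (show 1 * 2 ≤ _ by omega)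
    (by omega) fun M h1 h3 => claimS hp (k' + 1) hO rfl (show 1 ≤ 2 by omega) hk
      (hO.wb hR' hI e hZ hm) (fun g hg => le_zc (h1 ⟨hg.1, ?_⟩)) hasZ_zc
      (simX_zc (h3.trans EG_le_IG)))
  obtain ⟨g, rfl⟩ := tl.surjective g
  exact (hG g).1 hg.2


end Cfsg.Agent.H32.Xs
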