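import Cfsg.Agent.H32.XsFr

/-!
Splitting along the eigenspaces of an involution.
-/

set_option autoImplicit false

namespace Cfsg.Agent.H32.Xs

open Module

variable {K V W U : Type*} [Field K] [AddCommGroup V] [Module K V] [AddCommGroup W]
  [Module (ZMod 2) W] [AddCommGroup U] [Module K U]

/-- `V = j U ⊕ r j U` is the eigenspace decomposition of `e`, and `β` gives the block maps. -/
structure Spl (e r : End K V) (j : U →ₗ[K] V) (β : End K U × End K U →ₐ[K] End K V) : Prop where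
  two : (2 : K) ≠ 0
  inj : Function.Injective j
  rinj : Function.Injective r
  fix : ∀ u, e (j u) = j u
  neg : ∀ u, e (r (j u)) = -r (j u)
  surj : ∀ v, ∃ u u', v = j u + r (j u')
  βj : ∀ a a' u, β (a, a') (j u) = j (a u)
  βr : ∀ a a' u, β (a, a') (r (j u)) = r (j (a' u))
  det : ∀ a a', LinearMap.det (β (a, a')) = LinearMap.det a * LinearMap.det a'
  dim : finrank K V = 2 * finrank K U

theorem exists_spl [FiniteDimensional K V] (h2 : (2 : K) ≠ 0) {e r : End K V} {ε : K}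
    (he : e * e = 1) (hr : r * r = ε • 1) (hε : ε ≠ 0) (her : e * r = -(r * e)) :
    ∃ β, Spl e r (LinearMap.ker (e - 1)).subtype β := by
  set U := LinearMap.ker (e - 1)
  have hU : ∀ v, v ∈ U ↔ e v = v := fun v => by simp [U, sub_eq_zero]
  have h1 : ∀ v, e (e v) = v := LinearMap.congr_fun he
  have h3 : ∀ v, r (r v) = ε • v := LinearMap.congr_fun hr
  have h4 : ∀ v, e (r v) = -r (e v) := LinearMap.congr_fun her
  have h5 : Function.Injective r := (injective_iff_map_eq_zero _).2 fun v hv =>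
    (smul_eq_zero.1 (by rw [← h3, hv, map_zero])).resolve_left hε
  have h6 : ∀ v, ∃ u u' : U, v = u + r u' := fun v =>
    ⟨⟨(2 : K)⁻¹ • (v + e v), (hU _).2 (by rw [map_smul, map_add, h1, add_comm])⟩,
      ⟨((2 : K)⁻¹ * ε⁻¹) • r (v - e v), (hU _).2 (by
        rw [map_smul, h4, ← map_neg, map_sub, h1, neg_sub])⟩, by
      simp only [map_smul, h3, smul_smul, inv_mul_cancel_right₀ hε]
      rw [← smul_add, add_add_sub_cancel, ← two_smul K, inv_smul_smul₀ h2]⟩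
  let φ : (U × U) ≃ₗ[K] V := LinearEquiv.ofBijective (U.subtype.coprod (r ∘ₗ U.subtype))
    ⟨(injective_iff_map_eq_zero _).2 fun p hp => by
      have h7 : (p.1 : V) + r p.2 = 0 := hp
      have h8 := congrArg e h7
      rw [map_add, h4, (hU _).1 p.1.2, (hU _).1 p.2.2, map_zero] at h8
      have h9 : (p.1 : V) = 0 := (smul_eq_zero.1 (by
        have := congrArg₂ (· + ·) h7 h8
        simp only [add_zero] at this
        rw [two_smul, ← this]; abel)).resolve_left h2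
      rw [h9, zero_add, ← map_zero r] at h7
      exact Prod.ext (Subtype.ext h9) (Subtype.ext (h5 h7)),
    fun v => by obtain ⟨u, u', h⟩ := h6 v; exact ⟨(u, u'), h.symm⟩⟩
  have h7 : ∀ u : U, (u : V) = φ (u, 0) := fun u => by
    show _ = (u : V) + r (0 : U); simp
  have h8 : ∀ u : U, r u = φ (0, u) := fun u => by
    show _ = ((0 : U) : V) + r u; simp
  refine ⟨(φ.conjAlgEquiv K).toAlgHom.comp (LinearMap.prodMapAlgHom K U U), h2,
    Subtype.val_injective, h5, fun u => (hU _).1 u.2, fun u => ?_, h6, fun a a' u => ?_,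
    fun a a' u => ?_, fun a a' => ?_, ?_⟩
  · rw [h4]; exact congrArg (-r ·) ((hU _).1 u.2)
  · simp only [Submodule.subtype_apply, h7]; simp
  · simp only [Submodule.subtype_apply, h8]; simp
  · rw [← LinearMap.det_prodMap, ← LinearMap.det_conj _ φ]; rfl
  · rw [← φ.finrank_eq, finrank_prod, two_mul]

namespace Spl

variable {e r : End K V} {j : U →ₗ[K] V} {β : End K U × End K U →ₐ[K] End K V}
  (h : Spl e r j β)
include h

theorem ext {g k : End K V} (h1 : ∀ u, g (j u) = k (j u)) (h2 : ∀ u, g (r (j u)) = k (r (j u))) :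
    g = k := LinearMap.ext fun v => by
  obtain ⟨u, u', rfl⟩ := h.surj v
  rw [map_add, map_add, h1, h2]

theorem β_inj {a a' c c' : End K U} (H : β (a, a') = β (c, c')) : a = c ∧ a' = c' :=
  ⟨LinearMap.ext fun u => h.inj (by rw [← h.βj a a', H, h.βj]),
    LinearMap.ext fun u => h.inj (h.rinj (by rw [← h.βr a a', H, h.βr]))⟩

theorem β_e : β (1, -1) = e :=
  h.ext (fun u => by rw [h.βj, h.fix]; rfl) fun u => by rw [h.βr, h.neg]; simp

theorem mem {v : V} (hv : e v = v) : ∃ u, v = j u := by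
  obtain ⟨u, u', rfl⟩ := h.surj v
  rw [map_add, h.fix, h.neg, add_right_inj, neg_eq_iff_add_eq_zero, ← two_smul K] at hv
  exact ⟨u, by rw [(smul_eq_zero.1 hv).resolve_left h.two, add_zero]⟩

theorem mem' {v : V} (hv : e v = -v) : ∃ u, v = r (j u) := by
  obtain ⟨u, u', rfl⟩ := h.surj v
  rw [map_add, h.fix, h.neg, neg_add, add_left_inj, eq_neg_iff_add_eq_zero, ← two_smul K] at hv
  exact ⟨u', by rw [(smul_eq_zero.1 hv).resolve_left h.two, zero_add]⟩

theorem cent {g : End K V} (hg : g * e = e * g) : ∃ a a', g = β (a, a') := by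
  have h1 : ∀ v, g (e v) = e (g v) := LinearMap.congr_fun hg
  choose a ha using fun u => h.mem (v := g (j u)) (by rw [← h1, h.fix])
  choose a' ha' using fun u => h.mem' (v := g (r (j u))) (by rw [← h1, h.neg, map_neg])
  refine ⟨⟨⟨a, fun u v => h.inj ?_⟩, fun c u => h.inj ?_⟩,
    ⟨⟨a', fun u v => h.inj (h.rinj ?_)⟩, fun c u => h.inj (h.rinj ?_)⟩,
    h.ext (fun u => by rw [h.βj]; exact ha u) fun u => by rw [h.βr]; exact ha' u⟩
  · simp only [map_add, ← ha]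
  · simp only [map_smul, ← ha, RingHom.id_apply]
  · simp only [map_add, ← ha']
  · simp only [map_smul, ← ha', RingHom.id_apply]

theorem swap {ε : K} (hr : r * r = ε • 1) (a a' : End K U) : r * β (a, a') = β (a', a) * r := by
  have h3 : ∀ v, r (r v) = ε • v := LinearMap.congr_fun hr
  exact h.ext (fun u => by simp only [End.mul_apply, h.βj, h.βr])
    fun u => by simp only [End.mul_apply, h.βj, h.βr, h3, map_smul]

omit h in
theorem β_mul (a a' c c' : End K U) : β (a, a') * β (c, c') = β (a * c, a' * c') :=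
  (map_mul β _ _).symm

omit h in
theorem β_smul (t : K) (a a' : End K U) : t • β (a, a') = β (t • a, t • a') :=
  (map_smul β t _).symm

omit h in
theorem β_one : β (1, 1) = 1 := map_one β

omit h in
theorem β_one_add (a a' : End K U) : 1 + β (a, a') = β (1 + a, 1 + a') := by
  rw [← map_one β, ← map_add]; rfl

omit h in
theorem β_neg (a a' : End K U) : -β (a, a') = β (-a, -a') := (map_neg β _).symm

theorem comm_e (a a' : End K U) : β (a, a') * e = e * β (a, a') := by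
  rw [← h.β_e, β_mul, β_mul]; simp

theorem unit {a a' : End K U} (hu : IsUnit (β (a, a'))) : IsUnit a ∧ IsUnit a' := by
  obtain ⟨g, hg⟩ := hu
  obtain ⟨c, c', hc⟩ := h.cent (g := (g⁻¹ : (End K V)ˣ)) (by
    rw [Units.inv_mul_eq_iff_eq_mul, ← mul_assoc, Units.eq_mul_inv_iff_mul_eq, hg, h.comm_e])
  have h1 := g.mul_inv
  have h2 := g.inv_mul
  rw [hc, hg, β_mul, ← β_one (β := β)] at h1 h2
  exact ⟨⟨⟨a, c, (h.β_inj h1).1, (h.β_inj h2).1⟩, rfl⟩, ⟨⟨a', c', (h.β_inj h1).2, (h.β_inj h2).2⟩, rfl⟩⟩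

omit h in
theorem β_unit {a a' : End K U} (ha : IsUnit a) (ha' : IsUnit a') : IsUnit (β (a, a')) :=
  (Prod.isUnit_iff.2 ⟨ha, ha'⟩).map β

end Spl

/-- The complement of a hyperbolic pair. -/
abbrev hyp (b : LinearMap.BilinForm (ZMod 2) W) (x₀ y₀ : W) : Submodule (ZMod 2) W :=
  orth b (Submodule.span (ZMod 2) {x | x ∈ [x₀, y₀]})

variable {b : LinearMap.BilinForm (ZMod 2) W} {q : W → ZMod 2} {s : W → End K V}
  {X : Subgroup (End K V)ˣ} {N I : W → Prop} {x₀ y₀ : W}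

theorem mem_hyp {x : W} : x ∈ hyp b x₀ y₀ ↔ b x x₀ = 0 ∧ b x y₀ = 0 := by simp [mem_orth_span]

theorem hyp0 (x : hyp b x₀ y₀) : b x x₀ = 0 := (mem_hyp.1 x.2).1

theorem hyp1 (x : hyp b x₀ y₀) : b x y₀ = 0 := (mem_hyp.1 x.2).2

theorem Sy.hyp_dec (hb : Sy b) (h01 : b x₀ y₀ = 1) (y : W) :
    ∃ y' : hyp b x₀ y₀, y = y' + b y y₀ • x₀ + b y x₀ • y₀ :=
  ⟨⟨y + b y y₀ • x₀ + b y x₀ • y₀, mem_hyp.2 ⟨by simp [hb.alt, hb.symm y₀, h01, aa],
    by simp [hb.alt, h01, aa]⟩⟩, by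
    simp only
    rw [add_right_comm _ (b y x₀ • y₀), baa, baa]⟩

theorem Sy.hyp (hb : Sy b) (h01 : b x₀ y₀ = 1) : Sy (b.restrict (hyp b x₀ y₀)) :=
  ⟨fun x => hb.alt x, fun x hx => Subtype.ext (hb.nd x fun y => by
    obtain ⟨y', hy⟩ := hb.hyp_dec h01 y
    have : b y' x = 0 := hx y'
    rw [hy]
    simp [this, hb.symm x₀, hb.symm y₀, hyp0, hyp1])⟩

theorem Sy.finrank_hyp [Finite W] (hb : Sy b) (h01 : b x₀ y₀ = 1) :
    finrank (ZMod 2) (Xs.hyp b x₀ y₀) + 2 = finrank (ZMod 2) W := by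
  rw [← hb.finrank_orth (Submodule.span (ZMod 2) {x | x ∈ [x₀, y₀]}), add_right_inj]
  have h1 : LinearIndependent (ZMod 2) ![x₀, y₀] := LinearIndependent.pair_iff.2 fun c d h =>
    ⟨by simpa [h01, hb.alt] using congrArg (b · y₀) h,
      by simpa [h01, hb.alt] using congrArg (b x₀) h⟩
  rw [← show Set.range ![x₀, y₀] = {x | x ∈ [x₀, y₀]} by ext; simp [eq_comm, or_comm],
    finrank_span_eq_card h1, Fintype.card_fin]

theorem tv_hyp (u x : hyp b x₀ y₀) :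
    ((tv (b.restrict (hyp b x₀ y₀)) u x : hyp b x₀ y₀) : W) = tv b u x := rfl

theorem Wb.hyp [Finite W] {k : ℕ} (hq : Qd b q) (h : Wb q (k + 1)) (hb : Sy b) (h01 : b x₀ y₀ = 1)
    (h0 : q x₀ = 0) : Wb (fun x : hyp b x₀ y₀ => q x) k := fun L hL => by
  have h1 := h (L.map (Xs.hyp b x₀ y₀).subtype ⊔ Submodule.span _ {x₀}) fun x hx => by
    obtain ⟨_, ⟨y, hy, rfl⟩, z, hz, rfl⟩ := Submodule.mem_sup.1 hx
    obtain ⟨c, rfl⟩ := Submodule.mem_span_singleton.1 hz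
    rcases z2 c with rfl | rfl
    · simpa using hL y hy
    · rw [one_smul, hq, h0, Submodule.subtype_apply, hyp0, show q y = 0 from hL y hy]; rfl
  have h2 := Submodule.finrank_lt_finrank_of_lt (SetLike.lt_iff_le_and_exists.2
    ⟨le_sup_left (a := L.map (Xs.hyp b x₀ y₀).subtype) (b := Submodule.span (ZMod 2) {x₀}), x₀,
      Submodule.mem_sup_right (Submodule.mem_span_singleton_self _), fun ⟨y, _, hy⟩ => by
        rw [← hy, Submodule.subtype_apply, hyp1] at h01; exact zero_ne_one h01⟩)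
  rw [Submodule.finrank_map_subtype_eq] at h2
  omega

/-- A split family of lifts. -/
structure SF (b : LinearMap.BilinForm (ZMod 2) W) (q : W → ZMod 2) (s : W → End K V) (x₀ y₀ : W)
    (e : End K V) (j : U →ₗ[K] V) (β : End K U × End K U →ₐ[K] End K V)
    (s' : hyp b x₀ y₀ → End K U) : Prop where
  fr : Fr b q s
  b01 : b x₀ y₀ = 1
  he : ∃ c : K, e = c • s x₀
  ee : e * e = 1
  spl : Spl e (s y₀) j β
  hs : ∀ x : hyp b x₀ y₀, s x = β (s' x, s' x)

theorem Fr.exists_sf [FiniteDimensional K V] (h : Fr b q s) (h01 : b x₀ y₀ = 1) {c : K}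
    (he : (c • s x₀) * (c • s x₀) = 1) :
    ∃ β s', SF b q s x₀ y₀ (c • s x₀) (LinearMap.ker (c • s x₀ - 1)).subtype β s' := by
  obtain ⟨β, hβ⟩ := exists_spl h.two he (h.sq y₀) (sg_ne _)
    (by rw [smul_mul_assoc, h.comm1 h01, mul_smul_comm, smul_neg])
  have h1 : ∀ x : hyp b x₀ y₀, ∃ a, s x = β (a, a) := fun x => by
    obtain ⟨a, a', ha⟩ := hβ.cent (g := s x)
      (by rw [smul_mul_assoc, mul_smul_comm, h.comm0 (hyp0 x)])
    have h2 := h.comm0 (hyp1 x)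
    rw [ha, hβ.swap (h.sq y₀)] at h2
    exact ⟨a, by rw [ha, (hβ.β_inj ((h.isUnit y₀).mul_right_cancel h2)).2]⟩
  choose s' hs' using h1
  exact ⟨β, s', h, h01, ⟨c, rfl⟩, he, hβ, hs'⟩

/-- The centraliser of the involution `e` normalises its centraliser on the fixed space of `e`. -/
def AX (b : LinearMap.BilinForm (ZMod 2) W) (s : W → End K V) (X : Subgroup (End K V)ˣ) (x₀ : W)
    (e : End K V) : Prop :=
  ∀ g, InG X g → g * e = e * g → ∀ y, b y x₀ = 0 →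
    ∃ (y' : W) (c : K), g * s y * (1 + e) = c • (s y' * g * (1 + e))

theorem Fr.of_proj [FiniteDimensional K V] (h : Fr b q s) {x y x₁ x₂ : W} {c c₁ c₂ : K}
    (h1 : x₁ ≠ 0) (h2 : x₂ ≠ 0) (h3 : x₁ ≠ x₂)
    (H : s x * ((1 + c₁ • s x₁) * (1 + c₂ • s x₂)) = c • (s y * ((1 + c₁ • s x₁) * (1 + c₂ • s x₂)))) :
    x + y = 0 ∨ x + y = x₁ ∨ x + y = x₂ ∨ x + y = x₁ + x₂ := by
  by_contra hn
  push Not at hn
  obtain ⟨d, hd⟩ := h.mul x y
  obtain ⟨d', hd'⟩ := h.mul x₁ x₂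
  have h4 := congrArg (fun a => LinearMap.trace K V (s x * a)) H
  rw [mul_smul_comm, ← mul_assoc, ← mul_assoc (s x) (s y), hd, h.sq, smul_mul_assoc, one_mul,
    smul_mul_assoc] at h4
  simp only [mul_add, add_mul, mul_one, one_mul, smul_mul_assoc, mul_smul_comm, hd', map_add,
    map_smul, h.tr_s h1, h.tr_s h2, h.tr_s (add_ne h3), h.tr_s hn.1, h.tr_mul hn.2.1,
    h.tr_mul hn.2.2.1, h.tr_mul hn.2.2.2, mul_zero, add_zero, smul_eq_mul] at h4
  exact mul_ne_zero (sg_ne _) h.tr_one h4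

namespace SF

variable {e : End K V} {j : U →ₗ[K] V} {β : End K U × End K U →ₐ[K] End K V}
  {s' : hyp b x₀ y₀ → End K U} (h : SF b q s x₀ y₀ e j β s')
include h

theorem x0_ne : x₀ ≠ 0 := fun h0 => by simpa [h0] using h.b01

theorem swap (a a' : End K U) : s y₀ * β (a, a') = β (a', a) * s y₀ := h.spl.swap (h.fr.sq y₀) a a'

theorem he' : ∃ c : K, c ≠ 0 ∧ s x₀ = c • e := by
  obtain ⟨c, hc⟩ := h.he
  have := h.fr.nt
  have h1 : c ≠ 0 := fun h0 => by simpa [hc, h0] using h.ee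
  exact ⟨c⁻¹, inv_ne_zero h1, by rw [hc, inv_smul_smul₀ h1]⟩

theorem s_add (x : hyp b x₀ y₀) : ∃ c : K, c ≠ 0 ∧ s (x + x₀) = c • β (s' x, -s' x) := by
  obtain ⟨c, hc, h1⟩ := h.fr.mul'' x x₀
  obtain ⟨d, hd, h2⟩ := h.he'
  exact ⟨c * d, mul_ne_zero hc hd, by
    rw [h1, h2, h.hs, ← h.spl.β_e, mul_smul_comm, Spl.β_mul, smul_smul, mul_one, mul_neg_one]⟩

theorem dec0 {y : W} (hy : b y x₀ = 0) : ∃ y' : hyp b x₀ y₀, y = y' ∨ y = y' + x₀ := by
  obtain ⟨y', h1⟩ := h.fr.sy.hyp_dec h.b01 y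
  refine ⟨y', ?_⟩
  rcases z2 (b y y₀) with h2 | h2 <;> simp only [h2, hy, zero_smul, one_smul, add_zero] at h1
  exacts [Or.inl h1, Or.inr h1]

theorem fr' : Fr (b.restrict (hyp b x₀ y₀)) (fun x => q x) s' := by
  have hf := h.fr
  refine ⟨hf.sy.hyp h.b01, hf.two, ?_, fun x => ?_, fun x y => ?_, fun x y => ?_, ?_⟩
  · have := hf.nt
    by_contra H
    obtain ⟨v, hv⟩ := exists_ne (0 : V)
    obtain ⟨u, u', rfl⟩ := h.spl.surj v
    rw [not_nontrivial_iff_subsingleton] at H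
    simp [Subsingleton.elim u 0, Subsingleton.elim u' 0] at hv
  · have := hf.sq x
    rw [h.hs, Spl.β_mul, ← Spl.β_one (β := β), Spl.β_smul] at this
    exact (h.spl.β_inj this).1
  · have := hf.comm x y
    rw [h.hs, h.hs, Spl.β_mul, Spl.β_mul, Spl.β_smul] at this
    exact (h.spl.β_inj this).1
  · obtain ⟨c, hc⟩ := hf.mul x y
    rw [← Submodule.coe_add, h.hs, h.hs, h.hs, Spl.β_mul, Spl.β_smul] at hc
    exact ⟨c, (h.spl.β_inj hc).1⟩
  · have key : ∀ g ∈ Submodule.span K (Set.range s), ∃ a ∈ Submodule.span K (Set.range s'),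
        ∀ u, g (j u) + e (g (j u)) = j (a u) := fun g hg => by
      induction hg using Submodule.span_induction with
      | mem _ hg =>
        obtain ⟨x, rfl⟩ := hg
        have h1 : ∀ x, s' x ∈ Submodule.span K (Set.range s') := fun x =>
          Submodule.subset_span ⟨x, rfl⟩
        rcases z2 (b x x₀) with h2 | h2
        · obtain ⟨y, rfl | rfl⟩ := h.dec0 h2
          · exact ⟨_, add_mem (h1 y) (h1 y), fun u => by simp [h.hs, h.spl.βj, h.spl.fix]⟩
          · obtain ⟨c, -, hc⟩ := h.s_add y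
            exact ⟨_, Submodule.smul_mem _ c (add_mem (h1 y) (h1 y)), fun u => by
              simp [hc, h.spl.βj, h.spl.fix]⟩
        · obtain ⟨c, hc⟩ := h.he
          refine ⟨0, zero_mem _, fun u => ?_⟩
          have h3 : e * s x = -(s x * e) := by
            rw [hc, smul_mul_assoc, mul_smul_comm, hf.comm1 h2, smul_neg, neg_neg]
          simp [show e (s x (j u)) = -s x (e (j u)) from LinearMap.congr_fun h3 _, h.spl.fix]
      | zero => exact ⟨0, zero_mem _, by simp⟩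
      | add g g' _ _ h1 h2 =>
        obtain ⟨a, ha, h1⟩ := h1
        obtain ⟨a', ha', h2⟩ := h2
        exact ⟨a + a', add_mem ha ha', fun u => by
          simp only [LinearMap.add_apply, map_add, ← h1, ← h2]; abel⟩
      | smul c g _ h1 =>
        obtain ⟨a, ha, h1⟩ := h1
        exact ⟨c • a, Submodule.smul_mem _ c ha, fun u => by
          simp only [LinearMap.smul_apply, map_smul, ← h1, smul_add]⟩
    refine eq_top_iff.2 fun a _ => ?_
    obtain ⟨a', ha', h1⟩ := key (β ((2 : K)⁻¹ • a, 0)) (hf.span ▸ Submodule.mem_top)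
    convert ha'
    refine LinearMap.ext fun u => h.spl.inj ?_
    rw [← h1, h.spl.βj, h.spl.fix, ← map_add, ← two_smul K, LinearMap.smul_apply,
      smul_inv_smul₀ hf.two]

theorem β_pm (x : hyp b x₀ y₀) {c d : K} (hcd : c * c = d * d) :
    ∃ (z : W) (t : K), β (c • s' x, d • s' x) = t • s z := by
  rcases mul_self_eq_mul_self_iff.1 hcd with rfl | rfl
  · exact ⟨x, c, by rw [h.hs, Spl.β_smul]⟩
  · obtain ⟨t, ht, h1⟩ := h.s_add x
    exact ⟨x + x₀, -d * t⁻¹, by rw [h1, mul_smul, inv_smul_smul₀ ht, Spl.β_smul]; simp⟩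

theorem cj_β {a a' : End K U} (ha : IsUnit a) (ha' : IsUnit a') {x y : hyp b x₀ y₀}
    (h1 : Cj s' a x y) (h2 : Cj s' a' x y) : ∃ z, Cj s (β (a, a')) x z := by
  obtain ⟨c, h1⟩ := h1
  obtain ⟨d, h2⟩ := h2
  obtain ⟨z, t, h3⟩ := h.β_pm y (c := c) (d := d) (mul_right_cancel₀ (sg_ne _)
    ((h.fr'.cj_sq ha h1).symm.trans (h.fr'.cj_sq ha' h2)))
  exact ⟨z, t, by rw [h.hs, Spl.β_mul, h1, h2, ← smul_mul_assoc t, ← h3, Spl.β_mul,
    smul_mul_assoc, smul_mul_assoc]⟩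

theorem cj_x0 (a a' : End K U) : Cj s (β (a, a')) x₀ x₀ := by
  obtain ⟨c, -, hc⟩ := h.he'
  exact ⟨1, by rw [hc, mul_smul_comm, h.spl.comm_e, smul_mul_assoc, one_smul]⟩

theorem cj_perp {a a' : End K U} (h1 : ∀ x : hyp b x₀ y₀, ∃ z, Cj s (β (a, a')) x z) (y : W)
    (hy : b y x₀ = 0) : ∃ z, Cj s (β (a, a')) y z := by
  obtain ⟨y, rfl | rfl⟩ := h.dec0 hy
  · exact h1 y
  · obtain ⟨z, hz⟩ := h1 y
    exact ⟨_, h.fr.cj_add hz (h.cj_x0 a a')⟩

theorem inG_swap (hr : InG X (s y₀)) {a a' : End K U} (hg : InG X (β (a, a'))) :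
    InG X (β (a', a)) := by
  obtain ⟨k, h1, -, h2⟩ := hr.exists_inv
  have := (hr.mul hg).mul h1
  rwa [h.swap, mul_assoc, h2, mul_one] at this

theorem sq_iff {c t : K} {u : hyp b x₀ y₀} :
    (c • s u) * (c • s u) = t • 1 ↔ (c • s' u) * (c • s' u) = t • 1 := by
  rw [h.hs, Spl.β_smul, Spl.β_mul, ← Spl.β_one (β := β), Spl.β_smul]
  exact ⟨fun H => (h.spl.β_inj H).1, fun H => by rw [H]⟩

theorem sq_iff' {c : K} {u : hyp b x₀ y₀} :
    (c • s u) * (c • s u) = -1 ↔ (c • s' u) * (c • s' u) = -1 := by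
  simpa using h.sq_iff (c := c) (t := -1) (u := u)

variable [FiniteDimensional K V] [FiniteDimensional K U] [Finite W]

theorem inG_NG {a a' : End K U} (ha : IsUnit a) (ha' : IsUnit a')
    (h1 : ∀ x : hyp b x₀ y₀, ∃ z, Cj s (β (a, a')) x z) (h2 : ∃ z, Cj s (β (a, a')) y₀ z) :
    InG h.fr.NG (β (a, a')) := by
  refine h.fr.inG_NG.2 ⟨Spl.β_unit ha ha', fun y => ?_⟩
  rcases z2 (b y x₀) with h3 | h3
  · exact h.cj_perp h1 y h3
  · obtain ⟨z, hz⟩ := h.cj_perp h1 (y + y₀) (by simp [h3, h.fr.sy.symm y₀, h.b01, z11])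
    obtain ⟨z', hz'⟩ := h2
    exact ⟨_, baa y₀ y ▸ h.fr.cj_add hz hz'⟩

theorem diag_NG {a : End K U} (ha : InG h.fr'.NG a) : InG h.fr.NG (β (a, a)) := by
  obtain ⟨h1, h2⟩ := h.fr'.inG_NG.1 ha
  exact h.inG_NG h1 h1 (fun x => (h2 x).elim fun y hy => h.cj_β h1 h1 hy hy)
    ⟨y₀, 1, by rw [h.swap, one_smul]⟩

theorem ctl_NG (z : hyp b x₀ y₀) : InG h.fr.NG (β (s' z, 1)) := by
  refine h.inG_NG (h.fr'.isUnit z) isUnit_one
    (fun x => h.cj_β (h.fr'.isUnit z) isUnit_one (h.fr'.act_s z x) (Cj.one x)) ?_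
  obtain ⟨w, t, h1⟩ := h.β_pm z (c := sg K (q z)) (d := 1) (by rw [sg_mul_self, one_mul])
  obtain ⟨d, h2⟩ := h.fr.mul y₀ w
  refine ⟨y₀ + w, t * d, ?_⟩
  rw [← h.swap, mul_smul, ← smul_mul_assoc d, ← h2, mul_assoc, ← mul_smul_comm, ← smul_mul_assoc,
    ← h1, Spl.β_mul, smul_mul_assoc, h.fr'.sq, smul_smul, sg_mul_self]
  simp

theorem ax (hA : ∀ a a', InG X (β (a, a')) → InG h.fr'.NG a) : AX b s X x₀ e := by
  intro g hg hge y hy
  obtain ⟨a, a', rfl⟩ := h.spl.cent hge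
  obtain ⟨-, h1⟩ := h.fr'.inG_NG.1 (hA a a' hg)
  obtain ⟨y, h2⟩ := h.dec0 hy
  obtain ⟨z, c, h3⟩ := h1 y
  rw [← h.spl.β_e, Spl.β_one_add]
  rcases h2 with rfl | rfl
  · exact ⟨z, c, by simp [h.hs, Spl.β_mul, Spl.β_smul, h3]⟩
  · obtain ⟨d, -, h4⟩ := h.s_add y
    exact ⟨z, d * c, by simp [h4, h.hs, Spl.β_mul, Spl.β_smul, h3, mul_smul]⟩

variable (hZ : HasZ X) (lift : ∀ u, N u → ∃ c : K, (c • s u) * (c • s u) = -1)
  (rich : ∀ u w (c d : K), N u → N w → (c • s u) * (c • s u) = -1 → (d • s w) * (d • s w) = -1 →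
    InG X ((1 + c • s u) * (1 + d • s w)))
include hZ lift rich

omit [FiniteDimensional K V] [FiniteDimensional K U] [Finite W] in
theorem cm_mem {a a' : End K U} (hg : InG X (β (a, a'))) {u w u₁ w₁ u₂ w₂ : hyp b x₀ y₀}
    (hu : N u) (hw : N w) (hu₂ : N u₂) (hw₂ : N w₂) (h1 : Cj s' a u u₁) (h2 : Cj s' a w w₁)
    (h3 : Cj s' a' u u₂) (h4 : Cj s' a' w w₂) :
    ∃ a₀, InG X (β (a₀, 1)) ∧ Act s' a₀ fun x => tv (b.restrict _) u₁ (tv (b.restrict _) w₁
      (tv (b.restrict _) w₂ (tv (b.restrict _) u₂ x))) := by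
  have hf := h.fr'
  obtain ⟨ha, ha'⟩ := h.spl.unit hg.isUnit
  have key : ∀ {a : End K U}, IsUnit a → ∀ {u u₁ : hyp b x₀ y₀} {c : K}, Cj s' a u u₁ →
      (c • s' u) * (c • s' u) = -1 → ∃ d : K, (d • s' u₁) * (d • s' u₁) = -1 ∧
        (-d • s' u₁) * (-d • s' u₁) = -1 ∧ a * (1 + c • s' u) = (1 + d • s' u₁) * a := by
    rintro a ha u u₁ c ⟨d, hd⟩ hc
    have h5 : a * (c • s' u) = ((c * d) • s' u₁) * a := by
      rw [mul_smul_comm, hd, smul_mul_assoc, smul_smul]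
    have h6 : ((c * d) • s' u₁) * ((c * d) • s' u₁) = -1 := ha.mul_right_cancel (by
      rw [mul_assoc, ← h5, ← mul_assoc, ← h5, mul_assoc, hc]; simp)
    exact ⟨c * d, h6, by rw [neg_smul, neg_mul_neg, h6], by rw [mul_add, add_mul, h5]; simp⟩
  obtain ⟨c, hc⟩ := lift u hu
  obtain ⟨d, hd⟩ := lift w hw
  obtain ⟨c₁, p1, -, p2⟩ := key ha h1 (h.sq_iff'.1 hc)
  obtain ⟨d₁, p3, -, p4⟩ := key ha h2 (h.sq_iff'.1 hd)
  obtain ⟨c₂, p5, p6, p7⟩ := key ha' h3 (h.sq_iff'.1 hc)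
  obtain ⟨d₂, p8, p9, p10⟩ := key ha' h4 (h.sq_iff'.1 hd)
  obtain ⟨k, k1, -, k2⟩ := hg.exists_inv
  have k3 := (hg.mul (rich _ _ c d hu hw hc hd)).mul k1
  have k4 := rich _ _ _ _ hw₂ hu₂ (h.sq_iff'.2 p9) (h.sq_iff'.2 p6)
  simp only [h.hs, Spl.β_smul, Spl.β_one_add, Spl.β_mul] at k3 k4
  rw [← mul_assoc a, ← mul_assoc a', p2, p7, mul_assoc _ a, mul_assoc _ a', p4, p10, ← mul_assoc,
    ← mul_assoc, ← Spl.β_mul, mul_assoc, k2, mul_one] at k3
  have k5 := (k3.mul k4).smul hZ (mul_ne_zero (inv_ne_zero hf.two) (inv_ne_zero hf.two))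
  refine ⟨_, ?_, ((((hf.act_op p1).mul (hf.act_op p3)).mul ((hf.act_op p9).mul
    (hf.act_op p6)))).smul ((2 : K)⁻¹ * (2 : K)⁻¹)⟩
  convert k5 using 1
  rw [Spl.β_mul, Spl.β_smul]
  congr 2
  have q1 := (hf.op_mul p8).2
  have q2 := (hf.op_mul p5).2
  rw [mul_smul_comm] at q1 q2
  rw [mul_assoc, ← mul_assoc (1 + d₂ • s' w₂), mul_smul, ← mul_smul_comm, ← mul_smul_comm,
    ← smul_mul_assoc, neg_smul, q1, one_mul, neg_smul, mul_smul_comm, q2]

omit [FiniteDimensional K V] in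
/-- The centraliser of `e` normalises the centraliser of `e` in the group of lifts. -/
theorem star (hA : ∀ a a', InG X (β (a, a')) → InG h.fr'.NG a) (hr : InG X (s y₀))
    (hN : ∀ a a', InG X (β (a, a')) → ∀ x y : hyp b x₀ y₀, Cj s' a x y → N x → N y)
    (hLT : LT (b.restrict (hyp b x₀ y₀)) fun x => N x)
    (T0 : ∀ a (u v : hyp b x₀ y₀), N u → N v → u ≠ 0 → v ≠ 0 → InG X (β (a, 1)) →
      (Act s' a fun x => tv (b.restrict _) v (tv (b.restrict _) u x)) → u = v)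
    {g : End K V} (hg : InG X g) (hge : g * e = e * g) (y : W) (hy : b y x₀ = 0) :
    ∃ y', Cj s g y y' := by
  have hf := h.fr'
  obtain ⟨a, a', rfl⟩ := h.spl.cent hge
  have hg' := h.inG_swap hr hg
  obtain ⟨ha, h1⟩ := hf.inG_NG.1 (hA _ _ hg)
  obtain ⟨ha', h2⟩ := hf.inG_NG.1 (hA _ _ hg')
  choose α hα using h1
  choose α' hα' using h2
  have i1 := hf.act_iso (N := fun x : hyp b x₀ y₀ => N x) ha hα fun x => hN _ _ hg _ _ (hα x)
  obtain ⟨τ, i2, i3, i4⟩ := (hf.act_iso (N := fun x : hyp b x₀ y₀ => N x) ha' hα'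
    fun x => hN _ _ hg' _ _ (hα' x)).exists_inv hf.sy
  have key := hLT (fun δ => ∃ a, InG X (β (a, 1)) ∧ Act s' a δ)
    (fun u v hu hv h1 h2 ⟨a, h3, h4⟩ => T0 a u v hu hv h1 h2 h3 h4)
    (fun δ ⟨a, h1, h2⟩ _ u w hu hw =>
      h.cm_mem hZ lift rich h1 hu hw hu hw (h2 u) (h2 w) (Cj.one u) (Cj.one w))
    _ (i1.comp i2) fun u w hu hw => h.cm_mem hZ lift rich hg (i2.ns u hu) (i2.ns w hw) hu hw
      (hα _) (hα _) (by simpa only [i4] using hα' (τ u)) (by simpa only [i4] using hα' (τ w))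
  refine h.cj_perp (fun x => h.cj_β ha ha' (hα x) ?_) y hy
  have := key (α' x)
  simp only [i3] at this
  exact this ▸ hα' x

theorem T0_weak (hctl : ∀ z, InG X (β (s' z, 1)))
    (hAX : ∀ x₁ (c : K), I x₁ → x₁ ≠ 0 → (c • s x₁) * (c • s x₁) = 1 → AX b s X x₁ (c • s x₁))
    (liftI : ∀ u, I u → ∃ c : K, (c • s u) * (c • s u) = 1)
    (hI : ∀ u v : hyp b x₀ y₀, N u → N v → b u v = 1 →
      ∃ x₁ : hyp b x₀ y₀, x₁ ≠ 0 ∧ I x₁ ∧ b u x₁ = 0 ∧ b v x₁ = 0)
    (hR4 : ∀ u w, N u → N w → b u w = 1 → N (u + w))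
    (hR : RR (b.restrict (hyp b x₀ y₀)) (fun x => N x) 2)
    (a : End K U) (u v : hyp b x₀ y₀) (hu : N u) (hv : N v) (hu0 : u ≠ 0) (_ : v ≠ 0)
    (ha : InG X (β (a, 1))) (hact : Act s' a fun x => tv (b.restrict _) v (tv (b.restrict _) u x)) :
    u = v := by
  have hf := h.fr'
  have hb := hf.sy
  have key : ∀ a (u v : hyp b x₀ y₀), N u → N v → b u v = 1 → InG X (β (a, 1)) →
      ¬ Act s' a fun x => tv (b.restrict _) v (tv (b.restrict _) u x) := by
    intro a u v hu hv huv ha hact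
    obtain ⟨x₁, h1, h2, h3, h4⟩ := hI u v hu hv huv
    obtain ⟨c, hc⟩ := liftI _ h2
    obtain ⟨a, ha, h5, t, h6⟩ : ∃ a, InG X (β (a, 1)) ∧ a * s' x₁ = s' x₁ * a ∧
        Cj s' a u (u + v) := by
      let Y : Subgroup (End K U)ˣ := X.comap (Units.map (β.toMonoidHom.comp (MonoidHom.inl _ _)))
      have hY : ∀ a, InG Y a → InG X (β (a, 1)) := fun _ ⟨a, h1, h2⟩ => ⟨_, h1, h2 ▸ rfl⟩
      have hY' : ∀ a, InG X (β (a, 1)) → InG Y a := fun a ha => by
        obtain ⟨a, rfl⟩ := (h.spl.unit ha.isUnit).1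
        exact InG.of_mem (InG.mem (g := Units.map (β.toMonoidHom.comp (MonoidHom.inl _ _)) a) ha)
      have h5 := hact x₁
      have h6 := hact u
      simp only at h5 h6
      rw [tv_zero ((hb.symm _ _).trans h3), tv_zero ((hb.symm _ _).trans h4)] at h5
      rw [hb.tv_self, tv_one (b := b.restrict _) huv] at h6
      obtain ⟨z, h7, h8⟩ := hf.exists_comm (fun z => hY' _ (hctl z)) (hY' _ ha) h1 h5
      exact ⟨_, hY _ h7, h8, (hf.act_s z _).mul h6⟩
    obtain ⟨y, d, h7⟩ := hAX x₁ c h2 (fun h => h1 (Subtype.ext h)) hc _ ha (by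
      rw [h.hs, Spl.β_smul, Spl.β_mul, Spl.β_mul, mul_smul_comm, smul_mul_assoc, h5]; simp) u h3
    obtain ⟨c₀, hc₀⟩ := h.he
    have h8 : (x₁ : W) ≠ x₀ := fun H => by simpa [← H, hyp1] using h.b01
    have h9 : (x₁ : W) ≠ 0 := fun h => h1 (Subtype.ext h)
    have ht := hf.cj_ne (h.spl.unit ha.isUnit).1 h6
    have e1 : 1 + c • s x₁ = β (1 + c • s' x₁, 1 + c • s' x₁) := by
      rw [h.hs, Spl.β_smul, Spl.β_one_add]
    have e2 : 1 + c₀ • s x₀ = β (1 + 1, 0) := by rw [← hc₀, ← h.spl.β_e, Spl.β_one_add]; simp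
    have e3 : 1 + (-c₀) • s x₀ = β (0, 1 + 1) := by
      rw [neg_smul, ← hc₀, ← h.spl.β_e, Spl.β_neg, Spl.β_one_add]; simp
    have h10 := h.fr.of_proj (x := u) (y := y) (c := d) (c₁ := c) (c₂ := -c₀) h9 h.x0_ne h8 (by
      have := congrArg (· * β (0, 1 + 1)) h7
      simp only [smul_mul_assoc, mul_assoc] at this
      rw [e1] at this ⊢
      rw [e3]
      simpa [h.hs, Spl.β_mul] using this)
    have h11 := h.fr.of_proj (x := (u + v : hyp b x₀ y₀)) (y := y) (c := t⁻¹ * d) (c₁ := c)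
      (c₂ := c₀) h9 h.x0_ne h8 (ha.isUnit.mul_right_cancel (by
      have := congrArg (· * β (1 + 1, 0)) h7
      simp only [smul_mul_assoc, mul_assoc] at this ⊢
      rw [e1] at this ⊢
      have h12 : (1 + c • s' x₁) * (1 + 1) * a = a * ((1 + c • s' x₁) * (1 + 1)) := by
        simp only [mul_add, add_mul, mul_one, one_mul, smul_mul_assoc, mul_smul_comm, h5]
      rw [e2, h.hs (u + v), mul_smul, eq_inv_smul_iff₀ ht]
      simp only [h.hs u, Spl.β_mul, mul_zero, zero_mul, Spl.β_smul, smul_zero, h12] at this ⊢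
      rw [← mul_assoc (1 + c • s' x₁), h12, ← this, ← mul_assoc a (s' u), h6, smul_mul_assoc,
        mul_assoc]))
    have h12 : b u (u + y) = 0 := by
      rcases h10 with h | h | h | h <;> simp [h, h3, hyp0]
    have h13 : b u ((u + v : hyp b x₀ y₀) + y) = 0 := by
      rcases h11 with h | h | h | h <;> simp only [h, h3, hyp0, map_add, map_zero, add_zero]
    rw [Submodule.coe_add, add_right_comm, map_add, h12, huv] at h13
    exact absurd h13 (by decide)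
  by_contra huv
  rcases z2 (b u v) with h1 | h1
  · obtain ⟨y, h2, h3⟩ := hb.b2 hu0 huv
    obtain ⟨w, hw, h4, h5⟩ := hR.two v u y
    rw [h2] at h4
    rw [h3] at h5
    have h6 := hact w
    have h7 := hact v
    simp only at h6 h7
    rw [tv_one h5, tv_zero (by
      rw [map_add, LinearMap.add_apply, h4, zero_add]; exact h1)] at h6
    rw [tv_zero ((hb.symm _ _).trans h1), hb.tv_self] at h7
    obtain ⟨a₀, h8, h9⟩ := h.cm_mem hZ lift rich ha hw hv hw hv h6 h7 (Cj.one _) (Cj.one _)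
    simp only [hb.tv_tv] at h9
    exact key a₀ w (w + u) hw (hR4 _ _ hw hu h5) (by simpa [h.fr.sy.alt] using h5) h8 h9
  · exact key a u v hu hv h1 ha hact

end SF

end Cfsg.Agent.H32.Xs
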