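import Cfsg.Agent.H32.XsSpl
import Cfsg.Agent.H27.AltWitt

/-!
The induction step over a field containing a primitive fourth root of unity.
-/

set_option autoImplicit false

namespace Cfsg.Agent.H32.Xs

open Module

variable {K V W : Type*} [Field K] [AddCommGroup V] [Module K V] [AddCommGroup W]
  [Module (ZMod 2) W] {b : LinearMap.BilinForm (ZMod 2) W} {q : W → ZMod 2} {s : W → End K V}
  {X : Subgroup (End K V)ˣ} {N : W → Prop}

theorem InG.mono {Y : Subgroup (End K V)ˣ} {g : End K V} (h : InG X g) (hXY : X ≤ Y) : InG Y g :=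
  h.imp fun _ h => ⟨hXY h.1, h.2⟩

theorem HasZ.mono {Y : Subgroup (End K V)ˣ} (h : HasZ X) (hXY : X ≤ Y) : HasZ Y :=
  fun c hc => (h c hc).mono hXY

theorem Sy.T0_of [Finite W] (hb : Sy b) (hR : RR b N 2)
    (hR4 : ∀ u w, N u → N w → b u w = 1 → N (u + w)) {T : (W → W) → Prop}
    (hcm : ∀ δ, T δ → ∀ u w, N u → N w → T (cm b δ u w))
    (key : ∀ u v, N u → N v → b u v = 1 → ¬ T fun x => tv b v (tv b u x))
    (u v : W) (hu : N u) (hv : N v) (hu0 : u ≠ 0) (h : T fun x => tv b v (tv b u x)) : u = v := by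
  by_contra huv
  rcases z2 (b u v) with h1 | h1
  · obtain ⟨y, h2, h3⟩ := hb.b2 hu0 huv
    obtain ⟨w, hw, h4, h5⟩ := hR.two v u y
    rw [h2] at h4
    rw [h3] at h5
    refine key w (w + u) hw (hR4 _ _ hw hu h5) (by simpa [hb.alt] using h5) ?_
    convert hcm _ h w v hw hv using 2
    rw [cm, tv_one h5, tv_zero (u := v) (x := w + u) (by simp [h4, h1]),
      tv_zero (u := u) (x := v) ((hb.symm _ _).trans h1), hb.tv_self, hb.tv_tv]
  · exact key u v hu hv h1 h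

theorem Sy.RR_ne [Finite W] (hb : Sy b) (h3 : 3 ≤ finrank (ZMod 2) W) : RR b (fun x => x ≠ 0) 2 := by
  intro l hl y
  by_cases hy : y = 0
  · have h1 := hb.finrank_orth_list l
    obtain ⟨x, h4, h5⟩ := exists_notMem (S := ⊥) (T := orth b (Submodule.span _ {a | a ∈ l}))
      (by rw [finrank_bot]; omega)
    exact ⟨x, h5, fun a ha => by rw [mem_orth_span.1 h4 a ha, hy, map_zero, LinearMap.zero_apply]⟩
  · exact ⟨y, hy, fun _ _ => rfl⟩

theorem Sy.key_of_sq (hb : Sy b) {u v : W} (huv : b u v = 1)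
    (h : tv b v (tv b u (tv b v (tv b u u))) = u) : False := by
  rw [hb.tv_self, tv_one huv, tv_one (x := u + v) (by simp [hb.alt, hb.symm v, huv]), add_right_comm,
    aa, zero_add, hb.tv_self] at h
  rw [h, hb.alt] at huv
  exact zero_ne_one huv

namespace Fr

variable (h : Fr b q s) {i : K}
include h

theorem smul_sq (c : K) (u : W) : (c • s u) * (c • s u) = (c * c * sg K (q u)) • 1 := by
  rw [smul_mul_smul_comm, h.sq, smul_smul]

theorem lift (hi : i * i = -1) (u : W) : ∃ c : K, (c • s u) * (c • s u) = -1 := by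
  rcases z2 (q u) with h1 | h1
  · exact ⟨i, by rw [h.smul_sq, hi, h1]; simp⟩
  · exact ⟨1, by rw [h.smul_sq, h1]; simp⟩

theorem liftI (hi : i * i = -1) (u : W) : ∃ c : K, (c • s u) * (c • s u) = 1 := by
  rcases z2 (q u) with h1 | h1
  · exact ⟨1, by rw [h.smul_sq, h1]; simp⟩
  · exact ⟨i, by rw [h.smul_sq, hi, h1]; simp⟩

theorem pow_four {c t : K} {u : W} (ht : t * t = 1) (hc : (c • s u) * (c • s u) = t • 1) :
    c ^ 4 = 1 := by
  have := h.nt
  rw [h.smul_sq] at hc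
  have h1 := smul_one_inj hc
  have h2 := sg_mul_self (K := K) (q u)
  linear_combination (c * c * sg K (q u) + t) * h1 + ht - c ^ 4 * h2

variable [FiniteDimensional K V]

theorem det_lin [Finite W] {x : W} {c : K} (hx : x ≠ 0) (he : (c • s x) * (c • s x) = 1) (a a' : K) :
    ∃ m, finrank K V = 2 * m ∧ LinearMap.det (a • 1 + a' • c • s x) = ((a + a') * (a - a')) ^ m := by
  obtain ⟨y, hy⟩ := h.sy.b1 hx
  obtain ⟨β, s', hS⟩ := h.exists_sf ((h.sy.symm _ _).trans hy) he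
  refine ⟨_, hS.spl.dim, ?_⟩
  have h1 : a • 1 + a' • c • s x = β ((a + a') • 1, (a - a') • 1) := by
    rw [add_smul, sub_eq_add_neg a, add_smul, neg_smul, ← smul_neg, ← Prod.mk_add_mk, map_add, ← Spl.β_smul,
      ← Spl.β_smul, Spl.β_one, hS.spl.β_e]
  rw [h1, hS.spl.det, LinearMap.det_smul, LinearMap.det_smul, map_one, mul_one, mul_one, mul_pow]

variable [Finite W]

theorem det_smul_s (hi : i * i = -1) (h4 : 4 ∣ finrank K V) {c : K} (hc : c ^ 4 = 1) (x : W) :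
    LinearMap.det (c • s x) = 1 := by
  obtain ⟨m, hm⟩ := h4
  have key : ∀ c : K, c ^ 4 = 1 → c ^ finrank K V = 1 := fun c hc => by rw [hm, pow_mul, hc, one_pow]
  rw [LinearMap.det_smul, key c hc, one_mul]
  by_cases hx : x = 0
  · obtain ⟨d, -, hd⟩ := h.s_zero
    have := h.nt
    have h1 := h.sq 0
    rw [hd, smul_mul_smul_comm, one_mul] at h1
    have h2 := smul_one_inj h1
    rw [hx, hd, LinearMap.det_smul, map_one, mul_one, key d (by
      linear_combination (d * d + sg K (q 0)) * h2 + sg_mul_self (K := K) (q 0))]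
  · obtain ⟨d, hd⟩ := h.liftI hi x
    obtain ⟨m', h1, h2⟩ := h.det_lin hx hd 0 1
    obtain rfl : m' = 2 * m := by omega
    rw [zero_smul, zero_add, one_smul, LinearMap.det_smul,
      key d (h.pow_four (one_mul 1) (by rw [hd, one_smul])), one_mul] at h2
    simp [h2]

theorem det_op (hi : i * i = -1) {u : W} {c : K} (hu : u ≠ 0) (hc : (c • s u) * (c • s u) = -1) :
    ∃ m, finrank K V = 2 * m ∧ LinearMap.det (1 + c • s u) = 2 ^ m := by
  obtain ⟨m, h1, h2⟩ := h.det_lin hu (c := -i * c) (by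
    rw [mul_smul, smul_mul_smul_comm, hc, neg_mul_neg, hi]; simp) 1 i
  refine ⟨m, h1, ?_⟩
  rw [one_smul, smul_smul, ← mul_assoc, mul_neg, hi, neg_neg, one_mul] at h2
  rw [h2, show (1 + i) * (1 - i) = 2 by linear_combination -hi]

theorem inG_NG_s (x : W) : InG h.NG (s x) := h.inG_NG_of (h.isUnit x) (h.act_s x)

theorem inG_NG_op {u : W} {c : K} (hc : (c • s u) * (c • s u) = -1) : InG h.NG (1 + c • s u) :=
  h.inG_NG_of (h.op_unit hc) (h.act_op hc)

theorem act_inv {g k : End K V} {σ τ : W → W} (hg : IsUnit g) (hk : k * g = 1) (hσ : Act s g σ)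
    (hτ : ∀ x, σ (τ x) = x) : Act s k τ := fun x => h.cj_inv hg hk (by
  have := hσ (τ x); rwa [hτ] at this)

theorem inG_of_act (hZ : HasZ X) (hs : ∀ x, InG X (s x)) {g a : End K V} {σ : W → W}
    (hg : IsUnit g) (ha : InG X a) (h1 : Act s g σ) (h2 : Act s a σ) : InG X g := by
  obtain ⟨k, k1, k2, k3⟩ := ha.exists_inv
  obtain ⟨y, c, hc, h3⟩ := h.self (k1.isUnit.mul hg) fun x =>
    (h.cj_inv ha.isUnit k2 (h2 x)).mul (h1 x)
  have := ha.mul ((hs y).smul hZ hc)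
  rwa [← h3, ← mul_assoc, k3, one_mul] at this

/-- The normaliser is generated by the scalars, the lifts and the maps `1 + f`. -/
theorem NG_le (hi : i * i = -1) (hZ : HasZ X) (hs : ∀ x, InG X (s x))
    (full : ∀ u (c : K), (c • s u) * (c • s u) = -1 → InG X (1 + c • s u)) : h.NG ≤ X := by
  intro g hg
  choose σ hσ using h.mem_NG.1 hg
  have hI := h.act_iso (N := fun _ => True) g.isUnit hσ fun _ _ => trivial
  obtain ⟨τ, -, h1, h2⟩ := hI.exists_inv h.sy
  let S : Subgroup (W ≃ₗ[ZMod 2] W) :=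
    { carrier := {γ | ∃ a, InG X a ∧ Act s a γ}
      mul_mem' := fun ⟨a, h1, h2⟩ ⟨a', h3, h4⟩ => ⟨_, h1.mul h3, h2.mul h4⟩
      one_mem' := ⟨1, InG.one, fun x => Cj.one x⟩
      inv_mem' := fun {γ} ⟨a, h1, h2⟩ => by
        obtain ⟨k, k1, k2, -⟩ := h1.exists_inv
        exact ⟨k, k1, h.act_inv h1.isUnit k2 h2 γ.apply_symm_apply⟩ }
  obtain ⟨a, h3, h4⟩ := H27.isomGroup_le_of_altTv_mem (B := b)
    ⟨fun x hx => h.sy.nd x fun y => (h.sy.symm _ _).trans (hx y), h.sy.nd⟩ (show b.IsAlt from h.sy.alt) S (fun w c => by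
      rcases z2 c with rfl | rfl
      · rw [H27.altTv_zero]; exact S.one_mem
      · obtain ⟨d, hd⟩ := h.lift hi w
        exact ⟨_, full w d hd, fun x => by
          rw [H27.altTv_apply, one_mul]; exact h.act_op hd x⟩)
    (show LinearEquiv.ofBijective (lin σ hI.add) (Function.bijective_iff_has_inverse.2 ⟨τ, h1, h2⟩) ∈ _
      from hI.pres)
  exact (h.inG_of_act hZ hs g.isUnit h3 hσ h4).mem

/-- A group normalising a sufficiently large subgroup of the normaliser lies in it. -/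
theorem le_NG_of_normal (h3 : 3 ≤ finrank (ZMod 2) W) {H : Subgroup (End K V)ˣ} (hH : H ≤ h.NG)
    (hX : ∀ g ∈ X, ∀ k ∈ H, g * k * g⁻¹ ∈ H) (hs : ∀ x, InG H (s x))
    (rich : ∀ u w, u ≠ 0 → w ≠ 0 → ∃ k, InG H k ∧ Act s k fun x => tv b u (tv b w x)) : X ≤ h.NG := by
  intro g hg x
  have hb := h.sy
  let T : (W → W) → Prop := fun δ => ∃ (y : W) (c : K), c ≠ 0 ∧ Act s (g * (c • s y) * g⁻¹) δ
  have hu : ∀ y (c : K), c ≠ 0 → IsUnit ((g : End K V) * (c • s y) * g⁻¹) := fun y c hc =>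
    (g.isUnit.mul (IsUnit.smul (Units.mk0 c hc) (h.isUnit y))).mul g⁻¹.isUnit
  have haa : ∀ y (c : K) x, Cj s (g * (c • s y) * g⁻¹ * (g * (c • s y) * g⁻¹)) x x := fun y c x => by
    rw [mul_assoc, ← mul_assoc (g⁻¹).1, ← mul_assoc (g⁻¹).1, g.inv_mul, one_mul, ← mul_assoc,
      mul_assoc g.1, h.smul_sq, mul_smul_comm, smul_mul_assoc, mul_one, g.mul_inv]
    exact (Cj.one x).smul _
  have hcm : ∀ δ, T δ → ∀ u w, u ≠ 0 → w ≠ 0 → T (cm b δ u w) := by
    rintro δ ⟨y, c, hc, h1⟩ u w hu0 hw0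
    obtain ⟨_, ⟨k, hk, rfl⟩, h2⟩ := rich u w hu0 hw0
    have h3 := h.act_iso (N := fun _ => True) (hu y c hc) h1 fun _ _ => trivial
    obtain ⟨z, d, h4⟩ := hH (hX _ (X.inv_mem hg) k hk) y
    have h5 := h.cj_ne (Units.isUnit _) h4
    obtain ⟨d', h6, h7⟩ := h.mul' y z
    refine ⟨y + z, c * (c * (d * d')), by simp [hc, h5, h6], fun x => ?_⟩
    have h10 := (h1 _).mul ((h2 _).mul ((h1 _).mul (h.act_inv k.isUnit k.inv_mul h2
      (τ := fun x => tv b w (tv b u x)) (fun x => by simp only [hb.tv_tv]) x)))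
    have h11 : ∀ x, δ (δ x) = x := fun x => h.cj_uniq ((hu y c hc).mul (hu y c hc)) ((h1 _).mul (h1 x))
      (haa y c x)
    simp only [h3.tv, h11] at h10
    convert h10 using 1
    swap
    · rfl
    simp only [inv_inv, Units.val_mul, mul_assoc] at h4
    have h8 := congrArg (· * ((g⁻¹).1 * (k⁻¹).1)) h4
    simp only [mul_assoc, smul_mul_assoc, Units.mul_inv_cancel_left, Units.mul_inv, mul_one] at h8
    simp only [mul_assoc, smul_mul_assoc, mul_smul_comm, h8, mul_smul]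
    rw [← mul_assoc (s y), h7, smul_mul_assoc, mul_smul_comm]
  have key := hb.T0_of (N := fun x => x ≠ 0) (hb.RR_ne h3)
    (fun u w _ _ h1 h2 => by rw [eq_of_add h2, hb.alt] at h1; exact zero_ne_one h1) hcm
    fun u v _ _ huv ⟨y, c, hc, h1⟩ => hb.key_of_sq huv (h.cj_uniq ((hu y c hc).mul (hu y c hc))
      ((h1 _).mul (h1 u)) (haa y c u))
  obtain ⟨k, hk, h1⟩ := hs x
  choose σ hσ using h.mem_NG.1 (hH (hX g hg k hk))
  have h2 : Act s (g * ((1 : K) • s x) * g⁻¹) σ := fun y => by simpa [h1] using hσ y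
  have h5 := h.act_iso (N := fun _ => True) (hu x 1 one_ne_zero) h2 fun _ _ => trivial
  have h6 : ∀ y, σ (σ y) = y := fun y => h.cj_uniq ((hu x 1 one_ne_zero).mul (hu x 1 one_ne_zero))
    ((h2 _).mul (h2 y)) (haa x 1 y)
  have h3 : ∀ u, σ u = u := fun u => by
    by_contra h7
    have h8 : u ≠ 0 := fun h0 => h7 (by rw [h0, h5.zero])
    refine h7 (key u (σ u) h8 (fun h0 => h8 (by rw [← h6 u, h0, h5.zero])) h8 ?_).symm
    convert hcm σ ⟨x, 1, one_ne_zero, h2⟩ u _ h8 (add_ne h7) using 2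
    rw [cm, h5.add, h6, add_comm u, hb.tv_tv]
  obtain ⟨y, c, -, h4⟩ := h.self (hu x 1 one_ne_zero) fun x => by simpa only [h3] using h2 x
  exact ⟨y, c, by rw [← smul_mul_assoc, ← h4]; simp⟩

theorem stepT [Finite K] (hi : i * i = -1) (h6 : 6 ≤ finrank (ZMod 2) W) (hX : h.NG ≤ X)
    (H : ∀ x₀ y₀ (c : K) β s', ∀ hS : SF b q s x₀ y₀ (c • s x₀)
      (LinearMap.ker (c • s x₀ - 1)).subtype β s', ∀ a a', InG X (β (a, a')) → InG hS.fr'.NG a) :
    X ≤ h.NG := by
  have hb := h.sy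
  have hZ := h.hasZ_NG.mono hX
  have hs := fun x => (h.inG_NG_s x).mono hX
  have rich : ∀ u w (c d : K), True → True → (c • s u) * (c • s u) = -1 →
      (d • s w) * (d • s w) = -1 → InG X ((1 + c • s u) * (1 + d • s w)) := fun u w c d _ _ h1 h2 =>
    ((h.inG_NG_op h1).mul (h.inG_NG_op h2)).mono hX
  refine h.core h6 (RR_true 3) (fun _ _ _ _ _ => trivial) hZ hs (fun _ _ _ _ _ _ => trivial)
    (fun u w _ _ => ?_) fun x hx g hg hgx => ?_
  · obtain ⟨c, hc⟩ := h.lift hi u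
    obtain ⟨d, hd⟩ := h.lift hi w
    exact ⟨_, rich u w c d trivial trivial hc hd, (h.act_op hc).mul (h.act_op hd)⟩
  obtain ⟨y₀, hy⟩ := hb.b1 hx
  obtain ⟨c, hc⟩ := h.liftI hi x
  obtain ⟨β, s', hS⟩ := h.exists_sf ((hb.symm _ _).trans hy) hc
  refine hS.star hZ (fun u _ => h.lift hi u) rich (H _ _ _ _ _ hS) (hs _) (fun _ _ _ _ _ _ _ => trivial)
    hS.fr'.sy.LT_true (hS.T0_weak (I := fun _ => True) hZ (fun u _ => h.lift hi u) rich
      (fun z => (hS.ctl_NG z).mono hX) (fun x₁ c _ h1 h2 => ?_) (fun u _ => h.liftI hi u)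
      (fun u v _ _ _ => ?_) (fun _ _ _ _ _ => trivial) (RR_true 2)) hg
    (by rw [mul_smul_comm, hgx, smul_mul_assoc])
  · obtain ⟨y₁, hy⟩ := hb.b1 h1
    obtain ⟨β, s', hS⟩ := h.exists_sf ((hb.symm _ _).trans hy) h2
    exact hS.ax (H _ _ _ _ _ hS)
  · have h1 := hS.fr'.sy.finrank_orth_list [u, v]
    have h2 := hb.finrank_hyp hS.b01
    obtain ⟨x₁, h3, h4⟩ := exists_notMem (S := ⊥)
      (T := orth (b.restrict _) (Submodule.span _ {a | a ∈ [u, v]})) (by
        simp only [List.length, finrank_bot] at h1 ⊢; omega)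
    exact ⟨x₁, h4, trivial, (hb.symm _ _).trans (mem_orth_span.1 h3 u (by simp)),
      (hb.symm _ _).trans (mem_orth_span.1 h3 v (by simp))⟩

end Fr

end Cfsg.Agent.H32.Xs
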