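import Cfsg.Agent.H32.XsL

/-!
From groups of symplectic type to families of lifts, and the linear case.
-/

set_option autoImplicit false

namespace Cfsg.Agent.H32.Xs

open Module LinearMap

universe u v

variable {K : Type u} {V : Type v} {W : Type*} [Field K] [AddCommGroup V] [Module K V]
  [AddCommGroup W] [Module (ZMod 2) W] {b : LinearMap.BilinForm (ZMod 2) W}
  {q : W → ZMod 2} {s : W → End K V} {X M G R : Subgroup (End K V)ˣ}

theorem exists_form (h2 : (2 : K) ≠ 0) [Nontrivial V] (hsq : ∀ x, ∃ l, s x * s x = sg K l • 1)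
    (hc : ∀ x y, ∃ l, s x * s y = sg K l • (s y * s x))
    (hm : ∀ x y, ∃ c : K, s x * s y = c • s (x + y))
    (hsp : Submodule.span K (Set.range s) = ⊤) (hz : ∀ x, (∀ y, s y * s x = s x * s y) → x = 0) :
    ∃ b q, Fr b q s := by
  choose q hq using hsq
  choose b₀ hb using hc
  have hu : ∀ x, IsUnit (s x) := fun x =>
    ⟨⟨s x, sg K (q x) • s x, by rw [mul_smul_comm, hq, smul_smul, sg_mul_self, one_smul],
      by rw [smul_mul_assoc, hq, smul_smul, sg_mul_self, one_smul]⟩, rfl⟩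
  have key : ∀ x y l, s x * s y = sg K l • (s y * s x) → b₀ x y = l := fun x y l h =>
    sg_inj h2 (smul_left_injective K ((hu y).mul (hu x)).ne_zero ((hb x y).symm.trans h))
  have hm' : ∀ x y, ∃ c : K, s (x + y) = c • (s x * s y) := fun x y => by
    obtain ⟨c, hc⟩ := hm x y
    exact ⟨c⁻¹, by rw [hc, inv_smul_smul₀ fun h0 => ((hu x).mul (hu y)).ne_zero (by
      rw [hc, h0, zero_smul])]⟩
  refine ⟨lin (fun x => lin (b₀ x) fun y z => key _ _ _ ?_) fun x y => LinearMap.ext fun z =>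
    key _ _ _ ?_, q, ⟨fun x => key x x 0 (by simp), fun x hx => hz x fun y => ?_⟩, h2,
    inferInstance, hq, hb, hm, hsp⟩
  · obtain ⟨c, hc⟩ := hm' y z
    rw [hc, mul_smul_comm, ← mul_assoc, hb x y, smul_mul_assoc, mul_assoc, hb x z, mul_smul_comm,
      smul_mul_assoc, smul_comm _ c, smul_smul (sg K _), sg_add, mul_assoc]
  · obtain ⟨c, hc⟩ := hm' x y
    change _ = sg K (b₀ x z + b₀ y z) • _
    rw [hc, smul_mul_assoc, mul_assoc, hb y z, mul_smul_comm, ← mul_assoc, hb x z, smul_mul_assoc,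
      mul_smul_comm, smul_comm _ c, smul_smul (sg K _), sg_add, mul_assoc, mul_comm (sg K _)]
  · rw [hb y x, show b₀ y x = 0 from hx y, sg_zero, one_smul]

/-- The relation between a group and a family of lifts. -/
structure RF (R : Subgroup (End K V)ˣ) (s : W → End K V) (π : R →* Multiplicative W) : Prop where
  mem : ∀ x, ∃ g : R, (g.1 : End K V) = s x ∧ π g = Multiplicative.ofAdd x
  sur : ∀ g : R, ∃ c : K, (g.1 : End K V) = c • s (π g).toAdd ∧ InG R (c • 1)
  ker : π.ker = Subgroup.center R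

theorem exists_fr [FiniteDimensional K V] [Nontrivial V] [Finite R] (h2 : (2 : K) ≠ 0)
    (hsq : ∀ g ∈ R, (g * g : End K V) = 1 ∨ (g * g : End K V) = -1)
    (hsp : Submodule.span K {g | InG R g} = ⊤) :
    ∃ (W : Type v) (_ : AddCommGroup W) (_ : Module (ZMod 2) W) (_ : Finite W)
      (b : LinearMap.BilinForm (ZMod 2) W) (q : W → ZMod 2) (s : W → End K V)
      (π : R →* Multiplicative W), Fr b q s ∧ RF R s π := by
  have h1 : ∀ g : R, ∃ l, (g.1 * g.1 : End K V) = sg K l • 1 := fun g => by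
    rcases hsq g g.2 with h | h
    exacts [⟨0, by simpa using h⟩, ⟨1, by simpa using h⟩]
  have h3 : ∀ g k : R, ∃ l, (g.1 * k.1 : End K V) = sg K l • (k.1 * g.1) := fun g k => by
    obtain ⟨l, h3⟩ := h1 g
    obtain ⟨l', h4⟩ := h1 k
    obtain ⟨l'', h5⟩ := h1 (g * k)
    refine ⟨l + l' + l'', (g.1 * k.1).isUnit.mul_left_cancel ?_⟩
    simp only [Subgroup.coe_mul, Units.val_mul] at h5 ⊢
    have h6 : (g.1 * k.1 * (k.1 * g.1) : End K V) = sg K (l + l') • 1 := by
      rw [mul_assoc, ← mul_assoc k.1.1, h4, smul_mul_assoc, mul_smul_comm, one_mul, h3, smul_smul,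
        sg_add, mul_comm]
    rw [h5, mul_smul_comm, h6, smul_smul, sg_add _ l'', mul_right_comm, sg_mul_self, one_mul]
  have h4 : ∀ (g : R) (c : K), (g.1 : End K V) = c • 1 → g ∈ Subgroup.center R := fun g c h =>
    Subgroup.mem_center_iff.2 fun k => Subtype.ext (Units.ext (by simp [h]))
  have h5 : ∀ g ∈ Subgroup.center R, ∃ c : K, (g.1 : End K V) = c • 1 := fun g hg => by
    obtain ⟨c, _, hc⟩ := Module.End.mem_center_iff.1 (Semigroup.mem_center_iff.2 fun a => by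
      have h6 : a ∈ Submodule.span K {g | InG R g} := hsp ▸ Submodule.mem_top
      induction h6 using Submodule.span_induction with
      | mem _ h =>
        obtain ⟨k, h, rfl⟩ := h
        exact congrArg (fun g : R => g.1.1) (Subgroup.mem_center_iff.1 hg ⟨k, h⟩)
      | zero => simp
      | add a a' _ _ h1 h2 => rw [add_mul, mul_add, h1, h2]
      | smul c a _ h1 => rw [smul_mul_assoc, mul_smul_comm, h1] : (g.1 : End K V) ∈ Set.center _)
    exact ⟨c, hc⟩
  have h6 : ∀ g k : R, (g : R ⧸ Subgroup.center R) = k →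
      ∃ c : K, (g.1 : End K V) = c • k.1 ∧ InG R (c • 1) := fun g k h => by
    obtain ⟨c, hc⟩ := h5 _ (QuotientGroup.eq.1 h.symm)
    refine ⟨c, ?_, hc ▸ .of_mem (k⁻¹ * g).2⟩
    simpa [Units.inv_mul_eq_iff_eq_mul] using hc
  let _ : CommGroup (R ⧸ Subgroup.center R) := ⟨fun x y => by
    obtain ⟨g, rfl⟩ := QuotientGroup.mk_surjective x
    obtain ⟨k, rfl⟩ := QuotientGroup.mk_surjective y
    obtain ⟨l, hl⟩ := h3 k g
    exact QuotientGroup.eq.2 (h4 _ (sg K l) (by
      simp only [Subgroup.coe_mul, Subgroup.coe_inv, Units.val_mul, hl, mul_smul_comm]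
      rw [← Units.val_mul g.1, Units.inv_mul]))⟩
  let _ : Module (ZMod 2) (Additive (R ⧸ Subgroup.center R)) := AddCommGroup.zmodModule fun x => by
    obtain ⟨g, hg⟩ := QuotientGroup.mk_surjective x.toMul
    obtain ⟨l, hl⟩ := h1 g
    change Additive.ofMul (x.toMul ^ 2) = Additive.ofMul 1
    rw [← hg, pow_two, ← QuotientGroup.mk_mul, (QuotientGroup.eq_one_iff _).2 (h4 _ _ hl)]
  let s : Additive (R ⧸ Subgroup.center R) → End K V := fun x => x.toMul.out.1
  have h7 : ∀ g : R, ∃ c : K, (g.1 : End K V) = c • s (.ofMul g) ∧ InG R (c • 1) := fun g =>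
    h6 _ _ (QuotientGroup.out_eq' _).symm
  obtain ⟨b, q, h⟩ := exists_form (s := s) h2 (fun x => h1 _) (fun x y => h3 _ _)
    (fun x y => (h7 (x.toMul.out * y.toMul.out)).imp fun c h => by simpa using h.1)
    (eq_top_iff.2 (hsp ▸ Submodule.span_le.2 fun _ ⟨g, h1, h2⟩ => by
      obtain ⟨c, hc, -⟩ := h7 ⟨g, h1⟩
      exact h2 ▸ hc ▸ Submodule.smul_mem _ _ (Submodule.subset_span ⟨_, rfl⟩))) fun x hx => by
    change x.toMul = 1
    rw [← QuotientGroup.out_eq' x.toMul, QuotientGroup.eq_one_iff, Subgroup.mem_center_iff]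
    intro g
    obtain ⟨c, hc, -⟩ := h7 g
    refine Subtype.ext (Units.ext ?_)
    change g.1 * s x = s x * g.1
    rw [hc, smul_mul_assoc, hx, mul_smul_comm]
  exact ⟨_, _, _, inferInstance, b, q, s, QuotientGroup.mk' _, h,
    fun x => ⟨x.toMul.out, rfl, QuotientGroup.out_eq' _⟩, h7, QuotientGroup.ker_mk' _⟩

/-- The product with the scalars. -/
def zc (M : Subgroup (End K V)ˣ) : Subgroup (End K V)ˣ where
  carrier := {g | ∃ c : K, c ≠ 0 ∧ InG M (c • g)}
  mul_mem' := fun ⟨c, h1, h2⟩ ⟨d, h3, h4⟩ =>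
    ⟨c * d, mul_ne_zero h1 h3, by simpa only [smul_mul_smul_comm, Units.val_mul] using h2.mul h4⟩
  one_mem' := ⟨1, one_ne_zero, by simpa using InG.one⟩
  inv_mem' := fun ⟨c, h1, h2⟩ => ⟨c⁻¹, inv_ne_zero h1, h2.inv (by simp [smul_smul, h1])⟩

theorem inG_zc {g : End K V} : InG (zc M) g ↔ ∃ c : K, c ≠ 0 ∧ InG M (c • g) :=
  ⟨fun ⟨_, h1, h2⟩ => h2 ▸ h1, fun ⟨c, h1, h2⟩ => by
    obtain ⟨g, rfl⟩ : IsUnit g := by
      have := IsUnit.smul (Units.mk0 c h1)⁻¹ h2.isUnit
      rwa [Units.smul_def, Units.val_inv_eq_inv_val, Units.val_mk0, inv_smul_smul₀ h1] at this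
    exact ⟨g, ⟨c, h1, h2⟩, rfl⟩⟩

theorem le_zc : M ≤ zc M := fun _ h => ⟨1, one_ne_zero, by simpa using InG.of_mem h⟩

theorem hasZ_zc : HasZ (zc M) := fun c hc =>
  inG_zc.2 ⟨c⁻¹, inv_ne_zero hc, by simpa [smul_smul, hc] using InG.one⟩

theorem InG.inf {g : End K V} (h : InG M g) (h' : InG G g) : InG (M ⊓ G) g := by
  obtain ⟨g, h, rfl⟩ := h
  exact .of_mem ⟨h, h'.mem⟩

variable [FiniteDimensional K V] [Finite W]

theorem Fr.of_zc (h : Fr b q s) (h1 : h.NG ⊓ G ≤ M) (h2 : M ≤ G) {g : End K V} (hg : InG G g)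
    (hz : InG (zc M) g) : InG M g := by
  obtain ⟨c, h3, h4⟩ := inG_zc.1 hz
  obtain ⟨k, k1, -, k2⟩ := hg.exists_inv
  have h5 := (h4.mono h2).mul k1
  rw [smul_mul_assoc, k2] at h5
  obtain ⟨l, l1, l2, -⟩ := (((h.hasZ_NG c h3).inf h5).mono h1).exists_inv
  have := l1.mul h4
  rwa [← one_mul g, ← smul_mul_assoc, ← mul_assoc, l2, one_mul] at this

theorem Fr.isMax (h : Fr b q s) [Finite R] {π : R →* Multiplicative W} (hR : RF R s π)
    (hd : ∀ g ∈ G, ∀ x y (d : K), g * s x = d • (s y * g) → InG R (d • 1)) (hne : ¬ G ≤ h.NG)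
    (H : ∀ M, h.NG ⊓ G ≤ M → M ≤ G → M ≤ h.NG ∨ G ≤ M) :
    Geo.IsMaximalIn G (Subgroup.normalizer (R : Set (End K V)ˣ) ⊓ G) := by
  suffices h1 : Subgroup.normalizer (R : Set (End K V)ˣ) ⊓ G = h.NG ⊓ G from
    h1 ▸ H26.isMaximalIn_inf hne H
  refine le_antisymm (inf_le_inf_right _ fun g hg x => ?_) fun g hg =>
    ⟨Subgroup.mem_normalizer_fintype fun r hr => ?_, hg.2⟩
  · obtain ⟨r, h1, -⟩ := hR.mem x
    obtain ⟨c, h2, -⟩ := hR.sur ⟨_, (Subgroup.mem_normalizer_iff.1 hg r).1 r.2⟩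
    exact ⟨_, c, by rw [← smul_mul_assoc, ← h2]; simp [h1]⟩
  · obtain ⟨c, h1, h2⟩ := hR.sur ⟨r, hr⟩
    obtain ⟨y, d, h3⟩ := hg.1 (π ⟨r, hr⟩).toAdd
    obtain ⟨k, h4, -⟩ := hR.mem y
    refine InG.mem ?_
    convert (h2.mul (hd g hg.2 _ _ _ h3)).mul (.of_mem k.2) using 1
    simp only at h1
    simp [h1, h3, h4, smul_smul, mul_comm]

section Matrix

variable {ι : Type} [Fintype ι] [DecidableEq ι] [Nonempty ι] {F : Type u} [Field F] [Finite F]

/-- Matrices acting on column vectors. -/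
noncomputable abbrev tl : GL ι F ≃* (End F (ι → F))ˣ := Matrix.GeneralLinearGroup.toLin

omit [Nonempty ι] [Finite F] in
theorem isMax_of_tl {R G₀ : Subgroup (GL ι F)} {G : Subgroup (End F (ι → F))ˣ}
    (hG : ∀ g, g ∈ G₀ ↔ tl g ∈ G) (h : Geo.IsMaximalIn G
      (Subgroup.normalizer (R.map tl.toMonoidHom : Set (End F (ι → F))ˣ) ⊓ G)) :
    Geo.IsMaximalIn G₀ (Geo.subgroupNormalizer R ⊓ G₀) :=
  H26.isMaximalIn_of_equiv tl hG (fun g => by
    rw [Subgroup.mem_inf, Subgroup.mem_inf, ← Subgroup.map_equiv_normalizer_eq, hG]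
    exact and_congr_left fun _ =>
      (Subgroup.mem_map_iff_mem (f := tl.toMonoidHom) tl.injective).symm) h

instance : Finite (End F (ι → F))ˣ :=
  have : Finite (End F (ι → F)) := DFunLike.finite _
  inferInstance

theorem exists_fr_GL (h2 : (2 : F) ≠ 0) {R : Subgroup (GL ι F)} (h : Geo.IsSymplecticTypeGroup 2 R)
    (habs : Geo.ActsAbsolutelyIrreducibly (Geo.matrixSet R)) :
    ∃ (W : Type u) (_ : AddCommGroup W) (_ : Module (ZMod 2) W) (_ : Finite W)
      (b : LinearMap.BilinForm (ZMod 2) W) (q : W → ZMod 2) (s : W → End F (ι → F))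
      (π : R.map tl.toMonoidHom →* Multiplicative W), Fr b q s ∧ RF (R.map tl.toMonoidHom) s π := by
  refine exists_fr h2 ?_ (eq_top_iff.2 fun a _ => ?_)
  · rintro _ ⟨g, hg, rfl⟩
    refine (H30.symp_sq h habs hg).imp (fun h => ?_) fun h => ?_
    · simpa using congrArg (fun g => (tl g).1) h
    · have := congrArg (fun g => (tl g).1) h
      simp only [map_mul, Units.val_mul] at this
      exact this.trans ((congrArg Matrix.toLin' H25.coe_scal_neg_one).trans (by simp; rfl))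
  · have h1 : toMatrix' a ∈ Submodule.span F (Geo.matrixSet R) := by
      rw [← H25.galg_toSubmodule, H25.galg_eq_top_of_absIrr habs]; trivial
    have h3 := Submodule.mem_map_of_mem (f := Matrix.toLin'.toLinearMap) h1
    rw [Submodule.map_span, LinearEquiv.coe_coe, Matrix.toLin'_toMatrix'] at h3
    refine Submodule.span_mono ?_ h3
    rintro _ ⟨_, ⟨g, hg, rfl⟩, rfl⟩
    exact ⟨tl g, ⟨g, hg, rfl⟩, rfl⟩

omit [Nonempty ι] [Finite F] in
theorem det_tl (g : GL ι F) : LinearMap.det (tl g : End F (ι → F)) = (g : Matrix ι ι F).det :=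
  LinearMap.det_toLin' _

theorem inG_four {R : Subgroup (GL ι F)} (h : Geo.IsSymplecticTypeGroup 2 R)
    (habs : Geo.ActsAbsolutelyIrreducibly (Geo.matrixSet R))
    (hZ : Nat.card (Subgroup.center R) = 4) {d : F} (hd : d ^ 4 = 1) :
    InG (R.map tl.toMonoidHom) (d • 1) := by
  let c := Units.mk0 d (ne_zero_pow four_ne_zero (hd ▸ one_ne_zero))
  refine ⟨_, ⟨_, (H30.symp_es h habs hZ).1.scal_mem _ (H25.scal_mem c) (by
    rw [← map_pow, show c ^ (2 * Nat.gcd 2 2) = 1 from Units.ext hd, map_one]), rfl⟩, ?_⟩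
  exact (congrArg Matrix.toLin' (H25.coe_scal c)).trans (by simp [c]; rfl)

end Matrix

theorem Fr.cj_four (h : Fr b q s) {g : End K V} (hg : IsUnit g) {x y : W} {d : K}
    (hd : g * s x = d • (s y * g)) : d ^ 4 = 1 := by
  have h1 := h.cj_sq hg hd
  linear_combination sg_mul_self (K := K) (q x) - (sg K (q x) + d * d * sg K (q y)) * h1 -
    d ^ 4 * sg_mul_self (K := K) (q y)

theorem Fr.exists_k (h : Fr b q s) (h8 : 5 ≤ finrank K V) :
    ∃ k, finrank (ZMod 2) W = 2 * (k + 3) := by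
  obtain ⟨m, hm⟩ := H27.even_finrank_of_alt (B := b)
    ⟨fun x hx => h.sy.nd x fun y => (h.sy.symm _ _).trans (hx y), h.sy.nd⟩ h.sy.alt
  have h1 := h.finrank_eq (k := m) (by omega)
  refine ⟨m - 3, ?_⟩
  have : ¬ m ≤ 2 := fun h2 => by
    have := Nat.pow_le_pow_right two_pos h2
    omega
  omega

omit [FiniteDimensional K V] [Finite W] in
theorem Fr.one_add_ne (h : Fr b q s) {i : K} (hi : i * i = -1) : 1 + i ≠ 0 := fun h0 =>
  h.two (by linear_combination (1 - i) * h0 + hi)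

theorem Fr.det_op' (h : Fr b q s) {i : K} (hi : i * i = -1) {k : ℕ}
    (hk : finrank (ZMod 2) W = 2 * (k + 3)) {u : W} {c : K} (hu : u ≠ 0)
    (hc : (c • s u) * (c • s u) = -1) : LinearMap.det ((1 + i)⁻¹ • (1 + c • s u)) = 1 := by
  obtain ⟨m, h1, h2⟩ := h.det_op hi hu hc
  have h3 := h.finrank_eq hk
  obtain rfl : m = 4 * 2 ^ k := by rw [pow_add] at h3; omega
  rw [LinearMap.det_smul, h2, h1, pow_mul, ← mul_pow, pow_mul, inv_pow, mul_pow, inv_pow,
    show ((1 + i) ^ 2) ^ 4 = 2 ^ 4 by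
      rw [show (1 + i) ^ 2 = 2 * i by linear_combination hi]
      linear_combination 16 * (i * i - 1) * hi,
    inv_mul_cancel₀ (pow_ne_zero _ h.two), one_pow]

theorem Fr.NG_le_zc (h : Fr b q s) {i : K} (hi : i * i = -1) (h1 : h.NG ⊓ G ≤ M)
    (hs : ∀ x, InG G (s x)) (hop : ∀ u (c : K), u ≠ 0 → (c • s u) * (c • s u) = -1 →
      InG G ((1 + i)⁻¹ • (1 + c • s u))) : h.NG ≤ zc M := by
  refine h.NG_le hi hasZ_zc (fun x => (((h.inG_NG_s x).inf (hs x)).mono h1).mono le_zc)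
    fun u c hc => ?_
  by_cases hu : u = 0
  · obtain ⟨d, -, hd⟩ := h.s_zero
    have h2 : 1 + c • s u = (1 + c * d) • 1 := by rw [hu, hd, add_smul, smul_smul, one_smul]
    exact h2 ▸ hasZ_zc _ fun h0 => h.ne_zero (h.op_unit hc) (by rw [h2, h0, zero_smul])
  · have h2 := inv_ne_zero (h.one_add_ne hi)
    exact inG_zc.2 ⟨_, h2, (((h.inG_NG_op hc).smul h.hasZ_NG h2).inf (hop u c hu hc)).mono h1⟩

theorem Fr.isMaxL [Fintype K] (hp : (Fintype.card K).Prime) {i : K} (hi : i * i = -1)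
    (h : Fr b q s) (h5 : 5 ≤ finrank K V) [Finite R] {π : R →* Multiplicative W} (hR : RF R s π)
    (hd : ∀ d : K, d ^ 4 = 1 → InG R (d • 1)) :
    Geo.IsMaximalIn (SLG K V) (Subgroup.normalizer (R : Set (End K V)ˣ) ⊓ SLG K V) := by
  obtain ⟨k, hk⟩ := h.exists_k h5
  refine h.isMax hR (fun g _ x y d H => hd d (h.cj_four g.isUnit H)) (fun H => ?_)
    fun M h1 h2 => (claimL hp hi (k + 1) h hk (h.NG_le_zc hi h1 (fun x => ?_) fun u c hu hc =>
      inG_SLG.2 (h.det_op' hi hk hu hc))).imp le_zc.trans fun H g hg =>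
        (h.of_zc h1 h2 (.of_mem hg) (H g hg)).mem
  · obtain ⟨x, -, hx⟩ := exists_notMem (S := ⊥) (T := (⊤ : Submodule (ZMod 2) W)) (by simp; omega)
    obtain ⟨c, hc⟩ := h.liftI hi x
    obtain ⟨v, φ, h1, h2, h3, h4⟩ := h.exists_tvn hx hc
    obtain ⟨d, h6⟩ := h.sq_sq_of_NG hc h4 (tvn_mul h3) ((inG_SLG.2 (by simp [h3])).mono H)
    obtain ⟨w, hw⟩ := DFunLike.ne_iff.1 h2
    have h7 := LinearMap.congr_fun h6 v
    have h8 := LinearMap.congr_fun h6 w
    simp only [End.mul_apply, transvection.apply, h3, map_add, map_smul, map_neg, smul_zero,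
      zero_smul, add_zero, neg_zero, LinearMap.smul_apply, End.one_apply] at h7 h8
    rw [← smul_left_injective K h1 ((one_smul K v).trans h7), one_smul, add_assoc, add_assoc,
      add_assoc, add_eq_left, ← add_smul, ← add_smul, ← add_smul, smul_eq_zero] at h8
    exact h8.elim (fun h9 => mul_ne_zero (mul_ne_zero h.two h.two) hw (by linear_combination h9))
      (neg_ne_zero.2 h1)
  · simpa using inG_SLG.2 (h.det_smul_s hi (by rw [h.finrank_eq hk, pow_add]; omega) (one_pow _) x)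

theorem sl_c6 {ι : Type} [Fintype ι] [DecidableEq ι] {F : Type u} [Field F] [Fintype F]
    (hp : (Fintype.card F).Prime) (h2 : (2 : F) ≠ 0) (h5 : 5 ≤ Fintype.card ι)
    {R : Subgroup (GL ι F)} (h : Geo.IsLinearSymplecticTypeData 2 R) :
    Geo.IsMaximalIn (Geo.specialLinear ι F) (Geo.subgroupNormalizer R ⊓ Geo.specialLinear ι F) := by
  have : Nonempty ι := Fintype.card_pos_iff.1 (by omega)
  have hZ : Nat.card (Subgroup.center R) = 4 := by
    obtain ⟨p, e, -, -, h1 | h1 | h1⟩ := h.field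
    · exact absurd h1.1 (by decide)
    · exact h1.2.2.1
    · omega
  obtain ⟨-, i, hi⟩ := H30.symp_es h.symplecticType h.absIrred hZ
  obtain ⟨W, _, _, _, b, q, s, π, hf, hR⟩ := exists_fr_GL h2 h.symplecticType h.absIrred
  exact isMax_of_tl (fun g => by rw [H26.mem_specialLinear_iff, mem_SLG, det_tl])
    (hf.isMaxL hp hi (by simpa) hR fun d => inG_four h.symplecticType h.absIrred hZ)

end Cfsg.Agent.H32.Xs
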