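import Mathlib

/-!
Symplectic and quadratic geometry over the field with two elements.
-/

set_option autoImplicit false

namespace Cfsg.Agent.H32.Xs

open Module

variable {W : Type*} [AddCommGroup W] [Module (ZMod 2) W]

theorem z2 (c : ZMod 2) : c = 0 ∨ c = 1 := by revert c; decide

theorem aa (x : W) : x + x = 0 := ZModModule.add_self x

theorem aab (x y : W) : x + (x + y) = y := by rw [← add_assoc, aa, zero_add]

theorem baa (x y : W) : y + x + x = y := by rw [add_assoc, aa, add_zero]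

theorem eq_of_add {x y : W} (h : x + y = 0) : x = y := by rw [← baa y x, h, zero_add]

theorem add_ne {x y : W} (h : x ≠ y) : x + y ≠ 0 := fun h' => h (eq_of_add h')

theorem z11 : (1 : ZMod 2) + 1 = 0 := by decide

/-- A non-degenerate alternating form. -/
structure Sy (b : LinearMap.BilinForm (ZMod 2) W) : Prop where
  alt : ∀ x, b x x = 0
  nd : ∀ x, (∀ y, b y x = 0) → x = 0

/-- The transvection with centre `u`. -/
def tv (b : LinearMap.BilinForm (ZMod 2) W) (u x : W) : W := x + b x u • u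

variable {b : LinearMap.BilinForm (ZMod 2) W}

theorem tv_zero {u x : W} (h : b x u = 0) : tv b u x = x := by simp [tv, h]

theorem tv_one {u x : W} (h : b x u = 1) : tv b u x = x + u := by simp [tv, h]

theorem tv_add (u x y : W) : tv b u (x + y) = tv b u x + tv b u y := by
  simp only [tv, map_add, LinearMap.add_apply, add_smul]; abel

/-- Orthogonal complement. -/
def orth (b : LinearMap.BilinForm (ZMod 2) W) (S : Submodule (ZMod 2) W) :
    Submodule (ZMod 2) W where
  carrier := {x | ∀ s ∈ S, b x s = 0}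
  add_mem' hx hy s hs := by simp [hx s hs, hy s hs]
  zero_mem' s _ := by simp
  smul_mem' c x hx s hs := by simp [hx s hs]

theorem mem_orth {S : Submodule (ZMod 2) W} {x : W} : x ∈ orth b S ↔ ∀ s ∈ S, b x s = 0 := Iff.rfl

theorem mem_orth_span {s : Set W} {x : W} :
    x ∈ orth b (Submodule.span (ZMod 2) s) ↔ ∀ a ∈ s, b x a = 0 :=
  ⟨fun h a ha => h a (Submodule.subset_span ha), fun h a ha =>
    (Submodule.span_le (p := LinearMap.ker (b x))).2 h ha⟩

/-- An additive subgroup as a subspace. -/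
def sub (P : W → Prop) (h0 : P 0) (h : ∀ x y, P x → P y → P (x + y)) : Submodule (ZMod 2) W where
  carrier := {x | P x}
  add_mem' := h _ _
  zero_mem' := h0
  smul_mem' c x hx := by
    rcases z2 c with rfl | rfl
    · simpa using h0
    · simpa using hx

/-- An additive map as a linear map. -/
def lin {W' : Type*} [AddCommGroup W'] [Module (ZMod 2) W'] (f : W → W')
    (h : ∀ x y, f (x + y) = f x + f y) : W →ₗ[ZMod 2] W' where
  toFun := f
  map_add' := h
  map_smul' c x := by
    rcases z2 c with rfl | rfl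
    · simpa using h 0 0
    · simp

theorem both {P : W → Prop} (h : ∀ x y, P x → P y → P (x + y)) {a a' y y' : W} (hy : P y)
    (hy' : P y') (h1 : b y a = 1) (h2 : b y' a' = 1) : ∃ z, P z ∧ b z a = 1 ∧ b z a' = 1 := by
  rcases z2 (b y a') with h3 | h3
  · rcases z2 (b y' a) with h4 | h4
    · exact ⟨y + y', h _ _ hy hy', by simp [h1, h4], by simp [h2, h3]⟩
    · exact ⟨y', hy', h4, h2⟩
  · exact ⟨y, hy, h1, h3⟩

theorem finrank_span_le (l : List W) :
    finrank (ZMod 2) (Submodule.span (ZMod 2) {x | x ∈ l}) ≤ l.length := by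
  classical
  have : {x | x ∈ l} = (l.toFinset : Set W) := by ext; simp
  rw [this]
  exact (finrank_span_finset_le_card _).trans (List.toFinset_card_le l)

theorem mem_span_two {a a' x : W} (h : x ∈ Submodule.span (ZMod 2) {x | x ∈ [a, a']}) :
    x = 0 ∨ x = a ∨ x = a' ∨ x = a + a' := by
  have : {x | x ∈ [a, a']} = ({a, a'} : Set W) := by ext; simp
  rw [this, Submodule.mem_span_pair] at h
  obtain ⟨c, d, rfl⟩ := h
  rcases z2 c with rfl | rfl <;> rcases z2 d with rfl | rfl <;> simp

theorem exists_notMem [Finite W] {S T : Submodule (ZMod 2) W}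
    (h : finrank (ZMod 2) S < finrank (ZMod 2) T) : ∃ x ∈ T, x ∉ S := by
  by_contra H
  push Not at H
  exact absurd (Submodule.finrank_mono (show T ≤ S from H)) (not_le.2 h)

theorem exists_out [Finite W] {T : Submodule (ZMod 2) W} (h : 3 ≤ finrank (ZMod 2) T) (a a' : W) :
    ∃ x ∈ T, x ≠ 0 ∧ x ≠ a ∧ x ≠ a' ∧ x ≠ a + a' := by
  obtain ⟨x, hx, h1⟩ := exists_notMem (T := T) ((finrank_span_le [a, a']).trans_lt h)
  have h2 : a ∈ Submodule.span (ZMod 2) {x | x ∈ [a, a']} := Submodule.subset_span (by simp)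
  have h3 : a' ∈ Submodule.span (ZMod 2) {x | x ∈ [a, a']} := Submodule.subset_span (by simp)
  refine ⟨x, hx, ?_, ?_, ?_, ?_⟩ <;> rintro rfl
  exacts [h1 (zero_mem _), h1 h2, h1 h3, h1 (add_mem h2 h3)]

namespace Sy

variable (hb : Sy b)
include hb

theorem symm (x y : W) : b x y = b y x := by
  have := hb.alt (x + y)
  simp only [map_add, LinearMap.add_apply, hb.alt, zero_add, add_zero] at this
  exact (eq_of_add this).symm

theorem tv_self (u : W) : tv b u u = u := tv_zero (hb.alt u)

theorem tv_tv (u x : W) : tv b u (tv b u x) = x := by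
  rcases z2 (b x u) with h | h
  · rw [tv_zero h, tv_zero h]
  · rw [tv_one h, tv_one (by simp [h, hb.alt]), baa]

theorem b_tv (u x y : W) : b (tv b u x) (tv b u y) = b x y := by
  simp only [tv, map_add, map_smul, LinearMap.add_apply, LinearMap.smul_apply, hb.alt, smul_eq_mul,
    hb.symm u y]
  generalize b x y = p, b x u = q, b y u = r
  revert p q r; decide

theorem b_tv_left (u x y : W) : b (tv b u x) y = b x (tv b u y) := by
  rw [← hb.b_tv u, hb.tv_tv]

theorem ext {x x' : W} (h : ∀ y, b y x = b y x') : x = x' :=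
  eq_of_add (hb.nd _ fun y => by rw [map_add, h, aa])

theorem b1 {a : W} (h : a ≠ 0) : ∃ y, b y a = 1 := by
  by_contra H
  exact h (hb.nd a fun y => (z2 _).resolve_right fun h' => H ⟨y, h'⟩)

variable [Finite W]

theorem rep (φ : W →ₗ[ZMod 2] ZMod 2) : ∃ y, ∀ x, b y x = φ x := by
  have h1 : Function.Injective (b : W →ₗ[ZMod 2] Dual (ZMod 2) W) :=
    (injective_iff_map_eq_zero _).2 fun x hx => hb.nd x fun y => by
      rw [hb.symm, hx, LinearMap.zero_apply]
  obtain ⟨y, hy⟩ := (LinearMap.injective_iff_surjective_of_finrank_eq_finrank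
    Subspace.dual_finrank_eq.symm).1 h1 φ
  exact ⟨y, fun x => by rw [← hy]⟩

theorem exists_perp {S : Submodule (ZMod 2) W} {a : W} (ha : a ∉ S) :
    ∃ y ∈ orth b S, b y a = 1 := by
  obtain ⟨φ, h1, h2⟩ := Submodule.exists_le_ker_of_notMem ha
  obtain ⟨y, hy⟩ := hb.rep φ
  exact ⟨y, fun s hs => (hy s).trans (h2 hs), (hy a).trans ((z2 _).resolve_left h1)⟩

theorem b3 {a a' x : W} (h0 : x ≠ 0) (h1 : x ≠ a) (h2 : x ≠ a') (h3 : x ≠ a + a') :
    ∃ y, b y a = 0 ∧ b y a' = 0 ∧ b y x = 1 := by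
  obtain ⟨y, hy, h⟩ := hb.exists_perp (S := Submodule.span (ZMod 2) {x | x ∈ [a, a']}) (a := x)
    fun h => by have := mem_span_two h; tauto
  exact ⟨y, mem_orth_span.1 hy a (by simp), mem_orth_span.1 hy a' (by simp), h⟩

theorem b2 {a x : W} (h0 : x ≠ 0) (h1 : x ≠ a) : ∃ y, b y a = 0 ∧ b y x = 1 := by
  obtain ⟨y, h2, -, h3⟩ := hb.b3 (a' := 0) h0 h1 h0 (by simpa using h1)
  exact ⟨y, h2, h3⟩

theorem mem_of_orth {S : Submodule (ZMod 2) W} {x : W} (h : ∀ y ∈ orth b S, b y x = 0) : x ∈ S := by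
  by_contra H
  obtain ⟨y, hy, h1⟩ := hb.exists_perp H
  exact absurd ((h y hy).symm.trans h1) zero_ne_one

theorem finrank_orth (S : Submodule (ZMod 2) W) :
    finrank (ZMod 2) (orth b S) + finrank (ZMod 2) S = finrank (ZMod 2) W := by
  have h1 : orth b S = LinearMap.ker (S.dualRestrict ∘ₗ (b : W →ₗ[ZMod 2] Dual (ZMod 2) W)) := by
    ext x
    simp only [mem_orth, LinearMap.mem_ker, LinearMap.ext_iff, LinearMap.comp_apply,
      Submodule.dualRestrict_apply, LinearMap.zero_apply, Subtype.forall]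
  have h2 : LinearMap.range (S.dualRestrict ∘ₗ (b : W →ₗ[ZMod 2] Dual (ZMod 2) W)) = ⊤ := by
    rw [LinearMap.range_eq_top, LinearMap.coe_comp]
    refine (Subspace.dualRestrict_surjective).comp fun φ => ?_
    obtain ⟨y, hy⟩ := hb.rep φ
    exact ⟨y, LinearMap.ext hy⟩
  have h3 := LinearMap.finrank_range_add_finrank_ker
    (S.dualRestrict ∘ₗ (b : W →ₗ[ZMod 2] Dual (ZMod 2) W))
  rw [h2, finrank_top, Subspace.dual_finrank_eq] at h3
  rw [h1]; omega

theorem finrank_orth_list (l : List W) : finrank (ZMod 2) W ≤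
    finrank (ZMod 2) (orth b (Submodule.span (ZMod 2) {x | x ∈ l})) + l.length := by
  have h1 := hb.finrank_orth (Submodule.span (ZMod 2) {x | x ∈ l})
  have h2 := finrank_span_le l
  omega

/-- An alternating form has a quadratic refinement. -/
theorem exists_q : ∃ q : W → ZMod 2, ∀ x y, q (x + y) = q x + q y + b x y := by
  classical
  let e := Module.finBasis (ZMod 2) W
  let g : LinearMap.BilinForm (ZMod 2) W :=
    e.constr (ZMod 2) fun i => e.constr (ZMod 2) fun j => if i < j then b (e i) (e j) else 0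
  have h1 : g + g.flip = b := e.ext fun i => e.ext fun j => by
    simp only [g, LinearMap.add_apply, LinearMap.BilinForm.flip_apply, Basis.constr_basis]
    rcases lt_trichotomy i j with h | rfl | h
    · simp [h, h.le]
    · simp [hb.alt]
    · simp [h, h.le, hb.symm (e j)]
  refine ⟨fun x => g x x, fun x y => ?_⟩
  rw [← h1]
  simp only [map_add, LinearMap.add_apply, LinearMap.BilinForm.flip_apply]
  ring

end Sy

/-- Every affine subspace of codimension at most `c` contains a vector satisfying `N`. -/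
def RR (b : LinearMap.BilinForm (ZMod 2) W) (N : W → Prop) (c : ℕ) : Prop :=
  ∀ l : List W, l.length ≤ c → ∀ y, ∃ u, N u ∧ ∀ a ∈ l, b u a = b y a

theorem RR.three {N : W → Prop} (h : RR b N 3) (a a' a'' y : W) :
    ∃ u, N u ∧ b u a = b y a ∧ b u a' = b y a' ∧ b u a'' = b y a'' := by
  obtain ⟨u, h1, h2⟩ := h [a, a', a''] le_rfl y
  exact ⟨u, h1, h2 _ (by simp), h2 _ (by simp), h2 _ (by simp)⟩

theorem RR.two {N : W → Prop} (h : RR b N 2) (a a' y : W) :
    ∃ u, N u ∧ b u a = b y a ∧ b u a' = b y a' := by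
  obtain ⟨u, h1, h2⟩ := h [a, a'] le_rfl y
  exact ⟨u, h1, h2 _ (by simp), h2 _ (by simp)⟩

theorem RR.mono {N : W → Prop} {c c' : ℕ} (h : RR b N c) (h' : c' ≤ c) : RR b N c' :=
  fun l hl => h l (hl.trans h')

theorem RR_true (c : ℕ) : RR b (fun _ => True) c := fun _ _ y => ⟨y, trivial, fun _ _ => rfl⟩

/-- Isometries preserving `N`. -/
structure Iso (b : LinearMap.BilinForm (ZMod 2) W) (N : W → Prop) (γ : W → W) : Prop where
  add : ∀ x y, γ (x + y) = γ x + γ y
  pres : ∀ x y, b (γ x) (γ y) = b x y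
  ns : ∀ x, N x → N (γ x)

theorem Iso.comp {N : W → Prop} {γ δ : W → W} (h : Iso b N γ) (h' : Iso b N δ) :
    Iso b N fun x => γ (δ x) :=
  ⟨fun x y => by rw [h'.add, h.add], fun x y => by rw [h.pres, h'.pres],
    fun x hx => h.ns _ (h'.ns _ hx)⟩

theorem Iso.zero {N : W → Prop} {γ : W → W} (h : Iso b N γ) : γ 0 = 0 := by simpa using h.add 0 0

theorem Iso.tv {N : W → Prop} {γ : W → W} (h : Iso b N γ) (u x : W) :
    γ (tv b u x) = tv b (γ u) (γ x) := by
  rcases z2 (b x u) with h1 | h1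
  · rw [tv_zero h1, tv_zero (by rw [h.pres, h1])]
  · rw [tv_one h1, tv_one (by rw [h.pres, h1]), h.add]

/-- The commutator of `γ` with a product of two transvections. -/
def cm (b : LinearMap.BilinForm (ZMod 2) W) (γ : W → W) (u w x : W) : W :=
  tv b (γ u) (tv b (γ w) (tv b w (tv b u x)))

/-- A rigidity property: a family of isometries closed under commutation with products of two
transvections and containing no such product is trivial. -/
def LT (b : LinearMap.BilinForm (ZMod 2) W) (N : W → Prop) : Prop :=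
  ∀ T : (W → W) → Prop,
    (∀ u v, N u → N v → u ≠ 0 → v ≠ 0 → T (fun x => tv b v (tv b u x)) → u = v) →
    (∀ δ, T δ → Iso b N δ → ∀ u w, N u → N w → T (cm b δ u w)) →
    ∀ γ, Iso b N γ → (∀ u w, N u → N w → T (cm b γ u w)) → ∀ x, γ x = x

theorem Sy.LT_true (hb : Sy b) : LT b fun _ => True := by
  intro T h0 _ γ hγ h x
  by_cases hx : x = 0
  · rw [hx, hγ.zero]
  refine (h0 x (γ x) trivial trivial hx (fun h1 => hx (hb.nd x fun y => ?_)) ?_).symm
  · rw [← hγ.pres, h1, map_zero]
  · convert h x 0 trivial trivial using 2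
    rw [cm, hγ.zero, hb.tv_tv]

/-- `q` is a quadratic form with polar form `b`. -/
def Qd (b : LinearMap.BilinForm (ZMod 2) W) (q : W → ZMod 2) : Prop :=
  ∀ x y, q (x + y) = q x + q y + b x y

/-- Totally singular subspaces have dimension less than `k`. -/
def Wb (q : W → ZMod 2) (k : ℕ) : Prop :=
  ∀ L : Submodule (ZMod 2) W, (∀ x ∈ L, q x = 0) → finrank (ZMod 2) L < k

variable {q : W → ZMod 2}

theorem Qd.zero (hq : Qd b q) : q 0 = 0 := by simpa using hq 0 0

theorem Qd.tv (hq : Qd b q) {u : W} (hu : q u = 1) (x : W) : q (tv b u x) = q x := by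
  rcases z2 (b x u) with h1 | h1
  · rw [tv_zero h1]
  · rw [tv_one h1, hq, hu, h1, add_assoc, z11, add_zero]

theorem Sy.iso_tv (hb : Sy b) (hq : Qd b q) {u : W} (hu : q u = 1) :
    Iso b (fun x => q x = 1) (tv b u) :=
  ⟨tv_add u, hb.b_tv u, fun x hx => (hq.tv hu x).trans hx⟩

theorem Wb.two [Finite W] (hq : Qd b q) (h : Wb q 2) {s s' : W} (h1 : q s = 0) (h2 : q s' = 0)
    (h3 : b s s' = 0) (h4 : s ≠ 0) (h5 : s' ≠ 0) : s = s' := by
  by_contra h6
  have h7 := h (Submodule.span (ZMod 2) {x | x ∈ [s, s']}) fun x hx => by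
    rcases mem_span_two hx with rfl | rfl | rfl | rfl
    exacts [hq.zero, h1, h2, by rw [hq, h1, h2, h3]; rfl]
  have h8 : finrank (ZMod 2) (Submodule.span (ZMod 2) {x | x ∈ [s]}) <
      finrank (ZMod 2) (Submodule.span (ZMod 2) {x | x ∈ [s, s']}) :=
    Submodule.finrank_lt_finrank_of_lt (lt_of_le_of_ne (Submodule.span_mono (by simp)) fun h => by
      have h9 : s' ∈ Submodule.span (ZMod 2) {x | x ∈ [s]} :=
        h ▸ Submodule.subset_span (by simp)
      have : {x | x ∈ [s]} = ({s} : Set W) := by ext; simp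
      rw [this, Submodule.mem_span_singleton] at h9
      obtain ⟨c, rfl⟩ := h9
      rcases z2 c with rfl | rfl <;> simp_all)
  have h9 : 0 < finrank (ZMod 2) (Submodule.span (ZMod 2) {x | x ∈ [s]}) :=
    finrank_pos_iff_exists_ne_zero.2 ⟨⟨s, Submodule.subset_span (by simp)⟩,
      fun h => h4 (congrArg Subtype.val h)⟩
  omega

theorem Sy.RR_q [Finite W] (hb : Sy b) (hq : Qd b q) {c : ℕ}
    (h : 2 * c < finrank (ZMod 2) W ∨ (2 * c ≤ finrank (ZMod 2) W ∧ Wb q c)) :
    RR b (fun x => q x = 1) c := by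
  intro l hl y
  by_contra H
  push Not at H
  set S := Submodule.span (ZMod 2) {x | x ∈ l}
  have h1 : ∀ u ∈ orth b S, q (y + u) = 0 := fun u hu => (z2 _).resolve_right fun h => by
    obtain ⟨a, ha, h2⟩ := H _ h
    exact h2 (by rw [map_add, LinearMap.add_apply, mem_orth_span.1 hu a ha, add_zero])
  have h2 : q y = 0 := by simpa using h1 0 (zero_mem _)
  have h3 : ∀ u ∈ orth b S, q u = b y u := fun u hu =>
    eq_of_add (by rw [← h1 u hu, hq, h2, zero_add])
  have h4 : ∀ u ∈ orth b S, ∀ v ∈ orth b S, b u v = 0 := fun u hu v hv => by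
    have := h3 _ (add_mem hu hv)
    rwa [hq, h3 u hu, h3 v hv, map_add, add_eq_left] at this
  have h5 : finrank (ZMod 2) (orth b S) ≤ finrank (ZMod 2) S :=
    Submodule.finrank_mono fun u hu => hb.mem_of_orth fun v hv => h4 v hv u hu
  have h6 := hb.finrank_orth S
  have h7 : finrank (ZMod 2) S ≤ l.length := finrank_span_le l
  rcases h with h | ⟨h, h8⟩
  · omega
  by_cases h9 : ∀ u ∈ orth b S, b y u = 0
  · have := h8 _ fun u hu => (h3 u hu).trans (h9 u hu)
    omega
  push Not at h9
  obtain ⟨u₀, hu₀, h10⟩ := h9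
  let L := sub (fun x => (x ∈ orth b S ∨ y + x ∈ orth b S) ∧ b y x = 0) (by simp)
    fun x x' hx hx' => ⟨by
      rcases hx.1 with h | h <;> rcases hx'.1 with h' | h'
      · exact Or.inl (add_mem h h')
      · exact Or.inr (by rw [add_left_comm]; exact add_mem h h')
      · exact Or.inr (by rw [← add_assoc]; exact add_mem h h')
      · exact Or.inl (by
          have := add_mem h h'
          rwa [add_add_add_comm, aa, zero_add] at this), by simp [hx.2, hx'.2]⟩
  have h11 := h8 L fun x hx => by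
    rcases hx.1 with h | h
    · rw [h3 x h, hx.2]
    · rw [← aab y x]; exact h1 _ h
  have h12 : b y u₀ = 1 := (z2 _).resolve_left h10
  let f : orth b S →ₗ[ZMod 2] L := LinearMap.codRestrict L
    ((orth b S).subtype + (b y ∘ₗ (orth b S).subtype).smulRight (y + u₀)) fun u => by
      rcases z2 (b y u) with h | h
      · exact ⟨Or.inl (by simp [h]), by simp [h]⟩
      · refine ⟨Or.inr ?_, by simp [h, hb.alt, h12, z11]⟩
        simp only [LinearMap.add_apply, Submodule.subtype_apply, LinearMap.smulRight_apply,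
          LinearMap.comp_apply, h, one_smul]
        rw [add_left_comm, aab]
        exact add_mem u.2 hu₀
  have h13 := LinearMap.finrank_le_finrank_of_injective (f := f)
    ((injective_iff_map_eq_zero _).2 fun u hu => by
      have h14 := congrArg Subtype.val hu
      simp only [f, LinearMap.codRestrict_apply, LinearMap.add_apply, Submodule.subtype_apply,
        LinearMap.smulRight_apply, LinearMap.comp_apply, ZeroMemClass.coe_zero] at h14
      rcases z2 (b y u) with h | h
      · exact Subtype.ext (by simpa [h] using h14)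
      · rw [h, one_smul] at h14
        have h15 := congrArg (b · u₀) h14
        simp [h4 _ u.2 _ hu₀, h12, hb.alt] at h15)
  omega

theorem Sy.LT_q [Finite W] (hb : Sy b) (hq : Qd b q)
    (hW : 6 ≤ finrank (ZMod 2) W ∨ (4 ≤ finrank (ZMod 2) W ∧ Wb q 2)) :
    LT b fun x => q x = 1 := by
  intro T h0 h1 γ hγ hc
  have hR : RR b (fun x => q x = 1) 2 := hb.RR_q hq (hW.imp (by omega) id)
  have hne : ∀ u, q u = 1 → u ≠ 0 := fun u hu h => by
    rw [h, hq.zero] at hu; exact zero_ne_one hu
  have fix : ∀ δ, Iso b (fun x => q x = 1) δ → (∀ u w, q u = 1 → q w = 1 → T (cm b δ u w)) →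
      ∀ w, q w = 1 → δ w = w → ∀ x, δ x = x := by
    intro δ hδ h w hw h2
    have h3 : ∀ u, q u = 1 → δ u = u := fun u hu => by
      refine (h0 u (δ u) hu (hδ.ns u hu) (hne u hu) (hne _ (hδ.ns u hu)) ?_).symm
      convert h u w hu hw using 2
      rw [cm, h2, hb.tv_tv]
    intro x
    rcases z2 (q x) with hx | hx
    · obtain ⟨u, hu, h4, -⟩ := hR.two x x 0
      rw [← aab u x, hδ.add, h3 u hu, h3 _ (by rw [hq, hu, hx, h4]; simp)]
    · exact h3 x hx
  have isoc : ∀ u w, q u = 1 → q w = 1 → Iso b (fun x => q x = 1) (cm b γ u w) := fun u w hu hw =>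
    (hb.iso_tv hq (hγ.ns u hu)).comp ((hb.iso_tv hq (hγ.ns w hw)).comp
      ((hb.iso_tv hq hw).comp (hb.iso_tv hq hu)))
  have fixc : ∀ u w, q u = 1 → q w = 1 → ∀ z, q z = 1 → cm b γ u w z = z → ∀ x, cm b γ u w x = x :=
    fun u w hu hw => fix _ (isoc u w hu hw) (h1 _ (hc u w hu hw) (isoc u w hu hw))
  by_contra H
  have hno : ∀ w, q w = 1 → γ w ≠ w := fun w hw h => H (fix γ hγ hc w hw h)
  have h2 : ∀ u, q u = 1 → γ (γ u) = tv b (γ u) u := fun u hu => by
    have h3 := hγ.ns u hu
    have h4 := hγ.ns _ h3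
    have h5 := h0 u (tv b (γ u) (γ (γ u))) hu ((hq.tv h3 _).trans h4) (hne u hu)
      (hne _ ((hq.tv h3 _).trans h4)) (by
        convert hc u (γ u) hu h3 using 2
        rw [cm, (hb.iso_tv hq h3).tv, hb.tv_tv])
    rw [← hb.tv_tv (γ u) (γ (γ u)), ← h5]
  by_cases hI : ∃ u, q u = 1 ∧ b u (γ u) = 0
  · obtain ⟨u, hu, h3⟩ := hI
    have h4 : γ (γ u) = u := by rw [h2 u hu, tv_zero h3]
    obtain ⟨s, hs⟩ : ∃ s, s = u + γ u := ⟨_, rfl⟩
    have h5 : γ u = u + s := by rw [hs, aab]
    have h6 : γ s = s := by rw [hs, hγ.add, h4, add_comm]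
    have h7 : s ≠ 0 := hs ▸ add_ne (hno u hu).symm
    have h8 : q s = 0 := by rw [hs, hq, hu, hγ.ns u hu, h3]; rfl
    have h9 : b u s = 0 := by rw [hs, map_add, h3, hb.alt, add_zero]
    rcases hW with hW | ⟨-, hW⟩
    · obtain ⟨z, hz, a1, a2, a3, a4⟩ := exists_out (T := orth b (Submodule.span _ {x | x ∈ [u, s]}))
        (by have := hb.finrank_orth_list [u, s]; simp only [List.length] at this; omega) u s
      have a5 := mem_orth_span.1 hz u (by simp)
      have a6 := mem_orth_span.1 hz s (by simp)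
      obtain ⟨w, hw, c1, c2, c3, c4, c5, c6⟩ : ∃ w, q w = 1 ∧ b w u = 0 ∧ b w s = 0 ∧ w ≠ 0 ∧ w ≠ u ∧
          w ≠ s ∧ w ≠ u + s := by
        rcases z2 (q z) with h | h
        · refine ⟨z + u, by rw [hq, h, hu, a5]; rfl, by simp [a5, hb.alt], by simp [a6, h9],
            add_ne a2, by simpa using a1, fun h' => a4 (by rw [← h', add_comm z, aab]),
            fun h' => a3 (by rw [add_comm u] at h'; exact add_right_cancel h')⟩
        · exact ⟨z, h, a5, a6, a1, a2, a3, a4⟩
      have c7 : b u (γ w) = 0 := by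
        rw [← h4, hγ.pres, h5, map_add, LinearMap.add_apply, hb.symm u, hb.symm s, c1, c2, add_zero]
      have c8 := fixc u w hu hw u hu (by
        rw [cm, hb.tv_self, tv_zero ((hb.symm u w).trans c1), tv_zero c7, tv_zero h3])
      obtain ⟨y, d1, d2, d3⟩ := hb.b3 c3 c4 c5 c6
      have d4 := congrArg (tv b (γ u)) (c8 y)
      rw [cm, hb.tv_tv, tv_zero d1, tv_one d3, tv_zero (u := γ u) (by simp [h5, d1, d2])] at d4
      rcases z2 (b (y + w) (γ w)) with h | h
      · rw [tv_zero h, add_eq_left] at d4; exact c3 d4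
      · rw [tv_one h, add_assoc, add_eq_left] at d4; exact hno w hw (eq_of_add d4).symm
    · obtain ⟨y, d1, d2⟩ := hb.b2 (hne u hu) (fun h : u = s => by rw [h, h8] at hu; simp at hu)
      obtain ⟨w, hw, c1, c2⟩ := hR.two s u y
      rw [d1] at c1
      rw [d2] at c2
      have c3 : b (γ w) s = 0 := by rw [← h6, hγ.pres, c1]
      have c4 : b (γ w) u = 1 := by
        have := hγ.pres w u
        rwa [h5, map_add, c3, add_zero, c2] at this
      have c5 : b w (γ w) = 0 := (z2 _).resolve_right fun h => by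
        have := (hγ.pres (γ w) (γ u)).trans (hγ.pres w u)
        rw [h4, h2 w hw, tv_one h, map_add, LinearMap.add_apply, c2, c4] at this
        exact absurd this (by decide)
      have c6 := hW.two hq (s' := w + γ w) h8 (by rw [hq, hw, hγ.ns w hw, c5]; rfl)
        (by rw [hb.symm]; simp [c1, c3]) h7 (add_ne (hno w hw).symm)
      refine hno (u + w) (by rw [hq, hu, hw, hb.symm, c2]; rfl) ?_
      rw [hγ.add, h5, c6, add_assoc, baa]
  · have h3 : ∀ u, q u = 1 → b u (γ u) = 1 := fun u hu =>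
      (z2 _).resolve_left fun h => hI ⟨u, hu, h⟩
    obtain ⟨u, hu, -⟩ := hR.two 0 0 0
    obtain ⟨w, hw, c1, c2⟩ := hR.two u (γ u) 0
    simp only [map_zero, LinearMap.zero_apply] at c1 c2
    have c3 : b (γ w) (γ u) = 0 := by rw [hγ.pres, c1]
    have c4 : b (γ w) u = 0 := by
      have := hγ.pres w (γ u)
      rwa [h2 u hu, tv_one (h3 u hu), map_add, c3, add_zero, c2] at this
    have c5 := h3 u hu
    have c6 := h3 w hw
    have c7 := hb.symm u
    have c8 := hb.symm (γ u)
    rcases hW with hW | ⟨-, hW⟩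
    · obtain ⟨z, hz, a1⟩ := exists_notMem (S := ⊥)
        (T := orth b (Submodule.span _ {x | x ∈ [u, γ u, w, γ w]})) (by
          have := hb.finrank_orth_list [u, γ u, w, γ w]
          simp only [List.length, finrank_bot] at this ⊢; omega)
      have a2 : ∀ z, b z u = 0 → b z (γ u) = 0 → b z w = 0 → b z (γ w) = 0 → q z = 0 :=
        fun z b1 b2 b3 b4 => (z2 _).resolve_right fun h => by
          have := fixc u w hu hw z h (by rw [cm, tv_zero b1, tv_zero b3, tv_zero b4, tv_zero b2]) u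
          rw [cm, hb.tv_self, tv_zero ((c7 w).trans c1), tv_zero ((c7 _).trans c4), tv_one c5,
            add_eq_left] at this
          exact hne _ (hγ.ns u hu) this
      obtain ⟨y, hy⟩ := hb.b1 (a := z) a1
      have a3 := mem_orth_span.1 hz u (by simp)
      have a4 := mem_orth_span.1 hz (γ u) (by simp)
      have a5 := mem_orth_span.1 hz w (by simp)
      have a6 := mem_orth_span.1 hz (γ w) (by simp)
      have a7 := hb.symm w (γ w)
      obtain ⟨y', e1, e2, e3, e4, e5⟩ : ∃ y', b y' u = 0 ∧ b y' (γ u) = 0 ∧ b y' w = 0 ∧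
          b y' (γ w) = 0 ∧ b z y' = 1 :=
        ⟨y + b y (γ u) • u + b y u • γ u + b y (γ w) • w + b y w • γ w,
          by simp [hb.alt, c8, c5, c1, c4, aa], by simp [hb.alt, c5, c2, c3, aa],
          by simp [hb.alt, c7 w, c8 w, c1, c2, ← a7, c6, aa],
          by simp [hb.alt, c7 (γ w), c8 (γ w), c3, c4, c6, aa],
          by simp [a3, a4, a5, a6, hb.symm z y, hy]⟩
      have a8 := a2 (z + y') (by simp [a3, e1]) (by simp [a4, e2]) (by simp [a5, e3])
        (by simp [a6, e4])
      rw [hq, a2 z a3 a4 a5 a6, a2 y' e1 e2 e3 e4, e5] at a8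
      exact absurd a8 (by decide)
    · have a1 := hW.two hq (s := u + w) (s' := γ u + γ w) (by rw [hq, hu, hw, c7, c1]; rfl)
        (by rw [hq, hγ.ns u hu, hγ.ns w hw, c8, c3]; rfl) (by simp [c5, c6, c2, c7 (γ w), c4, z11])
        (fun h => by simpa [c5, c2] using congrArg (b · (γ u)) h)
        (fun h => by simpa [c8, c5, c4] using congrArg (b · u) h)
      simpa [c8, c5, c4, c1, hb.alt] using congrArg (b · u) a1

end Cfsg.Agent.H32.Xs
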