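import Cfsg.Agent.H32.XsP
import Cfsg.Agent.H30.K4SU

/-!
Overgroups of the normaliser in the unitary case.
-/

set_option autoImplicit false

namespace Cfsg.Agent.H32.Xs

open Module LinearMap H26 H26.PForm

variable {K V W U : Type*} [Field K] [AddCommGroup V] [Module K V] [AddCommGroup W]
  [Module (ZMod 2) W] [AddCommGroup U] [Module K U] {b : LinearMap.BilinForm (ZMod 2) W}
  {q : W → ZMod 2} {s : W → End K V} {X : Subgroup (End K V)ˣ} {P : PForm K V}

/-- The isometry group. -/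
def IG (P : PForm K V) : Subgroup (End K V)ˣ where
  carrier := {g | Im P g}
  mul_mem' h h' := Im.mul h h'
  one_mem' := Im.one
  inv_mem' {g} h := Im.inv h g.mul_inv

theorem inG_IG {g : End K V} (hg : IsUnit g) : InG (IG P) g ↔ Im P g := by
  obtain ⟨g, rfl⟩ := hg
  exact ⟨fun h => h.mem, fun h => .of_mem h⟩

/-- `X` consists of isometries up to scalars. -/
def SimX (P : PForm K V) (X : Subgroup (End K V)ˣ) : Prop :=
  ∀ g, InG X g → ∃ c : K, c ≠ 0 ∧ Im P (c • g)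

theorem simX_zc {M : Subgroup (End K V)ˣ} (h : M ≤ IG P) : SimX P (zc M) := fun _ hg => by
  obtain ⟨c, h1, h2⟩ := inG_zc.1 hg
  exact ⟨c, h1, (inG_IG h2.isUnit).1 (h2.mono h)⟩

/-- Unitary forms over the field with `p ^ 2` elements, `p ≡ 3 mod 4`. -/
structure UP (P : PForm K V) (p : ℕ) (i : K) : Prop where
  ε : P.ε = 1
  σ : ∀ a, P.σ a = a ^ p
  d : P.d ≤ 2
  hi : i * i = -1
  σi : P.σ i = -i

theorem UP.norm {p : ℕ} {i : K} (h : UP P p i) {c : K} (hc : c ^ 4 = 1) : c * P.σ c = 1 := by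
  have h1 : (c - 1) * (c + 1) * ((c - i) * (c + i)) = 0 := by
    linear_combination hc - (c ^ 2 - 1) * h.hi
  simp only [mul_eq_zero, sub_eq_zero, add_eq_zero_iff_eq_neg] at h1
  rcases h1 with (rfl | rfl) | rfl | rfl <;> simp [h.σi, h.hi]

theorem UP.Λ {p : ℕ} {i : K} (h : UP P p i) (h2 : (2 : K) ≠ 0) : P.Λ ≠ ⊥ := fun H => by
  have h1 := h.σi
  rw [σ_eq_of_Λ H, eq_neg_iff_add_eq_zero, ← two_mul] at h1
  simpa [(mul_eq_zero.1 h1).resolve_left h2] using h.hi

theorem UP.op {p : ℕ} {i : K} (h : UP P p i) (h2 : (2 : K) ≠ 0) {g : End K V} (hg : Im P g)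
    (hgg : g * g = -1) : Im P ((1 + i)⁻¹ • (1 + g)) := hg.op hgg (by
  rw [map_inv₀, map_add, map_one, h.σi, ← mul_inv,
    show (1 + i) * (1 + -i) = 2 by linear_combination -h.hi, inv_mul_cancel₀ h2])

theorem UP.fix [Fintype K] {p : ℕ} (hp : p.Prime) (hK : Fintype.card K = p ^ 2) {i : K}
    (h : UP P p i) (a : K) (ha : P.σ a = a) : ∃ n : ℤ, (n : K) = a := by
  have := Fact.mk hp
  have := charP_of_card_eq_prime_pow hK
  exact (mem_bot_iff_intCast p K).1 ((Subfield.mem_bot_iff_pow_eq_self K p).2 (h.σ a ▸ ha))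

variable [FiniteDimensional K V] [Finite W]

theorem Fr.im_smul (h : Fr b q s) {p : ℕ} {i : K} (hP : UP P p i) (hs : ∀ x, Im P (s x)) {c t : K}
    {u : W} (ht : t * t = 1) (hc : (c • s u) * (c • s u) = t • 1) : Im P (c • s u) :=
  (hs u).smul (hP.norm (h.pow_four ht hc))

theorem Fr.baseU [Fintype K] {p : ℕ} (hp : p.Prime) (hK : Fintype.card K = p ^ 2) {i : K}
    (hP : UP P p i) (h : Fr b q s) (hs : ∀ x, Im P (s x)) (h4 : finrank (ZMod 2) W = 2 * 2)
    (hX : h.NG ≤ X) (hX' : SimX P X) : X ≤ h.NG ∨ P.E ≤ toE X := by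
  have hV : finrank K V = 4 := h.finrank_eq h4
  have := Fact.mk hp
  have hi := hP.hi
  have h2' : (2 : ZMod p) ≠ 0 := H30.two_ne_zero_iff_odd_card.2 (by
    rw [ZMod.card]
    exact (Nat.odd_pow_iff two_ne_zero).1 (hK ▸ H30.two_ne_zero_iff_odd_card.1 h.two))
  obtain ⟨b₀, hb⟩ := H79.exists_aniso (ZMod p)
  obtain ⟨φ, hφ, hk⟩ := H30.exists_phi_su4 (ZMod.card p) hK h2' hb
  have h1 : ∀ v w, P.f v w = H31.frobQ hK (P.f w v) := fun v w => by
    rw [P.herm, hP.ε, one_mul, hP.σ]; rfl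
  obtain ⟨e, he⟩ := H31.IsHerm.exists_isometry
    (B := H31.ofFun _ P.f P.f_add_left P.f_smul_left h1)
    ⟨⟨H31.isInvol_frobQ hK, fun x y => (h1 _ _).symm⟩, P.nondeg⟩ (H31.isHerm_hermB hK 4) (by simpa)
  let B := Basis.ofEquivFun e
  have h3 : ∀ (A : Matrix (Fin 4) (Fin 4) K) x, e (Matrix.toLin B B A x) = A.mulVec (e x) :=
    fun A x => by
      rw [Matrix.toLin_apply, ← Basis.equivFun_symm_apply, Basis.equivFun_ofEquivFun,
        e.apply_symm_apply]; rfl
  have h5 : ∀ A : Matrix.SpecialLinearGroup (Fin 4) K,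
      A ∈ SU 4 K p ↔ Im P (Matrix.toLin B B A) := fun A => by
    rw [H31.mem_SU_iff hK]
    refine ⟨fun H x y => ?_, fun H u v => ?_⟩
    · exact (he _ _).symm.trans (by rw [h3, h3, H, he]; rfl)
    · obtain ⟨u, rfl⟩ := e.surjective u
      obtain ⟨v, rfl⟩ := e.surjective v
      rw [← h3, ← h3, he, he]
      exact H v u
  let ψ := (trB B).toMonoidHom.comp
    ((Matrix.SpecialLinearGroup.toGL (n := Fin 4) (R := K)).comp (SU 4 K p).subtype)
  have hψ : ψ.range = SLG K V ⊓ IG P := by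
    ext g
    refine ⟨?_, fun hg => ⟨⟨⟨toMatrix B B g, (det_toMatrix B _).trans hg.1⟩, (h5 _).2 (by
      rw [Matrix.toLin_toMatrix]; exact hg.2)⟩, Units.ext (Matrix.toLin_toMatrix B B _)⟩⟩
    rintro ⟨g, rfl⟩
    exact ⟨(det_toLin B _).trans g.1.2, (h5 _).1 g.2⟩
  have hG : ∀ g, LinearMap.det g = 1 → Im P g → InG (SLG K V ⊓ IG P) g := fun g h1 h2 =>
    (inG_SLG.2 h1).inf ((inG_IG (inG_SLG.2 h1).isUnit).2 h2)
  have hs' := fun c hc x => hG _ (h.det_smul_s hi (by omega) (c := c) hc x)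
    ((hs x).smul (hP.norm hc))
  exact (h.base (by rwa [ZMod.card]) h2' (H30.qMinus_nondegenerate 2 hb) (by simp) ψ
    ((trB B).injective.comp (Matrix.SpecialLinearGroup.toGL_injective.comp Subtype.val_injective))
    φ hφ (z := ⟨H28.negOne4 K, H28.negOne4_mem_SU (H31.frobQ hK) fun _ => rfl⟩)
    (fun g => (hk g).trans (or_congr_right ⟨fun h => Subtype.ext h, congrArg Subtype.val⟩))
    ((map_neg (Matrix.toLin B B) 1).trans (by simp; rfl))
    (μ := rootsOfUnity 4 K) ((mem_rootsOfUnity' _ _).2 (by norm_num))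
    (fun c => (mem_rootsOfUnity' _ _).1) h.mul_four
    (fun c hc x => hψ ▸ hs' c ((mem_rootsOfUnity' _ _).1 hc) x)
    (by rw [h.card_four hi, Fr.card_W h4]; simp) (inf_le_left.trans hX)).imp
    (fun H => h.base_norm hi h4 hX (G := SLG K V ⊓ IG P) (fun g hg k hk =>
      ⟨(MonoidHom.normal_ker _).conj_mem k hk.1 g, by
        obtain ⟨c, h1, h2⟩ := hX' _ (.of_mem hg)
        exact h2.conj h1 g.mul_inv hk.2⟩)
      (fun x => by simpa using hs' 1 (one_pow _) x)
      (fun u w c d hu hw hc hd => hG _ (h.det_rich hi hu hw hc hd) (Im.rich h.two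
        (h.im_smul hP hs (t := -1) (by simp) (by simpa using hc)) hc
        (h.im_smul hP hs (t := -1) (by simp) (by simpa using hd)) hd)) (hψ ▸ H))
    fun H g hg => mem_toE.2 ((hG _ (det_of_mem_E hg) (E_le_isom hg).1).mono (hψ ▸ H))

omit [FiniteDimensional K V] [Finite W] in
theorem SF.im_s' {x₀ y₀ : W} {e : End K V} {j : U →ₗ[K] V} {β : End K U × End K U →ₐ[K] End K V}
    {s' : hyp b x₀ y₀ → End K U} (h : SF b q s x₀ y₀ e j β s') (he : Im P e) (hs : ∀ x, Im P (s x))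
    (x : hyp b x₀ y₀) : Im (h.spl.pf he) (s' x) := by
  simpa using h.spl.im_fst he (c := 1) (a' := s' x) (by simpa [← h.hs] using hs x)

theorem Fr.four_le (h : Fr b q s) (h4 : 4 ≤ finrank (ZMod 2) W) : 4 ≤ finrank K V :=
  (Nat.pow_le_pow_iff_left two_ne_zero).1
    (h.finrank_sq ▸ Nat.pow_le_pow_right (n := 2) two_pos h4 : 4 ^ 2 ≤ finrank K V ^ 2)

universe v w

theorem claimU [Fintype K] {p : ℕ} (hp : p.Prime) (hK : Fintype.card K = p ^ 2) {i : K} (k : ℕ) :
    ∀ {V : Type v} [AddCommGroup V] [Module K V] [FiniteDimensional K V] {W : Type w}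
      [AddCommGroup W] [Module (ZMod 2) W] [Finite W] {b : LinearMap.BilinForm (ZMod 2) W}
      {q : W → ZMod 2} {s : W → End K V} (h : Fr b q s) {X : Subgroup (End K V)ˣ} {P : PForm K V},
      UP P p i → (∀ x, Im P (s x)) → finrank (ZMod 2) W = 2 * (k + 2) → h.NG ≤ X → SimX P X →
      X ≤ h.NG ∨ P.E ≤ toE X := by
  induction k with
  | zero => exact fun h _ _ hP hs h4 hX hX' => h.baseU hp hK hP hs h4 hX hX'
  | succ k ih =>
    intro V _ _ _ W _ _ _ b q s h X P hP hs hk hX hX'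
    have hi := hP.hi
    refine or_iff_not_imp_right.2 fun hn => h.stepT hi (by omega) hX fun x₀ y₀ c β s' hS => ?_
    have h1 := h.sy.finrank_hyp hS.b01
    have he := h.im_smul hP hs (one_mul 1) (by simpa using hS.ee)
    have hP' : UP (hS.spl.pf he) p i := ⟨hP.ε, hP.σ, hP.d, hi, hP.σi⟩
    have hs' := hS.im_s' he hs
    obtain ⟨Y, hY⟩ := hS.spl.exists_fst X
    rcases ih hS.fr' (X := Y) hP' hs' (by omega) (fun a ha => InG.mem ((hY a).2
      ⟨a, (hS.diag_NG (.of_mem ha)).mono hX⟩)) (fun a ha => by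
        obtain ⟨a', h2⟩ := (hY a).1 ha
        exact (hX' _ h2).imp fun c h => ⟨h.1, hS.spl.im_fst he h.2⟩) with H | H
    · exact fun a a' ha => ((hY a).2 ⟨a', ha⟩).mono H
    have hU := hS.fr'.four_le (by omega)
    obtain ⟨z, -, hz⟩ := exists_notMem (S := ⊥) (T := (⊤ : Submodule (ZMod 2) (hyp b x₀ y₀)))
      (by simp; omega)
    obtain ⟨d, hd⟩ := hS.fr'.liftI hi z
    obtain ⟨t, ht⟩ := h.lift hi y₀
    have ht0 : t ≠ 0 := fun h0 => by have := h.nt; simp [h0] at ht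
    obtain ⟨v, -, h2, h3⟩ := (hS.spl.pf he).exists_sing ⊤ (by
      rw [finrank_top]; exact hP.d.trans (by omega))
    have h4 := inv_ne_zero (h.one_add_ne hi)
    exact absurd (hS.engineP (hP.Λ h.two) hP.d (hP.fix hp hK) hU he (hs _)
      ((h.inG_NG_s _).mono hX) hz hd (hS.fr'.im_smul hP' hs' (one_mul 1) (by simpa using hd))
      ((hS.ctl_NG z).mono hX) (((h.inG_NG_op ht).smul h.hasZ_NG h4).mono hX)
      (hP.op h.two (h.im_smul hP hs (t := -1) (by simp) (by simpa using ht)) ht) (v := v)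
      (a := (1 + i)⁻¹ • v) (a' := (1 + i)⁻¹ • t • v) h3 (by rw [map_smul]; exact Sing.smul h3 _)
      (smul_ne_zero h4 h2) (smul_ne_zero h4 (smul_ne_zero ht0 h2)) (by simp)
      fun a ha => (hY a).1 (mem_toE.1 (H ha))) hn

/-- The group generated by the Eichler transformations, as a group of units. -/
def EG (P : PForm K V) : Subgroup (End K V)ˣ :=
  P.E.comap (GeneralLinearGroup.generalLinearEquiv K V).toMonoidHom

omit [FiniteDimensional K V] in
theorem EG_le_iff : EG P ≤ X ↔ P.E ≤ toE X :=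
  ⟨fun h g hg => h (x := (GeneralLinearGroup.generalLinearEquiv K V).symm g) hg,
    fun h _ hg => InG.mem (mem_toE.1 (h hg))⟩

omit [FiniteDimensional K V] in
theorem EG_le_IG : EG P ≤ IG P := fun _ hg => (E_le_isom hg).1

omit [FiniteDimensional K V] in
theorem inG_EG {e y : V} {ν : K} (h : P.EV e y ν) : InG (EG P) (P.eich e y ν) :=
  mem_toE.1 (EG_le_iff.1 le_rfl h.equiv_mem_E)

theorem Fr.not_EG_le (h : Fr b q s) (h4 : P.d * 2 ≤ finrank K V) (h3 : 3 ≤ finrank K V) {x : W}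
    {c : K} (hx : x ≠ 0) (hc : (c • s x) * (c • s x) = 1) (he : Im P (c • s x)) :
    ¬ EG P ≤ h.NG := fun H => by
  obtain ⟨v, y, ν, h1, h2, h5, h6, h7, h8⟩ := h.exists_eich h4 hx hc he
  obtain ⟨d, h9⟩ := h.sq_sq_of_NG hc h7 h8 ((inG_EG h6).mono H)
  have h10 := fun z => LinearMap.congr_fun h9 z
  simp only [End.mul_apply, h6.eich_eich h6, (h6.add h6).eich_eich (h6.add h6),
    LinearMap.smul_apply, End.one_apply] at h10
  have h11 := (h6.add h6).add (h6.add h6)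
  have h12 := h10 v
  rw [h11.eich_self] at h12
  obtain ⟨z, h13⟩ := P.exists_f_left_eq h1 1
  have h14 := h10 z
  rw [← smul_left_injective K h1 ((one_smul K v).trans h12), one_smul, eich_apply, h13, one_smul,
    add_sub_assoc, add_eq_left, sub_eq_zero, ← two_smul K, ← two_smul K, smul_smul] at h14
  exact h2 (neg_mem_iff.1 ((Submodule.smul_mem_iff _ (mul_ne_zero h.two h.two)).1
    (h14 ▸ Submodule.smul_mem _ _ (Submodule.mem_span_singleton_self v))))

theorem su_c6 {F : Type v} [Field F] [Fintype F] {p n : ℕ} (hF : Fintype.card F = p ^ 2)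
    (hp : p.Prime) (hp4 : p % 4 = 3) (h5 : 5 ≤ n) {R : Subgroup (GL (Fin n) F)}
    (h : Geo.IsSymplecticTypeGroup 2 R) (habs : Geo.ActsAbsolutelyIrreducibly (Geo.matrixSet R))
    (hR : R ≤ GU n F p) (hZ : Nat.card (Subgroup.center R) = 4) :
    Geo.IsMaximalIn (GU n F p ⊓ Geo.specialLinear (Fin n) F)
      (Geo.subgroupNormalizer R ⊓ (GU n F p ⊓ Geo.specialLinear (Fin n) F)) := by
  have : Nonempty (Fin n) := ⟨⟨0, by omega⟩⟩
  have h2 : (2 : F) ≠ 0 := H30.two_ne_zero_iff_odd_card.2 (hF ▸ (Nat.odd_iff.2 (by omega)).pow)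
  obtain ⟨-, i, hi⟩ := H30.symp_es h habs hZ
  obtain ⟨W, _, _, _, b, q, s, π, hf, hR'⟩ := exists_fr_GL h2 h habs
  obtain ⟨l, hl⟩ := exists_trace_one (isUnitaryForm_hermForm hF n)
  let P := unitP (isUnitaryForm_hermForm hF n) l hl
  have hP : UP P p i := ⟨rfl, fun _ => rfl, le_rfl, hi, by
    change i ^ p = -i
    rw [← Nat.div_add_mod p 4, hp4, pow_add, pow_mul,
      show i ^ 4 = 1 by linear_combination (i * i - 1) * hi, one_pow]
    linear_combination i * hi⟩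
  have hG : ∀ g, g ∈ GU n F p ⊓ Geo.specialLinear (Fin n) F ↔ tl g ∈ EG P :=
    mem_GU_inf_iff hF (by omega) l hl
  have hG' : ∀ g, LinearMap.det g = 1 → Im P g → InG (EG P) g := fun g h1 h3 => by
    obtain ⟨g, -, rfl⟩ := inG_SLG.2 h1
    obtain ⟨g, rfl⟩ := tl.surjective g
    exact .of_mem ((hG g).1 ⟨h3, (mem_specialLinear_iff g).2 (det_tl g ▸ h1)⟩)
  have hs : ∀ x, Im P (s x) := fun x => by
    obtain ⟨⟨_, g, h1, rfl⟩, h3, -⟩ := hR'.mem x
    exact h3 ▸ hR h1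
  have hV : finrank F (Fin n → F) = n := by simp
  obtain ⟨k, hk⟩ := hf.exists_k (by omega)
  refine isMax_of_tl hG (hf.isMax hR' (fun g _ x y d H => inG_four h habs hZ (hf.cj_four g.isUnit H))
    ?_ fun M h1 h3 => (claimU hp hF (k + 1) hf hP hs hk (hf.NG_le_zc hi h1 (fun x => hG' _ ?_ (hs x))
      fun u c hu hc => hG' _ (hf.det_op' hi hk hu hc) (hP.op h2
        (hf.im_smul hP hs (t := -1) (by simp) (hc.trans (neg_one_smul F 1).symm)) hc))
      (simX_zc (h3.trans EG_le_IG))).imp le_zc.trans fun H g hg =>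
        (hf.of_zc h1 h3 (.of_mem hg) (.of_mem (EG_le_iff.2 H hg))).mem)
  · obtain ⟨x, -, hx⟩ := exists_notMem (S := ⊥) (T := (⊤ : Submodule (ZMod 2) W)) (by simp; omega)
    obtain ⟨c, hc⟩ := hf.liftI hi x
    exact hf.not_EG_le (show 2 * 2 ≤ _ by omega) (by omega) hx hc
      (hf.im_smul hP hs (one_mul 1) (by simpa using hc))
  · simpa using hf.det_smul_s hi (by rw [hf.finrank_eq hk, pow_add]; omega) (one_pow _) x

end Cfsg.Agent.H32.Xs
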